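-- Fixed subspaces of elements of prime order of `SL_n(q)` (helper40).
import Mathlib
import Cfsg.Agent.Lib.Helper40.Semisimple
import Cfsg.Agent.Lib.Helper40.PrimeOrderGL
import Cfsg.Agent.Lib.Helper40.PGLClasses

set_option autoImplicit false

namespace Cfsg.Agent.Lib.Helper40.Elusive

open Polynomial Module

universe u v

section count

/-- The product `∏_{j<d} (q^(n-j) - 1)`. -/
def Q (q n d : ℕ) : ℕ := ∏ j ∈ Finset.range d, (q ^ (n - j) - 1)

theorem Q_pos (q n d : ℕ) (hq : 2 ≤ q) (hd : d ≤ n) : 0 < Q q n d := by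
  unfold Q
  apply Finset.prod_pos
  intro j hj
  have hj' := Finset.mem_range.1 hj
  have h1 : 2 ^ 1 ≤ q ^ (n - j) :=
    (Nat.pow_le_pow_left hq 1).trans (Nat.pow_le_pow_right (by omega) (by omega))
  omega

theorem Q_add (q n a b : ℕ) : Q q n (a + b) = Q q n a * Q q (n - a) b := by
  unfold Q
  rw [Finset.prod_range_add]
  congr 1
  apply Finset.prod_congr rfl
  intro j _
  rw [Nat.sub_sub]

theorem prod_li (q n d : ℕ) (hd : d ≤ n) :
    ∏ j : Fin d, (q ^ n - q ^ j.val) = (∏ j ∈ Finset.range d, q ^ j) * Q q n d := by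
  unfold Q
  rw [Fin.prod_univ_eq_prod_range (fun j => q ^ n - q ^ j) d, ← Finset.prod_mul_distrib]
  apply Finset.prod_congr rfl
  intro j hj
  have hj' := Finset.mem_range.1 hj
  rw [Nat.mul_sub, mul_one, ← pow_add, Nat.add_sub_cancel' (by omega)]

variable {F : Type u} [Field F] [Fintype F] {V : Type v} [AddCommGroup V] [Module F V] [Finite V]

/-- Linearly independent tuples with a given span. -/
noncomputable def fibEquiv (d : ℕ) (W : Submodule F V) :
    {s : {s : Fin d → V // LinearIndependent F s} //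
        Submodule.span F (Set.range s.1) = W} ≃
      {s : Fin d → W // LinearIndependent F s ∧ Submodule.span F (Set.range s) = ⊤} where
  toFun s := ⟨fun j => ⟨s.1.1 j, s.2.le (Submodule.subset_span ⟨j, rfl⟩)⟩, by
    constructor
    · apply LinearIndependent.of_comp W.subtype
      exact s.1.2
    · apply Submodule.map_injective_of_injective W.injective_subtype
      rw [Submodule.map_span, Submodule.map_top, Submodule.range_subtype, ← Set.range_comp]
      exact s.2⟩
  invFun s := ⟨⟨fun j => (s.1 j : V), s.2.1.map' W.subtype (Submodule.ker_subtype W)⟩, by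
    have h1 := congrArg (Submodule.map W.subtype) s.2.2
    rw [Submodule.map_span, Submodule.map_top, Submodule.range_subtype, ← Set.range_comp] at h1
    exact h1⟩
  left_inv s := by
    apply Subtype.ext
    apply Subtype.ext
    rfl
  right_inv s := by
    apply Subtype.ext
    rfl

theorem card_fib (d : ℕ) (W : Submodule F V) (hW : finrank F W = d) :
    Nat.card {s : {s : Fin d → V // LinearIndependent F s} //
        Submodule.span F (Set.range s.1) = W} = ∏ j : Fin d, (Fintype.card F ^ d - Fintype.card F ^ j.val) := by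
  rw [Nat.card_congr (fibEquiv d W)]
  have e : {s : Fin d → W // LinearIndependent F s ∧ Submodule.span F (Set.range s) = ⊤} ≃
      {s : Fin d → W // LinearIndependent F s} :=
    Equiv.subtypeEquivRight (fun s => ⟨fun h => h.1, fun h => ⟨h, by
      apply h.span_eq_top_of_card_eq_finrank'
      rw [Fintype.card_fin, hW]⟩⟩)
  rw [Nat.card_congr e]
  have h1 := card_linearIndependent (K := F) (V := W) (k := d) (by rw [hW])
  rw [h1, hW]

/-- The number of `d`-dimensional subspaces. -/
theorem card_subspaces (d : ℕ) (hd : d ≤ finrank F V) :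
    Nat.card {W : Submodule F V // finrank F W = d} * Q (Fintype.card F) d d =
      Q (Fintype.card F) (finrank F V) d := by
  classical
  have hq : 2 ≤ Fintype.card F := Fintype.one_lt_card
  have : Fintype V := Fintype.ofFinite V
  have h1 := card_linearIndependent (K := F) (V := V) (k := d) hd
  let φ : {s : Fin d → V // LinearIndependent F s} → {W : Submodule F V // finrank F W = d} :=
    fun s => ⟨Submodule.span F (Set.range s.1), by
      rw [finrank_span_eq_card s.2, Fintype.card_fin]⟩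
  have h2 : Nat.card {s : Fin d → V // LinearIndependent F s} =
      Nat.card {W : Submodule F V // finrank F W = d} *
        ∏ j : Fin d, (Fintype.card F ^ d - Fintype.card F ^ j.val) := by
    rw [← Nat.card_congr (Equiv.sigmaFiberEquiv φ), Nat.card_sigma]
    have h3 : ∀ W : {W : Submodule F V // finrank F W = d},
        Nat.card {s : {s : Fin d → V // LinearIndependent F s} // φ s = W} =
          ∏ j : Fin d, (Fintype.card F ^ d - Fintype.card F ^ j.val) := by
      intro W
      rw [← card_fib d W.1 W.2]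
      apply Nat.card_congr
      exact Equiv.subtypeEquivRight (fun s => by
        show φ s = W ↔ _
        rw [Subtype.ext_iff])
    rw [Finset.sum_congr rfl (fun W _ => h3 W), Finset.sum_const, Finset.card_univ,
      ← Nat.card_eq_fintype_card, smul_eq_mul]
  rw [h1, prod_li _ _ _ hd, prod_li _ _ _ le_rfl, ← mul_assoc,
    mul_comm (Nat.card _), mul_assoc] at h2
  have h4 : 0 < ∏ j ∈ Finset.range d, Fintype.card F ^ j :=
    Finset.prod_pos (fun j _ => Nat.pow_pos (by omega))
  exact (Nat.eq_of_mul_eq_mul_left h4 h2).symm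

theorem card_subspaces_congr {V' : Type*} [AddCommGroup V'] [Module F V'] [Finite V'] (d : ℕ)
    (hd : d ≤ finrank F V) (h : finrank F V = finrank F V') :
    Nat.card {W : Submodule F V // finrank F W = d} =
      Nat.card {W : Submodule F V' // finrank F W = d} := by
  have hq : 2 ≤ Fintype.card F := Fintype.one_lt_card
  have h1 := card_subspaces (F := F) (V := V) d hd
  have h2 := card_subspaces (F := F) (V := V') d (h ▸ hd)
  rw [← h, ← h1] at h2
  exact (Nat.eq_of_mul_eq_mul_right (Q_pos _ d d hq le_rfl) h2).symm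

/-- Duality for the numbers of subspaces. -/
theorem card_subspaces_dual (d : ℕ) (hd : d ≤ finrank F V) :
    Nat.card {W : Submodule F V // finrank F W = finrank F V - d} =
      Nat.card {W : Submodule F V // finrank F W = d} := by
  have hq : 2 ≤ Fintype.card F := Fintype.one_lt_card
  have h1 := card_subspaces (F := F) (V := V) d hd
  have h2 := card_subspaces (F := F) (V := V) (finrank F V - d) (Nat.sub_le _ _)
  have h3 := Q_add (Fintype.card F) (finrank F V) d (finrank F V - d)
  have h4 := Q_add (Fintype.card F) (finrank F V) (finrank F V - d) d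
  rw [Nat.sub_sub_self hd, Nat.sub_add_cancel hd] at h4
  rw [Nat.add_sub_cancel' hd] at h3
  have h5 : Nat.card {W : Submodule F V // finrank F W = finrank F V - d} *
      (Q (Fintype.card F) (finrank F V - d) (finrank F V - d) * Q (Fintype.card F) d d) =
      Nat.card {W : Submodule F V // finrank F W = d} *
      (Q (Fintype.card F) (finrank F V - d) (finrank F V - d) * Q (Fintype.card F) d d) := by
    rw [← mul_assoc, h2, ← h4, h3, ← h1]
    ring
  exact Nat.eq_of_mul_eq_mul_right
    (Nat.mul_pos (Q_pos _ _ _ hq le_rfl) (Q_pos _ _ _ hq le_rfl)) h5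

theorem dvd_pow_sub_one_iff (q r : ℕ) [Fact r.Prime] (hq : 1 ≤ q) (e : ℕ) :
    r ∣ q ^ e - 1 ↔ orderOf (q : ZMod r) ∣ e := by
  rw [orderOf_dvd_iff_pow_eq_one, ← (ZMod.natCast_eq_zero_iff (q ^ e - 1) r),
    Nat.cast_sub (Nat.one_le_pow _ _ hq), Nat.cast_pow, Nat.cast_one, sub_eq_zero]

theorem exists_of_dvd_Q (q r n d : ℕ) [Fact r.Prime] (hq : 1 ≤ q) (h : r ∣ Q q n d) :
    ∃ j, j < d ∧ orderOf (q : ZMod r) ∣ n - j := by
  have hr : r.Prime := Fact.out
  unfold Q at h
  obtain ⟨j, hj, hj2⟩ := (Prime.dvd_finsetProd_iff hr.prime _).1 h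
  exact ⟨j, Finset.mem_range.1 hj, (dvd_pow_sub_one_iff q r hq _).1 hj2⟩

/-- A prime dividing the number of `d`-spaces. -/
theorem exists_of_dvd_card (r : ℕ) [Fact r.Prime] (d : ℕ) (hd : d ≤ finrank F V)
    (h : r ∣ Nat.card {W : Submodule F V // finrank F W = d}) :
    ∃ j, j < d ∧ orderOf ((Fintype.card F : ℕ) : ZMod r) ∣ finrank F V - j := by
  have hq : 2 ≤ Fintype.card F := Fintype.one_lt_card
  apply exists_of_dvd_Q _ r _ d (by omega)
  rw [← card_subspaces d hd]
  exact Dvd.dvd.mul_right h _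

theorem char_dvd_card (p : ℕ) [Fact p.Prime] [CharP F p] : p ∣ Fintype.card F := by
  rw [← CharP.cast_eq_zero_iff F p]
  exact Nat.cast_card_eq_zero F

/-- The characteristic does not divide the number of `d`-spaces. -/
theorem not_char_dvd_card (p : ℕ) [Fact p.Prime] [CharP F p] (d : ℕ) (hd : d ≤ finrank F V) :
    ¬ p ∣ Nat.card {W : Submodule F V // finrank F W = d} := by
  intro h
  have hp : p.Prime := Fact.out
  have hq : 2 ≤ Fintype.card F := Fintype.one_lt_card
  have h1 : p ∣ Q (Fintype.card F) (finrank F V) d := by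
    rw [← card_subspaces d hd]
    exact Dvd.dvd.mul_right h _
  unfold Q at h1
  obtain ⟨j, hj, hj2⟩ := (Prime.dvd_finsetProd_iff hp.prime _).1 h1
  have hj' := Finset.mem_range.1 hj
  have h2 : p ∣ Fintype.card F ^ (finrank F V - j) :=
    dvd_pow (char_dvd_card p) (by omega)
  have h3 : 1 ≤ Fintype.card F ^ (finrank F V - j) := Nat.one_le_pow _ _ (by omega)
  have h4 : p ∣ 1 := by
    have := Nat.dvd_sub h2 hj2
    rwa [Nat.sub_sub_self h3] at this
  exact hp.one_lt.ne' (Nat.dvd_one.1 h4)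

/-- The subspaces of a subspace. -/
noncomputable def flagFibEquiv (n' m : ℕ) (W : {W : Submodule F V // finrank F W = n'}) :
    {P : {P : Submodule F V × Submodule F V //
        P.1 ≤ P.2 ∧ finrank F P.1 = m ∧ finrank F P.2 = n'} //
        (⟨P.1.2, P.2.2.2⟩ : {W : Submodule F V // finrank F W = n'}) = W} ≃
      {U : Submodule F W.1 // finrank F U = m} where
  toFun P := ⟨Submodule.comap W.1.subtype P.1.1.1, by
    have h1 : P.1.1.1 ≤ W.1 := (Subtype.ext_iff.1 P.2) ▸ P.1.2.1
    rw [(Submodule.comapSubtypeEquivOfLe h1).finrank_eq]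
    exact P.1.2.2.1⟩
  invFun U := ⟨⟨(Submodule.map W.1.subtype U.1, W.1), Submodule.map_subtype_le _ _, by
    show finrank F (Submodule.map W.1.subtype U.1) = m
    rw [Submodule.finrank_map_subtype_eq]
    exact U.2, W.2⟩, rfl⟩
  left_inv P := by
    have h0 : P.1.1.2 = W.1 := Subtype.ext_iff.1 P.2
    have h1 : P.1.1.1 ≤ W.1 := h0 ▸ P.1.2.1
    apply Subtype.ext
    apply Subtype.ext
    apply Prod.ext
    · show Submodule.map W.1.subtype (Submodule.comap W.1.subtype P.1.1.1) = P.1.1.1
      rw [Submodule.map_comap_subtype]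
      exact inf_eq_right.2 h1
    · exact h0.symm
  right_inv U := by
    apply Subtype.ext
    show Submodule.comap W.1.subtype (Submodule.map W.1.subtype U.1) = U.1
    exact Submodule.comap_map_eq_of_injective W.1.injective_subtype _

/-- The number of flags `U ≤ W` with `dim U = m`, `dim W = n - m`. -/
theorem card_flags (n m : ℕ) (hm : 2 * m ≤ n) :
    Nat.card {P : Submodule F (Fin n → F) × Submodule F (Fin n → F) //
        P.1 ≤ P.2 ∧ finrank F P.1 = m ∧ finrank F P.2 = n - m} =
      Nat.card {W : Submodule F (Fin n → F) // finrank F W = m} *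
        Nat.card {U : Submodule F (Fin (n - m) → F) // finrank F U = m} := by
  classical
  let φ : {P : Submodule F (Fin n → F) × Submodule F (Fin n → F) //
        P.1 ≤ P.2 ∧ finrank F P.1 = m ∧ finrank F P.2 = n - m} →
      {W : Submodule F (Fin n → F) // finrank F W = n - m} := fun P => ⟨P.1.2, P.2.2.2⟩
  have hn : finrank F (Fin n → F) = n := by simp
  rw [← Nat.card_congr (Equiv.sigmaFiberEquiv φ), Nat.card_sigma]
  have h3 : ∀ W : {W : Submodule F (Fin n → F) // finrank F W = n - m},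
      Nat.card {P : {P : Submodule F (Fin n → F) × Submodule F (Fin n → F) //
        P.1 ≤ P.2 ∧ finrank F P.1 = m ∧ finrank F P.2 = n - m} // φ P = W} =
      Nat.card {U : Submodule F (Fin (n - m) → F) // finrank F U = m} := by
    intro W
    rw [Nat.card_congr (flagFibEquiv (n - m) m W)]
    apply card_subspaces_congr
    · rw [W.2]; omega
    · rw [W.2]; simp
  rw [Finset.sum_congr rfl (fun W _ => h3 W), Finset.sum_const, Finset.card_univ,
    ← Nat.card_eq_fintype_card, smul_eq_mul]
  congr 1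
  have h4 := card_subspaces_dual (F := F) (V := Fin n → F) m (by rw [hn]; omega)
  rw [hn] at h4
  exact h4

end count

section decomp

variable {K : Type u} [Field K]

theorem finrank_cyc {V : Type v} [AddCommGroup V] [Module K V] (f : Module.End K V) (v : V)
    (π : K[X]) (hπ : Irreducible π) (hv : v ≠ 0) (h0 : aeval f π v = 0) :
    finrank K (cyc f v) = π.natDegree := by
  rw [← (cycEquiv f v π hπ hv h0).finrank_eq]
  exact (AdjoinRoot.powerBasis hπ.ne_zero).finrank.trans (AdjoinRoot.powerBasis_dim hπ.ne_zero)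

theorem irr_dvd {V : Type v} [AddCommGroup V] [Module K V] [FiniteDimensional K V]
    (f : Module.End K V) (π : K[X]) (hπ : Irreducible π) (hd : π ∣ f.charpoly) (P : K[X])
    (hP : aeval f P = 0) : π ∣ P := by
  obtain ⟨v, hv, hv0⟩ := exists_ne_zero_aeval_eq_zero f π hπ hd
  exact (aeval_eq_zero_iff_dvd f v π hπ hv hv0 P).1 (by rw [hP]; rfl)

theorem sup_aux {V : Type v} [AddCommGroup V] [Module K V] [FiniteDimensional K V]
    (f : Module.End K V) (S S' W₁ W₂ : Submodule K V) (hc : IsCompl S S')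
    (hS : S ∈ f.invtSubmodule) (h1 : W₁ ∈ f.invtSubmodule) (h1' : W₁ ≤ S') (h2' : W₂ ≤ S')
    (hd : Disjoint W₁ W₂) :
    S ⊔ W₁ ∈ f.invtSubmodule ∧ Disjoint (S ⊔ W₁) W₂ ∧
      finrank K ↥(S ⊔ W₁) = finrank K S + finrank K W₁ := by
  refine ⟨Module.End.invtSubmodule.sup_mem hS h1, ?_, ?_⟩
  · rw [Submodule.disjoint_def]
    intro x hx hx2
    obtain ⟨s, hs, w, hw, rfl⟩ := Submodule.mem_sup.1 hx
    have h3 : s ∈ S' := by
      have : s = (s + w) - w := by abel
      rw [this]
      exact S'.sub_mem (h2' hx2) (h1' hw)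
    have h4 : s = 0 := (Submodule.disjoint_def.1 hc.disjoint) s hs h3
    rw [h4, zero_add] at hx2 ⊢
    exact (Submodule.disjoint_def.1 hd) w hw hx2
  · have h3 := Submodule.finrank_sup_add_finrank_inf_eq S W₁
    have h4 : S ⊓ W₁ = ⊥ := by
      rw [eq_bot_iff]
      exact (inf_le_inf_left S h1').trans hc.disjoint.le_bot
    rw [h4, finrank_bot, add_zero] at h3
    exact h3

theorem lift_aux {V : Type v} [AddCommGroup V] [Module K V] [FiniteDimensional K V]
    (f : Module.End K V) (S' : Submodule K V) (hS' : S' ∈ f.invtSubmodule) (W : Submodule K S')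
    (hW : W ∈ Module.End.invtSubmodule (f.restrict (p := S') (q := S') hS')) :
    W.map S'.subtype ∈ f.invtSubmodule ∧ W.map S'.subtype ≤ S' ∧
      finrank K (W.map S'.subtype) = finrank K W := by
  refine ⟨?_, Submodule.map_subtype_le _ _, Submodule.finrank_map_subtype_eq _ _⟩
  rw [Module.End.mem_invtSubmodule_iff_forall_mem_of_mem]
  rintro x ⟨w, hw, rfl⟩
  exact ⟨f.restrict (p := S') (q := S') hS' w,
    ((Module.End.mem_invtSubmodule_iff_forall_mem_of_mem _).1 hW) w hw, rfl⟩

/-- A semisimple endomorphism whose irreducible factors have degree `1` or `i` decomposes into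
invariant subspaces of dimensions `1` and `i`; we record the consequence for the existence of
invariant subspaces of prescribed dimensions. -/
theorem exists_decomp (i : ℕ) : ∀ (d : ℕ) (V : Type v) [AddCommGroup V] [Module K V]
    [FiniteDimensional K V] (f : Module.End K V), finrank K V = d → f.IsSemisimple →
    (∀ π : K[X], Irreducible π → π ∣ f.charpoly → π.natDegree = 1 ∨ π.natDegree = i) →
    ∃ k a : ℕ, d = k + i * a ∧ ∀ s₁ s₂ j₁ j₂ : ℕ, s₁ + s₂ ≤ k → j₁ + j₂ ≤ a →
      ∃ W₁ W₂ : Submodule K V, W₁ ∈ Module.End.invtSubmodule f ∧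
        W₂ ∈ Module.End.invtSubmodule f ∧ Disjoint W₁ W₂ ∧
        finrank K W₁ = s₁ + i * j₁ ∧ finrank K W₂ = s₂ + i * j₂ := by
  intro d
  induction d using Nat.strong_induction_on with
  | _ d ih =>
    intro V _ _ _ f hd hf hdeg
    rcases Nat.eq_zero_or_pos d with h0 | hpos
    · subst h0
      refine ⟨0, 0, by simp, ?_⟩
      intro s₁ s₂ j₁ j₂ hs hj
      have h1 : s₁ = 0 := by omega
      have h2 : s₂ = 0 := by omega
      have h3 : j₁ = 0 := by omega
      have h4 : j₂ = 0 := by omega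
      subst h1 h2 h3 h4
      exact ⟨⊥, ⊥, Module.End.invtSubmodule.bot_mem f, Module.End.invtSubmodule.bot_mem f,
        disjoint_bot_left,
        by simp, by simp⟩
    · have hdeg' : f.charpoly.natDegree = d := by rw [LinearMap.charpoly_natDegree, hd]
      have hnu : ¬ IsUnit f.charpoly := by
        intro hu
        have := natDegree_eq_zero_of_isUnit hu
        omega
      obtain ⟨π, hπ, hπdvd⟩ :=
        WfDvdMonoid.exists_irreducible_factor hnu (LinearMap.charpoly_monic f).ne_zero
      obtain ⟨v, hv, hv0⟩ := exists_ne_zero_aeval_eq_zero f π hπ hπdvd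
      obtain ⟨S', hS', hc⟩ := (Module.End.isSemisimple_iff.1 hf) (cyc f v) (cyc_invt f v)
      have hcp := charpoly_eq_mul_of_isCompl f (cyc f v) S' (cyc_invt f v) hS' hc
      have hdim : finrank K (cyc f v) + finrank K S' = finrank K V :=
        Submodule.finrank_add_eq_of_isCompl hc
      have hfr := finrank_cyc f v π hπ hv hv0
      have hπpos : 0 < π.natDegree := hπ.natDegree_pos
      obtain ⟨k', a', hka, hex⟩ := ih (finrank K S') (by omega) S'
        (f.restrict (p := S') (q := S') hS') rfl (hf.restrict hS')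
        (fun π' hπ' hd' => hdeg π' hπ' (hd'.trans ⟨_, by rw [hcp, mul_comm]⟩))
      -- lifting the subspaces of `S'`
      have hlift : ∀ s₁ s₂ j₁ j₂ : ℕ, s₁ + s₂ ≤ k' → j₁ + j₂ ≤ a' →
          ∃ W₁ W₂ : Submodule K V, W₁ ∈ f.invtSubmodule ∧ W₂ ∈ f.invtSubmodule ∧
            Disjoint W₁ W₂ ∧ W₁ ≤ S' ∧ W₂ ≤ S' ∧
            finrank K W₁ = s₁ + i * j₁ ∧ finrank K W₂ = s₂ + i * j₂ := by
        intro s₁ s₂ j₁ j₂ hs hj
        obtain ⟨W₁, W₂, h1, h2, h3, h4, h5⟩ := hex s₁ s₂ j₁ j₂ hs hj
        obtain ⟨l1, l2, l3⟩ := lift_aux f S' hS' W₁ h1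
        obtain ⟨l4, l5, l6⟩ := lift_aux f S' hS' W₂ h2
        refine ⟨_, _, l1, l4, ?_, l2, l5, l3.trans h4, l6.trans h5⟩
        rw [disjoint_iff, ← Submodule.map_inf _ S'.injective_subtype, disjoint_iff.1 h3,
          Submodule.map_bot]
      rcases hdeg π hπ hπdvd with h1 | h1
      · -- a new invariant line
        refine ⟨k' + 1, a', by omega, ?_⟩
        intro s₁ s₂ j₁ j₂ hs hj
        by_cases hle : s₁ + s₂ ≤ k'
        · obtain ⟨W₁, W₂, h2, h3, h4, -, -, h5, h6⟩ := hlift s₁ s₂ j₁ j₂ hle hj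
          exact ⟨W₁, W₂, h2, h3, h4, h5, h6⟩
        · by_cases hs1 : 1 ≤ s₁
          · obtain ⟨W₁, W₂, h2, h3, h4, h5, h6, h7, h8⟩ :=
              hlift (s₁ - 1) s₂ j₁ j₂ (by omega) hj
            obtain ⟨m1, m2, m3⟩ := sup_aux f (cyc f v) S' W₁ W₂ hc (cyc_invt f v) h2 h5 h6 h4
            exact ⟨_, W₂, m1, h3, m2, by rw [m3, h7, hfr, h1]; omega, h8⟩
          · obtain ⟨W₁, W₂, h2, h3, h4, h5, h6, h7, h8⟩ :=
              hlift s₁ (s₂ - 1) j₁ j₂ (by omega) hj
            obtain ⟨m1, m2, m3⟩ :=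
              sup_aux f (cyc f v) S' W₂ W₁ hc (cyc_invt f v) h3 h6 h5 h4.symm
            exact ⟨W₁, _, h2, m1, m2.symm, h7, by rw [m3, h8, hfr, h1]; omega⟩
      · -- a new invariant subspace of dimension `i`
        refine ⟨k', a' + 1, by rw [mul_add]; omega, ?_⟩
        intro s₁ s₂ j₁ j₂ hs hj
        by_cases hle : j₁ + j₂ ≤ a'
        · obtain ⟨W₁, W₂, h2, h3, h4, -, -, h5, h6⟩ := hlift s₁ s₂ j₁ j₂ hs hle
          exact ⟨W₁, W₂, h2, h3, h4, h5, h6⟩
        · by_cases hj1 : 1 ≤ j₁
          · obtain ⟨W₁, W₂, h2, h3, h4, h5, h6, h7, h8⟩ :=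
              hlift s₁ s₂ (j₁ - 1) j₂ hs (by omega)
            obtain ⟨m1, m2, m3⟩ := sup_aux f (cyc f v) S' W₁ W₂ hc (cyc_invt f v) h2 h5 h6 h4
            refine ⟨_, W₂, m1, h3, m2, ?_, h8⟩
            rw [m3, h7, hfr, h1]
            obtain ⟨j, rfl⟩ : ∃ j, j₁ = j + 1 := ⟨j₁ - 1, by omega⟩
            rw [Nat.add_sub_cancel, mul_add]
            omega
          · obtain ⟨W₁, W₂, h2, h3, h4, h5, h6, h7, h8⟩ :=
              hlift s₁ s₂ j₁ (j₂ - 1) hs (by omega)
            obtain ⟨m1, m2, m3⟩ :=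
              sup_aux f (cyc f v) S' W₂ W₁ hc (cyc_invt f v) h3 h6 h5 h4.symm
            refine ⟨W₁, _, h2, m1, m2.symm, h7, ?_⟩
            rw [m3, h8, hfr, h1]
            obtain ⟨j, rfl⟩ : ∃ j, j₂ = j + 1 := ⟨j₂ - 1, by omega⟩
            rw [Nat.add_sub_cancel, mul_add]
            omega

/-- Splitting a power of an irreducible polynomial dividing the characteristic polynomial along
an invariant decomposition. -/
theorem pow_dvd_split {V : Type v} [AddCommGroup V] [Module K V] [FiniteDimensional K V]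
    (f : Module.End K V) (π : K[X]) (hπ : Irreducible π) (W W' : Submodule K V)
    (hW : W ∈ f.invtSubmodule) (hW' : W' ∈ f.invtSubmodule) (hc : IsCompl W W') (a : ℕ)
    (ha : π ^ a ∣ f.charpoly) :
    ∃ b b' : ℕ, a ≤ b + b' ∧ π ^ b ∣ (f.restrict (p := W) (q := W) hW).charpoly ∧
      π ^ b' ∣ (f.restrict (p := W') (q := W') hW').charpoly := by
  have hcp := charpoly_eq_mul_of_isCompl f W W' hW hW' hc
  have hfin : FiniteMultiplicity π ((f.restrict (p := W) (q := W) hW).charpoly *
      (f.restrict (p := W') (q := W') hW').charpoly) :=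
    FiniteMultiplicity.of_not_isUnit hπ.not_isUnit
      (mul_ne_zero (LinearMap.charpoly_monic _).ne_zero (LinearMap.charpoly_monic _).ne_zero)
  refine ⟨multiplicity π (f.restrict (p := W) (q := W) hW).charpoly,
    multiplicity π (f.restrict (p := W') (q := W') hW').charpoly, ?_,
    pow_multiplicity_dvd _ _, pow_multiplicity_dvd _ _⟩
  rw [← multiplicity_mul hπ.prime hfin]
  exact hfin.le_multiplicity_of_pow_dvd (hcp ▸ ha)

theorem deg_le_of_pow_dvd {V : Type v} [AddCommGroup V] [Module K V] [FiniteDimensional K V]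
    (f : Module.End K V) (π : K[X]) (b : ℕ) (h : π ^ b ∣ f.charpoly) :
    π.natDegree * b ≤ finrank K V := by
  have h1 := natDegree_le_of_dvd h (LinearMap.charpoly_monic f).ne_zero
  rw [LinearMap.charpoly_natDegree] at h1
  rcases eq_or_ne π 0 with h0 | h0
  · subst h0
    simp
  · rw [natDegree_pow' (by
      rw [← leadingCoeff_pow]
      exact leadingCoeff_ne_zero.2 (pow_ne_zero _ h0))] at h1
    rw [mul_comm]
    exact h1

theorem pow_restrict_apply {V : Type v} [AddCommGroup V] [Module K V] (f : Module.End K V)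
    (W : Submodule K V) (hW : W ∈ f.invtSubmodule) (n : ℕ) (w : W) :
    (((f.restrict (p := W) (q := W) hW) ^ n) w : V) = (f ^ n) (w : V) := by
  induction n generalizing w with
  | zero => simp
  | succ n ih =>
    rw [pow_succ, pow_succ, Module.End.mul_apply, Module.End.mul_apply, ih]
    rfl

theorem aeval_restrict {V : Type v} [AddCommGroup V] [Module K V] (f : Module.End K V)
    (W : Submodule K V) (hW : W ∈ f.invtSubmodule) (P : K[X]) (w : W) :
    ((aeval (f.restrict (p := W) (q := W) hW) P w : W) : V) = aeval f P (w : V) := by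
  induction P using Polynomial.induction_on' with
  | add p q hp hq =>
    rw [map_add, map_add, LinearMap.add_apply, LinearMap.add_apply, Submodule.coe_add, hp, hq]
  | monomial n c =>
    rw [aeval_monomial, aeval_monomial, Module.End.mul_apply, Module.End.mul_apply,
      Module.algebraMap_end_apply, Module.algebraMap_end_apply, Submodule.coe_smul,
      pow_restrict_apply]

/-- If an irreducible monic polynomial kills `f`, the invariant subspaces of `f` have dimension
divisible by its degree. -/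
theorem dvd_finrank_of_irr {V : Type v} [AddCommGroup V] [Module K V] [FiniteDimensional K V]
    (f : Module.End K V) (P : K[X]) (hm : P.Monic) (hP : Irreducible P) (h0 : aeval f P = 0)
    (W : Submodule K V) (hW : W ∈ f.invtSubmodule) : P.natDegree ∣ finrank K W := by
  classical
  have h1 : aeval (f.restrict (p := W) (q := W) hW) P = 0 := by
    apply LinearMap.ext
    intro w
    apply Subtype.ext
    rw [aeval_restrict, h0]
    rfl
  let b := Module.finBasis K W
  let M : Matrix (Fin (finrank K W)) (Fin (finrank K W)) K :=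
    LinearMap.toMatrix b b (f.restrict (p := W) (q := W) hW)
  have h2 : aeval M P = 0 := by
    have h3 := Polynomial.aeval_algHom_apply (LinearMap.toMatrixAlgEquiv b).toAlgHom
      (f.restrict (p := W) (q := W) hW) P
    rw [h1, map_zero] at h3
    exact h3
  obtain ⟨k, hk⟩ := PGLClasses.charpoly_eq_pow M P hm hP h2
  have h4 := Matrix.charpoly_natDegree_eq_dim M
  rw [hk, hm.natDegree_pow, Fintype.card_fin] at h4
  exact ⟨k, by rw [← h4, mul_comm]⟩

end decomp

section finite

open UniqueFactorizationMonoid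

variable {F : Type u} [Field F] [Fintype F]

theorem orderOf_pos_of_ne {p q : ℕ} [Fact p.Prime] [CharP F p] (hF : Fintype.card F = q) (r : ℕ)
    [Fact r.Prime] (hrp : r ≠ p) : 0 < orderOf (q : ZMod r) := by
  have hp : p.Prime := Fact.out
  have hr : r.Prime := Fact.out
  obtain ⟨f, -, hf⟩ := FiniteField.card F p
  have hcop : p.Coprime r := (Nat.coprime_primes hp hr).2 (Ne.symm hrp)
  have hK : Fintype.card F = p ^ (f : ℕ) := hf
  have hord : orderOf (ZMod.unitOfCoprime _ (hcop.pow_left f)) = orderOf (q : ZMod r) := by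
    rw [← orderOf_units, ZMod.coe_unitOfCoprime, ← hF, hK]
  rw [← hord]
  exact orderOf_pos _

omit [Fintype F] in
theorem natCast_ne_zero_of_ne {p : ℕ} [Fact p.Prime] [CharP F p] (r : ℕ) [Fact r.Prime]
    (hrp : r ≠ p) : (r : F) ≠ 0 := by
  have hp : p.Prime := Fact.out
  have hr : r.Prime := Fact.out
  intro h
  rw [CharP.cast_eq_zero_iff F p r] at h
  exact hrp ((Nat.prime_dvd_prime_iff_eq hp hr).1 h).symm

/-- The irreducible factors of `X ^ r - 1`. -/
theorem exists_factors {p q : ℕ} [Fact p.Prime] [CharP F p] (hF : Fintype.card F = q) (r : ℕ)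
    [Fact r.Prime] (hrp : r ≠ p) :
    ∃ S : Finset F[X], PrimeOrderGL.Factors S r (orderOf (q : ZMod r)) ∧ S.Nonempty := by
  classical
  have hp : p.Prime := Fact.out
  have hr : r.Prime := Fact.out
  obtain ⟨f, -, hf⟩ := FiniteField.card F p
  have hcop : p.Coprime r := (Nat.coprime_primes hp hr).2 (Ne.symm hrp)
  have hK : Fintype.card F = p ^ (f : ℕ) := hf
  have hrF : (r : F) ≠ 0 := natCast_ne_zero_of_ne r hrp
  have hord : orderOf (ZMod.unitOfCoprime _ (hcop.pow_left f)) = orderOf (q : ZMod r) := by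
    rw [← orderOf_units, ZMod.coe_unitOfCoprime, ← hF, hK]
  set S : Finset F[X] := (normalizedFactors (cyclotomic r F)).toFinset with hSdef
  have hQ : cyclotomic r F * (X - C 1) = X ^ r - 1 := by
    rw [C_1]
    exact cyclotomic_prime_mul_X_sub_one F r
  refine ⟨S,
    { monic := fun π hπ => PrimeOrderGL.monic_of_mem_nf _ π (Multiset.mem_toFinset.1 hπ)
      irred := fun π hπ => irreducible_of_normalized_factor π (Multiset.mem_toFinset.1 hπ)
      dvd := fun π hπ =>
        (dvd_of_mem_normalizedFactors (Multiset.mem_toFinset.1 hπ)).trans ⟨X - C 1, hQ.symm⟩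
      deg := fun π hπ => by
        rw [natDegree_of_mem_normalizedFactors_cyclotomic hK hcop (Multiset.mem_toFinset.1 hπ),
          hord]
      one_dvd := ⟨cyclotomic r F, by rw [← hQ, mul_comm]⟩
      notMem := by
        intro h
        have h1 := dvd_of_mem_normalizedFactors (Multiset.mem_toFinset.1 h)
        rw [dvd_iff_isRoot, IsRoot, eval_one_cyclotomic_prime] at h1
        exact hrF h1
      cover := fun m hm hirr hdvd => by
        rw [← hQ] at hdvd
        rcases hirr.prime.dvd_or_dvd hdvd with h | h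
        · right
          rw [hSdef, Multiset.mem_toFinset, mem_normalizedFactors_iff' (cyclotomic_ne_zero r F)]
          exact ⟨hirr, hm.normalize_eq_self, h⟩
        · left
          exact eq_of_monic_of_associated hm (monic_X_sub_C 1)
            (hirr.associated_of_dvd (irreducible_X_sub_C 1) h) }, ?_⟩
  have hnu : ¬ IsUnit (cyclotomic r F) := by
    intro hu
    have h1 := natDegree_eq_zero_of_isUnit hu
    rw [natDegree_cyclotomic, Nat.totient_prime hr] at h1
    have := hr.two_le
    omega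
  obtain ⟨π, hπ, hdvd⟩ := WfDvdMonoid.exists_irreducible_factor hnu (cyclotomic_ne_zero r F)
  refine ⟨normalize π, ?_⟩
  rw [hSdef, Multiset.mem_toFinset, mem_normalizedFactors_iff' (cyclotomic_ne_zero r F)]
  exact ⟨(associated_normalize π).irreducible hπ, normalize_idem π, normalize_dvd_iff.2 hdvd⟩

omit [Fintype F] in
theorem deg_of_irr {S : Finset F[X]} {r i : ℕ} (hS : PrimeOrderGL.Factors S r i) (π : F[X])
    (hπ : Irreducible π) (hd : π ∣ (X ^ r - 1 : F[X])) : π.natDegree = 1 ∨ π.natDegree = i := by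
  classical
  have h1 : (normalize π).Monic := monic_normalize hπ.ne_zero
  have h2 : Irreducible (normalize π) := (associated_normalize π).irreducible hπ
  have h3 : normalize π ∣ (X ^ r - 1 : F[X]) := normalize_dvd_iff.2 hd
  have h4 : (normalize π).natDegree = π.natDegree := natDegree_eq_of_degree_eq degree_normalize
  rcases hS.cover _ h1 h2 h3 with h | h
  · left
    rw [← h4, h, natDegree_X_sub_C]
  · right
    rw [← h4, hS.deg _ h]

/-- The model element of order `r` when `2 ≤ i ≤ n`. -/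
theorem exists_model {p q : ℕ} [Fact p.Prime] [CharP F p] (hF : Fintype.card F = q) (n r : ℕ)
    [Fact r.Prime] (hrp : r ≠ p) (hi : 2 ≤ orderOf (q : ZMod r))
    (hin : orderOf (q : ZMod r) ≤ n) :
    ∃ (x : Matrix.SpecialLinearGroup (Fin n) F) (π : F[X]),
      (x : Matrix (Fin n) (Fin n) F) ^ r = 1 ∧
      (∀ c : F, (x : Matrix (Fin n) (Fin n) F) ≠ c • (1 : Matrix (Fin n) (Fin n) F)) ∧
      Irreducible π ∧ π.natDegree = orderOf (q : ZMod r) ∧
      π ^ (n / orderOf (q : ZMod r)) ∣
        (Matrix.toLin' (x : Matrix (Fin n) (Fin n) F)).charpoly := by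
  classical
  have hr : r.Prime := Fact.out
  obtain ⟨S, hS, ⟨π₀, hπ₀⟩⟩ := exists_factors hF r hrp
  set i := orderOf (q : ZMod r) with hidef
  let a : S → ℕ := fun π => if π.1 = π₀ then n / i else 0
  have hsum : ∑ π, a π = n / i := by
    rw [Finset.sum_eq_single ⟨π₀, hπ₀⟩]
    · simp [a]
    · intro b _ hb
      have : b.1 ≠ π₀ := fun h => hb (Subtype.ext h)
      simp [a, this]
    · intro h
      exact absurd (Finset.mem_univ _) h
  have ha : i * ∑ π, a π ≤ n := by
    rw [hsum]
    exact Nat.mul_div_le n i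
  obtain ⟨g, hg, hχ⟩ := PrimeOrderGL.exists_GL_chi p hS hr.pos a ha
  have hgr : (g : Matrix (Fin n) (Fin n) F) ^ r = 1 := by
    rw [← Units.val_pow_eq_pow_val, hg]
    rfl
  have hdvd : π₀ ^ (n / i) ∣ (g : Matrix (Fin n) (Fin n) F).charpoly := by
    rw [hχ]
    unfold PrimeOrderGL.chi
    apply Dvd.dvd.mul_left
    have h1 := Finset.dvd_prod_of_mem (fun π : S => π.1 ^ a π) (Finset.mem_univ (⟨π₀, hπ₀⟩ : S))
    simpa [a] using h1
  have hq2 : 2 ≤ q := by
    rw [← hF]
    exact Fintype.one_lt_card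
  have hdet : (g : Matrix (Fin n) (Fin n) F).det = 1 := by
    have h1 : (g : Matrix (Fin n) (Fin n) F).det ^ r = 1 := by
      rw [← Matrix.det_pow, hgr, Matrix.det_one]
    have h0 : (g : Matrix (Fin n) (Fin n) F).det ≠ 0 := by
      intro h
      rw [h, zero_pow hr.ne_zero] at h1
      exact zero_ne_one h1
    have h2 : (g : Matrix (Fin n) (Fin n) F).det ^ (q - 1) = 1 := by
      rw [← hF]
      exact FiniteField.pow_card_sub_one_eq_one _ h0
    have h3 : ¬ r ∣ q - 1 := by
      intro h
      have h' := (dvd_pow_sub_one_iff q r (by omega) 1).1 (by simpa using h)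
      have := Nat.le_of_dvd one_pos h'
      omega
    have h4 : Nat.gcd r (q - 1) = 1 := (Nat.Prime.coprime_iff_not_dvd hr).2 h3
    have h5 := pow_gcd_eq_one.2 ⟨h1, h2⟩
    rwa [h4, pow_one] at h5
  refine ⟨⟨(g : Matrix (Fin n) (Fin n) F), hdet⟩, π₀, hgr, ?_, hS.irred π₀ hπ₀, hS.deg π₀ hπ₀, ?_⟩
  · intro c hc
    have h1 : π₀ ∣ (Matrix.toLin' (g : Matrix (Fin n) (Fin n) F)).charpoly := by
      rw [Matrix.charpoly_toLin']
      exact (dvd_pow_self π₀ (Nat.div_pos hin (by omega)).ne').trans hdvd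
    have h2 : aeval (Matrix.toLin' (g : Matrix (Fin n) (Fin n) F)) (X - C c) = 0 := by
      rw [Diag.aeval_toLin']
      have hc' : (g : Matrix (Fin n) (Fin n) F) = c • (1 : Matrix (Fin n) (Fin n) F) := hc
      have : aeval (g : Matrix (Fin n) (Fin n) F) (X - C c) = 0 := by
        simp [hc', Algebra.algebraMap_eq_smul_one]
      rw [this, map_zero]
    have h3 := irr_dvd _ π₀ (hS.irred π₀ hπ₀) h1 _ h2
    have h4 := natDegree_le_of_dvd h3 (X_sub_C_ne_zero c)
    rw [natDegree_X_sub_C, hS.deg π₀ hπ₀] at h4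
    omega
  · rw [Matrix.charpoly_toLin']
    exact hdvd

end finite

section model

variable {K : Type u} [Field K] {V : Type v} [AddCommGroup V] [Module K V] [FiniteDimensional K V]

/-- Dimensions of invariant subspaces of a semisimple endomorphism whose characteristic
polynomial is divisible by `π ^ a`. -/
theorem model_mod_le (f : Module.End K V) (π : K[X]) (hπ : Irreducible π) (hf : f.IsSemisimple)
    (a : ℕ) (ha : π ^ a ∣ f.charpoly) (W : Submodule K V) (hW : W ∈ f.invtSubmodule) :
    finrank K W % π.natDegree ≤ finrank K V - π.natDegree * a := by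
  obtain ⟨W', hW', hc⟩ := (Module.End.isSemisimple_iff.1 hf) W hW
  obtain ⟨b, b', hab, hb, hb'⟩ := pow_dvd_split f π hπ W W' hW hW' hc a ha
  have h1 := deg_le_of_pow_dvd _ π b hb
  have h2 := deg_le_of_pow_dvd _ π b' hb'
  have hdim : finrank K W + finrank K W' = finrank K V := Submodule.finrank_add_eq_of_isCompl hc
  have hi : 0 < π.natDegree := hπ.natDegree_pos
  have h3 : π.natDegree * a ≤ π.natDegree * b + π.natDegree * b' := by
    rw [← mul_add]
    exact Nat.mul_le_mul_left _ hab
  have h4 := Nat.div_add_mod (finrank K W) π.natDegree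
  have h5 : π.natDegree * b ≤ π.natDegree * (finrank K W / π.natDegree) := by
    apply Nat.mul_le_mul_left
    rw [Nat.le_div_iff_mul_le hi, mul_comm]
    exact h1
  omega

/-- Invariant flags of a semisimple endomorphism whose characteristic polynomial is divisible
by `π ^ a`. -/
theorem model_flag (f : Module.End K V) (π : K[X]) (hπ : Irreducible π) (hf : f.IsSemisimple)
    (a : ℕ) (ha : π ^ a ∣ f.charpoly) (U W : Submodule K V) (hU : U ∈ f.invtSubmodule)
    (hW : W ∈ f.invtSubmodule) (hUW : U ≤ W) (hdim : finrank K U + finrank K W = finrank K V) :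
    2 * (finrank K U % π.natDegree) ≤ finrank K V - π.natDegree * a := by
  obtain ⟨W', hW', hc⟩ := (Module.End.isSemisimple_iff.1 hf) W hW
  obtain ⟨b, b₃, hab, hb, hb₃⟩ := pow_dvd_split f π hπ W W' hW hW' hc a ha
  have h3 := deg_le_of_pow_dvd _ π b₃ hb₃
  have hdim' : finrank K W + finrank K W' = finrank K V := Submodule.finrank_add_eq_of_isCompl hc
  -- inside `W`
  have hU' : Submodule.comap W.subtype U ∈
      Module.End.invtSubmodule (f.restrict (p := W) (q := W) hW) := by
    rw [Module.End.mem_invtSubmodule_iff_forall_mem_of_mem]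
    intro w hw
    exact (Module.End.mem_invtSubmodule_iff_forall_mem_of_mem f).1 hU (w : V) hw
  obtain ⟨U'', hU'', hc'⟩ := (Module.End.isSemisimple_iff.1 (hf.restrict hW)) _ hU'
  obtain ⟨b₁, b₂, hab', hb₁, hb₂⟩ := pow_dvd_split _ π hπ _ U'' hU' hU'' hc' b hb
  have h1 := deg_le_of_pow_dvd _ π b₁ hb₁
  have h2 := deg_le_of_pow_dvd _ π b₂ hb₂
  have hdim'' : finrank K (Submodule.comap W.subtype U) + finrank K U'' = finrank K W :=
    Submodule.finrank_add_eq_of_isCompl hc'
  have hfr : finrank K (Submodule.comap W.subtype U) = finrank K U :=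
    (Submodule.comapSubtypeEquivOfLe hUW).finrank_eq
  have hi : 0 < π.natDegree := hπ.natDegree_pos
  have h4 : π.natDegree * a ≤ π.natDegree * b + π.natDegree * b₃ := by
    rw [← mul_add]
    exact Nat.mul_le_mul_left _ hab
  have h5 : π.natDegree * b ≤ π.natDegree * b₁ + π.natDegree * b₂ := by
    rw [← mul_add]
    exact Nat.mul_le_mul_left _ hab'
  have h6 := Nat.div_add_mod (finrank K U) π.natDegree
  have h7 : π.natDegree * b₁ ≤ π.natDegree * (finrank K U / π.natDegree) := by
    apply Nat.mul_le_mul_left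
    rw [Nat.le_div_iff_mul_le hi, mul_comm]
    omega
  have h8 : π.natDegree * b₃ ≤ π.natDegree * (finrank K U / π.natDegree) := by
    apply Nat.mul_le_mul_left
    rw [Nat.le_div_iff_mul_le hi, mul_comm]
    omega
  omega

end model

section kummer

variable {F : Type u} [Field F]

/-- The determinant of a matrix whose `r`-th power is a scalar that is not an `r`-th power. -/
theorem det_of_pow_eq {n r : ℕ} (hr : r.Prime) (c : F) (hc : ∀ b : F, b ^ r ≠ c)
    (M : Matrix (Fin n) (Fin n) F) (hM : M ^ r = c • (1 : Matrix (Fin n) (Fin n) F)) :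
    ∃ t, n = r * t ∧ M.det = ((-1) ^ (r + 1) * c) ^ t := by
  have hirr := X_pow_sub_C_irreducible_of_prime hr hc
  have hmon : (X ^ r - C c : F[X]).Monic := monic_X_pow_sub_C c hr.ne_zero
  have h0 : aeval M (X ^ r - C c : F[X]) = 0 := by
    simp [hM, Algebra.algebraMap_eq_smul_one]
  obtain ⟨k, hk⟩ := PGLClasses.charpoly_eq_pow M _ hmon hirr h0
  have h1 := Matrix.charpoly_natDegree_eq_dim M
  rw [hk, hmon.natDegree_pow, natDegree_X_pow_sub_C, Fintype.card_fin] at h1
  refine ⟨k, by rw [← h1, mul_comm], ?_⟩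
  rw [Matrix.det_eq_sign_charpoly_coeff, hk, coeff_zero_eq_eval_zero, eval_pow, eval_sub,
    eval_pow, eval_X, eval_C, zero_pow hr.ne_zero, zero_sub, Fintype.card_fin, ← h1, pow_mul',
    ← mul_pow]
  congr 1
  rw [pow_succ]
  ring

variable [Fintype F]

theorem exists_gen :
    ∃ ζ : Fˣ, orderOf ζ = Fintype.card F - 1 ∧ ∀ u : Fˣ, ∃ s : ℕ, ζ ^ s = u := by
  obtain ⟨ζ, hζ⟩ := IsCyclic.exists_generator (α := Fˣ)
  refine ⟨ζ, ?_, ?_⟩
  · rw [orderOf_eq_card_of_forall_mem_zpowers hζ, Nat.card_units, Nat.card_eq_fintype_card]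
  · intro u
    have h1 := hζ u
    rw [← mem_powers_iff_mem_zpowers] at h1
    exact h1

theorem exists_pow_of_not_dvd {q : ℕ} (hF : Fintype.card F = q) (r : ℕ) [Fact r.Prime]
    (hrq : ¬ r ∣ q - 1) (c : F) (hc : c ≠ 0) : ∃ b : F, b ^ r = c := by
  have hr : r.Prime := Fact.out
  have hcop : (Nat.card Fˣ).Coprime r := by
    rw [Nat.card_units, Nat.card_eq_fintype_card, hF]
    exact ((Nat.Prime.coprime_iff_not_dvd hr).2 hrq).symm
  obtain ⟨b, hb⟩ := (powCoprime hcop).surjective (Units.mk0 c hc)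
  refine ⟨(b : F), ?_⟩
  have h1 := congrArg Units.val hb
  simpa using h1

/-- An element of `SL_n` whose `r`-th power is a scalar that is not an `r`-th power exists only
under the arithmetic conditions of the statement. -/
theorem not_pow_SL {q : ℕ} (hF : Fintype.card F = q) {n r : ℕ} [Fact r.Prime] (hn : n ≠ 0)
    (x : Matrix.SpecialLinearGroup (Fin n) F) (c : F) (hc : ∀ b : F, b ^ r ≠ c)
    (hx : (x : Matrix (Fin n) (Fin n) F) ^ r = c • (1 : Matrix (Fin n) (Fin n) F)) :
    ¬ (padicValNat r n ≤ padicValNat r (q - 1) ∧ (r = 2 → Even n → q % 4 = 1)) := by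
  have hr : r.Prime := Fact.out
  obtain ⟨t, hnt, hdet⟩ := det_of_pow_eq hr c hc _ hx
  rw [x.det_coe] at hdet
  have hq2 : 2 ≤ q := by
    rw [← hF]
    exact Fintype.one_lt_card
  have hc0 : c ≠ 0 := by
    rintro rfl
    exact hc 0 (zero_pow hr.ne_zero)
  have hc'0 : (-1 : F) ^ (r + 1) * c ≠ 0 :=
    mul_ne_zero (pow_ne_zero _ (neg_ne_zero.2 one_ne_zero)) hc0
  obtain ⟨ζ, hζo, hζ⟩ := exists_gen (F := F)
  obtain ⟨s, hs⟩ := hζ (Units.mk0 _ hc'0)
  have hst : q - 1 ∣ s * t := by
    rw [← hF, ← hζo]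
    apply orderOf_dvd_of_pow_eq_one
    rw [pow_mul, hs]
    apply Units.ext
    rw [Units.val_pow_eq_pow_val, Units.val_mk0, ← hdet]
    rfl
  rintro ⟨hv, h2⟩
  by_cases hrs : r ∣ s
  · obtain ⟨s', rfl⟩ := hrs
    have hd : ((ζ ^ s' : Fˣ) : F) ^ r = (-1 : F) ^ (r + 1) * c := by
      rw [← Units.val_pow_eq_pow_val, ← pow_mul, mul_comm, hs]
      rfl
    rcases hr.eq_two_or_odd' with h | h
    · subst h
      have hev : Even n := ⟨t, by omega⟩
      have hq4 := h2 rfl hev
      have hsq : IsSquare (-1 : F) := by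
        rw [FiniteField.isSquare_neg_one_iff, hF]
        omega
      obtain ⟨e, he⟩ := hsq
      apply hc (e * ((ζ ^ s' : Fˣ) : F))
      rw [mul_pow, hd, pow_two, ← he]
      ring
    · have h3 : (-1 : F) ^ (r + 1) = 1 := by
        apply Even.neg_one_pow
        obtain ⟨k, hk⟩ := h
        exact ⟨k + 1, by omega⟩
      rw [h3, one_mul] at hd
      exact hc _ hd
  · have h1 : r ^ padicValNat r (q - 1) ∣ t :=
      Nat.Coprime.dvd_of_dvd_mul_left
        (Nat.Coprime.pow_left _ ((Nat.Prime.coprime_iff_not_dvd hr).2 hrs))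
        (pow_padicValNat_dvd.trans hst)
    have h4 : r ^ (padicValNat r (q - 1) + 1) ∣ n := by
      rw [hnt, pow_succ, mul_comm]
      exact Nat.mul_dvd_mul_left r h1
    have h5 := (padicValNat_dvd_iff_le hn).1 h4
    omega

/-- Existence of an element of `SL_n` whose `r`-th power is a scalar that is not an `r`-th
power. -/
theorem exists_not_pow_SL {q : ℕ} (hF : Fintype.card F = q) {n r : ℕ} [Fact r.Prime] (hn : n ≠ 0)
    (hrq : r ∣ q - 1)
    (h : ¬ (padicValNat r n ≤ padicValNat r (q - 1) ∧ (r = 2 → Even n → q % 4 = 1))) :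
    ∃ (x : Matrix.SpecialLinearGroup (Fin n) F) (c : F), (∀ b : F, b ^ r ≠ c) ∧
      (x : Matrix (Fin n) (Fin n) F) ^ r = c • (1 : Matrix (Fin n) (Fin n) F) := by
  have hr : r.Prime := Fact.out
  have hq2 : 2 ≤ q := by
    rw [← hF]
    exact Fintype.one_lt_card
  suffices hsuff : ∃ c : F, (∀ b : F, b ^ r ≠ c) ∧ r ∣ n ∧
      ((-1) ^ (r + 1) * c) ^ (n / r) = 1 by
    obtain ⟨c, hc, hrn, hdet⟩ := hsuff
    obtain ⟨M, hM⟩ := PGLClasses.exists_pow_eq_smul (n := n) hr.pos hrn c
    obtain ⟨t, hnt, hd⟩ := det_of_pow_eq hr c hc M hM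
    have h1 : n / r = t := by rw [hnt, Nat.mul_div_cancel_left _ hr.pos]
    rw [h1] at hdet
    exact ⟨⟨M, hd.trans hdet⟩, c, hc, hM⟩
  by_cases hv : padicValNat r n ≤ padicValNat r (q - 1)
  · have h' : ¬ (r = 2 → Even n → q % 4 = 1) := fun h'' => h ⟨hv, h''⟩
    push Not at h'
    obtain ⟨rfl, hev, hq4⟩ := h'
    refine ⟨-1, ?_, hev.two_dvd, ?_⟩
    · intro b hb
      have hsq : IsSquare (-1 : F) := ⟨b, by rw [← hb]; ring⟩
      rw [FiniteField.isSquare_neg_one_iff, hF] at hsq
      obtain ⟨k, hk⟩ := hrq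
      omega
    · norm_num
  · push Not at hv
    have hq1 : q - 1 ≠ 0 := by omega
    have he1 : 1 ≤ padicValNat r (q - 1) := one_le_padicValNat_of_dvd hq1 hrq
    obtain ⟨u, hu⟩ : r ^ padicValNat r (q - 1) ∣ q - 1 := pow_padicValNat_dvd
    have hru : ¬ r ∣ u := by
      rintro ⟨u', rfl⟩
      have h1 : r ^ (padicValNat r (q - 1) + 1) ∣ q - 1 :=
        ⟨u', by rw [pow_succ, mul_assoc]; exact hu⟩
      have h2 := (padicValNat_dvd_iff_le hq1).1 h1
      omega
    have hrn : r ^ (padicValNat r (q - 1) + 1) ∣ n := (padicValNat_dvd_iff_le hn).2 (by omega)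
    obtain ⟨ζ, hζo, hζ⟩ := exists_gen (F := F)
    rw [hF] at hζo
    have hrn' : r ∣ n := (dvd_pow_self r (by omega)).trans hrn
    have ht : r ^ padicValNat r (q - 1) ∣ n / r := by
      obtain ⟨w, hw⟩ := hrn
      refine ⟨w, ?_⟩
      rw [hw, pow_succ, mul_comm (r ^ padicValNat r (q - 1)) r, mul_assoc,
        Nat.mul_div_cancel_left _ hr.pos]
    refine ⟨((ζ ^ u : Fˣ) : F), ?_, hrn', ?_⟩
    · intro b hb
      have hb0 : b ≠ 0 := by
        rintro rfl
        rw [zero_pow hr.ne_zero] at hb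
        exact (Units.ne_zero _) hb.symm
      obtain ⟨s, hs⟩ := hζ (Units.mk0 b hb0)
      have h1 : ζ ^ (s * r) = ζ ^ u := by
        apply Units.ext
        rw [pow_mul, hs, Units.val_pow_eq_pow_val, Units.val_mk0, hb]
      rw [pow_eq_pow_iff_modEq, hζo] at h1
      exact hru ((Nat.ModEq.dvd_iff h1 hrq).1 (dvd_mul_left r s))
    · rw [mul_pow, ← Units.val_pow_eq_pow_val, ← pow_mul, ← pow_mul]
      have h1 : ζ ^ (u * (n / r)) = 1 := by
        apply orderOf_dvd_iff_pow_eq_one.1
        rw [hζo, hu]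
        obtain ⟨w, hw⟩ := ht
        rw [hw]
        exact ⟨w, by ring⟩
      rw [h1, Units.val_one, mul_one]
      apply Even.neg_one_pow
      rcases hr.eq_two_or_odd' with h2 | h2
      · subst h2
        apply Even.mul_left
        exact even_iff_two_dvd.2 ((dvd_pow_self 2 (by omega)).trans ht)
      · apply Even.mul_right
        obtain ⟨k, hk⟩ := h2
        exact ⟨k + 1, by omega⟩

/-- The structure of an element of `SL_n(q)` whose `r`-th power is scalar, `r ≠ p`. -/
theorem backward {p q : ℕ} [Fact p.Prime] [CharP F p] (hF : Fintype.card F = q) (n r : ℕ)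
    [Fact r.Prime] (hrp : r ≠ p) (hn : n ≠ 0) (x : Matrix.SpecialLinearGroup (Fin n) F) (c : F)
    (hx : (x : Matrix (Fin n) (Fin n) F) ^ r = c • (1 : Matrix (Fin n) (Fin n) F)) :
    Module.End.IsSemisimple (Matrix.toLin' (x : Matrix (Fin n) (Fin n) F)) ∧ ∃ i' k a : ℕ,
      n = k + i' * a ∧
      (∀ s₁ s₂ j₁ j₂ : ℕ, s₁ + s₂ ≤ k → j₁ + j₂ ≤ a →
        ∃ W₁ W₂ : Submodule F (Fin n → F),
          W₁ ∈ Module.End.invtSubmodule (Matrix.toLin' (x : Matrix (Fin n) (Fin n) F)) ∧
          W₂ ∈ Module.End.invtSubmodule (Matrix.toLin' (x : Matrix (Fin n) (Fin n) F)) ∧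
          Disjoint W₁ W₂ ∧ finrank F W₁ = s₁ + i' * j₁ ∧ finrank F W₂ = s₂ + i' * j₂) ∧
      (i' = orderOf (q : ZMod r) ∨ (i' = r ∧ orderOf (q : ZMod r) = 1 ∧
        ¬ (padicValNat r n ≤ padicValNat r (q - 1) ∧ (r = 2 → Even n → q % 4 = 1)))) := by
  have hr : r.Prime := Fact.out
  have hrF : (r : F) ≠ 0 := natCast_ne_zero_of_ne r hrp
  have hq2 : 2 ≤ q := by
    rw [← hF]
    exact Fintype.one_lt_card
  have hc0 : c ≠ 0 := by
    rintro rfl
    have h1 := congrArg Matrix.det hx
    have : Nonempty (Fin n) := ⟨⟨0, Nat.pos_of_ne_zero hn⟩⟩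
    rw [Matrix.det_pow, x.det_coe, one_pow, zero_smul, Matrix.det_zero] at h1
    exact one_ne_zero h1
  have hann : aeval (Matrix.toLin' (x : Matrix (Fin n) (Fin n) F)) (X ^ r - C c : F[X]) = 0 := by
    rw [Diag.aeval_toLin']
    have h1 : aeval (x : Matrix (Fin n) (Fin n) F) (X ^ r - C c : F[X]) = 0 := by
      simp [hx, Algebra.algebraMap_eq_smul_one]
    rw [h1, map_zero]
  have hss : Module.End.IsSemisimple (Matrix.toLin' (x : Matrix (Fin n) (Fin n) F)) :=
    Module.End.isSemisimple_of_squarefree_aeval_eq_zero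
      (separable_X_pow_sub_C c hrF hc0).squarefree hann
  refine ⟨hss, ?_⟩
  have hfr : finrank F (Fin n → F) = n := by simp
  by_cases hpow : ∃ b : F, b ^ r = c
  · obtain ⟨b, hb⟩ := hpow
    have hb0 : b ≠ 0 := by
      rintro rfl
      rw [zero_pow hr.ne_zero] at hb
      exact hc0 hb.symm
    obtain ⟨S, hS, -⟩ := exists_factors hF r hrp
    have hyr : (b⁻¹ • (x : Matrix (Fin n) (Fin n) F)) ^ r = 1 := by
      rw [_root_.smul_pow, hx, smul_smul, inv_pow, hb, inv_mul_cancel₀ hc0, one_smul]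
    have hyss := isSemisimple_of_pow_eq_one _ r hrF hyr
    have hyann : aeval (Matrix.toLin' (b⁻¹ • (x : Matrix (Fin n) (Fin n) F)))
        (X ^ r - 1 : F[X]) = 0 := by
      rw [Diag.aeval_toLin']
      have h1 : aeval (b⁻¹ • (x : Matrix (Fin n) (Fin n) F)) (X ^ r - 1 : F[X]) = 0 := by
        simp [hyr]
      rw [h1, map_zero]
    obtain ⟨k, a, hka, hex⟩ := exists_decomp (orderOf (q : ZMod r)) n (Fin n → F)
      (Matrix.toLin' (b⁻¹ • (x : Matrix (Fin n) (Fin n) F))) hfr hyss
      (fun π hπ hd => deg_of_irr hS π hπ (irr_dvd _ π hπ hd _ hyann))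
    refine ⟨_, k, a, hka, ?_, Or.inl rfl⟩
    intro s₁ s₂ j₁ j₂ hs hj
    obtain ⟨W₁, W₂, h1, h2, h3, h4, h5⟩ := hex s₁ s₂ j₁ j₂ hs hj
    have key : ∀ W : Submodule F (Fin n → F),
        W ∈ Module.End.invtSubmodule (Matrix.toLin' (b⁻¹ • (x : Matrix (Fin n) (Fin n) F))) →
        W ∈ Module.End.invtSubmodule (Matrix.toLin' (x : Matrix (Fin n) (Fin n) F)) := by
      intro W hW
      rw [Module.End.mem_invtSubmodule_iff_forall_mem_of_mem] at hW ⊢
      intro w hw
      have h6 := W.smul_mem b (hW w hw)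
      rw [map_smul, LinearMap.smul_apply, smul_smul, mul_inv_cancel₀ hb0, one_smul] at h6
      exact h6
    exact ⟨W₁, W₂, key W₁ h1, key W₂ h2, h3, h4, h5⟩
  · push Not at hpow
    have hirr := X_pow_sub_C_irreducible_of_prime hr hpow
    obtain ⟨k, a, hka, hex⟩ := exists_decomp r n (Fin n → F)
      (Matrix.toLin' (x : Matrix (Fin n) (Fin n) F)) hfr hss
      (fun π hπ hd => by
        right
        have h1 := irr_dvd _ π hπ hd _ hann
        have h2 := hπ.associated_of_dvd hirr h1
        rw [natDegree_eq_of_degree_eq (degree_eq_degree_of_associated h2),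
          natDegree_X_pow_sub_C])
    refine ⟨r, k, a, hka, hex, Or.inr ⟨rfl, ?_, not_pow_SL hF hn x c hpow hx⟩⟩
    by_contra h1
    have h2 : ¬ r ∣ q - 1 := by
      intro h3
      apply h1
      have h4 := (dvd_pow_sub_one_iff q r (by omega) 1).1 (by simpa using h3)
      exact Nat.dvd_one.1 h4
    obtain ⟨b, hb⟩ := exists_pow_of_not_dvd hF r h2 c hc0
    exact hpow b hb

/-- The case `i = 1`: an element of `SL_n` of order `r` modulo scalars all of whose invariant
subspaces have dimension divisible by `r`. -/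
theorem forward_one {q : ℕ} (hF : Fintype.card F = q) {n r : ℕ} [Fact r.Prime] (hn : n ≠ 0)
    (h1 : orderOf (q : ZMod r) = 1)
    (h : ¬ (padicValNat r n ≤ padicValNat r (q - 1) ∧ (r = 2 → Even n → q % 4 = 1))) :
    ∃ x : Matrix.SpecialLinearGroup (Fin n) F,
      (∃ c : F, ((x ^ r : Matrix.SpecialLinearGroup (Fin n) F) : Matrix (Fin n) (Fin n) F) =
        c • (1 : Matrix (Fin n) (Fin n) F)) ∧
      (∀ c : F, (x : Matrix (Fin n) (Fin n) F) ≠ c • (1 : Matrix (Fin n) (Fin n) F)) ∧
      ∀ W : Submodule F (Fin n → F),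
        W.map (Matrix.toLin' (x : Matrix (Fin n) (Fin n) F)) ≤ W → r ∣ finrank F W := by
  have hr : r.Prime := Fact.out
  have hq2 : 2 ≤ q := by
    rw [← hF]
    exact Fintype.one_lt_card
  have hrq : r ∣ q - 1 := by
    have h2 := (dvd_pow_sub_one_iff q r (by omega) 1).2 (by rw [h1])
    simpa using h2
  obtain ⟨x, c, hc, hx⟩ := exists_not_pow_SL hF hn hrq h
  refine ⟨x, ⟨c, by rw [Matrix.SpecialLinearGroup.coe_pow]; exact hx⟩, ?_, ?_⟩
  · intro d hd
    rw [hd, _root_.smul_pow, one_pow] at hx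
    exact hc d (PGLClasses.scalar_inj (Nat.pos_of_ne_zero hn) _ _ hx)
  · intro W hW
    have hann : aeval (Matrix.toLin' (x : Matrix (Fin n) (Fin n) F)) (X ^ r - C c : F[X]) = 0 := by
      rw [Diag.aeval_toLin']
      have h1 : aeval (x : Matrix (Fin n) (Fin n) F) (X ^ r - C c : F[X]) = 0 := by
        simp [hx, Algebra.algebraMap_eq_smul_one]
      rw [h1, map_zero]
    have h2 := dvd_finrank_of_irr _ _ (monic_X_pow_sub_C c hr.ne_zero)
      (X_pow_sub_C_irreducible_of_prime hr hc) hann W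
      ((Module.End.mem_invtSubmodule_iff_map_le _).2 hW)
    rwa [natDegree_X_pow_sub_C] at h2

/-- The case `i ≥ 2`: an element of `SL_n` of order `r` with few invariant subspaces. -/
theorem forward_two {p q : ℕ} [Fact p.Prime] [CharP F p] (hF : Fintype.card F = q) (n r : ℕ)
    [Fact r.Prime] (hrp : r ≠ p) (hi : 2 ≤ orderOf (q : ZMod r))
    (hin : orderOf (q : ZMod r) ≤ n) :
    ∃ x : Matrix.SpecialLinearGroup (Fin n) F,
      (∃ c : F, ((x ^ r : Matrix.SpecialLinearGroup (Fin n) F) : Matrix (Fin n) (Fin n) F) =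
        c • (1 : Matrix (Fin n) (Fin n) F)) ∧
      (∀ c : F, (x : Matrix (Fin n) (Fin n) F) ≠ c • (1 : Matrix (Fin n) (Fin n) F)) ∧
      (∀ W : Submodule F (Fin n → F),
        W.map (Matrix.toLin' (x : Matrix (Fin n) (Fin n) F)) ≤ W →
        finrank F W % orderOf (q : ZMod r) ≤ n % orderOf (q : ZMod r)) ∧
      (∀ U W : Submodule F (Fin n → F), U ≤ W →
        U.map (Matrix.toLin' (x : Matrix (Fin n) (Fin n) F)) ≤ U →
        W.map (Matrix.toLin' (x : Matrix (Fin n) (Fin n) F)) ≤ W →
        finrank F U + finrank F W = n →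
        2 * (finrank F U % orderOf (q : ZMod r)) ≤ n % orderOf (q : ZMod r)) := by
  obtain ⟨x, π, hx, hns, hπ, hdeg, hdvd⟩ := exists_model hF n r hrp hi hin
  have hss := isSemisimple_of_pow_eq_one _ r (natCast_ne_zero_of_ne r hrp) hx
  have hfr : finrank F (Fin n → F) = n := by simp
  refine ⟨x, ⟨1, by rw [Matrix.SpecialLinearGroup.coe_pow, hx, one_smul]⟩, hns, ?_, ?_⟩
  · intro W hW
    have h1 := model_mod_le _ π hπ hss _ hdvd W
      ((Module.End.mem_invtSubmodule_iff_map_le _).2 hW)
    rwa [hdeg, hfr, ← Nat.mod_def] at h1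
  · intro U W hUW hU hW hdim
    have h1 := model_flag _ π hπ hss _ hdvd U W
      ((Module.End.mem_invtSubmodule_iff_map_le _).2 hU)
      ((Module.End.mem_invtSubmodule_iff_map_le _).2 hW) hUW (by rw [hfr]; exact hdim)
    rwa [hdeg, hfr, ← Nat.mod_def] at h1

end kummer

section numeric

theorem num1 (n k i a m : ℕ) (hn : n = k + i * a) (hm : m ≤ n) (hk : m % i ≤ k) :
    ∃ s j, s ≤ k ∧ j ≤ a ∧ m = s + i * j := by
  have h1 := Nat.div_add_mod m i
  by_cases h : m / i ≤ a
  · exact ⟨m % i, m / i, hk, h, by omega⟩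
  · push Not at h
    have h2 : i * a ≤ i * (m / i) := Nat.mul_le_mul_left _ h.le
    exact ⟨m - i * a, a, by omega, le_rfl, by omega⟩

theorem num2 (n k i a m : ℕ) (hn : n = k + i * a) (hm : 2 * m ≤ n) (hk : 2 * (m % i) ≤ k) :
    ∃ s₁ s₂ j₁ j₂, s₁ + s₂ ≤ k ∧ j₁ + j₂ ≤ a ∧ m = s₁ + i * j₁ ∧ m = s₂ + i * j₂ := by
  have h1 := Nat.div_add_mod m i
  by_cases h : 2 * (m / i) ≤ a
  · exact ⟨m % i, m % i, m / i, m / i, by omega, by omega, by omega, by omega⟩
  · push Not at h
    by_cases h' : m / i ≤ a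
    · have h2 : i * (a - m / i) ≤ i * (m / i) := Nat.mul_le_mul_left _ (by omega)
      have h3 : i * (m / i) + i * (a - m / i) = i * a := by
        rw [← mul_add]
        congr 1
        omega
      exact ⟨m % i, m - i * (a - m / i), m / i, a - m / i, by omega, by omega, by omega,
        by omega⟩
    · push Not at h'
      have h2 : i * a ≤ i * (m / i) := Nat.mul_le_mul_left _ h'.le
      exact ⟨m - i * a, m, a, 0, by omega, by omega, by omega, by rw [Nat.mul_zero, Nat.add_zero]⟩

end numeric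

end Cfsg.Agent.Lib.Helper40.Elusive
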