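import Cfsg.Agent.Lib.Helper40.Fitting

/-!
# The number of nilpotent matrices over a finite field (Fine–Herstein) and of unipotent
elements of `GL_n(q)` (Steinberg)
-/

set_option autoImplicit false

namespace Cfsg.Agent.Lib.Helper40

open Matrix

variable (F : Type*) [Field F] [Fintype F]

/-- The number of nilpotent `k × k` matrices. -/
noncomputable def nilCount (k : ℕ) : ℕ :=
  Nat.card {N : Matrix (Fin k) (Fin k) F // IsNilpotent N}

/-- The number of `n × n` matrices of stable rank `l`. -/
noncomputable def stabCount (n l : ℕ) : ℕ :=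
  Nat.card {M : Matrix (Fin n) (Fin n) F // (M ^ n).rank = l}

theorem stabCount_mul (k l : ℕ) :
    stabCount F (k + l) l * Nat.card (GL (Fin k) F) =
      Nat.card (GL (Fin (k + l)) F) * nilCount F k := by
  have h := fitting_count (F := F) (α := Fin k) (β := Fin l)
  have e1 : Nat.card {M : Matrix (Fin k ⊕ Fin l) (Fin k ⊕ Fin l) F //
      (M ^ (Fintype.card (Fin k) + Fintype.card (Fin l))).rank = Fintype.card (Fin l)} =
      stabCount F (k + l) l := by
    refine Nat.card_congr ((Matrix.reindexAlgEquiv F F finSumFinEquiv).toEquiv.subtypeEquiv ?_)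
    intro M
    simp only [Fintype.card_fin, AlgEquiv.toEquiv_eq_coe, EquivLike.coe_coe]
    rw [← map_pow, Matrix.coe_reindexAlgEquiv, Matrix.rank_reindex]
  have e2 : Nat.card (GL (Fin k ⊕ Fin l) F) = Nat.card (GL (Fin (k + l)) F) :=
    Nat.card_congr (Units.mapEquiv (Matrix.reindexAlgEquiv F F finSumFinEquiv).toMulEquiv).toEquiv
  rw [e1, e2] at h
  have hpos : 0 < Nat.card (GL (Fin l) F) := Nat.card_pos
  have h' : stabCount F (k + l) l * Nat.card (GL (Fin k) F) * Nat.card (GL (Fin l) F) =
      Nat.card (GL (Fin (k + l)) F) * nilCount F k * Nat.card (GL (Fin l) F) := by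
    unfold nilCount
    rw [mul_assoc, h, mul_assoc]
  exact Nat.eq_of_mul_eq_mul_right hpos h'

theorem card_GL_succ (n : ℕ) :
    Nat.card (GL (Fin (n + 1)) F) =
      (Fintype.card F ^ (n + 1) - 1) * Fintype.card F ^ n * Nat.card (GL (Fin n) F) := by
  rw [Matrix.card_GL_field, Matrix.card_GL_field, Fin.prod_univ_succ]
  simp only [Fin.val_zero, pow_zero, Fin.val_succ]
  have h : ∀ i : Fin n, Fintype.card F ^ (n + 1) - Fintype.card F ^ ((i : ℕ) + 1) =
      Fintype.card F * (Fintype.card F ^ n - Fintype.card F ^ (i : ℕ)) := by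
    intro i; rw [Nat.mul_sub, ← pow_succ', ← pow_succ']
  simp_rw [h]
  rw [Finset.prod_mul_distrib, Finset.prod_const, Finset.card_univ, Fintype.card_fin]
  ring

theorem sum_stabCount (n : ℕ) :
    ∑ l ∈ Finset.range (n + 1), stabCount F n l = Fintype.card F ^ (n * n) := by
  classical
  have h1 : Fintype.card (Matrix (Fin n) (Fin n) F) = Fintype.card F ^ (n * n) := by
    show Fintype.card (Fin n → Fin n → F) = _
    rw [Fintype.card_fun, Fintype.card_fun, Fintype.card_fin, ← pow_mul]
  rw [← h1, ← Finset.card_univ, Finset.card_eq_sum_card_fiberwise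
    (f := fun M : Matrix (Fin n) (Fin n) F => (M ^ n).rank) (t := Finset.range (n + 1))]
  · refine Finset.sum_congr rfl fun l _ => ?_
    unfold stabCount
    rw [Nat.card_eq_fintype_card, Fintype.card_subtype]
  · intro M _
    simp only [Finset.coe_range, Set.mem_Iio]
    have := Matrix.rank_le_width (M ^ n)
    omega

theorem nilCount_succ (n : ℕ) : nilCount F (n + 1) = Fintype.card F ^ ((n + 1) * n) := by
  have hg := card_GL_succ F
  have hgpos : ∀ k, 0 < Nat.card (GL (Fin k) F) := fun k => Nat.card_pos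
  have h0 : stabCount F (n + 1) 0 = nilCount F (n + 1) := by
    have := stabCount_mul F (n + 1) 0
    simp only [add_zero] at this
    rw [mul_comm] at this
    exact Nat.eq_of_mul_eq_mul_left (hgpos _) this
  have h1 : ∀ l' ∈ Finset.range (n + 1), stabCount F (n + 1) (l' + 1) =
      (Fintype.card F ^ (n + 1) - 1) * Fintype.card F ^ n * stabCount F n l' := by
    intro l' hl'
    rw [Finset.mem_range] at hl'
    obtain ⟨k, rfl⟩ : ∃ k, n = k + l' := ⟨n - l', by omega⟩
    have a1 := stabCount_mul F k (l' + 1)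
    have a2 := stabCount_mul F k l'
    rw [← add_assoc, hg] at a1
    apply Nat.eq_of_mul_eq_mul_right (hgpos k)
    rw [a1, mul_assoc _ _ (nilCount F k), ← a2]
    ring
  have hs1 := sum_stabCount F (n + 1)
  have hs0 := sum_stabCount F n
  rw [Finset.sum_range_succ', Finset.sum_congr rfl h1, ← Finset.mul_sum, hs0, h0] at hs1
  have hQ : 1 ≤ Fintype.card F ^ (n + 1) := Nat.one_le_pow _ _ Fintype.card_pos
  obtain ⟨Q', hQ'⟩ : ∃ Q', Fintype.card F ^ (n + 1) = Q' + 1 := ⟨_, (Nat.sub_add_cancel hQ).symm⟩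
  have e1 : Fintype.card F ^ ((n + 1) * (n + 1)) =
      Fintype.card F ^ (n + 1) * (Fintype.card F ^ n * Fintype.card F ^ (n * n)) := by ring
  have e2 : Fintype.card F ^ ((n + 1) * n) = Fintype.card F ^ n * Fintype.card F ^ (n * n) := by
    ring
  rw [e1, hQ'] at hs1
  rw [e2]
  simp only [Nat.add_sub_cancel] at hs1
  linarith [hs1]

/-- The number of elements of `p`-power order of `GL_n(q)` is `q^(n(n-1))`. -/
theorem card_unipotent_GL (p : ℕ) [Fact p.Prime] [CharP F p] (n : ℕ) :
    Nat.card {g : GL (Fin n) F // ∃ k : ℕ, orderOf g = p ^ k} =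
      Fintype.card F ^ (n * (n - 1)) := by
  rcases n with _ | n
  · have hu : ∀ g : GL (Fin 0) F, g = 1 := fun g => Units.ext (Subsingleton.elim _ _)
    simp only [Nat.zero_mul, pow_zero]
    rw [Nat.card_eq_one_iff_unique]
    refine ⟨⟨fun a b => Subtype.ext ((hu a.1).trans (hu b.1).symm)⟩, ⟨⟨1, 0, by simp⟩⟩⟩
  · rw [show (n + 1) * (n + 1 - 1) = (n + 1) * n by simp, ← nilCount_succ]
    unfold nilCount
    have hp := (Fact.out : p.Prime)
    refine Nat.card_congr ⟨fun g => ⟨g.1.val - 1, ?_⟩, fun N => ⟨N.2.isUnit_one_add.unit, ?_⟩,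
      ?_, ?_⟩
    · obtain ⟨k, hk⟩ := g.2
      refine ⟨p ^ k, ?_⟩
      rw [sub_pow_char_pow_of_commute p k (Commute.one_right _), one_pow, sub_eq_zero]
      have := pow_orderOf_eq_one g.1
      rw [hk] at this
      have h2 := congrArg Units.val this
      rwa [Units.val_pow_eq_pow_val] at h2
    · obtain ⟨m, hm⟩ := N.2
      have hle : m ≤ p ^ m := (Nat.lt_pow_self hp.one_lt).le
      have h1 : (N.2.isUnit_one_add.unit) ^ (p ^ m) = 1 := by
        apply Units.ext
        rw [Units.val_pow_eq_pow_val, IsUnit.unit_spec, Units.val_one,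
          add_pow_char_pow_of_commute p m (Commute.one_left _), one_pow]
        obtain ⟨d, hd⟩ := Nat.exists_eq_add_of_le hle
        rw [hd, pow_add, hm, zero_mul, add_zero]
      obtain ⟨j, -, hj⟩ := (Nat.dvd_prime_pow hp).mp (orderOf_dvd_of_pow_eq_one h1)
      exact ⟨j, hj⟩
    · intro g
      apply Subtype.ext
      apply Units.ext
      simp
    · intro N
      apply Subtype.ext
      simp

end Cfsg.Agent.Lib.Helper40
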