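-- Fixed flags and complementary pairs of elements of prime order of `SL_n(q)` (helper40).
import Mathlib
import Cfsg.Agent.Lib.Helper40.Elusive

set_option autoImplicit false

namespace Cfsg.Agent.Lib.Helper40.Elusive

open Polynomial Module

universe u v

section flag

variable {K : Type u} [Field K] {V : Type v} [AddCommGroup V] [Module K V] [FiniteDimensional K V]

/-- Two independent invariant subspaces of a semisimple endomorphism give an invariant flag. -/
theorem exists_flag (f : Module.End K V) (hf : f.IsSemisimple) (W₁ W₂ : Submodule K V)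
    (h1 : W₁ ∈ f.invtSubmodule) (h2 : W₂ ∈ f.invtSubmodule) (hd : Disjoint W₁ W₂) :
    ∃ W : Submodule K V, W ∈ f.invtSubmodule ∧ W₁ ≤ W ∧
      finrank K W + finrank K W₂ = finrank K V := by
  obtain ⟨C, hC, hc⟩ := (Module.End.isSemisimple_iff.1 hf) (W₁ ⊔ W₂)
    (Module.End.invtSubmodule.sup_mem h1 h2)
  refine ⟨W₁ ⊔ C, Module.End.invtSubmodule.sup_mem h1 hC, le_sup_left, ?_⟩
  have e1 := Submodule.finrank_sup_add_finrank_inf_eq W₁ W₂
  rw [disjoint_iff.1 hd, finrank_bot, add_zero] at e1
  have e2 : finrank K ↥(W₁ ⊔ W₂) + finrank K C = finrank K V :=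
    Submodule.finrank_add_eq_of_isCompl hc
  have e3 := Submodule.finrank_sup_add_finrank_inf_eq W₁ C
  have e4 : W₁ ⊓ C = ⊥ := by
    rw [eq_bot_iff]
    exact (inf_le_inf_right C le_sup_left).trans hc.disjoint.le_bot
  rw [e4, finrank_bot, add_zero] at e3
  omega

end flag

end Cfsg.Agent.Lib.Helper40.Elusive
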