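-- Complementary pairs fixed by elements of prime order of `SL_n(q)` (helper40).
import Mathlib
import Cfsg.Agent.Lib.Helper40.Elusive2
import Cfsg.Agent.Lib.Helper40.Jordan

set_option autoImplicit false

namespace Cfsg.Agent.Lib.Helper40.Elusive

open Polynomial Module

universe u v

section pairs

variable {F : Type u} [Field F] [Fintype F] {V : Type v} [AddCommGroup V] [Module F V] [Finite V]

/-- The complements of `U` correspond to the linear maps from a fixed complement to `U`. -/
noncomputable def complEquiv (U C : Submodule F V) (h : IsCompl U C) :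
    {W : Submodule F V // IsCompl U W} ≃ (C →ₗ[F] U) :=
  (Submodule.isComplEquivProj U).trans
    { toFun := fun f => f.1.comp C.subtype
      invFun := fun φ => ⟨LinearMap.ofIsCompl h LinearMap.id φ, fun x => by
        rw [LinearMap.ofIsCompl_apply_left]
        rfl⟩
      left_inv := fun f => by
        apply Subtype.ext
        exact LinearMap.ofIsCompl_eq h (fun u => (f.2 u).symm) (fun u => rfl)
      right_inv := fun φ => by
        apply LinearMap.ext
        intro c
        show LinearMap.ofIsCompl h LinearMap.id φ (c : V) = φ c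
        rw [LinearMap.ofIsCompl_apply_right] }

theorem card_compl (U : Submodule F V) :
    Nat.card {W : Submodule F V // IsCompl U W} =
      Fintype.card F ^ ((finrank F V - finrank F U) * finrank F U) := by
  classical
  obtain ⟨C, hC⟩ := Submodule.exists_isCompl U
  have : Finite (C →ₗ[F] U) := Finite.of_injective (fun f => (f : C → U)) DFunLike.coe_injective
  have : Fintype (C →ₗ[F] U) := Fintype.ofFinite _
  rw [Nat.card_congr (complEquiv U C hC), Nat.card_eq_fintype_card,
    Module.card_eq_pow_finrank (K := F), Module.finrank_linearMap]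
  have h1 := Submodule.finrank_add_eq_of_isCompl hC
  congr 2
  omega

/-- The number of pairs of complementary subspaces. -/
theorem card_pairs (n m : ℕ) :
    Nat.card {P : Submodule F (Fin n → F) × Submodule F (Fin n → F) //
        IsCompl P.1 P.2 ∧ finrank F P.1 = m} =
      Nat.card {W : Submodule F (Fin n → F) // finrank F W = m} *
        Fintype.card F ^ ((n - m) * m) := by
  classical
  let φ : {P : Submodule F (Fin n → F) × Submodule F (Fin n → F) //
        IsCompl P.1 P.2 ∧ finrank F P.1 = m} →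
      {W : Submodule F (Fin n → F) // finrank F W = m} := fun P => ⟨P.1.1, P.2.2⟩
  rw [← Nat.card_congr (Equiv.sigmaFiberEquiv φ), Nat.card_sigma]
  have h3 : ∀ U : {W : Submodule F (Fin n → F) // finrank F W = m},
      Nat.card {P : {P : Submodule F (Fin n → F) × Submodule F (Fin n → F) //
        IsCompl P.1 P.2 ∧ finrank F P.1 = m} // φ P = U} =
      Fintype.card F ^ ((n - m) * m) := by
    intro U
    have e : {P : {P : Submodule F (Fin n → F) × Submodule F (Fin n → F) //
        IsCompl P.1 P.2 ∧ finrank F P.1 = m} // φ P = U} ≃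
        {W : Submodule F (Fin n → F) // IsCompl U.1 W} :=
      { toFun := fun P => ⟨P.1.1.2, by
          have h := Subtype.ext_iff.1 P.2
          have h' : P.1.1.1 = U.1 := h
          rw [← h']
          exact P.1.2.1⟩
        invFun := fun W => ⟨⟨(U.1, W.1), W.2, U.2⟩, rfl⟩
        left_inv := fun P => by
          have h := Subtype.ext_iff.1 P.2
          have h' : P.1.1.1 = U.1 := h
          apply Subtype.ext
          apply Subtype.ext
          exact Prod.ext h'.symm rfl
        right_inv := fun W => rfl }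
    rw [Nat.card_congr e, card_compl, U.2]
    simp
  rw [Finset.sum_congr rfl (fun W _ => h3 W), Finset.sum_const, Finset.card_univ,
    ← Nat.card_eq_fintype_card, smul_eq_mul]

/-- A prime different from the characteristic dividing the number of complementary pairs
divides the number of subspaces. -/
theorem dvd_card_of_dvd_pairs {p : ℕ} [Fact p.Prime] [CharP F p] (n m r : ℕ) [Fact r.Prime]
    (hrp : r ≠ p)
    (h : r ∣ Nat.card {P : Submodule F (Fin n → F) × Submodule F (Fin n → F) //
        IsCompl P.1 P.2 ∧ finrank F P.1 = m}) :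
    r ∣ Nat.card {W : Submodule F (Fin n → F) // finrank F W = m} := by
  have hp : p.Prime := Fact.out
  have hr : r.Prime := Fact.out
  rw [card_pairs] at h
  rcases (Nat.Prime.dvd_mul hr).1 h with h1 | h1
  · exact h1
  · exfalso
    have h2 := hr.dvd_of_dvd_pow h1
    obtain ⟨f, -, hf⟩ := FiniteField.card F p
    rw [hf] at h2
    have h3 := hr.dvd_of_dvd_pow h2
    exact hrp ((Nat.prime_dvd_prime_iff_eq hr hp).1 h3)

end pairs

section unip

variable {F : Type u} [Field F]

theorem rk_add (μ ν : Multiset ℕ) (j : ℕ) :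
    Jordan.rk (μ + ν) j = Jordan.rk μ j + Jordan.rk ν j := by
  simp [Jordan.rk]

theorem nilp_restrict {V : Type v} [AddCommGroup V] [Module F V] (T : Module.End F V)
    (hT : IsNilpotent T) (U : Submodule F V) (hU : U ∈ T.invtSubmodule) :
    IsNilpotent (T.restrict (p := U) (q := U) hU) := by
  obtain ⟨k, hk⟩ := hT
  refine ⟨k, ?_⟩
  apply LinearMap.ext
  intro x
  apply Subtype.ext
  rw [pow_restrict_apply T U hU k x, hk]
  rfl

/-- The Jordan type of the restriction of a nilpotent endomorphism to an invariant direct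
summand is a sub-multiset of its Jordan type. -/
theorem type_split {V : Type v} [AddCommGroup V] [Module F V] [FiniteDimensional F V]
    (T : Module.End F V) (hT : IsNilpotent T) (U W : Submodule F V) (hU : U ∈ T.invtSubmodule)
    (hW : W ∈ T.invtSubmodule) (hc : IsCompl U W) (μ : Multiset ℕ) (hμ : ∀ a ∈ μ, 0 < a)
    (hr : ∀ j, finrank F (LinearMap.range (T ^ j)) = Jordan.rk μ j) :
    ∃ ν : Multiset ℕ, ν ≤ μ ∧ ν.sum = finrank F U := by
  obtain ⟨ν, hν, hνr⟩ := Jordan.exists_type (finrank F U) U (T.restrict (p := U) (q := U) hU) rfl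
    (nilp_restrict T hT U hU)
  obtain ⟨ν', hν', hν'r⟩ := Jordan.exists_type (finrank F W) W
    (T.restrict (p := W) (q := W) hW) rfl (nilp_restrict T hT W hW)
  have hconj : Jordan.Conj ((T.restrict (p := U) (q := U) hU).prodMap
      (T.restrict (p := W) (q := W) hW)) T :=
    ⟨Submodule.prodEquivOfIsCompl U W hc, fun x => by
      obtain ⟨a, b⟩ := x
      simp only [Submodule.coe_prodEquivOfIsCompl', LinearMap.prodMap_apply, map_add]
      rfl⟩
  have key : μ = ν + ν' := by
    apply Jordan.rk_injective hμ (fun a ha => (Multiset.mem_add.1 ha).elim (hν a) (hν' a))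
    intro j
    rw [← hr, ← hconj.finrank_range_pow j, Jordan.finrank_range_prodMap_pow, hνr, hν'r, rk_add]
  refine ⟨ν, by rw [key]; exact Multiset.le_add_right _ _, ?_⟩
  have h0 := hνr 0
  rw [Jordan.finrank_range_pow_zero, Jordan.rk_zero] at h0
  exact h0.symm

theorem exists_sub_two (μ : Multiset ℕ) (hμ : ∀ a ∈ μ, 0 < a ∧ a ≤ 2) (n m : ℕ)
    (hsum : μ.sum = n) (hmn : m ≤ n) (h : Odd n ∨ Even m) :
    ∃ ν : Multiset ℕ, ν ≤ μ ∧ ν.sum = m := by
  have hμ' : μ = Multiset.replicate (Multiset.count 2 μ) 2 +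
      Multiset.replicate (Multiset.count 1 μ) 1 := by
    ext c
    rw [Multiset.count_add, Multiset.count_replicate, Multiset.count_replicate]
    by_cases h1 : c = 1
    · subst h1
      simp
    · by_cases h2 : c = 2
      · subst h2
        simp
      · rw [if_neg (Ne.symm h2), if_neg (Ne.symm h1)]
        apply Multiset.count_eq_zero_of_notMem
        intro hc
        have := hμ c hc
        omega
  have hn : n = 2 * Multiset.count 2 μ + Multiset.count 1 μ := by
    rw [← hsum]
    conv_lhs => rw [hμ']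
    rw [Multiset.sum_add, Multiset.sum_replicate, Multiset.sum_replicate]
    simp [mul_comm]
  rw [Nat.odd_iff, Nat.even_iff] at h
  set a := Multiset.count 2 μ with ha
  set b := Multiset.count 1 μ with hb
  refine ⟨Multiset.replicate (min a (m / 2)) 2 + Multiset.replicate (m - 2 * min a (m / 2)) 1,
    ?_, ?_⟩
  · rw [hμ']
    apply add_le_add
    · exact (Multiset.replicate_le_replicate 2).2 (min_le_left _ _)
    · apply (Multiset.replicate_le_replicate 1).2
      rcases le_total a (m / 2) with h1 | h1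
      · rw [min_eq_left h1]
        omega
      · rw [min_eq_right h1]
        omega
  · rw [Multiset.sum_add, Multiset.sum_replicate, Multiset.sum_replicate]
    simp only [smul_eq_mul, mul_one]
    have h1 : min a (m / 2) ≤ m / 2 := min_le_right _ _
    omega

section charp

variable [Fintype F]

/-- Elements of order `p`: a fixed complementary pair gives a sub-multiset of the Jordan type. -/
theorem fwd_p {p : ℕ} [Fact p.Prime] [CharP F p] (n m : ℕ) (hmn : m ≤ n)
    (hL : ∀ x : Matrix.SpecialLinearGroup (Fin n) F,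
      (∃ c : F, ((x ^ p : Matrix.SpecialLinearGroup (Fin n) F) : Matrix (Fin n) (Fin n) F) =
        c • (1 : Matrix (Fin n) (Fin n) F)) →
      (∀ c : F, (x : Matrix (Fin n) (Fin n) F) ≠ c • (1 : Matrix (Fin n) (Fin n) F)) →
      ∃ U W : Submodule F (Fin n → F), IsCompl U W ∧ Module.finrank F ↥U = m ∧
        U.map (Matrix.toLin' (x : Matrix (Fin n) (Fin n) F)) ≤ U ∧
        W.map (Matrix.toLin' (x : Matrix (Fin n) (Fin n) F)) ≤ W)
    (μ : Multiset ℕ) (hμ : ∀ a ∈ μ, 0 < a ∧ a ≤ p) (hsum : μ.sum = n) :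
    ∃ ν : Multiset ℕ, ν ≤ μ ∧ ν.sum = m := by
  have hp : p.Prime := Fact.out
  obtain ⟨M, hM⟩ := Jordan.exists_matrix (F := F)
    (⟨μ, fun {i} hi => (hμ i hi).1, hsum⟩ : Nat.Partition n)
  change ∀ j, (M ^ j).rank = Jordan.rk μ j at hM
  have hMp : M ^ p = 0 := (Jordan.mat_pow_eq_zero_iff hM p).2 (fun a ha => (hμ a ha).2)
  have hxp : (1 + M) ^ p = 1 := by
    have h1 := Jordan.sub_one_pow_char_pow p (1 + M) 1
    rw [pow_one, add_sub_cancel_left, hMp] at h1
    exact sub_eq_zero.1 h1.symm
  have hdet : (1 + M).det = 1 := by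
    have h1 : (1 + M).det ^ p = 1 := by rw [← Matrix.det_pow, hxp, Matrix.det_one]
    have h2 : ((1 + M).det - 1) ^ p = 0 := by rw [sub_pow_char, h1, one_pow, sub_self]
    exact sub_eq_zero.1 ((pow_eq_zero_iff hp.ne_zero).1 h2)
  by_cases hM0 : M = 0
  · have h1 : ∀ a ∈ μ, a ≤ 1 := (Jordan.mat_pow_eq_zero_iff hM 1).1 (by rw [pow_one, hM0])
    have h1' : ∀ a ∈ μ, a = 1 := fun a ha => le_antisymm (h1 a ha) (hμ a ha).1
    have h2 : μ = Multiset.replicate n 1 := by
      have h3 := Multiset.eq_replicate_card.2 h1'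
      have h4 : μ.sum = Multiset.card μ := by
        conv_lhs => rw [h3]
        simp
      rw [h3]
      congr 1
      omega
    refine ⟨Multiset.replicate m 1, ?_, by simp⟩
    rw [h2]
    exact (Multiset.replicate_le_replicate 1).2 hmn
  · have hn0 : 0 < n := by
      rcases Nat.eq_zero_or_pos n with h | h
      · subst h
        exact absurd (Subsingleton.elim M 0) hM0
      · exact h
    obtain ⟨x0, hx0⟩ : ∃ x0 : Matrix.SpecialLinearGroup (Fin n) F,
        (x0 : Matrix (Fin n) (Fin n) F) = 1 + M := ⟨⟨1 + M, hdet⟩, rfl⟩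
    obtain ⟨U, W, hc, hU, hUi, hWi⟩ := hL x0
      ⟨1, by rw [Matrix.SpecialLinearGroup.coe_pow, one_smul, hx0]; exact hxp⟩ (by
        intro c hc
        have hc' : (1 + M : Matrix (Fin n) (Fin n) F) = c • (1 : Matrix (Fin n) (Fin n) F) := by
          rw [← hx0]
          exact hc
        have h1 : M = (c - 1) • (1 : Matrix (Fin n) (Fin n) F) := by
          rw [sub_smul, one_smul, ← hc']
          abel
        have h2 : ((c - 1) ^ p) • (1 : Matrix (Fin n) (Fin n) F) =
            (0 : F) • (1 : Matrix (Fin n) (Fin n) F) := by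
          rw [zero_smul, ← hMp, h1, _root_.smul_pow, one_pow]
        have h3 := PGLClasses.scalar_inj hn0 _ _ h2
        have h4 : c - 1 = 0 := (pow_eq_zero_iff hp.ne_zero).1 h3
        apply hM0
        rw [h1, h4, zero_smul])
    rw [hx0] at hUi hWi
    have hnil : IsNilpotent (Matrix.toLin' M) := by
      obtain ⟨k, hk⟩ := Jordan.isNilpotent_of_rank hM
      exact ⟨k, by rw [← Matrix.toLin'_pow, hk, map_zero]⟩
    have key : ∀ U : Submodule F (Fin n → F),
        U.map (Matrix.toLin' (1 + M)) ≤ U → U ∈ Module.End.invtSubmodule (Matrix.toLin' M) := by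
      intro U hU
      rw [Module.End.mem_invtSubmodule_iff_forall_mem_of_mem]
      intro u hu
      have h1 : Matrix.toLin' (1 + M) u ∈ U := hU ⟨u, hu, rfl⟩
      rw [map_add, Matrix.toLin'_one, LinearMap.add_apply, LinearMap.id_apply] at h1
      have h2 := U.sub_mem h1 hu
      rwa [add_sub_cancel_left] at h2
    obtain ⟨ν, hν, hνs⟩ := type_split (Matrix.toLin' M) hnil U W (key U hUi) (key W hWi) hc μ
      (fun a ha => (hμ a ha).1) (fun j => by rw [← Jordan.rank_pow_eq, hM])
    exact ⟨ν, hν, hνs.trans hU⟩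

/-- Elements of order `p`: a sub-multiset of the Jordan type gives a fixed complementary pair. -/
theorem bwd_p {p : ℕ} [Fact p.Prime] [CharP F p] (n m : ℕ) (hn : n ≠ 0)
    (x : Matrix.SpecialLinearGroup (Fin n) F) (c : F)
    (hx : (x : Matrix (Fin n) (Fin n) F) ^ p = c • (1 : Matrix (Fin n) (Fin n) F))
    (hν : ∀ μ : Multiset ℕ, (∀ a ∈ μ, 0 < a ∧ a ≤ p) → μ.sum = n →
      ∃ ν : Multiset ℕ, ν ≤ μ ∧ ν.sum = m) :
    ∃ U W : Submodule F (Fin n → F), IsCompl U W ∧ Module.finrank F ↥U = m ∧
      U.map (Matrix.toLin' (x : Matrix (Fin n) (Fin n) F)) ≤ U ∧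
      W.map (Matrix.toLin' (x : Matrix (Fin n) (Fin n) F)) ≤ W := by
  have hp : p.Prime := Fact.out
  obtain ⟨b, hb⟩ : ∃ b : F, b ^ p = c :=
    Finite.surjective_of_injective (frobenius_inj F p) c
  have hc0 : c ≠ 0 := by
    rintro rfl
    have h1 := congrArg Matrix.det hx
    have : Nonempty (Fin n) := ⟨⟨0, Nat.pos_of_ne_zero hn⟩⟩
    rw [Matrix.det_pow, x.det_coe, one_pow, zero_smul, Matrix.det_zero] at h1
    exact one_ne_zero h1
  have hb0 : b ≠ 0 := by
    rintro rfl
    rw [zero_pow hp.ne_zero] at hb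
    exact hc0 hb.symm
  have hyp : (b⁻¹ • (x : Matrix (Fin n) (Fin n) F)) ^ p = 1 := by
    rw [_root_.smul_pow, hx, smul_smul, inv_pow, hb, inv_mul_cancel₀ hc0, one_smul]
  obtain ⟨M, hMdef⟩ : ∃ M : Matrix (Fin n) (Fin n) F,
      M = b⁻¹ • (x : Matrix (Fin n) (Fin n) F) - 1 := ⟨_, rfl⟩
  have hMp : M ^ p = 0 := by
    have h1 := Jordan.sub_one_pow_char_pow p (b⁻¹ • (x : Matrix (Fin n) (Fin n) F)) 1
    rw [pow_one, hyp, sub_self, ← hMdef] at h1
    exact h1
  have hxM : (x : Matrix (Fin n) (Fin n) F) = b • (M + 1) := by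
    rw [hMdef, sub_add_cancel, smul_smul, mul_inv_cancel₀ hb0, one_smul]
  obtain ⟨μ, hμ⟩ := Jordan.exists_partition M ⟨p, hMp⟩
  obtain ⟨ν, hle, hsum⟩ := hν μ.parts
    (fun a ha => ⟨μ.parts_pos ha, (Jordan.mat_pow_eq_zero_iff hμ p).1 hMp a ha⟩) μ.parts_sum
  obtain ⟨ν', hν'⟩ : ∃ ν', μ.parts = ν + ν' := ⟨μ.parts - ν, (add_tsub_cancel_of_le hle).symm⟩
  obtain ⟨n₁, T₁, hT₁⟩ := Jordan.exists_model (F := F) ν
  obtain ⟨n₂, T₂, hT₂⟩ := Jordan.exists_model (F := F) ν'
  have hn₁ : n₁ = m := by
    have h0 := hT₁ 0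
    rw [Jordan.finrank_range_pow_zero, Jordan.rk_zero, Module.finrank_fin_fun] at h0
    omega
  have hTnil : IsNilpotent (Matrix.toLin' M) :=
    ⟨p, by rw [← Matrix.toLin'_pow, hMp, map_zero]⟩
  obtain ⟨e, he⟩ := Jordan.conj_of_rank_eq n (Fin n → F) ((Fin n₁ → F) × (Fin n₂ → F))
    (Matrix.toLin' M) (T₁.prodMap T₂) (by simp) hTnil (fun j => by
      rw [← Jordan.rank_pow_eq, hμ, hν', rk_add, Jordan.finrank_range_prodMap_pow, hT₁, hT₂])
  have hnn : n = n₁ + n₂ := by
    have h1 := e.finrank_eq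
    simpa using h1
  let g₂ : (Fin n → F) →ₗ[F] (Fin n₂ → F) :=
    (LinearMap.snd F (Fin n₁ → F) (Fin n₂ → F)).comp (e : (Fin n → F) →ₗ[F] _)
  let g₁ : (Fin n → F) →ₗ[F] (Fin n₁ → F) :=
    (LinearMap.fst F (Fin n₁ → F) (Fin n₂ → F)).comp (e : (Fin n → F) →ₗ[F] _)
  have hg₂ : ∀ v, g₂ v = (e v).2 := fun v => rfl
  have hg₁ : ∀ v, g₁ v = (e v).1 := fun v => rfl
  have hsurj₂ : Function.Surjective g₂ := by
    intro w
    refine ⟨e.symm (0, w), ?_⟩
    rw [hg₂, LinearEquiv.apply_symm_apply]
  have hfrU : finrank F (LinearMap.ker g₂) = m := by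
    have h1 := LinearMap.finrank_range_add_finrank_ker g₂
    rw [LinearMap.range_eq_top.2 hsurj₂, finrank_top, Module.finrank_fin_fun,
      Module.finrank_fin_fun] at h1
    omega
  have hcompl : IsCompl (LinearMap.ker g₂) (LinearMap.ker g₁) := by
    constructor
    · rw [Submodule.disjoint_def]
      intro v h1 h2
      rw [LinearMap.mem_ker, hg₂] at h1
      rw [LinearMap.mem_ker, hg₁] at h2
      have h3 : e v = 0 := Prod.ext h2 h1
      exact (LinearEquiv.map_eq_zero_iff e).1 h3
    · rw [Submodule.codisjoint_iff_exists_add_eq]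
      intro v
      refine ⟨e.symm ((e v).1, 0), e.symm (0, (e v).2), ?_, ?_, ?_⟩
      · rw [LinearMap.mem_ker, hg₂, LinearEquiv.apply_symm_apply]
      · rw [LinearMap.mem_ker, hg₁, LinearEquiv.apply_symm_apply]
      · rw [← map_add, Prod.mk_add_mk, add_zero, zero_add, LinearEquiv.symm_apply_apply]
  have hinvU : ∀ v ∈ LinearMap.ker g₂,
      Matrix.toLin' (x : Matrix (Fin n) (Fin n) F) v ∈ LinearMap.ker g₂ := by
    intro v hv
    rw [LinearMap.mem_ker, hg₂] at hv ⊢
    rw [hxM, map_smul, map_add, Matrix.toLin'_one, LinearMap.smul_apply, LinearMap.add_apply,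
      LinearMap.id_apply, map_smul, map_add, he, Prod.smul_snd, Prod.snd_add,
      LinearMap.prodMap_apply, hv, map_zero, add_zero, smul_zero]
  have hinvW : ∀ v ∈ LinearMap.ker g₁,
      Matrix.toLin' (x : Matrix (Fin n) (Fin n) F) v ∈ LinearMap.ker g₁ := by
    intro v hv
    rw [LinearMap.mem_ker, hg₁] at hv ⊢
    rw [hxM, map_smul, map_add, Matrix.toLin'_one, LinearMap.smul_apply, LinearMap.add_apply,
      LinearMap.id_apply, map_smul, map_add, he, Prod.smul_fst, Prod.fst_add,
      LinearMap.prodMap_apply, hv, map_zero, add_zero, smul_zero]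
  refine ⟨LinearMap.ker g₂, LinearMap.ker g₁, hcompl, hfrU, ?_, ?_⟩
  · rintro _ ⟨v, hv, rfl⟩
    exact hinvU v hv
  · rintro _ ⟨v, hv, rfl⟩
    exact hinvW v hv

end charp

end unip

end Cfsg.Agent.Lib.Helper40.Elusive
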