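-- helper40: subfield subgroups of SL_n and elements of order 2 modulo scalars.
import Mathlib
import Cfsg.Prelude.Def_GeometricClasses
import Cfsg.Agent.Lib.Helper40.Elusive
import Cfsg.Agent.Lib.Helper40.SLSylow

set_option autoImplicit false

namespace Cfsg.Agent.Lib.Helper40.Subf

open Matrix Polynomial

section Basic

variable {F : Type*} [Field F] {n : ℕ}

theorem mem_sub_of (F₀ : Subfield F) (E : GL (Fin n) F) (c : F) (hc : c ≠ 0)
    (B₀ : Matrix (Fin n) (Fin n) F₀)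
    (h : (E : Matrix (Fin n) (Fin n) F) = c • B₀.map F₀.subtype) :
    E ∈ Cfsg.Geo.subfieldSubgroup F₀ 1 := by
  classical
  have hEdet : (E : Matrix (Fin n) (Fin n) F).det ≠ 0 :=
    ((Matrix.isUnit_iff_isUnit_det _).mp E.isUnit).ne_zero
  have hB₀det : B₀.det ≠ 0 := by
    intro h0
    apply hEdet
    have := RingHom.map_det F₀.subtype B₀
    rw [h0, map_zero] at this
    rw [h, Matrix.det_smul, ← RingHom.mapMatrix_apply, ← this, mul_zero]
  obtain ⟨A₀, hA₀⟩ : ∃ A₀ : GL (Fin n) F₀,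
      A₀ = Matrix.GeneralLinearGroup.mkOfDetNeZero B₀ hB₀det := ⟨_, rfl⟩
  have hA : ((Matrix.GeneralLinearGroup.map F₀.subtype A₀ : GL (Fin n) F) :
      Matrix (Fin n) (Fin n) F) = B₀.map F₀.subtype := by
    ext i j
    rw [Matrix.GeneralLinearGroup.map_apply, hA₀]
    rfl
  obtain ⟨s, hs⟩ : ∃ s : GL (Fin n) F, s = Units.map
      (Matrix.scalar (Fin n) : F →+* Matrix (Fin n) (Fin n) F).toMonoidHom (Units.mk0 c hc) :=
    ⟨_, rfl⟩
  have hsmem : s ∈ Cfsg.Geo.scalars (Fin n) F := by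
    rw [hs]
    exact ⟨Units.mk0 c hc, rfl⟩
  have hsval : (s : Matrix (Fin n) (Fin n) F) = c • (1 : Matrix (Fin n) (Fin n) F) := by
    rw [hs]
    simp [Matrix.smul_one_eq_diagonal]
  have hE : E = MulAut.conj (1 : GL (Fin n) F)
      (Matrix.GeneralLinearGroup.map F₀.subtype A₀ * s) := by
    rw [MulAut.conj_apply]
    apply Units.ext
    rw [one_mul, inv_one, mul_one, Units.val_mul, hA, hsval, h, Matrix.mul_smul, Matrix.mul_one]
  unfold Cfsg.Geo.subfieldSubgroup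
  rw [hE]
  exact Subgroup.mem_map_of_mem _ (Subgroup.mul_mem_sup ⟨A₀, rfl⟩ hsmem)

theorem exists_of_mem_sub (F₀ : Subfield F) (E : GL (Fin n) F)
    (hE : E ∈ Cfsg.Geo.subfieldSubgroup F₀ 1) :
    ∃ (c : F) (B₀ : Matrix (Fin n) (Fin n) F₀), c ≠ 0 ∧
      (E : Matrix (Fin n) (Fin n) F) = c • B₀.map F₀.subtype := by
  unfold Cfsg.Geo.subfieldSubgroup at hE
  obtain ⟨X, hX, rfl⟩ := Subgroup.mem_map.mp hE
  obtain ⟨Y, ⟨A₀, rfl⟩, S, hS, rfl⟩ := Subgroup.mem_sup_of_normal_right.mp hX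
  obtain ⟨c, hc⟩ := (Cfsg.Geo.mem_scalars_iff S).mp hS
  refine ⟨c, (A₀ : Matrix (Fin n) (Fin n) F₀), c.ne_zero, ?_⟩
  have e : ((MulAut.conj (1 : GL (Fin n) F)).toMonoidHom
        (Matrix.GeneralLinearGroup.map F₀.subtype A₀ * S) : GL (Fin n) F) =
        1 * (Matrix.GeneralLinearGroup.map F₀.subtype A₀ * S) * 1⁻¹ := rfl
  rw [e, one_mul, inv_one, mul_one, Units.val_mul, hc, Matrix.mul_smul, Matrix.mul_one]
  congr 1

/-- conjugating into the subfield subgroup, given a `GL`-conjugation to a rational matrix and a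
centralising element of the right determinant. -/
theorem conj_mem (F₀ : Subfield F) (x : Matrix.SpecialLinearGroup (Fin n) F) (b : F) (hb : b ≠ 0)
    (B₀ : Matrix (Fin n) (Fin n) F₀) (g c : GL (Fin n) F)
    (hg : (g : Matrix (Fin n) (Fin n) F) * (x : Matrix (Fin n) (Fin n) F) =
      (b • B₀.map F₀.subtype) * (g : Matrix (Fin n) (Fin n) F))
    (hc : (c : Matrix (Fin n) (Fin n) F) * B₀.map F₀.subtype =
      B₀.map F₀.subtype * (c : Matrix (Fin n) (Fin n) F))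
    (hdet : (c : Matrix (Fin n) (Fin n) F).det = (g : Matrix (Fin n) (Fin n) F).det) :
    ∃ P : Matrix.SpecialLinearGroup (Fin n) F, P⁻¹ * x * P ∈
      (Cfsg.Geo.subfieldSubgroup F₀ 1).comap (Matrix.SpecialLinearGroup.toGL :
        Matrix.SpecialLinearGroup (Fin n) F →* GL (Fin n) F) := by
  have hgdet : (g : Matrix (Fin n) (Fin n) F).det ≠ 0 :=
    ((Matrix.isUnit_iff_isUnit_det _).mp g.isUnit).ne_zero
  have hPdet : (((g⁻¹ * c : GL (Fin n) F)) : Matrix (Fin n) (Fin n) F).det = 1 := by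
    have h1 : ((g⁻¹ : GL (Fin n) F) : Matrix (Fin n) (Fin n) F).det *
        (g : Matrix (Fin n) (Fin n) F).det = 1 := by
      rw [← Matrix.det_mul, ← Units.val_mul, inv_mul_cancel, Units.val_one, Matrix.det_one]
    rw [Units.val_mul, Matrix.det_mul, hdet, h1]
  obtain ⟨P, hP⟩ : ∃ P : Matrix.SpecialLinearGroup (Fin n) F,
      (P : Matrix (Fin n) (Fin n) F) = ((g⁻¹ * c : GL (Fin n) F) : Matrix (Fin n) (Fin n) F) :=
    ⟨⟨_, hPdet⟩, rfl⟩
  refine ⟨P, ?_⟩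
  rw [Subgroup.mem_comap]
  apply mem_sub_of F₀ _ b hb B₀
  have h1 : (x : Matrix (Fin n) (Fin n) F) * (P : Matrix (Fin n) (Fin n) F) =
      (P : Matrix (Fin n) (Fin n) F) * (b • B₀.map F₀.subtype) := by
    have h2 : (x : Matrix (Fin n) (Fin n) F) * ((g⁻¹ : GL (Fin n) F) : Matrix (Fin n) (Fin n) F) =
        ((g⁻¹ : GL (Fin n) F) : Matrix (Fin n) (Fin n) F) * (b • B₀.map F₀.subtype) := by
      have h3 : ((g⁻¹ : GL (Fin n) F) : Matrix (Fin n) (Fin n) F) *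
          ((g : Matrix (Fin n) (Fin n) F) * (x : Matrix (Fin n) (Fin n) F)) *
          ((g⁻¹ : GL (Fin n) F) : Matrix (Fin n) (Fin n) F) =
          ((g⁻¹ : GL (Fin n) F) : Matrix (Fin n) (Fin n) F) *
          ((b • B₀.map F₀.subtype) * (g : Matrix (Fin n) (Fin n) F)) *
          ((g⁻¹ : GL (Fin n) F) : Matrix (Fin n) (Fin n) F) := by rw [hg]
      rw [← Matrix.mul_assoc, ← Units.val_mul, inv_mul_cancel, Units.val_one, Matrix.one_mul,
        Matrix.mul_assoc, Matrix.mul_assoc, ← Units.val_mul, mul_inv_cancel, Units.val_one,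
        Matrix.mul_one] at h3
      exact h3
    rw [hP, Units.val_mul, ← Matrix.mul_assoc, h2, Matrix.mul_assoc, Matrix.mul_assoc,
      Matrix.smul_mul, Matrix.mul_smul, Matrix.mul_smul, Matrix.mul_smul, hc]
  have h4 : ((Matrix.SpecialLinearGroup.toGL (P⁻¹ * x * P) : GL (Fin n) F) :
      Matrix (Fin n) (Fin n) F) =
      ((P⁻¹ : Matrix.SpecialLinearGroup (Fin n) F) : Matrix (Fin n) (Fin n) F) *
        ((x : Matrix (Fin n) (Fin n) F) * (P : Matrix (Fin n) (Fin n) F)) := by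
    rw [Matrix.SpecialLinearGroup.coe_GL_coe_matrix, Matrix.SpecialLinearGroup.coe_mul,
      Matrix.SpecialLinearGroup.coe_mul, Matrix.mul_assoc]
  rw [h4, h1, ← Matrix.mul_assoc, ← Matrix.SpecialLinearGroup.coe_mul, inv_mul_cancel,
    Matrix.SpecialLinearGroup.coe_one, Matrix.one_mul]

end Basic

section Index

theorem geom_odd (a b k : ℕ) (ha : Odd a) (hb : Odd b) (hk : Odd k) :
    Odd (∑ l ∈ Finset.range k, a ^ l * b ^ (k - 1 - l)) := by
  rw [Finset.odd_sum_iff_odd_card_odd]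
  have : (Finset.range k).filter (fun l => Odd (a ^ l * b ^ (k - 1 - l))) = Finset.range k := by
    apply Finset.filter_true_of_mem
    intro l _
    exact (ha.pow).mul (hb.pow)
  rw [this, Finset.card_range]
  exact hk

theorem card_SL_ratio {F : Type*} [Field F] [Fintype F] {q : ℕ} (hq : Fintype.card F = q) (n : ℕ)
    (hn : 1 ≤ n) (F₀ : Subfield F) (k q₀ : ℕ) (hF₀ : Nat.card ↥F₀ = q₀) (hqk : q = q₀ ^ k)
    (hk : Odd k) (hq₀ : Odd q₀) :
    ∃ s t : ℕ, Odd s ∧ Odd t ∧ Nat.card (Matrix.SpecialLinearGroup (Fin n) F) * s =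
      Nat.card (Matrix.SpecialLinearGroup (Fin n) ↥F₀) * t := by
  classical
  have : Fintype ↥F₀ := Fintype.ofFinite _
  have hc₀ : Fintype.card ↥F₀ = q₀ := by rw [← hF₀, Nat.card_eq_fintype_card]
  have h1 := Cfsg.Agent.Lib.Helper40.card_GL_eq_card_SL_mul (F := F) n hn
  have h2 := Matrix.card_GL_field (𝔽 := F) (n := n)
  have h1₀ := Cfsg.Agent.Lib.Helper40.card_GL_eq_card_SL_mul (F := ↥F₀) n hn
  have h2₀ := Matrix.card_GL_field (𝔽 := ↥F₀) (n := n)
  rw [hq] at h1 h2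
  rw [hc₀] at h1₀ h2₀
  have hq₀2 : 2 ≤ q₀ := by
    rw [← hc₀]
    exact Fintype.one_lt_card
  have hS : q - 1 = (∑ l ∈ Finset.range k, q₀ ^ l * 1 ^ (k - 1 - l)) * (q₀ - 1) := by
    rw [geom_sum₂_mul_of_ge (by omega : 1 ≤ q₀) k, one_pow, hqk]
  have hT : ∀ i : Fin n, q ^ n - q ^ (i : ℕ) =
      (∑ l ∈ Finset.range k, (q₀ ^ n) ^ l * (q₀ ^ (i : ℕ)) ^ (k - 1 - l)) *
        (q₀ ^ n - q₀ ^ (i : ℕ)) := by
    intro i
    rw [geom_sum₂_mul_of_ge (Nat.pow_le_pow_right (by omega) (by omega)) k, hqk, ← pow_mul,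
      ← pow_mul, ← pow_mul, ← pow_mul, mul_comm k n, mul_comm k (i : ℕ)]
  refine ⟨∑ l ∈ Finset.range k, q₀ ^ l * 1 ^ (k - 1 - l),
    ∏ i : Fin n, ∑ l ∈ Finset.range k, (q₀ ^ n) ^ l * (q₀ ^ (i : ℕ)) ^ (k - 1 - l),
    geom_odd _ _ _ hq₀ odd_one hk, ?_, ?_⟩
  · apply Finset.prod_induction _ Odd (fun a b ha hb => ha.mul hb) odd_one
    intro i _
    exact geom_odd _ _ _ hq₀.pow hq₀.pow hk
  · have h3 : Nat.card (Matrix.SpecialLinearGroup (Fin n) F) *
        ((∑ l ∈ Finset.range k, q₀ ^ l * 1 ^ (k - 1 - l)) * (q₀ - 1)) =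
        (∏ i : Fin n, ∑ l ∈ Finset.range k, (q₀ ^ n) ^ l * (q₀ ^ (i : ℕ)) ^ (k - 1 - l)) *
          (Nat.card (Matrix.SpecialLinearGroup (Fin n) ↥F₀) * (q₀ - 1)) := by
      rw [← hS, ← h1, h2, ← h1₀, h2₀, ← Finset.prod_mul_distrib]
      exact Finset.prod_congr rfl fun i _ => hT i
    have h4 : 0 < q₀ - 1 := by omega
    apply Nat.eq_of_mul_eq_mul_right h4
    rw [mul_assoc, h3]
    ring

theorem odd_index {F : Type*} [Field F] [Fintype F] {q : ℕ} (hq : Fintype.card F = q) (n : ℕ)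
    (hn : 1 ≤ n) (F₀ : Subfield F) (k q₀ : ℕ) (hF₀ : Nat.card ↥F₀ = q₀) (hqk : q = q₀ ^ k)
    (hk : Odd k) (hq₀ : Odd q₀) :
    Odd ((Cfsg.Geo.subfieldSubgroup F₀ 1).comap (Matrix.SpecialLinearGroup.toGL :
      Matrix.SpecialLinearGroup (Fin n) F →* GL (Fin n) F)).index := by
  classical
  have : Fintype ↥F₀ := Fintype.ofFinite _
  obtain ⟨s, t, hs, ht, hst⟩ := card_SL_ratio hq n hn F₀ k q₀ hF₀ hqk hk hq₀
  obtain ⟨φ, hφ⟩ : ∃ φ : Matrix.SpecialLinearGroup (Fin n) ↥F₀ →*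
      Matrix.SpecialLinearGroup (Fin n) F, φ = Matrix.SpecialLinearGroup.map F₀.subtype :=
    ⟨_, rfl⟩
  have hinj : Function.Injective φ := by
    intro A B hAB
    ext i j
    have h1 := congrArg (fun M : Matrix.SpecialLinearGroup (Fin n) F =>
      (M : Matrix (Fin n) (Fin n) F) i j) hAB
    simp only [hφ, Matrix.SpecialLinearGroup.map_apply_coe, RingHom.mapMatrix_apply,
      Matrix.map_apply] at h1
    exact h1
  have hle : φ.range ≤ (Cfsg.Geo.subfieldSubgroup F₀ 1).comap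
      (Matrix.SpecialLinearGroup.toGL :
        Matrix.SpecialLinearGroup (Fin n) F →* GL (Fin n) F) := by
    rintro _ ⟨A, rfl⟩
    rw [Subgroup.mem_comap]
    apply mem_sub_of F₀ _ 1 one_ne_zero (A : Matrix (Fin n) (Fin n) ↥F₀)
    rw [one_smul, Matrix.SpecialLinearGroup.coe_GL_coe_matrix, hφ, Matrix.SpecialLinearGroup.map_apply_coe,
      RingHom.mapMatrix_apply]
  have hcard : Nat.card φ.range = Nat.card (Matrix.SpecialLinearGroup (Fin n) ↥F₀) :=
    Nat.card_congr (MonoidHom.ofInjective hinj).toEquiv.symm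
  obtain ⟨m, hm⟩ := Subgroup.card_dvd_of_le hle
  have hidx := Subgroup.index_mul_card ((Cfsg.Geo.subfieldSubgroup F₀ 1).comap
      (Matrix.SpecialLinearGroup.toGL :
        Matrix.SpecialLinearGroup (Fin n) F →* GL (Fin n) F))
  rw [hm, hcard] at hidx
  rw [← hidx] at hst
  have hpos : 0 < Nat.card (Matrix.SpecialLinearGroup (Fin n) ↥F₀) := Nat.card_pos
  have h5 : ((Cfsg.Geo.subfieldSubgroup F₀ 1).comap (Matrix.SpecialLinearGroup.toGL :
      Matrix.SpecialLinearGroup (Fin n) F →* GL (Fin n) F)).index * (m * s) = t := by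
    apply Nat.eq_of_mul_eq_mul_left hpos
    rw [← hst]
    ring
  rw [← h5] at ht
  exact (Nat.odd_mul.1 ht).1

theorem isSquare_of_mem {F : Type*} [Field F] [Fintype F] (F₀ : Subfield F) (q₀ : ℕ)
    (hF₀ : Nat.card ↥F₀ = q₀) (hq : Fintype.card F = q₀ ^ 2) (hodd : Odd q₀) (a : F)
    (ha : a ∈ F₀) : IsSquare a := by
  classical
  have : Fintype ↥F₀ := Fintype.ofFinite _
  have hc₀ : Fintype.card ↥F₀ = q₀ := by rw [← hF₀, Nat.card_eq_fintype_card]
  by_cases ha0 : a = 0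
  · rw [ha0]
    exact IsSquare.zero
  have hchar : ringChar F ≠ 2 := by
    intro h2
    have h3 := FiniteField.even_card_iff_char_two.1 h2
    rw [hq] at h3
    have h4 : Even (q₀ ^ 2) := Nat.even_iff.2 h3
    rw [Nat.even_pow] at h4
    exact (Nat.not_even_iff_odd.2 hodd) h4.1
  rw [FiniteField.isSquare_iff hchar ha0, hq]
  obtain ⟨m, rfl⟩ := hodd
  have h1 : (2 * m + 1) ^ 2 / 2 = (2 * m) * (m + 1) := by
    have : (2 * m + 1) ^ 2 = 2 * ((2 * m) * (m + 1)) + 1 := by ring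
    omega
  have h2 : (⟨a, ha⟩ : ↥F₀) ^ (Fintype.card ↥F₀ - 1) = 1 :=
    FiniteField.pow_card_sub_one_eq_one _ (fun h => ha0 (congrArg Subtype.val h))
  rw [hc₀] at h2
  have h3 : a ^ (2 * m) = 1 := by
    have := congrArg Subtype.val h2
    simpa using this
  rw [h1, pow_mul, h3, one_pow]

end Index

end Cfsg.Agent.Lib.Helper40.Subf
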