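-- helper40: involutions (mod scalars) of SL_n are conjugate into the subfield subgroup.
import Mathlib
import Cfsg.Prelude.Def_GeometricClasses
import Cfsg.Agent.Lib.Helper40.Subf

set_option autoImplicit false

namespace Cfsg.Agent.Lib.Helper40.Subf

open Matrix Polynomial

section Model

/-- the model square-zero matrix of rank `a`. -/
def Jm (R : Type*) [Zero R] [One R] (n a : ℕ) : Matrix (Fin n) (Fin n) R :=
  Matrix.of fun i j => if (i : ℕ) < a ∧ (i : ℕ) + (j : ℕ) + 1 = n then 1 else 0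

variable {F : Type*} [Field F]

theorem Jm_map (F₀ : Subfield F) (n a : ℕ) : (Jm ↥F₀ n a).map F₀.subtype = Jm F n a := by
  ext i j
  simp only [Jm, Matrix.map_apply, Matrix.of_apply]
  split_ifs <;> simp

theorem Jm_mul_self (n a : ℕ) (h : 2 * a ≤ n) : Jm F n a * Jm F n a = 0 := by
  ext i k
  rw [Matrix.mul_apply]
  apply Finset.sum_eq_zero
  intro j _
  simp only [Jm, Matrix.of_apply]
  split_ifs with h1 h2
  · exfalso; omega
  · simp
  · simp
  · simp

theorem Jm_rank (n a : ℕ) (h : a ≤ n) : (Jm F n a).rank = a := by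
  classical
  have h1 : Jm F n a = Matrix.diagonal (fun i : Fin n => if (i : ℕ) < a then (1 : F) else 0) *
      (Equiv.Perm.permMatrix F (Fin.revPerm : Equiv.Perm (Fin n))) := by
    ext i j
    rw [Matrix.diagonal_mul]
    simp only [Jm, Matrix.of_apply, Equiv.Perm.permMatrix, PEquiv.toMatrix_apply,
      Equiv.toPEquiv_apply, Option.mem_def, Option.some.injEq, Fin.revPerm_apply]
    have h2 : (Fin.rev i = j) ↔ (i : ℕ) + (j : ℕ) + 1 = n := by
      rw [Fin.ext_iff, Fin.val_rev]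
      omega
    by_cases h3 : (i : ℕ) < a
    · by_cases h4 : (i : ℕ) + (j : ℕ) + 1 = n
      · simp [h3, h4, h2.2 h4]
      · have h5 : ¬ (Fin.rev i = j) := fun h6 => h4 (h2.1 h6)
        simp [h4, h5]
    · simp [h3]
  rw [h1, Matrix.rank_mul_eq_left_of_isUnit_det, Matrix.rank_diagonal]
  · rw [Fintype.card_subtype]
    have h2 : (Finset.univ.filter fun i : Fin n => (if (i : ℕ) < a then (1 : F) else 0) ≠ 0) =
        Finset.univ.filter fun i : Fin n => (i : ℕ) < a := by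
      apply Finset.filter_congr
      intro i _
      by_cases h3 : (i : ℕ) < a <;> simp [h3]
    rw [h2, Fin.card_filter_val_lt]
    exact min_eq_right h
  · rw [Matrix.det_permutation]
    rcases Int.units_eq_one_or (Equiv.Perm.sign (Fin.revPerm : Equiv.Perm (Fin n))) with h3 | h3
    · rw [h3]; simp
    · rw [h3]; simp

theorem prod_w (n : ℕ) (hn : 2 ≤ n) (s : F) :
    ∏ i : Fin n, (if (i : ℕ) = 0 ∨ (i : ℕ) + 1 = n then s else 1) = s * s := by
  classical
  rw [Finset.prod_ite, Finset.prod_const_one, mul_one, Finset.prod_const]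
  have h1 : (Finset.univ.filter fun i : Fin n => (i : ℕ) = 0 ∨ (i : ℕ) + 1 = n) =
      {(⟨0, by omega⟩ : Fin n), (⟨n - 1, by omega⟩ : Fin n)} := by
    ext i
    simp only [Finset.mem_filter, Finset.mem_univ, true_and, Finset.mem_insert,
      Finset.mem_singleton, Fin.ext_iff]
    omega
  rw [h1, Finset.card_pair (by rw [Ne, Fin.ext_iff]; simp only; omega), pow_two]

theorem w_comm (n a : ℕ) (s : F) :
    Matrix.diagonal (fun i : Fin n => if (i : ℕ) = 0 ∨ (i : ℕ) + 1 = n then s else 1) * Jm F n a =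
      Jm F n a *
        Matrix.diagonal (fun i : Fin n => if (i : ℕ) = 0 ∨ (i : ℕ) + 1 = n then s else 1) := by
  classical
  ext i j
  rw [Matrix.diagonal_mul, Matrix.mul_diagonal]
  simp only [Jm, Matrix.of_apply]
  by_cases h : (i : ℕ) < a ∧ (i : ℕ) + (j : ℕ) + 1 = n
  · have h1 : ((i : ℕ) = 0 ∨ (i : ℕ) + 1 = n) ↔ ((j : ℕ) = 0 ∨ (j : ℕ) + 1 = n) := by omega
    rw [if_pos h, mul_one, one_mul]
    by_cases h2 : (i : ℕ) = 0 ∨ (i : ℕ) + 1 = n
    · rw [if_pos h2, if_pos (h1.1 h2)]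
    · rw [if_neg h2, if_neg (fun h3 => h2 (h1.2 h3))]
  · rw [if_neg h, mul_zero, zero_mul]

end Model

section Conj

variable {F : Type*} [Field F] [Fintype F] {n : ℕ}

theorem conj_even (hF2 : ringChar F = 2) (hn : 2 ≤ n) (F₀ : Subfield F)
    (x : Matrix.SpecialLinearGroup (Fin n) F) (z : F)
    (hx : (x : Matrix (Fin n) (Fin n) F) * (x : Matrix (Fin n) (Fin n) F) =
      z • (1 : Matrix (Fin n) (Fin n) F))
    (hns : ∀ z : F, (x : Matrix (Fin n) (Fin n) F) ≠ z • (1 : Matrix (Fin n) (Fin n) F)) :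
    ∃ P : Matrix.SpecialLinearGroup (Fin n) F, P⁻¹ * x * P ∈
      (Cfsg.Geo.subfieldSubgroup F₀ 1).comap (Matrix.SpecialLinearGroup.toGL :
        Matrix.SpecialLinearGroup (Fin n) F →* GL (Fin n) F) := by
  classical
  have : CharP F 2 := ringChar.of_eq hF2
  have h2 : (2 : F) = 0 := CharTwo.two_eq_zero
  obtain ⟨b, hb⟩ := FiniteField.isSquare_of_char_two hF2 z
  have hne : Nonempty (Fin n) := ⟨⟨0, by omega⟩⟩
  have hb0 : b ≠ 0 := by
    rintro rfl
    rw [hb, mul_zero, zero_smul] at hx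
    have h3 := congrArg Matrix.det hx
    rw [Matrix.det_mul, x.det_coe, Matrix.det_zero] at h3
    simp at h3
  obtain ⟨N, hN⟩ : ∃ N : Matrix (Fin n) (Fin n) F,
      N = b⁻¹ • (x : Matrix (Fin n) (Fin n) F) - 1 := ⟨_, rfl⟩
  have hxN : (x : Matrix (Fin n) (Fin n) F) = b • (N + 1) := by
    rw [hN, sub_add_cancel, smul_smul, mul_inv_cancel₀ hb0, one_smul]
  have hNN : N * N = 0 := by
    have h3 : N * N = (b⁻¹ * b⁻¹) • ((x : Matrix (Fin n) (Fin n) F) *
        (x : Matrix (Fin n) (Fin n) F)) - (2 : F) • (b⁻¹ • (x : Matrix (Fin n) (Fin n) F)) + 1 := by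
      rw [hN, two_smul]
      simp only [sub_mul, mul_sub, Matrix.smul_mul, Matrix.mul_smul, smul_smul, Matrix.one_mul,
        Matrix.mul_one]
      abel
    rw [h3, hx, h2, zero_smul, sub_zero, smul_smul, hb]
    have h4 : b⁻¹ * b⁻¹ * (b * b) = 1 := by field_simp
    rw [h4, one_smul, ← two_smul F (1 : Matrix (Fin n) (Fin n) F), h2, zero_smul]
  have hN0 : N ≠ 0 := by
    intro h
    apply hns b
    rw [hxN, h, zero_add]
  obtain ⟨a, ha⟩ : ∃ a : ℕ, a = N.rank := ⟨_, rfl⟩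
  have ha1 : 1 ≤ a := by
    by_contra h
    have h3 : N.rank = 0 := by omega
    exact hN0 (PGLClasses.eq_zero_of_rank_eq_zero N h3)
  have h2a : 2 * a ≤ n := by
    have h3 := Matrix.rank_add_rank_le_card_of_mul_eq_zero hNN
    rw [Fintype.card_fin] at h3
    omega
  have hranks : ∀ j, (N ^ j).rank = (Jm F n a ^ j).rank := by
    intro j
    rcases j with _ | _ | j
    · simp
    · rw [zero_add, pow_one, pow_one, Jm_rank n a (by omega), ha]
    · rw [pow_succ, pow_succ, Matrix.mul_assoc, hNN, Matrix.mul_zero, pow_succ, pow_succ,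
        Matrix.mul_assoc, Jm_mul_self n a h2a, Matrix.mul_zero]
  obtain ⟨g, hg⟩ := Jordan.similar_of_rank_pow_eq N (Jm F n a) ⟨2, by rw [pow_two, hNN]⟩ hranks
  have hmap : (Jm ↥F₀ n a + 1).map F₀.subtype = Jm F n a + 1 := by
    rw [Matrix.map_add _ (fun a b => map_add _ a b), Jm_map,
      Matrix.map_one _ (map_zero _) (map_one _)]
  have hgx : (g : Matrix (Fin n) (Fin n) F) * (x : Matrix (Fin n) (Fin n) F) =
      (b • (Jm ↥F₀ n a + 1).map F₀.subtype) * (g : Matrix (Fin n) (Fin n) F) := by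
    rw [hmap, hxN, Matrix.mul_smul, Matrix.mul_add, hg, Matrix.mul_one, Matrix.smul_mul,
      Matrix.add_mul, Matrix.one_mul]
  have hδ0 : (g : Matrix (Fin n) (Fin n) F).det ≠ 0 :=
    ((Matrix.isUnit_iff_isUnit_det _).mp g.isUnit).ne_zero
  obtain ⟨s, hs⟩ := FiniteField.isSquare_of_char_two hF2 (g : Matrix (Fin n) (Fin n) F).det
  obtain ⟨W, hW⟩ : ∃ W : Matrix (Fin n) (Fin n) F, W = Matrix.diagonal
      (fun i : Fin n => if (i : ℕ) = 0 ∨ (i : ℕ) + 1 = n then s else 1) := ⟨_, rfl⟩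
  have hWdet : W.det = (g : Matrix (Fin n) (Fin n) F).det := by
    rw [hW, Matrix.det_diagonal, prod_w n hn, ← hs]
  obtain ⟨c, hc⟩ : ∃ c : GL (Fin n) F, (c : Matrix (Fin n) (Fin n) F) = W :=
    ⟨Matrix.GeneralLinearGroup.mkOfDetNeZero W (by rw [hWdet]; exact hδ0), rfl⟩
  apply conj_mem F₀ x b hb0 (Jm ↥F₀ n a + 1) g c hgx
  · rw [hmap, hc, hW, Matrix.mul_add, Matrix.add_mul, w_comm, Matrix.mul_one, Matrix.one_mul]
  · rw [hc, hWdet]

omit [Fintype F] in
theorem aeval_pm [DecidableEq F] (h1 : (1 : F) ≠ -1) (M : Matrix (Fin n) (Fin n) F)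
    (hM : M * M = 1) : aeval M (∏ ζ ∈ ({1, -1} : Finset F), (X - C ζ)) = 0 := by
  rw [Finset.prod_pair h1]
  have h2 : (M - 1) * (M + 1) = M * M - 1 := by noncomm_ring
  simp only [map_mul, map_sub, map_add, aeval_X, map_neg, map_one, sub_neg_eq_add]
  rw [h2, hM, sub_self]

theorem conj_odd (hF2 : ringChar F ≠ 2) (hn : 1 ≤ n) (F₀ : Subfield F)
    (x : Matrix.SpecialLinearGroup (Fin n) F) (b : F) (hb : b ≠ 0)
    (hx : (x : Matrix (Fin n) (Fin n) F) * (x : Matrix (Fin n) (Fin n) F) =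
      (b * b) • (1 : Matrix (Fin n) (Fin n) F)) :
    ∃ P : Matrix.SpecialLinearGroup (Fin n) F, P⁻¹ * x * P ∈
      (Cfsg.Geo.subfieldSubgroup F₀ 1).comap (Matrix.SpecialLinearGroup.toGL :
        Matrix.SpecialLinearGroup (Fin n) F →* GL (Fin n) F) := by
  classical
  have h1 : (1 : F) ≠ -1 := (Ring.neg_one_ne_one_of_char_ne_two hF2).symm
  obtain ⟨s, hs⟩ : ∃ s : Matrix (Fin n) (Fin n) F,
      s = b⁻¹ • (x : Matrix (Fin n) (Fin n) F) := ⟨_, rfl⟩
  have hxs : (x : Matrix (Fin n) (Fin n) F) = b • s := by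
    rw [hs, smul_smul, mul_inv_cancel₀ hb, one_smul]
  have hss : s * s = 1 := by
    rw [hs, Matrix.smul_mul, Matrix.mul_smul, smul_smul, hx, smul_smul]
    have h4 : b⁻¹ * b⁻¹ * (b * b) = 1 := by field_simp
    rw [h4, one_smul]
  obtain ⟨S, hS⟩ : ∃ S : Finset F, S = {1, -1} := ⟨_, rfl⟩
  have hpm : ∀ M : Matrix (Fin n) (Fin n) F, M * M = 1 →
      aeval M (∏ ζ ∈ S, (X - C ζ)) = 0 := by
    intro M hM
    rw [hS]
    exact aeval_pm h1 M hM
  have hsS : aeval s (∏ ζ ∈ S, (X - C ζ)) = 0 := hpm s hss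
  have hsum : ∑ ζ : S, (n - (s - ζ.1 • (1 : Matrix (Fin n) (Fin n) F)).rank) = n := by
    rw [Finset.sum_coe_sort S (fun ζ => n - (s - ζ • (1 : Matrix (Fin n) (Fin n) F)).rank)]
    exact Diag.sum_sub_rank s S hsS
  obtain ⟨t, ht⟩ := Diag.exists_fibre_card
    (fun ζ : S => n - (s - ζ.1 • (1 : Matrix (Fin n) (Fin n) F)).rank) hsum
  have htm : ∀ i, (t i).1 = 1 ∨ (t i).1 = -1 := by
    intro i
    have h3 : ∀ y : F, y ∈ S → y = 1 ∨ y = -1 := by
      intro y hy
      rw [hS] at hy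
      simpa using hy
    exact h3 _ (t i).2
  obtain ⟨D₀, hD₀⟩ : ∃ D₀ : Matrix (Fin n) (Fin n) ↥F₀, D₀ = Matrix.diagonal
      (fun i => if (t i).1 = 1 then (1 : ↥F₀) else -1) := ⟨_, rfl⟩
  have hmap : D₀.map F₀.subtype = Matrix.diagonal (fun i => (t i).1) := by
    rw [hD₀, Matrix.diagonal_map (map_zero _)]
    congr 1
    funext i
    rcases htm i with h3 | h3
    · simp [h3]
    · have h5 : ¬ ((-1 : F) = 1) := fun h => h1 h.symm
      simp [h3, h5]
  have hDD : Matrix.diagonal (fun i => (t i).1) * Matrix.diagonal (fun i => (t i).1) =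
      (1 : Matrix (Fin n) (Fin n) F) := by
    rw [Matrix.diagonal_mul_diagonal, ← Matrix.diagonal_one]
    congr 1
    funext i
    rcases htm i with h3 | h3 <;> simp [h3]
  have hDS : aeval (Matrix.diagonal (fun i => (t i).1) : Matrix (Fin n) (Fin n) F)
      (∏ ζ ∈ S, (X - C ζ)) = 0 := hpm _ hDD
  have hranks : ∀ ζ ∈ S, (s - ζ • (1 : Matrix (Fin n) (Fin n) F)).rank =
      ((Matrix.diagonal (fun i => (t i).1) : Matrix (Fin n) (Fin n) F) -
        ζ • (1 : Matrix (Fin n) (Fin n) F)).rank := by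
    intro ζ hζ
    have h3 := Diag.rank_diagonal_sub (fun i => (t i).1) ζ
    have h4 : Fintype.card {i // (t i).1 = ζ} = Fintype.card {i // t i = ⟨ζ, hζ⟩} :=
      Fintype.card_congr (Equiv.subtypeEquivRight (fun i => by rw [Subtype.ext_iff]))
    have h5 := ht ⟨ζ, hζ⟩
    have h6 : (s - ζ • (1 : Matrix (Fin n) (Fin n) F)).rank ≤ n := by
      have := Matrix.rank_le_width (s - ζ • (1 : Matrix (Fin n) (Fin n) F))
      simpa using this
    simp only at h5
    omega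
  obtain ⟨g, hg⟩ := Diag.similar_of_rank_eq s _ S hsS hDS hranks
  have hgx : (g : Matrix (Fin n) (Fin n) F) * (x : Matrix (Fin n) (Fin n) F) =
      (b • D₀.map F₀.subtype) * (g : Matrix (Fin n) (Fin n) F) := by
    rw [hmap, hxs, Matrix.mul_smul, hg, Matrix.smul_mul]
  have hδ0 : (g : Matrix (Fin n) (Fin n) F).det ≠ 0 :=
    ((Matrix.isUnit_iff_isUnit_det _).mp g.isUnit).ne_zero
  obtain ⟨W, hW⟩ : ∃ W : Matrix (Fin n) (Fin n) F, W = Matrix.diagonal
      (fun i : Fin n => if i = ⟨0, by omega⟩ then (g : Matrix (Fin n) (Fin n) F).det else 1) :=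
    ⟨_, rfl⟩
  have hWdet : W.det = (g : Matrix (Fin n) (Fin n) F).det := by
    rw [hW, Matrix.det_diagonal, Finset.prod_ite_eq' Finset.univ (⟨0, by omega⟩ : Fin n)]
    simp
  obtain ⟨c, hc⟩ : ∃ c : GL (Fin n) F, (c : Matrix (Fin n) (Fin n) F) = W :=
    ⟨Matrix.GeneralLinearGroup.mkOfDetNeZero W (by rw [hWdet]; exact hδ0), rfl⟩
  apply conj_mem F₀ x b hb D₀ g c hgx
  · rw [hmap, hc, hW, Matrix.diagonal_mul_diagonal, Matrix.diagonal_mul_diagonal]
    congr 1
    funext i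
    exact mul_comm _ _
  · rw [hc, hWdet]

end Conj

end Cfsg.Agent.Lib.Helper40.Subf
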