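-- helper40: more tools for subfield subgroups (rank under field extension, centralisers).
import Mathlib
import Cfsg.Prelude.Def_GeometricClasses
import Cfsg.Agent.Lib.Helper40.Subf2
import Cfsg.Agent.Lib.Helper40.Elusive3

set_option autoImplicit false

namespace Cfsg.Agent.Lib.Helper40.Subf

open Matrix Polynomial

section RankMap

theorem rank_map {K L : Type*} [Field K] [Field L] (f : K →+* L) {n : ℕ}
    (M : Matrix (Fin n) (Fin n) K) : (M.map f).rank = M.rank := by
  classical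
  obtain ⟨L₁, L₂, D, h⟩ := Matrix.Pivot.exists_list_transvec_mul_mul_list_transvec_eq_diagonal M
  have hP := Matrix.TransvectionStruct.det_toMatrix_prod L₁
  have hQ := Matrix.TransvectionStruct.det_toMatrix_prod L₂
  obtain ⟨P, hPdef⟩ : ∃ P : Matrix (Fin n) (Fin n) K,
      P = (L₁.map Matrix.TransvectionStruct.toMatrix).prod := ⟨_, rfl⟩
  obtain ⟨Q, hQdef⟩ : ∃ Q : Matrix (Fin n) (Fin n) K,
      Q = (L₂.map Matrix.TransvectionStruct.toMatrix).prod := ⟨_, rfl⟩
  rw [← hPdef] at h hP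
  rw [← hQdef] at h hQ
  have hP' : (P.map f).det = 1 := by
    have h1 := RingHom.map_det f P
    rw [hP, map_one, RingHom.mapMatrix_apply] at h1
    exact h1.symm
  have hQ' : (Q.map f).det = 1 := by
    have h1 := RingHom.map_det f Q
    rw [hQ, map_one, RingHom.mapMatrix_apply] at h1
    exact h1.symm
  have h1 : M.rank = (Matrix.diagonal D).rank := by
    rw [← h, Matrix.rank_mul_eq_left_of_isUnit_det _ _ (by rw [hQ]; exact isUnit_one),
      Matrix.rank_mul_eq_right_of_isUnit_det _ _ (by rw [hP]; exact isUnit_one)]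
  have h3 : (P.map f) * (M.map f) * (Q.map f) = Matrix.diagonal (fun i => f (D i)) := by
    rw [← Matrix.map_mul, ← Matrix.map_mul, h, Matrix.diagonal_map (map_zero f)]
  have h2 : (M.map f).rank = (Matrix.diagonal (fun i => f (D i))).rank := by
    rw [← h3, Matrix.rank_mul_eq_left_of_isUnit_det _ _ (by rw [hQ']; exact isUnit_one),
      Matrix.rank_mul_eq_right_of_isUnit_det _ _ (by rw [hP']; exact isUnit_one)]
  rw [h1, h2, Matrix.rank_diagonal, Matrix.rank_diagonal]
  exact Fintype.card_congr (Equiv.subtypeEquivRight (fun i => by rw [Ne, Ne, map_eq_zero]))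

theorem map_pow' {K L : Type*} [Field K] [Field L] (f : K →+* L) {n : ℕ}
    (M : Matrix (Fin n) (Fin n) K) (j : ℕ) : (M.map f) ^ j = (M ^ j).map f := by
  have h1 := map_pow f.mapMatrix M j
  rw [RingHom.mapMatrix_apply, RingHom.mapMatrix_apply] at h1
  exact h1.symm

end RankMap

section Cent

variable {F : Type*} [Field F] {n : ℕ}

/-- the centraliser of a nilpotent matrix of Jordan type `μ` contains elements of determinant
`s ^ ν.sum` for every sub-multiset `ν` of `μ`. -/
theorem cent_det (M : Matrix (Fin n) (Fin n) F) (μ ν : Multiset ℕ) (hν : ν ≤ μ)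
    (hr : ∀ j, (M ^ j).rank = Jordan.rk μ j) (hnil : IsNilpotent M) (s : F) :
    ∃ C : Matrix (Fin n) (Fin n) F, C * M = M * C ∧ C.det = s ^ ν.sum := by
  obtain ⟨ν', hν'⟩ : ∃ ν', μ = ν + ν' := ⟨μ - ν, (add_tsub_cancel_of_le hν).symm⟩
  obtain ⟨n₁, T₁, hT₁⟩ := Jordan.exists_model (F := F) ν
  obtain ⟨n₂, T₂, hT₂⟩ := Jordan.exists_model (F := F) ν'
  have hn₁ : n₁ = ν.sum := by
    have h0 := hT₁ 0
    rw [Jordan.finrank_range_pow_zero, Jordan.rk_zero, Module.finrank_fin_fun] at h0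
    exact h0
  have hTnil : IsNilpotent (Matrix.toLin' M) := by
    obtain ⟨k, hk⟩ := hnil
    exact ⟨k, by rw [← Matrix.toLin'_pow, hk, map_zero]⟩
  obtain ⟨e, he⟩ := Jordan.conj_of_rank_eq n (Fin n → F) ((Fin n₁ → F) × (Fin n₂ → F))
    (Matrix.toLin' M) (T₁.prodMap T₂) (by simp) hTnil (fun j => by
      rw [← Jordan.rank_pow_eq, hr, hν', Elusive.rk_add, Jordan.finrank_range_prodMap_pow, hT₁,
        hT₂])
  obtain ⟨d, hd⟩ : ∃ d : Module.End F ((Fin n₁ → F) × (Fin n₂ → F)),
      d = (s • (LinearMap.id : (Fin n₁ → F) →ₗ[F] (Fin n₁ → F))).prodMap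
        (LinearMap.id : (Fin n₂ → F) →ₗ[F] (Fin n₂ → F)) := ⟨_, rfl⟩
  obtain ⟨c, hc⟩ : ∃ c : Module.End F (Fin n → F),
      c = (e.symm : _ →ₗ[F] (Fin n → F)) ∘ₗ d ∘ₗ (e : (Fin n → F) →ₗ[F] _) := ⟨_, rfl⟩
  have hdet : LinearMap.det c = s ^ ν.sum := by
    have h1 := LinearMap.det_conj d e.symm
    rw [LinearEquiv.symm_symm] at h1
    rw [hc, h1, hd, LinearMap.det_prodMap, LinearMap.det_smul, LinearMap.det_id, mul_one,
      LinearMap.det_id, mul_one, Module.finrank_fin_fun, hn₁]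
  have hcomm : ∀ v, c (Matrix.toLin' M v) = Matrix.toLin' M (c v) := by
    intro v
    apply e.injective
    rw [he, hc]
    simp only [LinearMap.comp_apply, LinearEquiv.coe_coe, LinearEquiv.apply_symm_apply]
    rw [he, hd]
    apply Prod.ext
    · simp [LinearMap.prodMap_apply]
    · simp [LinearMap.prodMap_apply]
  refine ⟨LinearMap.toMatrix' c, ?_, ?_⟩
  · apply Matrix.toLin'.injective
    rw [Matrix.toLin'_mul, Matrix.toLin'_mul, Matrix.toLin'_toMatrix']
    apply LinearMap.ext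
    intro v
    exact hcomm v
  · rw [LinearMap.det_toMatrix', hdet]

/-- the centraliser of the model square-zero matrix of half rank has square determinants. -/
theorem sqdet (a : ℕ) (hn : n = 2 * a) (C : Matrix (Fin n) (Fin n) F)
    (hC : C * Jm F n a = Jm F n a * C) : ∃ d : F, C.det = d * d := by
  classical
  have key : ∀ i j : Fin n, (if (j : ℕ) < a then C i j else 0) =
      (if (i : ℕ) < a then C (Fin.rev i) (Fin.rev j) else 0) := by
    intro i j
    have h1 := congrFun (congrFun hC i) (Fin.rev j)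
    rw [Matrix.mul_apply, Matrix.mul_apply] at h1
    have h2 : ∑ l, C i l * Jm F n a l (Fin.rev j) = if (j : ℕ) < a then C i j else 0 := by
      rw [Finset.sum_eq_single j]
      · simp only [Jm, Matrix.of_apply, Fin.val_rev]
        by_cases h3 : (j : ℕ) < a
        · rw [if_pos h3, if_pos ⟨h3, by omega⟩, mul_one]
        · rw [if_neg h3, if_neg (fun h4 => h3 h4.1), mul_zero]
      · intro l _ hl
        simp only [Jm, Matrix.of_apply, Fin.val_rev]
        rw [if_neg, mul_zero]
        rintro ⟨h3, h4⟩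
        apply hl
        apply Fin.ext
        omega
      · intro h3
        exact absurd (Finset.mem_univ _) h3
    have h3 : ∑ l, Jm F n a i l * C l (Fin.rev j) =
        if (i : ℕ) < a then C (Fin.rev i) (Fin.rev j) else 0 := by
      rw [Finset.sum_eq_single (Fin.rev i)]
      · simp only [Jm, Matrix.of_apply, Fin.val_rev]
        by_cases h3 : (i : ℕ) < a
        · rw [if_pos h3, if_pos ⟨h3, by omega⟩, one_mul]
        · rw [if_neg h3, if_neg (fun h4 => h3 h4.1), zero_mul]
      · intro l _ hl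
        simp only [Jm, Matrix.of_apply]
        rw [if_neg, zero_mul]
        rintro ⟨h3, h4⟩
        apply hl
        apply Fin.ext
        rw [Fin.val_rev]
        omega
      · intro h3
        exact absurd (Finset.mem_univ _) h3
    rw [h2, h3] at h1
    exact h1
  have h1 := Matrix.twoBlockTriangular_det C (fun i : Fin n => (i : ℕ) < a) (by
    intro i hi j hj
    have h2 := key i j
    rw [if_pos hj, if_neg hi] at h2
    exact h2)
  let e : {i : Fin n // ¬ (i : ℕ) < a} ≃ {i : Fin n // (i : ℕ) < a} :=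
    { toFun := fun i => ⟨Fin.rev i.1, by have := i.2; rw [Fin.val_rev]; omega⟩
      invFun := fun i => ⟨Fin.rev i.1, by have := i.2; rw [Fin.val_rev]; omega⟩
      left_inv := fun i => by simp
      right_inv := fun i => by simp }
  have h2 : Matrix.toSquareBlockProp C (fun i : Fin n => ¬ (i : ℕ) < a) =
      (Matrix.toSquareBlockProp C (fun i : Fin n => (i : ℕ) < a)).submatrix e e := by
    ext i j
    simp only [Matrix.toSquareBlockProp_def, Matrix.of_apply, Matrix.submatrix_apply]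
    have h3 := key (Fin.rev i.1) (Fin.rev j.1)
    have hi := i.2
    have hj := j.2
    rw [if_pos (by rw [Fin.val_rev]; omega), if_pos (by rw [Fin.val_rev]; omega), Fin.rev_rev,
      Fin.rev_rev] at h3
    exact h3.symm
  rw [h2, Matrix.det_submatrix_equiv_self] at h1
  exact ⟨_, h1⟩

end Cent

section More

variable {F : Type*} [Field F] {n : ℕ}

theorem conj_mem0 (F₀ : Subfield F) (x : Matrix.SpecialLinearGroup (Fin n) F) (b : F) (hb : b ≠ 0)
    (B₀ : Matrix (Fin n) (Fin n) F₀) (P : Matrix (Fin n) (Fin n) F) (hdet : P.det = 1)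
    (h : (x : Matrix (Fin n) (Fin n) F) * P = P * (b • B₀.map F₀.subtype)) :
    ∃ P : Matrix.SpecialLinearGroup (Fin n) F, P⁻¹ * x * P ∈
      (Cfsg.Geo.subfieldSubgroup F₀ 1).comap (Matrix.SpecialLinearGroup.toGL :
        Matrix.SpecialLinearGroup (Fin n) F →* GL (Fin n) F) := by
  obtain ⟨P', hP'⟩ : ∃ P' : Matrix.SpecialLinearGroup (Fin n) F,
      (P' : Matrix (Fin n) (Fin n) F) = P := ⟨⟨P, hdet⟩, rfl⟩
  refine ⟨P', ?_⟩
  rw [Subgroup.mem_comap]
  apply mem_sub_of F₀ _ b hb B₀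
  rw [Matrix.SpecialLinearGroup.coe_GL_coe_matrix, Matrix.SpecialLinearGroup.coe_mul,
    Matrix.SpecialLinearGroup.coe_mul, Matrix.mul_assoc, hP', h, ← Matrix.mul_assoc, ← hP',
    ← Matrix.SpecialLinearGroup.coe_mul, inv_mul_cancel, Matrix.SpecialLinearGroup.coe_one,
    Matrix.one_mul]

variable [Fintype F]

/-- a non-square of the subfield stays a non-square when the degree is odd. -/
theorem exists_nonsq_sub (hF2 : ringChar F ≠ 2) {q : ℕ} (hq : Fintype.card F = q)
    (F₀ : Subfield F) (k q₀ : ℕ) (hF₀ : Nat.card ↥F₀ = q₀) (hqk : q = q₀ ^ k) (hk : Odd k) :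
    ∃ f : ↥F₀, f ≠ 0 ∧ ¬ IsSquare (f : F) := by
  classical
  have : Fintype ↥F₀ := Fintype.ofFinite _
  have hc₀ : Fintype.card ↥F₀ = q₀ := by rw [← hF₀, Nat.card_eq_fintype_card]
  have hF₀2 : ringChar ↥F₀ ≠ 2 := by
    intro h
    apply hF2
    have h1 : CharP ↥F₀ 2 := ringChar.of_eq h
    have h2 : CharP F 2 := (RingHom.charP_iff F₀.subtype F₀.subtype.injective 2).1 h1
    exact ringChar.eq F 2
  have hqodd : q % 2 = 1 := by
    rw [← hq]
    exact FiniteField.odd_card_of_char_ne_two hF2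
  have hq₀odd : Odd q₀ := by
    rw [hqk] at hqodd
    have h1 : Odd (q₀ ^ k) := Nat.odd_iff.2 hqodd
    exact (Nat.odd_pow_iff (by rintro rfl; simp at hk)).1 h1
  have hq₀2 : 2 ≤ q₀ := by
    rw [← hc₀]
    exact Fintype.one_lt_card
  obtain ⟨f, hf⟩ := FiniteField.exists_nonsquare hF₀2
  have hf0 : f ≠ 0 := by
    rintro rfl
    exact hf IsSquare.zero
  refine ⟨f, hf0, ?_⟩
  have hf0' : (f : F) ≠ 0 := fun h => hf0 (Subtype.ext h)
  rw [FiniteField.isSquare_iff hF2 hf0', hq]
  have h1 : f ^ (Fintype.card ↥F₀ / 2) = -1 := by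
    rcases FiniteField.pow_dichotomy hF₀2 hf0 with h | h
    · exact absurd ((FiniteField.isSquare_iff hF₀2 hf0).2 h) hf
    · exact h
  rw [hc₀] at h1
  have h2 : (f : F) ^ (q₀ / 2) = -1 := by
    have := congrArg Subtype.val h1
    simpa using this
  have hS : q - 1 = (∑ l ∈ Finset.range k, q₀ ^ l * 1 ^ (k - 1 - l)) * (q₀ - 1) := by
    rw [geom_sum₂_mul_of_ge (by omega : 1 ≤ q₀) k, one_pow, hqk]
  have hSodd := geom_odd q₀ 1 k hq₀odd odd_one hk
  obtain ⟨S, hSdef⟩ : ∃ S, S = ∑ l ∈ Finset.range k, q₀ ^ l * 1 ^ (k - 1 - l) := ⟨_, rfl⟩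
  rw [← hSdef] at hS hSodd
  have h3 : q / 2 = (q₀ / 2) * S := by
    obtain ⟨m, rfl⟩ := hq₀odd
    have h4 : (2 * m + 1) / 2 = m := by omega
    rw [h4]
    have h5 : q - 1 = 2 * (m * S) := by
      rw [hS]
      have : 2 * m + 1 - 1 = 2 * m := by omega
      rw [this]
      ring
    omega
  rw [h3, pow_mul, h2, hSodd.neg_one_pow]
  exact Ring.neg_one_ne_one_of_char_ne_two hF2

theorem sq_of_nonsq (hF2 : ringChar F ≠ 2) (δ f : F) (hδ0 : δ ≠ 0) (hf0 : f ≠ 0)
    (hδ : ¬ IsSquare δ) (hf : ¬ IsSquare f) : IsSquare (δ * f⁻¹) := by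
  rw [FiniteField.isSquare_iff hF2 (mul_ne_zero hδ0 (inv_ne_zero hf0)), mul_pow, inv_pow]
  have h1 : δ ^ (Fintype.card F / 2) = -1 := by
    rcases FiniteField.pow_dichotomy hF2 hδ0 with h | h
    · exact absurd ((FiniteField.isSquare_iff hF2 hδ0).2 h) hδ
    · exact h
  have h2 : f ^ (Fintype.card F / 2) = -1 := by
    rcases FiniteField.pow_dichotomy hF2 hf0 with h | h
    · exact absurd ((FiniteField.isSquare_iff hF2 hf0).2 h) hf
    · exact h
  rw [h1, h2]
  norm_num

end More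

end Cfsg.Agent.Lib.Helper40.Subf
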