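import Mathlib

/-!
# Fitting normal form for matrices and the count of nilpotent matrices (Fine–Herstein)
-/

set_option autoImplicit false

namespace Cfsg.Agent.Lib.Helper40

open Matrix

variable {F : Type*} [Field F]

/-- A nilpotent square matrix over a field vanishes at every power at least its size. -/
theorem isNilpotent_pow_card {α : Type*} [Fintype α] [DecidableEq α] {N : Matrix α α F}
    (hN : IsNilpotent N) {m : ℕ} (hm : Fintype.card α ≤ m) : N ^ m = 0 := by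
  obtain ⟨k, hk⟩ := hN
  have h1 : LinearMap.ker ((Matrix.toLin' N) ^ k) ≤
      LinearMap.ker ((Matrix.toLin' N) ^ (Module.finrank F (α → F))) :=
    Module.End.ker_pow_le_ker_pow_finrank _ _
  rw [← Matrix.toLin'_pow, hk, ← Matrix.toLin'_pow] at h1
  have h2 : Matrix.toLin' (N ^ Module.finrank F (α → F)) = 0 := by
    rw [← LinearMap.ker_eq_top]
    rw [map_zero, LinearMap.ker_zero] at h1
    exact top_le_iff.mp h1
  have h3 : N ^ Fintype.card α = 0 := by
    have := (Matrix.toLin' (R := F)).injective (h2.trans (map_zero _).symm)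
    simpa using this
  obtain ⟨d, rfl⟩ := Nat.exists_eq_add_of_le hm
  rw [pow_add, h3, zero_mul]

/-- Powers of a block-diagonal matrix. -/
theorem fromBlocks_diag_pow {α β : Type*} [Fintype α] [Fintype β] [DecidableEq α] [DecidableEq β]
    (N : Matrix α α F) (A : Matrix β β F) (m : ℕ) :
    (Matrix.fromBlocks N 0 0 A) ^ m = Matrix.fromBlocks (N ^ m) 0 0 (A ^ m) := by
  induction m with
  | zero => simp [Matrix.fromBlocks_one]
  | succ m ih => rw [pow_succ, ih, Matrix.fromBlocks_multiply]; simp [pow_succ]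

/-- The rank of `diag(0, B)` with `B` invertible. -/
theorem rank_fromBlocks_zero_unit {α β : Type*} [Fintype α] [Fintype β] [DecidableEq α]
    [DecidableEq β] (B : Matrix β β F) (hB : IsUnit B) :
    (Matrix.fromBlocks (0 : Matrix α α F) 0 0 B).rank = Fintype.card β := by
  classical
  have h1 : Matrix.fromBlocks (0 : Matrix α α F) 0 0 B =
      Matrix.fromBlocks (1 : Matrix α α F) 0 0 B * Matrix.fromBlocks (0 : Matrix α α F) 0 0 1 := by
    rw [Matrix.fromBlocks_multiply]; simp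
  have h2 : IsUnit (Matrix.fromBlocks (1 : Matrix α α F) 0 0 B).det := by
    rw [Matrix.det_fromBlocks_zero₂₁]
    simpa using (Matrix.isUnit_iff_isUnit_det _).mp hB
  rw [h1, Matrix.rank_mul_eq_right_of_isUnit_det _ _ h2]
  have h3 : Matrix.fromBlocks (0 : Matrix α α F) 0 0 (1 : Matrix β β F) =
      Matrix.diagonal (Sum.elim (0 : α → F) (1 : β → F)) := by
    rw [← Matrix.fromBlocks_diagonal]
    simp
  rw [h3, Matrix.rank_diagonal]
  rw [Fintype.card_subtype]
  have h4 : (Finset.univ.filter fun x : α ⊕ β => Sum.elim (0 : α → F) (1 : β → F) x ≠ 0) =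
      Finset.univ.map Function.Embedding.inr := by
    ext x; rcases x with a | b <;> simp
  rw [h4, Finset.card_map, Finset.card_univ]

/-- The invariant of a block-diagonal matrix `diag(N, A)`, `N` nilpotent and `A` invertible. -/
theorem rank_pow_fromBlocks {α β : Type*} [Fintype α] [Fintype β] [DecidableEq α] [DecidableEq β]
    (N : Matrix α α F) (A : Matrix β β F) (hN : IsNilpotent N) (hA : IsUnit A) :
    ((Matrix.fromBlocks N 0 0 A) ^ (Fintype.card α + Fintype.card β)).rank = Fintype.card β := by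
  rw [fromBlocks_diag_pow, isNilpotent_pow_card hN (Nat.le_add_right _ _)]
  exact rank_fromBlocks_zero_unit _ (hA.pow _)

/-- Conjugation invariance of the rank of a power. -/
theorem rank_pow_of_semiconj {ι : Type*} [Fintype ι] [DecidableEq ι] (M D : Matrix ι ι F)
    (P : GL ι F) (h : M * P.val = P.val * D) (m : ℕ) : (M ^ m).rank = (D ^ m).rank := by
  have h1 : M ^ m * P.val = P.val * D ^ m := by
    have : SemiconjBy P.val D M := h.symm
    exact (this.pow_right m).eq.symm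
  have hP : IsUnit P.val.det := (Matrix.isUnit_iff_isUnit_det _).mp P.isUnit
  rw [← Matrix.rank_mul_eq_left_of_isUnit_det P.val (M ^ m) hP, h1,
    Matrix.rank_mul_eq_right_of_isUnit_det P.val (D ^ m) hP]

/-- Rigidity: an invertible intertwiner between two matrices in Fitting normal form is block
diagonal. -/
theorem fitting_rigid {α β : Type*} [Fintype α] [Fintype β] [DecidableEq α] [DecidableEq β]
    (N N' : Matrix α α F) (A A' : Matrix β β F) (hN : IsNilpotent N) (hN' : IsNilpotent N')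
    (hA : IsUnit A) (hA' : IsUnit A') (Q : GL (α ⊕ β) F)
    (h : Matrix.fromBlocks N 0 0 A * Q.val = Q.val * Matrix.fromBlocks N' 0 0 A') :
    ∃ (Q₁ : GL α F) (Q₂ : GL β F), Q.val = Matrix.fromBlocks Q₁.val 0 0 Q₂.val := by
  obtain ⟨Q₁₁, Q₁₂, Q₂₁, Q₂₂, hQ⟩ : ∃ Q₁₁ Q₁₂ Q₂₁ Q₂₂, Q.val = Matrix.fromBlocks Q₁₁ Q₁₂ Q₂₁ Q₂₂ :=
    ⟨_, _, _, _, (Matrix.fromBlocks_toBlocks Q.val).symm⟩
  rw [hQ, Matrix.fromBlocks_multiply, Matrix.fromBlocks_multiply, Matrix.fromBlocks_inj] at h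
  simp only [Matrix.zero_mul, Matrix.mul_zero, add_zero, zero_add] at h
  obtain ⟨-, h12, h21, -⟩ := h
  have e12 : ∀ i : ℕ, N ^ i * Q₁₂ = Q₁₂ * A' ^ i := by
    intro i
    induction i with
    | zero => simp
    | succ i ih => rw [pow_succ', Matrix.mul_assoc, ih, ← Matrix.mul_assoc, h12, Matrix.mul_assoc,
        ← pow_succ']
  have e21 : ∀ i : ℕ, A ^ i * Q₂₁ = Q₂₁ * N' ^ i := by
    intro i
    induction i with
    | zero => simp
    | succ i ih => rw [pow_succ', Matrix.mul_assoc, ih, ← Matrix.mul_assoc, h21, Matrix.mul_assoc,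
        ← pow_succ']
  have z12 : Q₁₂ = 0 := by
    obtain ⟨i, hi⟩ := hN
    have h1 := e12 i
    rw [hi, Matrix.zero_mul] at h1
    obtain ⟨u, hu⟩ := hA'.pow i
    have : Q₁₂ * (u : Matrix β β F) * ((u⁻¹ : (Matrix β β F)ˣ) : Matrix β β F) = 0 := by
      rw [hu, ← h1, Matrix.zero_mul]
    rwa [Matrix.mul_assoc, Units.mul_inv, Matrix.mul_one] at this
  have z21 : Q₂₁ = 0 := by
    obtain ⟨i, hi⟩ := hN'
    have h1 := e21 i
    rw [hi, Matrix.mul_zero] at h1
    obtain ⟨u, hu⟩ := hA.pow i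
    have : ((u⁻¹ : (Matrix β β F)ˣ) : Matrix β β F) * ((u : Matrix β β F) * Q₂₁) = 0 := by
      rw [hu, h1, Matrix.mul_zero]
    rwa [← Matrix.mul_assoc, Units.inv_mul, Matrix.one_mul] at this
  subst z12 z21
  have hdet : IsUnit (Matrix.fromBlocks Q₁₁ 0 0 Q₂₂).det := by
    rw [← hQ]; exact (Matrix.isUnit_iff_isUnit_det _).mp Q.isUnit
  rw [Matrix.det_fromBlocks_zero₂₁, IsUnit.mul_iff] at hdet
  obtain ⟨u1, hu1⟩ := (Matrix.isUnit_iff_isUnit_det _).mpr hdet.1
  obtain ⟨u2, hu2⟩ := (Matrix.isUnit_iff_isUnit_det _).mpr hdet.2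
  exact ⟨u1, u2, by rw [hQ, hu1, hu2]⟩


/-- Fitting normal form: a square matrix indexed by `α ⊕ β` whose stable rank is `|β|` is
conjugate to `diag(N, A)` with `N` nilpotent and `A` invertible. -/
theorem fitting_exists {α β : Type*} [Fintype α] [Fintype β] [DecidableEq α] [DecidableEq β]
    (M : Matrix (α ⊕ β) (α ⊕ β) F)
    (h : (M ^ (Fintype.card α + Fintype.card β)).rank = Fintype.card β) :
    ∃ (P : GL (α ⊕ β) F) (N : Matrix α α F) (A : Matrix β β F), IsNilpotent N ∧ IsUnit A ∧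
      M * P.val = P.val * Matrix.fromBlocks N 0 0 A := by
  classical
  obtain ⟨n, hn⟩ : ∃ n, n = Fintype.card α + Fintype.card β := ⟨_, rfl⟩
  rw [← hn] at h
  obtain ⟨T, hT⟩ : ∃ T : Module.End F (α ⊕ β → F), T = Matrix.toLin' M := ⟨_, rfl⟩
  have hfr : Module.finrank F (α ⊕ β → F) = n := by simp [hn]
  obtain ⟨j, hj⟩ := Filter.eventually_atTop.mp (T.eventually_isCompl_ker_pow_range_pow)
  obtain ⟨J, hJj, hJn⟩ : ∃ J, j ≤ J ∧ n + 1 ≤ J := ⟨max j (n + 1), le_max_left _ _, le_max_right _ _⟩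
  have hcompl : IsCompl (LinearMap.ker (T ^ J)) (LinearMap.range (T ^ J)) := hj J hJj
  obtain ⟨K, hK⟩ : ∃ K, K = LinearMap.ker (T ^ J) := ⟨_, rfl⟩
  obtain ⟨I, hI⟩ : ∃ I, I = LinearMap.range (T ^ J) := ⟨_, rfl⟩
  rw [← hK, ← hI] at hcompl
  have hKdim : Module.finrank F K = Fintype.card α := by
    have h1 : LinearMap.ker (T ^ J) = LinearMap.ker (T ^ n) := by
      rw [Module.End.ker_pow_eq_ker_pow_finrank_of_le (by rw [hfr]; omega), hfr]
    have h2 := LinearMap.finrank_range_add_finrank_ker (T ^ n)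
    have h3 : Module.finrank F (LinearMap.range (T ^ n)) = Fintype.card β := by
      rw [← h, hT, ← Matrix.toLin'_pow, Matrix.toLin'_apply']
      rfl
    rw [hK, h1]; omega
  have hIdim : Module.finrank F I = Fintype.card β := by
    have := Submodule.finrank_add_eq_of_isCompl hcompl
    omega
  have hTK : ∀ x ∈ K, T x ∈ K := by
    intro x hx
    rw [hK, LinearMap.mem_ker] at hx ⊢
    rw [← Module.End.mul_apply, ← pow_succ, pow_succ', Module.End.mul_apply, hx, map_zero]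
  have hTI : ∀ x ∈ I, T x ∈ I := by
    intro x hx
    rw [hI] at hx ⊢
    obtain ⟨y, rfl⟩ := hx
    exact ⟨T y, by rw [← Module.End.mul_apply, ← pow_succ, pow_succ', Module.End.mul_apply]⟩
  let e₁ : (α → F) ≃ₗ[F] K := LinearEquiv.ofFinrankEq _ _ (by rw [hKdim]; simp)
  let e₂ : (β → F) ≃ₗ[F] I := LinearEquiv.ofFinrankEq _ _ (by rw [hIdim]; simp)
  let N' : (α → F) →ₗ[F] (α → F) := e₁.symm.toLinearMap ∘ₗ (T.restrict hTK) ∘ₗ e₁.toLinearMap
  let A' : (β → F) →ₗ[F] (β → F) := e₂.symm.toLinearMap ∘ₗ (T.restrict hTI) ∘ₗ e₂.toLinearMap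
  let Φ : (α ⊕ β → F) →ₗ[F] (α ⊕ β → F) :=
    (K.subtype ∘ₗ e₁.toLinearMap ∘ₗ (LinearMap.funLeft F F Sum.inl)) +
      (I.subtype ∘ₗ e₂.toLinearMap ∘ₗ (LinearMap.funLeft F F Sum.inr))
  have hN'e : ∀ x, ((e₁ (N' x) : K) : α ⊕ β → F) = T (e₁ x) := by
    intro x; simp [N']
  have hA'e : ∀ y, ((e₂ (A' y) : I) : α ⊕ β → F) = T (e₂ y) := by
    intro y; simp [A']
  have hΦ : ∀ x y, Φ (Sum.elim x y) = ((e₁ x : K) : α ⊕ β → F) + ((e₂ y : I) : α ⊕ β → F) := by
    intro x y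
    have f1 : LinearMap.funLeft F F Sum.inl (Sum.elim x y) = x := rfl
    have f2 : LinearMap.funLeft F F Sum.inr (Sum.elim x y) = y := rfl
    simp [Φ, f1, f2]
  have hΦinj : Function.Injective Φ := by
    rw [← LinearMap.ker_eq_bot, LinearMap.ker_eq_bot']
    intro v hv
    obtain ⟨x, y, rfl⟩ : ∃ x y, v = Sum.elim x y := ⟨v ∘ Sum.inl, v ∘ Sum.inr, by simp⟩
    rw [hΦ] at hv
    have h1 : ((e₁ x : K) : α ⊕ β → F) ∈ K ⊓ I := by
      refine ⟨(e₁ x).2, ?_⟩
      have : ((e₁ x : K) : α ⊕ β → F) = -((e₂ y : I) : α ⊕ β → F) := eq_neg_of_add_eq_zero_left hv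
      rw [this]; exact I.neg_mem (e₂ y).2
    rw [hcompl.inf_eq_bot, Submodule.mem_bot] at h1
    have h2 : ((e₂ y : I) : α ⊕ β → F) = 0 := by rwa [h1, zero_add] at hv
    have hx : x = 0 := by
      apply e₁.injective; rw [map_zero]; exact Subtype.ext h1
    have hy : y = 0 := by
      apply e₂.injective; rw [map_zero]; exact Subtype.ext h2
    rw [hx, hy]; ext i; rcases i with a | b <;> rfl
  have hPunit : IsUnit (LinearMap.toMatrix' Φ) := by
    rw [← Matrix.mulVec_injective_iff_isUnit]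
    intro v w hvw
    rw [LinearMap.toMatrix'_mulVec, LinearMap.toMatrix'_mulVec] at hvw
    exact hΦinj hvw
  obtain ⟨P, hP⟩ := hPunit
  refine ⟨P, LinearMap.toMatrix' N', LinearMap.toMatrix' A', ?_, ?_, ?_⟩
  · -- nilpotency
    have hpow : ∀ (i : ℕ) (x : α → F), ((e₁ ((N' ^ i) x) : K) : α ⊕ β → F) = (T ^ i) (e₁ x) := by
      intro i
      induction i with
      | zero => intro x; simp
      | succ i ih =>
        intro x
        rw [pow_succ', Module.End.mul_apply, hN'e, ih, pow_succ', Module.End.mul_apply]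
    rw [← LinearMap.toMatrix_eq_toMatrix', LinearMap.isNilpotent_toMatrix_iff]
    refine ⟨J, ?_⟩
    refine LinearMap.ext fun x => ?_
    apply e₁.injective
    rw [LinearMap.zero_apply, map_zero]
    apply Subtype.ext
    rw [hpow]
    have hmem : ((e₁ x : K) : α ⊕ β → F) ∈ LinearMap.ker (T ^ J) := by
      rw [← hK]; exact (e₁ x).2
    rw [LinearMap.mem_ker] at hmem
    simpa using hmem
  · -- invertibility
    rw [← Matrix.mulVec_injective_iff_isUnit]
    intro v w hvw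
    rw [LinearMap.toMatrix'_mulVec, LinearMap.toMatrix'_mulVec] at hvw
    have h0 : A' (v - w) = 0 := by rw [map_sub, hvw, sub_self]
    have h1 := hA'e (v - w)
    rw [h0, map_zero] at h1
    have h2 : ((e₂ (v - w) : I) : α ⊕ β → F) ∈ K ⊓ I := by
      refine Submodule.mem_inf.mpr ⟨?_, (e₂ (v - w)).2⟩
      rw [hK, LinearMap.mem_ker]
      obtain ⟨J', rfl⟩ : ∃ J', J = J' + 1 := ⟨J - 1, by omega⟩
      rw [pow_succ, Module.End.mul_apply, ← h1]
      simp
    rw [hcompl.inf_eq_bot, Submodule.mem_bot] at h2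
    have h3 : v - w = 0 := by
      apply e₂.injective; rw [map_zero]; exact Subtype.ext h2
    exact sub_eq_zero.mp h3
  · -- the intertwining relation
    rw [hP]
    apply (Matrix.toLin' (R := F)).injective
    rw [Matrix.toLin'_mul, Matrix.toLin'_mul, Matrix.toLin'_toMatrix', ← hT]
    refine LinearMap.ext fun v => ?_
    obtain ⟨x, y, rfl⟩ : ∃ x y, v = Sum.elim x y := ⟨v ∘ Sum.inl, v ∘ Sum.inr, by simp⟩
    rw [LinearMap.comp_apply, LinearMap.comp_apply, Matrix.toLin'_apply, Matrix.fromBlocks_mulVec,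
      hΦ]
    simp only [Matrix.zero_mulVec, add_zero, zero_add]
    rw [hΦ, LinearMap.toMatrix'_mulVec, LinearMap.toMatrix'_mulVec, hN'e, hA'e, map_add]
    simp only [Sum.elim_comp_inl, Sum.elim_comp_inr]

/-- Block diagonal element of `GL`. -/
def diagGL {α β : Type*} [Fintype α] [Fintype β] [DecidableEq α] [DecidableEq β]
    (Q₁ : GL α F) (Q₂ : GL β F) : GL (α ⊕ β) F :=
  ⟨Matrix.fromBlocks Q₁.val 0 0 Q₂.val, Matrix.fromBlocks (Q₁⁻¹).val 0 0 (Q₂⁻¹).val,
    by rw [Matrix.fromBlocks_multiply]; simp [Matrix.fromBlocks_one],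
    by rw [Matrix.fromBlocks_multiply]; simp [Matrix.fromBlocks_one]⟩

theorem diagGL_val {α β : Type*} [Fintype α] [Fintype β] [DecidableEq α] [DecidableEq β]
    (Q₁ : GL α F) (Q₂ : GL β F) :
    (diagGL Q₁ Q₂).val = Matrix.fromBlocks Q₁.val 0 0 Q₂.val := rfl

theorem diagGL_inv_val {α β : Type*} [Fintype α] [Fintype β] [DecidableEq α] [DecidableEq β]
    (Q₁ : GL α F) (Q₂ : GL β F) :
    ((diagGL Q₁ Q₂)⁻¹).val = Matrix.fromBlocks (Q₁⁻¹).val 0 0 (Q₂⁻¹).val := rfl

/-- The key double count (Fitting decomposition): matrices of stable rank `|β|` versus pairs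
(nilpotent `α`-block, invertible `β`-block). -/
theorem fitting_count {α β : Type*} [Fintype α] [Fintype β] [DecidableEq α] [DecidableEq β]
    [Finite F] :
    Nat.card {M : Matrix (α ⊕ β) (α ⊕ β) F //
        (M ^ (Fintype.card α + Fintype.card β)).rank = Fintype.card β} *
      (Nat.card (GL α F) * Nat.card (GL β F)) =
    Nat.card (GL (α ⊕ β) F) *
      (Nat.card {N : Matrix α α F // IsNilpotent N} * Nat.card (GL β F)) := by
  classical
  let X : Type _ := {x : GL (α ⊕ β) F × Matrix (α ⊕ β) (α ⊕ β) F //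
    ∃ (N : Matrix α α F) (A : Matrix β β F), IsNilpotent N ∧ IsUnit A ∧
      x.2 * x.1.val = x.1.val * Matrix.fromBlocks N 0 0 A}
  -- first parametrisation
  let f₁ : GL (α ⊕ β) F × ({N : Matrix α α F // IsNilpotent N} × GL β F) → X := fun t =>
    ⟨(t.1, t.1.val * Matrix.fromBlocks t.2.1.1 0 0 t.2.2.val * (t.1⁻¹).val),
      t.2.1.1, t.2.2.val, t.2.1.2, t.2.2.isUnit, by
        show t.1.val * Matrix.fromBlocks t.2.1.1 0 0 t.2.2.val * (t.1⁻¹).val * t.1.val =
          t.1.val * Matrix.fromBlocks t.2.1.1 0 0 t.2.2.val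
        rw [Matrix.mul_assoc, Units.inv_mul, Matrix.mul_one]⟩
  have hf₁ : Function.Bijective f₁ := by
    constructor
    · rintro ⟨P, ⟨N, hN⟩, A⟩ ⟨P', ⟨N', hN'⟩, A'⟩ hEq
      have h1 := congrArg (fun x : X => x.1.1) hEq
      have h2 := congrArg (fun x : X => x.1.2) hEq
      simp only [f₁] at h1 h2
      subst h1
      have h3 : Matrix.fromBlocks N 0 0 A.val = Matrix.fromBlocks N' 0 0 A'.val := by
        have := congrArg (fun Z => (P⁻¹).val * Z * P.val) h2
        simpa [Matrix.mul_assoc, ← Matrix.mul_assoc (P⁻¹).val P.val] using this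
      rw [Matrix.fromBlocks_inj] at h3
      obtain ⟨hNN, -, -, hAA⟩ := h3
      subst hNN
      have : A = A' := Units.ext hAA
      subst this
      rfl
    · rintro ⟨⟨P, M⟩, N, A, hN, hA, h⟩
      refine ⟨(P, ⟨N, hN⟩, hA.unit), ?_⟩
      apply Subtype.ext
      simp only [f₁, IsUnit.unit_spec]
      refine Prod.ext rfl ?_
      simp only
      simp only at h
      rw [← h, Matrix.mul_assoc, Units.mul_inv, Matrix.mul_one]
  -- second parametrisation
  have hex : ∀ M : {M : Matrix (α ⊕ β) (α ⊕ β) F //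
      (M ^ (Fintype.card α + Fintype.card β)).rank = Fintype.card β},
      ∃ (P : GL (α ⊕ β) F) (N : Matrix α α F) (A : Matrix β β F), IsNilpotent N ∧ IsUnit A ∧
        M.1 * P.val = P.val * Matrix.fromBlocks N 0 0 A := fun M => fitting_exists M.1 M.2
  choose P₀ N₀ A₀ hN₀ hA₀ hPD using hex
  let f₂ : {M : Matrix (α ⊕ β) (α ⊕ β) F //
      (M ^ (Fintype.card α + Fintype.card β)).rank = Fintype.card β} × (GL α F × GL β F) → X :=
    fun t => ⟨(P₀ t.1 * diagGL t.2.1 t.2.2, t.1.1),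
      (t.2.1⁻¹).val * N₀ t.1 * t.2.1.val, (t.2.2⁻¹).val * A₀ t.1 * t.2.2.val, by
        obtain ⟨k, hk⟩ := hN₀ t.1
        exact ⟨k, by rw [Units.conj_pow', hk, Matrix.mul_zero, Matrix.zero_mul]⟩,
      ((t.2.2⁻¹).isUnit.mul (hA₀ t.1)).mul t.2.2.isUnit, by
        show t.1.1 * (P₀ t.1 * diagGL t.2.1 t.2.2).val = (P₀ t.1 * diagGL t.2.1 t.2.2).val *
          Matrix.fromBlocks ((t.2.1⁻¹).val * N₀ t.1 * t.2.1.val) 0 0
            ((t.2.2⁻¹).val * A₀ t.1 * t.2.2.val)
        have e : Matrix.fromBlocks ((t.2.1⁻¹).val * N₀ t.1 * t.2.1.val) 0 0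
            ((t.2.2⁻¹).val * A₀ t.1 * t.2.2.val) =
            (diagGL t.2.1 t.2.2)⁻¹.val * Matrix.fromBlocks (N₀ t.1) 0 0 (A₀ t.1) *
              (diagGL t.2.1 t.2.2).val := by
          rw [diagGL_inv_val, diagGL_val, Matrix.fromBlocks_multiply, Matrix.fromBlocks_multiply]
          simp
        rw [e, Units.val_mul, ← Matrix.mul_assoc, hPD t.1]
        simp only [Matrix.mul_assoc]
        rw [Units.mul_inv_cancel_left]⟩
  have hf₂ : Function.Bijective f₂ := by
    constructor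
    · rintro ⟨M, Q₁, Q₂⟩ ⟨M', Q₁', Q₂'⟩ hEq
      have h1 := congrArg (fun x : X => x.1.1) hEq
      have h2 := congrArg (fun x : X => x.1.2) hEq
      simp only [f₂] at h1 h2
      have hM : M = M' := Subtype.ext h2
      subst hM
      have h3 : diagGL Q₁ Q₂ = diagGL Q₁' Q₂' := mul_left_cancel h1
      have h4 := congrArg Units.val h3
      rw [diagGL_val, diagGL_val, Matrix.fromBlocks_inj] at h4
      obtain ⟨h5, -, -, h6⟩ := h4
      have e1 : Q₁ = Q₁' := Units.ext h5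
      have e2 : Q₂ = Q₂' := Units.ext h6
      rw [e1, e2]
    · rintro ⟨⟨P, M⟩, N, A, hN, hA, h⟩
      replace h : M * P.val = P.val * Matrix.fromBlocks N 0 0 A := h
      have hM : (M ^ (Fintype.card α + Fintype.card β)).rank = Fintype.card β := by
        rw [rank_pow_of_semiconj M _ P h, rank_pow_fromBlocks N A hN hA]
      have hrig := fitting_rigid (N₀ ⟨M, hM⟩) N (A₀ ⟨M, hM⟩) A (hN₀ ⟨M, hM⟩) hN (hA₀ ⟨M, hM⟩) hA
        ((P₀ ⟨M, hM⟩)⁻¹ * P) (by
          have h0 : M * (P₀ ⟨M, hM⟩).val = (P₀ ⟨M, hM⟩).val *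
              Matrix.fromBlocks (N₀ ⟨M, hM⟩) 0 0 (A₀ ⟨M, hM⟩) := hPD ⟨M, hM⟩
          have h1 : Matrix.fromBlocks (N₀ ⟨M, hM⟩) 0 0 (A₀ ⟨M, hM⟩) * ((P₀ ⟨M, hM⟩)⁻¹).val =
              ((P₀ ⟨M, hM⟩)⁻¹).val * M := by
            have e1 : ((P₀ ⟨M, hM⟩)⁻¹).val * (M * (P₀ ⟨M, hM⟩).val) * ((P₀ ⟨M, hM⟩)⁻¹).val =
                ((P₀ ⟨M, hM⟩)⁻¹).val * M := by
              rw [Matrix.mul_assoc, Matrix.mul_assoc, Units.mul_inv, Matrix.mul_one]
            have e2 : ((P₀ ⟨M, hM⟩)⁻¹).val * ((P₀ ⟨M, hM⟩).val *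
                Matrix.fromBlocks (N₀ ⟨M, hM⟩) 0 0 (A₀ ⟨M, hM⟩)) * ((P₀ ⟨M, hM⟩)⁻¹).val =
                Matrix.fromBlocks (N₀ ⟨M, hM⟩) 0 0 (A₀ ⟨M, hM⟩) * ((P₀ ⟨M, hM⟩)⁻¹).val := by
              rw [← Matrix.mul_assoc, Units.inv_mul, Matrix.one_mul]
            rw [← e1, ← e2, h0]
          rw [Units.val_mul, ← Matrix.mul_assoc, h1, Matrix.mul_assoc, h, Matrix.mul_assoc])
      obtain ⟨Q₁, Q₂, hQ⟩ := hrig
      refine ⟨(⟨M, hM⟩, Q₁, Q₂), ?_⟩
      apply Subtype.ext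
      simp only [f₂]
      refine Prod.ext ?_ rfl
      simp only
      have : diagGL Q₁ Q₂ = (P₀ ⟨M, hM⟩)⁻¹ * P := Units.ext (by rw [diagGL_val, hQ])
      rw [this, mul_inv_cancel_left]
  have c1 := Nat.card_eq_of_bijective f₁ hf₁
  have c2 := Nat.card_eq_of_bijective f₂ hf₂
  rw [Nat.card_prod, Nat.card_prod] at c1 c2
  rw [c1, c2]

end Cfsg.Agent.Lib.Helper40
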