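-- helper40: alternating forms on F^n in standard coordinates; model similitudes.
import Mathlib
import Cfsg.Prelude.Def_GeometricClasses
import Cfsg.Agent.Lib.Helper40.Subf3
import Cfsg.Agent.Lib.Helper99.AltBasis

set_option autoImplicit false

namespace Cfsg.Agent.Lib.Helper40.Alt

open Matrix Polynomial Cfsg.Agent.Lib.Helper40.Subf

section Std

variable {F : Type*} [Field F] {n : ℕ}

/-- the sign pattern of the standard alternating form. -/
def eps (F : Type*) [Field F] (n : ℕ) (i : Fin n) : F := if 2 * (i : ℕ) < n then 1 else -1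

/-- the standard alternating form on `F^n`, pairing `i` with `rev i`. -/
def f₀ (F : Type*) [Field F] (n : ℕ) (u v : Fin n → F) : F :=
  ∑ i, eps F n i * u i * v (Fin.rev i)

theorem eps_rev (hn : Even n) (i : Fin n) : eps F n (Fin.rev i) = - eps F n i := by
  obtain ⟨m, hm⟩ := hn
  unfold eps
  rw [Fin.val_rev]
  have hi := i.2
  by_cases h : 2 * (i : ℕ) < n
  · rw [if_pos h, if_neg (by omega)]
  · rw [if_neg h, if_pos (by omega), neg_neg]

/-- the form as a Mathlib bilinear form. -/
noncomputable def bil (f : (Fin n → F) → (Fin n → F) → F) (hf : Cfsg.Geo.IsSymplecticForm f) :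
    LinearMap.BilinForm F (Fin n → F) :=
  LinearMap.mk₂ F f hf.bilinear.add_left (fun c u v => by simpa using hf.bilinear.smul_left c u v)
    hf.bilinear.add_right (fun c u v => by simpa using hf.bilinear.smul_right c u v)

theorem bil_apply (f : (Fin n → F) → (Fin n → F) → F) (hf : Cfsg.Geo.IsSymplecticForm f)
    (u v : Fin n → F) : bil f hf u v = f u v := rfl

theorem f₀_single (u : Fin n → F) (i : Fin n) :
    f₀ F n u (Pi.single (Fin.rev i) 1) = eps F n i * u i := by
  classical
  unfold f₀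
  rw [Finset.sum_eq_single i]
  · simp
  · intro j _ hj
    have h1 : Fin.rev j ≠ Fin.rev i := fun h => hj (Fin.rev_injective h)
    rw [Pi.single_eq_of_ne h1, mul_zero]
  · intro h
    exact absurd (Finset.mem_univ _) h

theorem eps_ne_zero (i : Fin n) : eps F n i ≠ 0 := by
  unfold eps
  split_ifs <;> simp

/-- every symplectic form is the standard one in suitable coordinates. -/
theorem exists_std (f : (Fin n → F) → (Fin n → F) → F) (hf : Cfsg.Geo.IsSymplecticForm f) :
    ∃ B : GL (Fin n) F, ∀ u v, f ((B : Matrix (Fin n) (Fin n) F) *ᵥ u)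
      ((B : Matrix (Fin n) (Fin n) F) *ᵥ v) = f₀ F n u v := by
  classical
  have hAlt : (bil f hf).IsAlt := fun v => hf.alternating v
  obtain ⟨m, k, b, h1, h2, h3, h4⟩ := Cfsg.Agent.Lib.Helper99.alt_basis (bil f hf) hAlt
  have hk : k = 0 := by
    by_contra hk
    have j : Fin k := ⟨0, Nat.pos_of_ne_zero hk⟩
    obtain ⟨-, ⟨x, hx⟩⟩ := hf.nondegenerate _ (b.ne_zero (Sum.inr j))
    exact hx (h4 j x)
  have hnm : n = 2 * m := by
    have h5 := Module.finrank_eq_card_basis b
    rw [Module.finrank_fin_fun] at h5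
    simp only [Fintype.card_sum, Fintype.card_fin] at h5
    omega
  obtain ⟨c, hc⟩ : ∃ c : Fin n → (Fin n → F), c = fun i : Fin n =>
      if h : 2 * (i : ℕ) < n then b (Sum.inl (Sum.inl ⟨i, by omega⟩))
      else b (Sum.inl (Sum.inr ⟨n - 1 - i, by have := i.2; omega⟩)) := ⟨_, rfl⟩
  have hcc : ∀ i j, f (c i) (c j) = if j = Fin.rev i then eps F n i else 0 := by
    intro i j
    have hi := i.2
    have hj := j.2
    have hrev : (j = Fin.rev i) ↔ (j : ℕ) = n - 1 - (i : ℕ) := by
      rw [Fin.ext_iff, Fin.val_rev]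
      omega
    rw [hc]
    simp only
    by_cases hi2 : 2 * (i : ℕ) < n
    · by_cases hj2 : 2 * (j : ℕ) < n
      · rw [dif_pos hi2, dif_pos hj2]
        have := h2 ⟨i, by omega⟩ ⟨j, by omega⟩
        rw [bil_apply] at this
        rw [this, if_neg]
        rw [hrev]
        omega
      · rw [dif_pos hi2, dif_neg hj2]
        have := h1 ⟨i, by omega⟩ ⟨n - 1 - j, by omega⟩
        rw [bil_apply] at this
        rw [this]
        unfold eps
        rw [if_pos hi2]
        by_cases h6 : (j : ℕ) = n - 1 - (i : ℕ)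
        · rw [if_pos (hrev.2 h6), if_pos]
          apply Fin.ext
          simp only
          omega
        · rw [if_neg (fun h => h6 (hrev.1 h)), if_neg]
          intro h
          rw [Fin.ext_iff] at h
          simp only at h
          omega
    · by_cases hj2 : 2 * (j : ℕ) < n
      · rw [dif_neg hi2, dif_pos hj2, hf.skew]
        have := h1 ⟨j, by omega⟩ ⟨n - 1 - i, by omega⟩
        rw [bil_apply] at this
        rw [this]
        unfold eps
        rw [if_neg hi2]
        by_cases h6 : (j : ℕ) = n - 1 - (i : ℕ)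
        · rw [if_pos (hrev.2 h6), if_pos]
          apply Fin.ext
          simp only
          omega
        · rw [if_neg (fun h => h6 (hrev.1 h)), if_neg, neg_zero]
          intro h
          rw [Fin.ext_iff] at h
          simp only at h
          omega
      · rw [dif_neg hi2, dif_neg hj2]
        have := h3 ⟨n - 1 - i, by omega⟩ ⟨n - 1 - j, by omega⟩
        rw [bil_apply] at this
        rw [this, if_neg]
        rw [hrev]
        omega
  obtain ⟨B, hB⟩ : ∃ B : Matrix (Fin n) (Fin n) F, B = Matrix.of (fun r i => c i r) := ⟨_, rfl⟩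
  have hBu : ∀ u : Fin n → F, B *ᵥ u = ∑ i, u i • c i := by
    intro u
    funext r
    rw [hB]
    simp [Matrix.mulVec, dotProduct, mul_comm]
  have hform : ∀ u v, f (B *ᵥ u) (B *ᵥ v) = f₀ F n u v := by
    intro u v
    have h5 : f (B *ᵥ u) (B *ᵥ v) = ∑ j, v j * ∑ i, u i * f (c i) (c j) := by
      rw [hBu, hBu, ← bil_apply f hf]
      simp only [map_sum, LinearMap.sum_apply, map_smul, LinearMap.smul_apply, smul_eq_mul,
        bil_apply]
    rw [h5]
    simp only [Finset.mul_sum]
    rw [Finset.sum_comm]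
    unfold f₀
    apply Finset.sum_congr rfl
    intro i _
    rw [Finset.sum_eq_single (Fin.rev i)]
    · rw [hcc, if_pos rfl]
      ring
    · intro j _ hj
      rw [hcc, if_neg hj]
      ring
    · intro h
      exact absurd (Finset.mem_univ _) h
  have hinj : Function.Injective B.mulVec := by
    intro u u' huu
    have h5 : B *ᵥ (u - u') = 0 := by
      rw [Matrix.mulVec_sub, sub_eq_zero]
      exact huu
    have h6 : ∀ i, (u - u') i = 0 := by
      intro i
      have h7 := hform (u - u') (Pi.single (Fin.rev i) 1)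
      rw [h5, f₀_single] at h7
      have h8 : f 0 (B *ᵥ Pi.single (Fin.rev i) 1) = 0 := by
        have := hf.bilinear.smul_left 0 0 (B *ᵥ Pi.single (Fin.rev i) 1)
        rwa [zero_smul, zero_mul] at this
      rw [h8] at h7
      rcases mul_eq_zero.1 h7.symm with h9 | h9
      · exact absurd h9 (eps_ne_zero i)
      · exact h9
    funext i
    have := h6 i
    rw [Pi.sub_apply, sub_eq_zero] at this
    exact this
  have hunit : IsUnit B := Matrix.mulVec_injective_iff_isUnit.1 hinj
  obtain ⟨B', hB'⟩ := hunit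
  exact ⟨B', fun u v => by rw [hB']; exact hform u v⟩

end Std

section Transfer

variable {F : Type*} [Field F] {n : ℕ}

theorem conj_of_std (f : (Fin n → F) → (Fin n → F) → F) (B : GL (Fin n) F)
    (hB : ∀ u v, f ((B : Matrix (Fin n) (Fin n) F) *ᵥ u)
      ((B : Matrix (Fin n) (Fin n) F) *ᵥ v) = f₀ F n u v)
    (x : Matrix.SpecialLinearGroup (Fin n) F) (Q Y : Matrix (Fin n) (Fin n) F)
    (hQ : Q.det = (B : Matrix (Fin n) (Fin n) F).det)
    (hxQ : (x : Matrix (Fin n) (Fin n) F) * Q = Q * Y) (τ : F) (hτ : τ ≠ 0)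
    (hY : ∀ u v, f₀ F n (Y *ᵥ u) (Y *ᵥ v) = τ * f₀ F n u v) :
    ∃ P : Matrix.SpecialLinearGroup (Fin n) F, P⁻¹ * x * P ∈
      (Cfsg.Geo.similarityGroup f).comap (Matrix.SpecialLinearGroup.toGL :
        Matrix.SpecialLinearGroup (Fin n) F →* GL (Fin n) F) := by
  have hBiB : ((B⁻¹ : GL (Fin n) F) : Matrix (Fin n) (Fin n) F) *
      (B : Matrix (Fin n) (Fin n) F) = 1 := by
    rw [← Units.val_mul, inv_mul_cancel, Units.val_one]
  have hBBi : (B : Matrix (Fin n) (Fin n) F) *
      ((B⁻¹ : GL (Fin n) F) : Matrix (Fin n) (Fin n) F) = 1 := by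
    rw [← Units.val_mul, mul_inv_cancel, Units.val_one]
  have hPdet : (Q * ((B⁻¹ : GL (Fin n) F) : Matrix (Fin n) (Fin n) F)).det = 1 := by
    rw [Matrix.det_mul, hQ, ← Matrix.det_mul, hBBi, Matrix.det_one]
  obtain ⟨P, hP⟩ : ∃ P : Matrix.SpecialLinearGroup (Fin n) F,
      (P : Matrix (Fin n) (Fin n) F) = Q * ((B⁻¹ : GL (Fin n) F) : Matrix (Fin n) (Fin n) F) :=
    ⟨⟨_, hPdet⟩, rfl⟩
  refine ⟨P, ?_⟩
  rw [Subgroup.mem_comap]
  have hg : ((Matrix.SpecialLinearGroup.toGL (P⁻¹ * x * P) : GL (Fin n) F) :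
      Matrix (Fin n) (Fin n) F) = (B : Matrix (Fin n) (Fin n) F) * Y *
        ((B⁻¹ : GL (Fin n) F) : Matrix (Fin n) (Fin n) F) := by
    rw [Matrix.SpecialLinearGroup.coe_GL_coe_matrix, Matrix.SpecialLinearGroup.coe_mul,
      Matrix.SpecialLinearGroup.coe_mul]
    have h1 : (x : Matrix (Fin n) (Fin n) F) * (P : Matrix (Fin n) (Fin n) F) =
        (P : Matrix (Fin n) (Fin n) F) * ((B : Matrix (Fin n) (Fin n) F) * Y *
          ((B⁻¹ : GL (Fin n) F) : Matrix (Fin n) (Fin n) F)) := by
      rw [hP, ← Matrix.mul_assoc, hxQ]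
      have h2 : Q * ((B⁻¹ : GL (Fin n) F) : Matrix (Fin n) (Fin n) F) *
          ((B : Matrix (Fin n) (Fin n) F) * Y *
            ((B⁻¹ : GL (Fin n) F) : Matrix (Fin n) (Fin n) F)) =
          Q * (((B⁻¹ : GL (Fin n) F) : Matrix (Fin n) (Fin n) F) *
            (B : Matrix (Fin n) (Fin n) F)) * Y *
            ((B⁻¹ : GL (Fin n) F) : Matrix (Fin n) (Fin n) F) := by
        simp only [Matrix.mul_assoc]
      rw [h2, hBiB, Matrix.mul_one]
    rw [Matrix.mul_assoc, h1, ← Matrix.mul_assoc, ← Matrix.SpecialLinearGroup.coe_mul,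
      inv_mul_cancel, Matrix.SpecialLinearGroup.coe_one, Matrix.one_mul]
  refine ⟨Units.mk0 τ hτ, fun u v => ?_⟩
  have hu : ∀ w : Fin n → F, ((B : Matrix (Fin n) (Fin n) F) * Y *
      ((B⁻¹ : GL (Fin n) F) : Matrix (Fin n) (Fin n) F)) *ᵥ w =
      (B : Matrix (Fin n) (Fin n) F) *ᵥ (Y *ᵥ
        (((B⁻¹ : GL (Fin n) F) : Matrix (Fin n) (Fin n) F) *ᵥ w)) := by
    intro w
    simp only [Matrix.mulVec_mulVec, Matrix.mul_assoc]
  rw [hg, hu, hu, hB, hY, ← hB, Matrix.mulVec_mulVec, Matrix.mulVec_mulVec, hBBi,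
    Matrix.one_mulVec, Matrix.one_mulVec]
  rfl

end Transfer

section Models

variable {F : Type*} [Field F] {n : ℕ}

theorem Jm_mulVec (a : ℕ) (v : Fin n → F) (i : Fin n) :
    (Jm F n a *ᵥ v) i = if (i : ℕ) < a then v (Fin.rev i) else 0 := by
  classical
  simp only [Matrix.mulVec, dotProduct, Jm, Matrix.of_apply]
  have hi := i.2
  by_cases h : (i : ℕ) < a
  · rw [if_pos h, Finset.sum_eq_single (Fin.rev i)]
    · rw [if_pos ⟨h, by rw [Fin.val_rev]; omega⟩, one_mul]
    · intro j _ hj
      rw [if_neg, zero_mul]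
      rintro ⟨-, h2⟩
      apply hj
      apply Fin.ext
      rw [Fin.val_rev]
      omega
    · intro h
      exact absurd (Finset.mem_univ _) h
  · rw [if_neg h]
    apply Finset.sum_eq_zero
    intro j _
    rw [if_neg (fun h2 => h h2.1), zero_mul]

theorem std_unip (a : ℕ) (h : 2 * a ≤ n) (u v : Fin n → F) :
    f₀ F n ((1 + Jm F n a) *ᵥ u) ((1 + Jm F n a) *ᵥ v) = f₀ F n u v := by
  classical
  unfold f₀
  simp only [Matrix.add_mulVec, Matrix.one_mulVec, Pi.add_apply, Jm_mulVec, Fin.val_rev,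
    Fin.rev_rev]
  have h1 : ∀ i : Fin n, eps F n i * (u i + if (i : ℕ) < a then u (Fin.rev i) else 0) *
      (v (Fin.rev i) + if n - ((i : ℕ) + 1) < a then v i else 0) =
      eps F n i * u i * v (Fin.rev i) +
        ((if (i : ℕ) < a then u (Fin.rev i) * v (Fin.rev i) else 0) -
          (if n - ((i : ℕ) + 1) < a then u i * v i else 0)) := by
    intro i
    have hi := i.2
    by_cases h2 : (i : ℕ) < a
    · have he : eps F n i = 1 := by
        unfold eps
        rw [if_pos (by omega)]
      have h3 : ¬ (n - ((i : ℕ) + 1) < a) := by omega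
      simp only [he, if_pos h2, if_neg h3]
      ring
    · by_cases h3 : n - ((i : ℕ) + 1) < a
      · have he : eps F n i = -1 := by
          unfold eps
          rw [if_neg (by omega)]
        simp only [he, if_neg h2, if_pos h3]
        ring
      · simp only [if_neg h2, if_neg h3]
        ring
  rw [Finset.sum_congr rfl (fun i _ => h1 i), Finset.sum_add_distrib, Finset.sum_sub_distrib]
  have h2 : ∑ i : Fin n, (if n - ((i : ℕ) + 1) < a then u i * v i else 0) =
      ∑ i : Fin n, (if (i : ℕ) < a then u (Fin.rev i) * v (Fin.rev i) else 0) := by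
    rw [← Equiv.sum_comp Fin.revPerm]
    apply Finset.sum_congr rfl
    intro i _
    simp only [Fin.revPerm_apply, Fin.val_rev]
    have hi := i.2
    by_cases h3 : (i : ℕ) < a
    · rw [if_pos (by omega), if_pos h3]
    · rw [if_neg (by omega), if_neg h3]
  rw [h2, sub_self, add_zero]

theorem std_diag (d : Fin n → F) (τ : F) (hd : ∀ i, d i * d (Fin.rev i) = τ) (u v : Fin n → F) :
    f₀ F n (Matrix.diagonal d *ᵥ u) (Matrix.diagonal d *ᵥ v) = τ * f₀ F n u v := by
  classical
  unfold f₀
  rw [Finset.mul_sum]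
  apply Finset.sum_congr rfl
  intro i _
  rw [Matrix.mulVec_diagonal, Matrix.mulVec_diagonal, ← hd i]
  ring

/-- the model similitude with square `z`. -/
def Ym (z : F) (n : ℕ) : Matrix (Fin n) (Fin n) F :=
  Matrix.of fun i j => if j = Fin.rev i then (if 2 * (i : ℕ) < n then z else 1) else 0

theorem Ym_mulVec (z : F) (v : Fin n → F) (i : Fin n) :
    (Ym z n *ᵥ v) i = (if 2 * (i : ℕ) < n then z else 1) * v (Fin.rev i) := by
  classical
  simp only [Matrix.mulVec, dotProduct, Ym, Matrix.of_apply]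
  rw [Finset.sum_eq_single (Fin.rev i)]
  · rw [if_pos rfl]
  · intro j _ hj
    rw [if_neg hj, zero_mul]
  · intro h
    exact absurd (Finset.mem_univ _) h

theorem Ym_coef (hn : Even n) (z : F) (i : Fin n) :
    (if 2 * (i : ℕ) < n then z else 1) * (if 2 * (n - ((i : ℕ) + 1)) < n then z else 1) = z := by
  obtain ⟨m, hm⟩ := hn
  have hi := i.2
  by_cases h : 2 * (i : ℕ) < n
  · rw [if_pos h, if_neg (by omega), mul_one]
  · rw [if_neg h, if_pos (by omega), one_mul]

theorem Ym_sq (hn : Even n) (z : F) : Ym z n * Ym z n = z • (1 : Matrix (Fin n) (Fin n) F) := by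
  classical
  ext i k
  rw [Matrix.mul_apply, Finset.sum_eq_single (Fin.rev i)]
  · have h1 : Ym z n i (Fin.rev i) = (if 2 * (i : ℕ) < n then z else 1) := by
      simp [Ym]
    have h2 : Ym z n (Fin.rev i) k =
        if k = i then (if 2 * (n - ((i : ℕ) + 1)) < n then z else 1) else 0 := by
      simp [Ym]
    rw [h1, h2, Matrix.smul_apply, Matrix.one_apply, smul_eq_mul]
    by_cases hik : i = k
    · subst hik
      rw [if_pos rfl, if_pos rfl, mul_one]
      exact Ym_coef hn z i
    · rw [if_neg (fun h : k = i => hik h.symm), if_neg hik, mul_zero, mul_zero]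
  · intro j _ hj
    simp only [Ym, Matrix.of_apply]
    rw [if_neg hj, zero_mul]
  · intro h
    exact absurd (Finset.mem_univ _) h

theorem std_Y (hn : Even n) (z : F) (u v : Fin n → F) :
    f₀ F n (Ym z n *ᵥ u) (Ym z n *ᵥ v) = (-z) * f₀ F n u v := by
  classical
  unfold f₀
  simp only [Ym_mulVec, Fin.rev_rev, Fin.val_rev]
  rw [Finset.mul_sum,
    ← Equiv.sum_comp Fin.revPerm (fun i => -z * (eps F n i * u i * v (Fin.rev i)))]
  apply Finset.sum_congr rfl
  intro i _
  simp only [Fin.revPerm_apply, Fin.rev_rev]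
  rw [eps_rev hn]
  have h1 := Ym_coef hn z i
  linear_combination (eps F n i * u (Fin.rev i) * v i) * h1

end Models

end Cfsg.Agent.Lib.Helper40.Alt
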