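-- helper40: involutions (mod scalars) of SL_n and the similitude group of an alternating form.
import Mathlib
import Cfsg.Prelude.Def_GeometricClasses
import Cfsg.Agent.Lib.Helper40.Alt

set_option autoImplicit false

namespace Cfsg.Agent.Lib.Helper40.Alt

open Matrix Polynomial Cfsg.Agent.Lib.Helper40.Subf

section Aux

variable {F : Type*} [Field F] {n : ℕ}

theorem swap_conj (g : GL (Fin n) F) (X M : Matrix (Fin n) (Fin n) F)
    (h : (g : Matrix (Fin n) (Fin n) F) * X = M * (g : Matrix (Fin n) (Fin n) F)) :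
    X * ((g⁻¹ : GL (Fin n) F) : Matrix (Fin n) (Fin n) F) =
      ((g⁻¹ : GL (Fin n) F) : Matrix (Fin n) (Fin n) F) * M := by
  have h3 : ((g⁻¹ : GL (Fin n) F) : Matrix (Fin n) (Fin n) F) *
      ((g : Matrix (Fin n) (Fin n) F) * X) *
      ((g⁻¹ : GL (Fin n) F) : Matrix (Fin n) (Fin n) F) =
      ((g⁻¹ : GL (Fin n) F) : Matrix (Fin n) (Fin n) F) *
      (M * (g : Matrix (Fin n) (Fin n) F)) *
      ((g⁻¹ : GL (Fin n) F) : Matrix (Fin n) (Fin n) F) := by rw [h]
  rw [← Matrix.mul_assoc, ← Units.val_mul, inv_mul_cancel, Units.val_one, Matrix.one_mul,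
    Matrix.mul_assoc, Matrix.mul_assoc, ← Units.val_mul, mul_inv_cancel, Units.val_one,
    Matrix.mul_one] at h3
  exact h3

theorem f₀_smul_smul (b : F) (u v : Fin n → F) :
    f₀ F n (b • u) (b • v) = (b * b) * f₀ F n u v := by
  unfold f₀
  rw [Finset.mul_sum]
  apply Finset.sum_congr rfl
  intro i _
  simp only [Pi.smul_apply, smul_eq_mul]
  ring

theorem det_inv_mul (g : GL (Fin n) F) (W : Matrix (Fin n) (Fin n) F) (δ : F)
    (hW : W.det = (g : Matrix (Fin n) (Fin n) F).det * δ) :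
    (((g⁻¹ : GL (Fin n) F) : Matrix (Fin n) (Fin n) F) * W).det = δ := by
  have h1 : ((g⁻¹ : GL (Fin n) F) : Matrix (Fin n) (Fin n) F).det *
      (g : Matrix (Fin n) (Fin n) F).det = 1 := by
    rw [← Matrix.det_mul, ← Units.val_mul, inv_mul_cancel, Units.val_one, Matrix.det_one]
  rw [Matrix.det_mul, hW, ← mul_assoc, h1, one_mul]

end Aux

section Even

variable {F : Type*} [Field F] [Fintype F] {n : ℕ}

theorem conj_even (hF2 : ringChar F = 2) (hn : 2 ≤ n) (f : (Fin n → F) → (Fin n → F) → F)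
    (B : GL (Fin n) F)
    (hB : ∀ u v, f ((B : Matrix (Fin n) (Fin n) F) *ᵥ u)
      ((B : Matrix (Fin n) (Fin n) F) *ᵥ v) = f₀ F n u v)
    (x : Matrix.SpecialLinearGroup (Fin n) F) (z : F)
    (hx : (x : Matrix (Fin n) (Fin n) F) * (x : Matrix (Fin n) (Fin n) F) =
      z • (1 : Matrix (Fin n) (Fin n) F))
    (hns : ∀ z : F, (x : Matrix (Fin n) (Fin n) F) ≠ z • (1 : Matrix (Fin n) (Fin n) F)) :
    ∃ P : Matrix.SpecialLinearGroup (Fin n) F, P⁻¹ * x * P ∈
      (Cfsg.Geo.similarityGroup f).comap (Matrix.SpecialLinearGroup.toGL :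
        Matrix.SpecialLinearGroup (Fin n) F →* GL (Fin n) F) := by
  classical
  have : CharP F 2 := ringChar.of_eq hF2
  have h2 : (2 : F) = 0 := CharTwo.two_eq_zero
  obtain ⟨b, hb⟩ := FiniteField.isSquare_of_char_two hF2 z
  have hne : Nonempty (Fin n) := ⟨⟨0, by omega⟩⟩
  have hb0 : b ≠ 0 := by
    rintro rfl
    rw [hb, mul_zero, zero_smul] at hx
    have h3 := congrArg Matrix.det hx
    rw [Matrix.det_mul, x.det_coe, Matrix.det_zero] at h3
    simp at h3
  obtain ⟨N, hN⟩ : ∃ N : Matrix (Fin n) (Fin n) F,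
      N = b⁻¹ • (x : Matrix (Fin n) (Fin n) F) - 1 := ⟨_, rfl⟩
  have hxN : (x : Matrix (Fin n) (Fin n) F) = b • (N + 1) := by
    rw [hN, sub_add_cancel, smul_smul, mul_inv_cancel₀ hb0, one_smul]
  have hNN : N * N = 0 := by
    have h3 : N * N = (b⁻¹ * b⁻¹) • ((x : Matrix (Fin n) (Fin n) F) *
        (x : Matrix (Fin n) (Fin n) F)) - (2 : F) • (b⁻¹ • (x : Matrix (Fin n) (Fin n) F)) + 1 := by
      rw [hN, two_smul]
      simp only [sub_mul, mul_sub, Matrix.smul_mul, Matrix.mul_smul, smul_smul, Matrix.one_mul,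
        Matrix.mul_one]
      abel
    rw [h3, hx, h2, zero_smul, sub_zero, smul_smul, hb]
    have h4 : b⁻¹ * b⁻¹ * (b * b) = 1 := by field_simp
    rw [h4, one_smul, ← two_smul F (1 : Matrix (Fin n) (Fin n) F), h2, zero_smul]
  have hN0 : N ≠ 0 := by
    intro h
    apply hns b
    rw [hxN, h, zero_add]
  obtain ⟨a, ha⟩ : ∃ a : ℕ, a = N.rank := ⟨_, rfl⟩
  have ha1 : 1 ≤ a := by
    by_contra h
    have h3 : N.rank = 0 := by omega
    exact hN0 (PGLClasses.eq_zero_of_rank_eq_zero N h3)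
  have h2a : 2 * a ≤ n := by
    have h3 := Matrix.rank_add_rank_le_card_of_mul_eq_zero hNN
    rw [Fintype.card_fin] at h3
    omega
  have hranks : ∀ j, (N ^ j).rank = (Jm F n a ^ j).rank := by
    intro j
    rcases j with _ | _ | j
    · simp
    · rw [zero_add, pow_one, pow_one, Jm_rank n a (by omega), ha]
    · rw [pow_succ, pow_succ, Matrix.mul_assoc, hNN, Matrix.mul_zero, pow_succ, pow_succ,
        Matrix.mul_assoc, Jm_mul_self n a h2a, Matrix.mul_zero]
  obtain ⟨g, hg⟩ := Jordan.similar_of_rank_pow_eq N (Jm F n a) ⟨2, by rw [pow_two, hNN]⟩ hranks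
  have hgx : (g : Matrix (Fin n) (Fin n) F) * (x : Matrix (Fin n) (Fin n) F) =
      (b • (1 + Jm F n a)) * (g : Matrix (Fin n) (Fin n) F) := by
    rw [hxN, Matrix.mul_smul, Matrix.mul_add, hg, Matrix.mul_one, Matrix.smul_mul,
      Matrix.add_mul, Matrix.one_mul, add_comm]
  have hxg := swap_conj g _ _ hgx
  obtain ⟨s, hs⟩ := FiniteField.isSquare_of_char_two hF2
    ((g : Matrix (Fin n) (Fin n) F).det * (B : Matrix (Fin n) (Fin n) F).det)
  obtain ⟨W, hW⟩ : ∃ W : Matrix (Fin n) (Fin n) F, W = Matrix.diagonal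
      (fun i : Fin n => if (i : ℕ) = 0 ∨ (i : ℕ) + 1 = n then s else 1) := ⟨_, rfl⟩
  have hWdet : W.det = (g : Matrix (Fin n) (Fin n) F).det *
      (B : Matrix (Fin n) (Fin n) F).det := by
    rw [hW, Matrix.det_diagonal, prod_w n hn, ← hs]
  have hWJ : W * (b • (1 + Jm F n a)) = (b • (1 + Jm F n a)) * W := by
    rw [Matrix.mul_smul, Matrix.smul_mul, Matrix.mul_add, Matrix.add_mul, hW, w_comm,
      Matrix.mul_one, Matrix.one_mul]
  apply conj_of_std f B hB x (((g⁻¹ : GL (Fin n) F) : Matrix (Fin n) (Fin n) F) * W)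
    (b • (1 + Jm F n a)) (det_inv_mul g W _ hWdet) ?_ (b * b) (mul_ne_zero hb0 hb0) ?_
  · rw [← Matrix.mul_assoc, hxg, Matrix.mul_assoc, Matrix.mul_assoc, hWJ]
  · intro u v
    rw [Matrix.smul_mulVec, Matrix.smul_mulVec, f₀_smul_smul, std_unip a h2a]

end Even

section Odd

variable {F : Type*} [Field F] [Fintype F] {n : ℕ}

omit [Fintype F] in
theorem invol_model (hF2 : ringChar F ≠ 2) (s : Matrix (Fin n) (Fin n) F) (hss : s * s = 1)
    (d : Fin n → F) (hd : ∀ i, d i = 1 ∨ d i = -1)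
    (hcount' : Nat.card {i // d i = -1} = n - (s + 1).rank) :
    ∃ g : GL (Fin n) F, (g : Matrix (Fin n) (Fin n) F) * s =
      Matrix.diagonal d * (g : Matrix (Fin n) (Fin n) F) := by
  classical
  have hcount : Fintype.card {i // d i = -1} = n - (s + 1).rank := by
    rw [← hcount', Nat.card_eq_fintype_card]
  have h1 : (1 : F) ≠ -1 := (Ring.neg_one_ne_one_of_char_ne_two hF2).symm
  have hsS := aeval_pm h1 s hss
  have hDD : Matrix.diagonal d * Matrix.diagonal d = (1 : Matrix (Fin n) (Fin n) F) := by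
    rw [Matrix.diagonal_mul_diagonal, ← Matrix.diagonal_one]
    congr 1
    funext i
    rcases hd i with h3 | h3 <;> simp [h3]
  have hDS := aeval_pm h1 (Matrix.diagonal d) hDD
  have e1 : s - (1 : F) • (1 : Matrix (Fin n) (Fin n) F) = s - 1 := by rw [one_smul]
  have e2 : s - (-1 : F) • (1 : Matrix (Fin n) (Fin n) F) = s + 1 := by
    rw [neg_smul, one_smul, sub_neg_eq_add]
  have hsum := Diag.sum_sub_rank s ({1, -1} : Finset F) hsS
  rw [Finset.sum_pair h1, e1, e2] at hsum
  have hr1 : (s - 1).rank ≤ n := by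
    have := Matrix.rank_le_width (s - 1)
    simpa using this
  have hr2 : (s + 1).rank ≤ n := by
    have := Matrix.rank_le_width (s + 1)
    simpa using this
  have hc1 : Fintype.card {i // d i = 1} = n - Fintype.card {i // d i = -1} := by
    have h3 := Fintype.card_subtype_compl (fun i : Fin n => d i = -1)
    rw [Fintype.card_fin] at h3
    rw [← h3]
    apply Fintype.card_congr
    apply Equiv.subtypeEquivRight
    intro i
    rcases hd i with h4 | h4
    · rw [h4]
      simp [h1]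
    · rw [h4]
      simp [h1.symm]
  apply Diag.similar_of_rank_eq s (Matrix.diagonal d) ({1, -1} : Finset F) hsS hDS
  intro ζ hζ
  rw [Finset.mem_insert, Finset.mem_singleton] at hζ
  have h3 := Diag.rank_diagonal_sub d ζ
  rcases hζ with rfl | rfl
  · rw [e1]
    rw [hc1, hcount] at h3
    omega
  · rw [e2]
    rw [hcount] at h3
    omega

omit [Fintype F] in
theorem conj_odd_sq (hF2 : ringChar F ≠ 2) (hn : 2 ≤ n) (f : (Fin n → F) → (Fin n → F) → F)
    (B : GL (Fin n) F)
    (hB : ∀ u v, f ((B : Matrix (Fin n) (Fin n) F) *ᵥ u)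
      ((B : Matrix (Fin n) (Fin n) F) *ᵥ v) = f₀ F n u v)
    (x : Matrix.SpecialLinearGroup (Fin n) F) (b : F) (hb : b ≠ 0)
    (hx : (x : Matrix (Fin n) (Fin n) F) * (x : Matrix (Fin n) (Fin n) F) =
      (b * b) • (1 : Matrix (Fin n) (Fin n) F))
    (hpar : ∀ c : F, c ^ n ≠ -1) :
    ∃ P : Matrix.SpecialLinearGroup (Fin n) F, P⁻¹ * x * P ∈
      (Cfsg.Geo.similarityGroup f).comap (Matrix.SpecialLinearGroup.toGL :
        Matrix.SpecialLinearGroup (Fin n) F →* GL (Fin n) F) := by
  classical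
  have h1 : (1 : F) ≠ -1 := (Ring.neg_one_ne_one_of_char_ne_two hF2).symm
  obtain ⟨s, hs⟩ : ∃ s : Matrix (Fin n) (Fin n) F,
      s = b⁻¹ • (x : Matrix (Fin n) (Fin n) F) := ⟨_, rfl⟩
  have hxs : (x : Matrix (Fin n) (Fin n) F) = b • s := by
    rw [hs, smul_smul, mul_inv_cancel₀ hb, one_smul]
  have hss : s * s = 1 := by
    rw [hs, Matrix.smul_mul, Matrix.mul_smul, smul_smul, hx, smul_smul]
    have h4 : b⁻¹ * b⁻¹ * (b * b) = 1 := by field_simp
    rw [h4, one_smul]
  obtain ⟨k, hk⟩ : ∃ k : ℕ, k = n - (s + 1).rank := ⟨_, rfl⟩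
  have hkn : k ≤ n := by omega
  -- parity of k via the prefix model
  have hkeven : Even k := by
    by_contra hodd
    rw [Nat.not_even_iff_odd] at hodd
    obtain ⟨d, hd⟩ : ∃ d : Fin n → F, d = fun i : Fin n => if (i : ℕ) < k then -1 else 1 :=
      ⟨_, rfl⟩
    have hd1 : ∀ i, d i = 1 ∨ d i = -1 := by
      intro i
      rw [hd]
      simp only
      split_ifs
      · exact Or.inr rfl
      · exact Or.inl rfl
    have hfil : (Finset.univ.filter fun i : Fin n => d i = -1) =
        Finset.univ.filter fun i : Fin n => (i : ℕ) < k := by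
      apply Finset.filter_congr
      intro i _
      rw [hd]
      simp only
      by_cases h3 : (i : ℕ) < k
      · simp [h3]
      · simp [h3, h1]
    have hcount : Nat.card {i // d i = -1} = n - (s + 1).rank := by
      rw [Nat.card_eq_fintype_card, Fintype.card_subtype, hfil, Fin.card_filter_val_lt, ← hk]
      exact min_eq_right hkn
    obtain ⟨g, hg⟩ := invol_model hF2 s hss d hd1 hcount
    have hgdet : (g : Matrix (Fin n) (Fin n) F).det ≠ 0 :=
      ((Matrix.isUnit_iff_isUnit_det _).mp g.isUnit).ne_zero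
    have hdet := congrArg Matrix.det hg
    rw [Matrix.det_mul, Matrix.det_mul, mul_comm] at hdet
    have hsdet : s.det = (-1) ^ k := by
      have h3 := mul_right_cancel₀ hgdet hdet
      rw [h3, Matrix.det_diagonal, hd, Finset.prod_ite, Finset.prod_const_one, mul_one,
        Finset.prod_const]
      congr 1
      rw [Fin.card_filter_val_lt]
      exact min_eq_right hkn
    have hxdet := x.det_coe
    rw [hxs, Matrix.det_smul, Fintype.card_fin, hsdet, hodd.neg_one_pow] at hxdet
    apply hpar b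
    linear_combination -hxdet
  obtain ⟨h, hh⟩ := hkeven
  obtain ⟨d, hd⟩ : ∃ d : Fin n → F, d = fun i : Fin n =>
      if (i : ℕ) < h ∨ n - h ≤ (i : ℕ) then -1 else 1 := ⟨_, rfl⟩
  have hd1 : ∀ i, d i = 1 ∨ d i = -1 := by
    intro i
    rw [hd]
    simp only
    split_ifs
    · exact Or.inr rfl
    · exact Or.inl rfl
  have hdrev : ∀ i, d i * d (Fin.rev i) = 1 := by
    intro i
    have hi := i.2
    rw [hd]
    simp only [Fin.val_rev]
    by_cases h3 : (i : ℕ) < h ∨ n - h ≤ (i : ℕ)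
    · rw [if_pos h3, if_pos (by omega)]
      norm_num
    · rw [if_neg h3, if_neg (by omega), one_mul]
  have hfil : (Finset.univ.filter fun i : Fin n => d i = -1) =
      (Finset.univ.filter fun i : Fin n => (i : ℕ) < h) ∪
        (Finset.univ.filter fun i : Fin n => ¬ (i : ℕ) < n - h) := by
    ext i
    rw [Finset.mem_union, Finset.mem_filter, Finset.mem_filter, Finset.mem_filter, hd]
    simp only [Finset.mem_univ, true_and]
    by_cases h3 : (i : ℕ) < h ∨ n - h ≤ (i : ℕ)
    · rw [if_pos h3]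
      simp only [true_iff]
      rcases h3 with h3 | h3
      · exact Or.inl h3
      · exact Or.inr (by omega)
    · rw [if_neg h3]
      simp only [h1, false_iff]
      intro h4
      apply h3
      rcases h4 with h4 | h4
      · exact Or.inl h4
      · exact Or.inr (by omega)
  have hcount : Nat.card {i // d i = -1} = n - (s + 1).rank := by
    rw [Nat.card_eq_fintype_card, Fintype.card_subtype, hfil, Finset.card_union_of_disjoint,
      Fin.card_filter_val_lt]
    · have h3 := Finset.card_filter_add_card_filter_not (s := (Finset.univ : Finset (Fin n)))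
        (fun i : Fin n => (i : ℕ) < n - h)
      rw [Fin.card_filter_val_lt, Finset.card_univ, Fintype.card_fin] at h3
      have h4 : min n (n - h) = n - h := min_eq_right (by omega)
      have h5 : min n h = h := min_eq_right (by omega)
      rw [h4] at h3
      rw [h5]
      omega
    · rw [Finset.disjoint_filter]
      intro i _ h3 h4
      omega
  obtain ⟨g, hg⟩ := invol_model hF2 s hss d hd1 hcount
  have hgx : (g : Matrix (Fin n) (Fin n) F) * (x : Matrix (Fin n) (Fin n) F) =
      (b • Matrix.diagonal d) * (g : Matrix (Fin n) (Fin n) F) := by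
    rw [hxs, Matrix.mul_smul, hg, Matrix.smul_mul]
  have hxg := swap_conj g _ _ hgx
  obtain ⟨W, hW⟩ : ∃ W : Matrix (Fin n) (Fin n) F, W = Matrix.diagonal
      (fun i : Fin n => if i = ⟨0, by omega⟩ then (g : Matrix (Fin n) (Fin n) F).det *
        (B : Matrix (Fin n) (Fin n) F).det else 1) := ⟨_, rfl⟩
  have hWdet : W.det = (g : Matrix (Fin n) (Fin n) F).det *
      (B : Matrix (Fin n) (Fin n) F).det := by
    rw [hW, Matrix.det_diagonal, Finset.prod_ite_eq' Finset.univ (⟨0, by omega⟩ : Fin n)]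
    simp
  have hWD : W * (b • Matrix.diagonal d) = (b • Matrix.diagonal d) * W := by
    rw [Matrix.mul_smul, Matrix.smul_mul, hW, Matrix.diagonal_mul_diagonal,
      Matrix.diagonal_mul_diagonal]
    congr 2
    funext i
    exact mul_comm _ _
  apply conj_of_std f B hB x (((g⁻¹ : GL (Fin n) F) : Matrix (Fin n) (Fin n) F) * W)
    (b • Matrix.diagonal d) (det_inv_mul g W _ hWdet) ?_ (b * b) (mul_ne_zero hb hb) ?_
  · rw [← Matrix.mul_assoc, hxg, Matrix.mul_assoc, Matrix.mul_assoc, hWD]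
  · intro u v
    rw [Matrix.smul_mulVec, Matrix.smul_mulVec, f₀_smul_smul, std_diag d 1 hdrev, one_mul]

theorem conj_odd_nonsq (hn : 1 ≤ n) (he : Even n) (f : (Fin n → F) → (Fin n → F) → F)
    (B : GL (Fin n) F)
    (hB : ∀ u v, f ((B : Matrix (Fin n) (Fin n) F) *ᵥ u)
      ((B : Matrix (Fin n) (Fin n) F) *ᵥ v) = f₀ F n u v)
    (x : Matrix.SpecialLinearGroup (Fin n) F) (z : F) (hz : ∀ b : F, b ^ 2 ≠ z)
    (hx : (x : Matrix (Fin n) (Fin n) F) ^ 2 = z • (1 : Matrix (Fin n) (Fin n) F)) :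
    ∃ P : Matrix.SpecialLinearGroup (Fin n) F, P⁻¹ * x * P ∈
      (Cfsg.Geo.similarityGroup f).comap (Matrix.SpecialLinearGroup.toGL :
        Matrix.SpecialLinearGroup (Fin n) F →* GL (Fin n) F) := by
  classical
  have hne : Nonempty (Fin n) := ⟨⟨0, by omega⟩⟩
  have hz0 : z ≠ 0 := by
    rintro rfl
    exact hz 0 (by norm_num)
  have hY2 : Ym z n ^ 2 = z • (1 : Matrix (Fin n) (Fin n) F) := by
    rw [pow_two, Ym_sq he]
  obtain ⟨g, hg⟩ := PGLClasses.similar_of_pow_eq Nat.prime_two z hz _ _ hx hY2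
  have hxg := swap_conj g _ _ hg
  have hirr := X_pow_sub_C_irreducible_of_prime Nat.prime_two hz
  have hsemi : Module.End.IsSemisimple (Matrix.toLin' (x : Matrix (Fin n) (Fin n) F)) := by
    apply Module.End.isSemisimple_of_squarefree_aeval_eq_zero hirr.squarefree
    rw [Diag.aeval_toLin']
    simp [hx, Algebra.algebraMap_eq_smul_one]
  obtain ⟨c, hc, hcdet⟩ := Cfsg.Agent.Lib.Helper40.exists_commute_det_eq
    (Matrix.toLin' (x : Matrix (Fin n) (Fin n) F)) hsemi
    ((g : Matrix (Fin n) (Fin n) F).det * (B : Matrix (Fin n) (Fin n) F).det)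
  obtain ⟨C, hC⟩ : ∃ C : Matrix (Fin n) (Fin n) F, C = LinearMap.toMatrix' c := ⟨_, rfl⟩
  have hCx : C * (x : Matrix (Fin n) (Fin n) F) = (x : Matrix (Fin n) (Fin n) F) * C := by
    apply Matrix.toLin'.injective
    rw [Matrix.toLin'_mul, Matrix.toLin'_mul, hC, Matrix.toLin'_toMatrix']
    apply LinearMap.ext
    intro v
    exact hc v
  have hCdet : C.det = (g : Matrix (Fin n) (Fin n) F).det *
      (B : Matrix (Fin n) (Fin n) F).det := by
    rw [hC, LinearMap.det_toMatrix', hcdet]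
  have hgi : ((g⁻¹ : GL (Fin n) F) : Matrix (Fin n) (Fin n) F).det *
      (g : Matrix (Fin n) (Fin n) F).det = 1 := by
    rw [← Matrix.det_mul, ← Units.val_mul, inv_mul_cancel, Units.val_one, Matrix.det_one]
  apply conj_of_std f B hB x (C * ((g⁻¹ : GL (Fin n) F) : Matrix (Fin n) (Fin n) F))
    (Ym z n) ?_ ?_ (-z) (neg_ne_zero.2 hz0) (std_Y he z)
  · rw [Matrix.det_mul, hCdet, mul_comm, ← mul_assoc, hgi, one_mul]
  · rw [← Matrix.mul_assoc, ← hCx, Matrix.mul_assoc, hxg, Matrix.mul_assoc]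

end Odd

section Derange

variable {F : Type*} [Field F] {n : ℕ}

theorem f_sum_right (f : (Fin n → F) → (Fin n → F) → F) (hf : Cfsg.Geo.IsSymplecticForm f)
    (a : Fin n → F) (c : Fin n → F) (w : Fin n → (Fin n → F)) :
    f a (∑ j, c j • w j) = ∑ j, c j * f a (w j) := by
  rw [← bil_apply f hf]
  simp only [map_sum, map_smul, smul_eq_mul, bil_apply]

/-- a vector orthogonal to the columns of an invertible matrix is zero. -/
theorem eq_zero_of_perp (f : (Fin n → F) → (Fin n → F) → F) (hf : Cfsg.Geo.IsSymplecticForm f)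
    (Pv Pm : Matrix (Fin n) (Fin n) F) (hPiPm : Pv * Pm = 1) (a : Fin n → F)
    (h : ∀ j, f a (Pv *ᵥ Pi.single j 1) = 0) : a = 0 := by
  classical
  by_contra ha
  obtain ⟨-, ⟨v, hv⟩⟩ := hf.nondegenerate a ha
  apply hv
  have h1 : v = ∑ j, (Pm *ᵥ v) j • (Pv *ᵥ Pi.single j 1) := by
    have h2 : Pm *ᵥ v = ∑ j, (Pm *ᵥ v) j • (Pi.single j 1 : Fin n → F) := by
      funext i
      simp [Finset.sum_apply, Pi.single_apply]
    have h3 : Pv *ᵥ (Pm *ᵥ v) = v := by
      rw [Matrix.mulVec_mulVec, hPiPm, Matrix.one_mulVec]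
    rw [← h3]
    conv_lhs => rw [h2]
    rw [Matrix.mulVec_sum]
    apply Finset.sum_congr rfl
    intro j _
    rw [Matrix.mulVec_smul, h3]
  rw [h1, f_sum_right f hf]
  apply Finset.sum_eq_zero
  intro j _
  rw [h j, mul_zero]

theorem derange_alt (hF2 : ringChar F ≠ 2) (hn : 3 ≤ n) (f : (Fin n → F) → (Fin n → F) → F)
    (hf : Cfsg.Geo.IsSymplecticForm f) (l : F) (hl : l ^ n = -1) :
    ∃ x : Matrix.SpecialLinearGroup (Fin n) F,
      (x : Matrix (Fin n) (Fin n) F) * (x : Matrix (Fin n) (Fin n) F) =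
        (l * l) • (1 : Matrix (Fin n) (Fin n) F) ∧
      (∀ z : F, (x : Matrix (Fin n) (Fin n) F) ≠ z • (1 : Matrix (Fin n) (Fin n) F)) ∧
      ∀ P : Matrix.SpecialLinearGroup (Fin n) F, P⁻¹ * x * P ∉
        (Cfsg.Geo.similarityGroup f).comap (Matrix.SpecialLinearGroup.toGL :
          Matrix.SpecialLinearGroup (Fin n) F →* GL (Fin n) F) := by
  classical
  have h1 : (1 : F) ≠ -1 := (Ring.neg_one_ne_one_of_char_ne_two hF2).symm
  have h2F : (2 : F) ≠ 0 := by
    intro h
    apply h1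
    linear_combination h
  have hl0 : l ≠ 0 := by
    rintro rfl
    rw [zero_pow (by omega)] at hl
    have : (1 : F) = 0 := by linear_combination hl
    exact one_ne_zero this
  obtain ⟨i0, hi0⟩ : ∃ i0 : Fin n, (i0 : ℕ) = 0 := ⟨⟨0, by omega⟩, rfl⟩
  obtain ⟨i1, hi1⟩ : ∃ i1 : Fin n, (i1 : ℕ) = 1 := ⟨⟨1, by omega⟩, rfl⟩
  obtain ⟨i2, hi2⟩ : ∃ i2 : Fin n, (i2 : ℕ) = 2 := ⟨⟨2, by omega⟩, rfl⟩
  have h01 : i1 ≠ i0 := by
    intro h
    rw [Fin.ext_iff] at h
    omega
  have h02 : i2 ≠ i0 := by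
    intro h
    rw [Fin.ext_iff] at h
    omega
  have h12 : i1 ≠ i2 := by
    intro h
    rw [Fin.ext_iff] at h
    omega
  obtain ⟨d, hd⟩ : ∃ d : Fin n → F, d = fun i : Fin n => if i = i0 then -1 else 1 := ⟨_, rfl⟩
  have hd0 : d i0 = -1 := by
    rw [hd]
    simp
  have hdne : ∀ j, j ≠ i0 → d j = 1 := by
    intro j hj
    rw [hd]
    simp [hj]
  have hdd : ∀ i, d i * d i = 1 := by
    intro i
    by_cases h : i = i0
    · rw [h, hd0]
      norm_num
    · rw [hdne i h, one_mul]
  obtain ⟨X, hX⟩ : ∃ X : Matrix (Fin n) (Fin n) F, X = l • Matrix.diagonal d := ⟨_, rfl⟩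
  have hXdet : X.det = 1 := by
    rw [hX, Matrix.det_smul, Fintype.card_fin, hl, Matrix.det_diagonal, hd,
      Finset.prod_ite_eq' Finset.univ i0]
    simp
  have hXX : X * X = (l * l) • (1 : Matrix (Fin n) (Fin n) F) := by
    rw [hX, Matrix.smul_mul, Matrix.mul_smul, smul_smul, Matrix.diagonal_mul_diagonal,
      ← Matrix.diagonal_one]
    congr 2
    funext i
    exact hdd i
  obtain ⟨x, hx⟩ : ∃ x : Matrix.SpecialLinearGroup (Fin n) F,
      (x : Matrix (Fin n) (Fin n) F) = X := ⟨⟨X, hXdet⟩, rfl⟩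
  refine ⟨x, by rw [hx, hXX], ?_, ?_⟩
  · intro z hz
    rw [hx, hX] at hz
    have e0 := congrFun (congrFun hz i0) i0
    have e1 := congrFun (congrFun hz i1) i1
    simp only [Matrix.smul_apply, Matrix.diagonal_apply_eq, Matrix.one_apply_eq, smul_eq_mul,
      mul_one] at e0 e1
    rw [hd0] at e0
    rw [hdne i1 h01] at e1
    apply hl0
    have : (2 : F) * l = 0 := by linear_combination e1 - e0
    rcases mul_eq_zero.1 this with h | h
    · exact absurd h h2F
    · exact h
  · intro P hP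
    rw [Subgroup.mem_comap] at hP
    obtain ⟨c, hc⟩ := hP
    rw [Matrix.SpecialLinearGroup.coe_GL_coe_matrix] at hc
    obtain ⟨Pm, hPm⟩ : ∃ Pm : Matrix (Fin n) (Fin n) F, Pm = (P : Matrix (Fin n) (Fin n) F) :=
      ⟨_, rfl⟩
    obtain ⟨Pv, hPi⟩ : ∃ Pv : Matrix (Fin n) (Fin n) F,
        Pv = ((P⁻¹ : Matrix.SpecialLinearGroup (Fin n) F) : Matrix (Fin n) (Fin n) F) := ⟨_, rfl⟩
    have hPiPm : Pv * Pm = 1 := by
      rw [hPi, hPm, ← Matrix.SpecialLinearGroup.coe_mul, inv_mul_cancel,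
        Matrix.SpecialLinearGroup.coe_one]
    have hPmPi : Pm * Pv = 1 := by
      rw [hPi, hPm, ← Matrix.SpecialLinearGroup.coe_mul, mul_inv_cancel,
        Matrix.SpecialLinearGroup.coe_one]
    have hY : ((P⁻¹ * x * P : Matrix.SpecialLinearGroup (Fin n) F) :
        Matrix (Fin n) (Fin n) F) = Pv * X * Pm := by
      rw [Matrix.SpecialLinearGroup.coe_mul, Matrix.SpecialLinearGroup.coe_mul, hx, hPi, hPm]
    rw [hY] at hc
    obtain ⟨w, hw⟩ : ∃ w : Fin n → (Fin n → F), w = fun j => Pv *ᵥ Pi.single j 1 := ⟨_, rfl⟩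
    have hyw : ∀ j, (Pv * X * Pm) *ᵥ w j = (l * d j) • w j := by
      intro j
      have h3 : X *ᵥ (Pi.single j 1 : Fin n → F) = (l * d j) • (Pi.single j 1 : Fin n → F) := by
        rw [hX, Matrix.smul_mulVec, Matrix.diagonal_mulVec_single, mul_one, mul_smul]
        congr 1
        funext i
        simp [Pi.single_apply]
      rw [hw]
      simp only
      rw [Matrix.mulVec_mulVec, Matrix.mul_assoc, Matrix.mul_assoc, hPmPi, Matrix.mul_one,
        ← Matrix.mulVec_mulVec, h3, Matrix.mulVec_smul]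
    have key : ∀ j k, (l * d j) * (l * d k) * f (w j) (w k) = (c : F) * f (w j) (w k) := by
      intro j k
      have h3 := hc (w j) (w k)
      rw [hyw, hyw, hf.bilinear.smul_left, hf.bilinear.smul_right] at h3
      rw [← h3]
      ring
    have hwne : ∀ j, w j ≠ 0 := by
      intro j h
      have h3 : Pm *ᵥ w j = Pi.single j 1 := by
        rw [hw]
        simp only
        rw [Matrix.mulVec_mulVec, hPmPi, Matrix.one_mulVec]
      rw [h, Matrix.mulVec_zero] at h3
      have h4 := congrFun h3 j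
      simp at h4
    have hperp : ∀ a : Fin n → F, (∀ j, f a (w j) = 0) → a = 0 := by
      intro a ha
      apply eq_zero_of_perp f hf Pv Pm hPiPm a
      intro j
      have := ha j
      rw [hw] at this
      exact this
    by_cases hτ : (c : F) = -(l * l)
    · have hz : ∀ j k, j ≠ i0 → k ≠ i0 → f (w j) (w k) = 0 := by
        intro j k hj hk
        have h3 := key j k
        rw [hdne j hj, hdne k hk, hτ] at h3
        have h4 : (2 * (l * l)) * f (w j) (w k) = 0 := by linear_combination h3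
        rcases mul_eq_zero.1 h4 with h5 | h5
        · exact absurd h5 (mul_ne_zero h2F (mul_ne_zero hl0 hl0))
        · exact h5
      have hv : f (w i2) (w i0) • w i1 - f (w i1) (w i0) • w i2 = 0 := by
        apply hperp
        intro k
        have e1 : f (f (w i2) (w i0) • w i1 - f (w i1) (w i0) • w i2) (w k) =
            f (w i2) (w i0) * f (w i1) (w k) - f (w i1) (w i0) * f (w i2) (w k) := by
          rw [sub_eq_add_neg, hf.bilinear.add_left, hf.bilinear.smul_left, ← neg_smul,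
            hf.bilinear.smul_left]
          ring
        rw [e1]
        by_cases hk : k = i0
        · rw [hk]
          ring
        · rw [hz i1 k h01 hk, hz i2 k h02 hk]
          ring
      have hv' := congrArg (fun v => Pm *ᵥ v) hv
      simp only [Matrix.mulVec_sub, Matrix.mulVec_smul, Matrix.mulVec_zero] at hv'
      have hPw : ∀ j, Pm *ᵥ w j = Pi.single j 1 := by
        intro j
        rw [hw]
        simp only
        rw [Matrix.mulVec_mulVec, hPmPi, Matrix.one_mulVec]
      rw [hPw, hPw] at hv'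
      have e2 := congrFun hv' i2
      have h10 : f (w i1) (w i0) = 0 := by
        simpa [Pi.single_apply, h12, Ne.symm h12] using e2
      apply hwne i1
      apply hperp
      intro k
      by_cases hk : k = i0
      · rw [hk, h10]
      · exact hz i1 k h01 hk
    · apply hwne i0
      apply hperp
      intro k
      by_cases hk : k = i0
      · rw [hk]
        exact hf.alternating _
      · have h3 := key i0 k
        rw [hd0, hdne k hk] at h3
        have h4 : (-(l * l) - (c : F)) * f (w i0) (w k) = 0 := by linear_combination h3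
        rcases mul_eq_zero.1 h4 with h5 | h5
        · exfalso
          apply hτ
          linear_combination -h5
        · exact h5

end Derange

section NT

variable {F : Type*} [Field F] [Fintype F]

theorem neg_one_pow_of_lt {q : ℕ} (hq : Fintype.card F = q) (hodd : Odd q) {n : ℕ} (hn : n ≠ 0)
    (h : padicValNat 2 n < padicValNat 2 (q - 1)) : ∃ l : F, l ^ n = -1 := by
  classical
  have h2 : Fact (Nat.Prime 2) := ⟨Nat.prime_two⟩
  have hq2 : 2 ≤ q := by
    rw [← hq]
    exact Fintype.one_lt_card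
  obtain ⟨w, hw⟩ : ∃ w, w = padicValNat 2 n := ⟨_, rfl⟩
  rw [← hw] at h
  have hdvd : 2 ^ (w + 1) ∣ q - 1 :=
    (pow_dvd_pow 2 (by omega : w + 1 ≤ padicValNat 2 (q - 1))).trans pow_padicValNat_dvd
  obtain ⟨γ, hγ, -⟩ := Elusive.exists_gen (F := F)
  rw [hq] at hγ
  obtain ⟨t, ht⟩ := hdvd
  have ht0 : t ≠ 0 := by
    rintro rfl
    omega
  have hord : orderOf (γ ^ t) = 2 ^ (w + 1) := by
    rw [orderOf_pow_of_dvd ht0 (by rw [hγ, ht]; exact dvd_mul_left _ _), hγ, ht,
      Nat.mul_div_cancel _ (Nat.pos_of_ne_zero ht0)]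
  have h3 : ((γ ^ t : Fˣ) : F) ^ (2 ^ w) = -1 := by
    have h4 : (((γ ^ t : Fˣ) : F) ^ (2 ^ w)) ^ 2 = 1 := by
      rw [← pow_mul, ← pow_succ, ← Units.val_pow_eq_pow_val, ← hord, pow_orderOf_eq_one,
        Units.val_one]
    have h5 : ((γ ^ t : Fˣ) : F) ^ (2 ^ w) ≠ 1 := by
      intro h6
      have h7 : (γ ^ t) ^ (2 ^ w) = 1 := by
        apply Units.ext
        rw [Units.val_pow_eq_pow_val, h6, Units.val_one]
      have h8 := orderOf_dvd_of_pow_eq_one h7
      rw [hord] at h8
      have h9 := Nat.le_of_dvd (by positivity) h8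
      rw [pow_succ] at h9
      have : 0 < 2 ^ w := by positivity
      omega
    have h6 : (((γ ^ t : Fˣ) : F) ^ (2 ^ w) - 1) * (((γ ^ t : Fˣ) : F) ^ (2 ^ w) + 1) = 0 := by
      linear_combination h4
    rcases mul_eq_zero.1 h6 with h7 | h7
    · exact absurd (sub_eq_zero.1 h7) h5
    · linear_combination h7
  have hfac := Nat.ordProj_mul_ordCompl_eq_self n 2
  rw [Nat.factorization_def n Nat.prime_two, ← hw] at hfac
  have hodd' : Odd (n / 2 ^ w) := by
    have h4 := Nat.not_dvd_ordCompl Nat.prime_two hn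
    rw [Nat.factorization_def n Nat.prime_two, ← hw] at h4
    rcases Nat.even_or_odd (n / 2 ^ w) with h5 | h5
    · exact absurd (even_iff_two_dvd.1 h5) h4
    · exact h5
  refine ⟨((γ ^ t : Fˣ) : F), ?_⟩
  rw [← hfac, pow_mul, h3, hodd'.neg_one_pow]

theorem not_neg_one_pow {q : ℕ} (hq : Fintype.card F = q) (hodd : Odd q) {n : ℕ}
    (h : padicValNat 2 (q - 1) ≤ padicValNat 2 n) (hn : n ≠ 0) (c : F) : c ^ n ≠ -1 := by
  classical
  have h2 : Fact (Nat.Prime 2) := ⟨Nat.prime_two⟩
  have hq2 : 2 ≤ q := by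
    rw [← hq]
    exact Fintype.one_lt_card
  intro hc
  have hchar : ringChar F ≠ 2 := by
    intro h3
    have h4 := FiniteField.even_card_iff_char_two.1 h3
    rw [hq] at h4
    obtain ⟨m, hm⟩ := hodd
    omega
  have hc0 : c ≠ 0 := by
    rintro rfl
    rw [zero_pow hn] at hc
    have : (1 : F) = 0 := by linear_combination hc
    exact one_ne_zero this
  obtain ⟨e, he⟩ : ∃ e, e = padicValNat 2 (q - 1) := ⟨_, rfl⟩
  rw [← he] at h
  have hfac := Nat.ordProj_mul_ordCompl_eq_self (q - 1) 2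
  rw [Nat.factorization_def (q - 1) Nat.prime_two, ← he] at hfac
  have hodd' : Odd ((q - 1) / 2 ^ e) := by
    have h4 := Nat.not_dvd_ordCompl Nat.prime_two (by omega : q - 1 ≠ 0)
    rw [Nat.factorization_def (q - 1) Nat.prime_two, ← he] at h4
    rcases Nat.even_or_odd ((q - 1) / 2 ^ e) with h5 | h5
    · exact absurd (even_iff_two_dvd.1 h5) h4
    · exact h5
  have hdvd : 2 ^ e ∣ n := (pow_dvd_pow 2 h).trans pow_padicValNat_dvd
  obtain ⟨t, ht⟩ := hdvd
  have h5 : (c ^ n) ^ ((q - 1) / 2 ^ e) = 1 := by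
    rw [ht, ← pow_mul, mul_comm (2 ^ e) t, mul_assoc, hfac, pow_mul]
    have h6 := FiniteField.pow_card_sub_one_eq_one (c ^ t) (pow_ne_zero _ hc0)
    rw [hq] at h6
    exact h6
  rw [hc, hodd'.neg_one_pow] at h5
  exact Ring.neg_one_ne_one_of_char_ne_two hchar h5

end NT

end Cfsg.Agent.Lib.Helper40.Alt
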