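-- Normalisers of Singer cycles: elements of prime order (helper40).
import Mathlib
import Cfsg.Prelude.Def_GeometricClasses
import Cfsg.Agent.Lib.Helper20.ExtNonMax
import Cfsg.Agent.Lib.Helper40.Elusive

set_option autoImplicit false

namespace Cfsg.Agent.Lib.Helper40.Singer

open Cfsg Cfsg.Geo Matrix Cfsg.Agent.Lib.Helper20.ExtNonMax

section Basic

variable {F : Type*} [Field F] {n : ℕ} {K : Subalgebra F (Matrix (Fin n) (Fin n) F)}

/-- `F^n` is a one-dimensional vector space over a field subalgebra of degree `n`. -/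
theorem exists_equiv (hK : IsFieldSubalgebra n K) {v₀ : Fin n → F} (hv₀ : v₀ ≠ 0) :
    ∃ φ : ↥K ≃ₗ[F] (Fin n → F), ∀ a : ↥K, φ a = (a : Matrix (Fin n) (Fin n) F) *ᵥ v₀ := by
  obtain ⟨φ₀, hφ₀⟩ : ∃ φ₀ : ↥K →ₗ[F] (Fin n → F),
      ∀ a : ↥K, φ₀ a = (a : Matrix (Fin n) (Fin n) F) *ᵥ v₀ :=
    ⟨(ev v₀).comp (Subalgebra.val K).toLinearMap, fun a => rfl⟩
  have hinj : Function.Injective φ₀ := by
    rw [← LinearMap.ker_eq_bot, LinearMap.ker_eq_bot']
    intro a ha
    rw [hφ₀] at ha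
    by_contra h0
    exact hv₀ (K_cancel hK a.2 (fun h => h0 (Subtype.ext h)) ha)
  have hfin : Module.finrank F ↥K = Module.finrank F (Fin n → F) := by
    rw [hK.finrank_eq, Module.finrank_fin_fun]
  have hsurj : Function.Surjective φ₀ :=
    (LinearMap.injective_iff_surjective_of_finrank_eq_finrank hfin).1 hinj
  exact ⟨LinearEquiv.ofBijective φ₀ ⟨hinj, hsurj⟩, fun a => hφ₀ a⟩

theorem exists_mulVec (hK : IsFieldSubalgebra n K) {v₀ : Fin n → F} (hv₀ : v₀ ≠ 0)
    (w : Fin n → F) : ∃ a ∈ K, a *ᵥ v₀ = w := by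
  obtain ⟨φ, hφ⟩ := exists_equiv hK hv₀
  refine ⟨(φ.symm w : Matrix (Fin n) (Fin n) F), (φ.symm w).2, ?_⟩
  rw [← hφ, LinearEquiv.apply_symm_apply]

/-- An element of the normaliser of a field subalgebra of prime degree `n` with a two-dimensional
eigenspace is a scalar. -/
theorem scalar_of_eigen (hn : n.Prime) (hK : IsFieldSubalgebra n K) (y : GL (Fin n) F)
    (hy : y ∈ subalgebraNormalizer K) (v₁ v₂ : Fin n → F) (hv₁ : v₁ ≠ 0)
    (hv₂ : ∀ c : F, v₂ ≠ c • v₁) (μ : F)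
    (h1 : (y : Matrix (Fin n) (Fin n) F) *ᵥ v₁ = μ • v₁)
    (h2 : (y : Matrix (Fin n) (Fin n) F) *ᵥ v₂ = μ • v₂) :
    (y : Matrix (Fin n) (Fin n) F) = μ • (1 : Matrix (Fin n) (Fin n) F) := by
  have hyi : ((y⁻¹ : GL (Fin n) F) : Matrix (Fin n) (Fin n) F) *
      (y : Matrix (Fin n) (Fin n) F) = 1 := by
    rw [← Units.val_mul, inv_mul_cancel, Units.val_one]
  have hμ : μ ≠ 0 := by
    rintro rfl
    rw [zero_smul] at h1
    apply hv₁
    have h3 := congrArg (fun w => ((y⁻¹ : GL (Fin n) F) : Matrix (Fin n) (Fin n) F) *ᵥ w) h1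
    simp only [Matrix.mulVec_mulVec, hyi, Matrix.one_mulVec, Matrix.mulVec_zero] at h3
    exact h3
  have hsurj := exists_mulVec hK hv₁
  obtain ⟨c, hc, hcv⟩ := hsurj v₂
  have hc' : (y : Matrix (Fin n) (Fin n) F) * c *
      ((y⁻¹ : GL (Fin n) F) : Matrix (Fin n) (Fin n) F) ∈ K := (hy c).1 hc
  have hyc : (y : Matrix (Fin n) (Fin n) F) * c = c * (y : Matrix (Fin n) (Fin n) F) := by
    have h3 : (y : Matrix (Fin n) (Fin n) F) * c *
        ((y⁻¹ : GL (Fin n) F) : Matrix (Fin n) (Fin n) F) = c := by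
      apply K_eq_of_mulVec hK hc' hc (v := μ • v₁) (smul_ne_zero hμ hv₁)
      calc ((y : Matrix (Fin n) (Fin n) F) * c *
            ((y⁻¹ : GL (Fin n) F) : Matrix (Fin n) (Fin n) F)) *ᵥ (μ • v₁)
          = ((y : Matrix (Fin n) (Fin n) F) * c *
            ((y⁻¹ : GL (Fin n) F) : Matrix (Fin n) (Fin n) F)) *ᵥ
              ((y : Matrix (Fin n) (Fin n) F) *ᵥ v₁) := by rw [h1]
        _ = ((y : Matrix (Fin n) (Fin n) F) * c) *ᵥ v₁ := by
          rw [Matrix.mulVec_mulVec, mul_assoc, hyi, mul_one]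
        _ = μ • v₂ := by rw [← Matrix.mulVec_mulVec, hcv, h2]
        _ = c *ᵥ (μ • v₁) := by rw [Matrix.mulVec_smul, hcv]
    calc (y : Matrix (Fin n) (Fin n) F) * c
        = (y : Matrix (Fin n) (Fin n) F) * c *
          (((y⁻¹ : GL (Fin n) F) : Matrix (Fin n) (Fin n) F) *
            (y : Matrix (Fin n) (Fin n) F)) := by rw [hyi, mul_one]
      _ = ((y : Matrix (Fin n) (Fin n) F) * c *
          ((y⁻¹ : GL (Fin n) F) : Matrix (Fin n) (Fin n) F)) *
            (y : Matrix (Fin n) (Fin n) F) := (mul_assoc _ _ _).symm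
      _ = c * (y : Matrix (Fin n) (Fin n) F) := by rw [h3]
  have : Nontrivial ↥K := ⟨⟨0, 1, fun h => by
    have h1 : (0 : Matrix (Fin n) (Fin n) F) = 1 := congrArg Subtype.val h
    have : Nonempty (Fin n) := ⟨⟨0, hn.pos⟩⟩
    exact zero_ne_one h1⟩⟩
  have : NoZeroDivisors ↥K := ⟨by
    intro a b hab
    by_cases ha : a = 0
    · exact Or.inl ha
    · right
      obtain ⟨a', ha', haa'⟩ := hK.inv a a.2 (fun h => ha (Subtype.ext h))
      have h4 : a' * (a : Matrix (Fin n) (Fin n) F) = 1 := by rw [← hK.comm a a.2 a' ha', haa']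
      apply Subtype.ext
      have h5 : (a : Matrix (Fin n) (Fin n) F) * b = 0 := congrArg Subtype.val hab
      calc (b : Matrix (Fin n) (Fin n) F) = a' * a * b := by rw [h4, one_mul]
        _ = 0 := by rw [mul_assoc, h5, mul_zero]⟩
  have : IsDomain ↥K := NoZeroDivisors.to_isDomain _
  have hprime : (Module.finrank F ↥K).Prime := by
    rw [hK.finrank_eq]
    exact hn
  obtain ⟨Z, hZ⟩ : ∃ Z : Subalgebra F ↥K, ∀ k : ↥K, k ∈ Z ↔
      (y : Matrix (Fin n) (Fin n) F) * k = k * (y : Matrix (Fin n) (Fin n) F) :=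
    ⟨(Subalgebra.centralizer F {(y : Matrix (Fin n) (Fin n) F)}).comap K.val, fun k => by
      rw [Subalgebra.mem_comap, Subalgebra.mem_centralizer_iff]
      simp⟩
  have hsimple := Subalgebra.isSimpleOrder_of_finrank_prime F ↥K hprime
  rcases hsimple.eq_bot_or_eq_top Z with hbot | htop
  · exfalso
    have h3 : (⟨c, hc⟩ : ↥K) ∈ Z := (hZ _).2 hyc
    rw [hbot, Algebra.mem_bot] at h3
    obtain ⟨a, ha⟩ := h3
    have h4 : (algebraMap F (Matrix (Fin n) (Fin n) F) a) = c := congrArg Subtype.val ha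
    apply hv₂ a
    rw [← hcv, ← h4, Algebra.algebraMap_eq_smul_one, Matrix.smul_mulVec, Matrix.one_mulVec]
  · have hall : ∀ k ∈ K, (y : Matrix (Fin n) (Fin n) F) * k =
        k * (y : Matrix (Fin n) (Fin n) F) := by
      intro k hk
      have h3 : (⟨k, hk⟩ : ↥K) ∈ Z := by
        rw [htop]
        exact Algebra.mem_top
      exact (hZ _).1 h3
    apply Matrix.toLin'.injective
    apply LinearMap.ext
    intro w
    obtain ⟨a, ha, haw⟩ := hsurj w
    rw [Matrix.toLin'_apply, Matrix.toLin'_apply, Matrix.smul_mulVec, Matrix.one_mulVec, ← haw,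
      Matrix.mulVec_mulVec, hall a ha, ← Matrix.mulVec_mulVec, h1, Matrix.mulVec_smul]

end Basic

section Frob

variable {F : Type*} [Field F] [Fintype F] {n : ℕ} {K : Subalgebra F (Matrix (Fin n) (Fin n) F)}

/-- the Frobenius map of a field subalgebra, as a linear map -/
theorem frob_lin (hn : 0 < n) (hK : IsFieldSubalgebra n K) :
    ∃ Φ : ↥K →ₗ[F] ↥K, ∀ a : ↥K, ((Φ a : ↥K) : Matrix (Fin n) (Fin n) F) =
      (a : Matrix (Fin n) (Fin n) F) ^ Fintype.card F := by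
  let instField : Field ↥K := fieldOfSub hn K hK.comm hK.inv
  exact ⟨(FiniteField.frobeniusAlgHom F ↥K).toLinearMap, fun a => rfl⟩

theorem pow_card_pow (hn : 0 < n) (hK : IsFieldSubalgebra n K) (a : Matrix (Fin n) (Fin n) F)
    (ha : a ∈ K) : a ^ (Fintype.card F ^ n) = a := by
  let instField : Field ↥K := fieldOfSub hn K hK.comm hK.inv
  have hcard : Nat.card ↥K = Fintype.card F ^ n := by
    have h := Module.natCard_eq_pow_finrank (K := F) (V := ↥K)
    rw [hK.finrank_eq] at h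
    rw [h, Nat.card_eq_fintype_card]
  let instFt : Fintype ↥K := Fintype.ofFinite _
  have h := FiniteField.pow_card (⟨a, ha⟩ : ↥K)
  rw [← Nat.card_eq_fintype_card, hcard] at h
  exact congrArg Subtype.val h

/-- The Frobenius element of the normaliser of a Singer cycle. -/
theorem exists_frob (hn : 2 ≤ n) (hK : IsFieldSubalgebra n K) :
    ∃ g : Matrix (Fin n) (Fin n) F, g ^ n = 1 ∧ g ≠ 1 ∧
      ∀ b ∈ K, g * b = b ^ (Fintype.card F) * g := by
  classical
  have hn0 : 0 < n := by omega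
  obtain ⟨v₀, hv₀⟩ : ∃ v₀ : Fin n → F, v₀ ≠ 0 := ⟨Pi.single ⟨0, hn0⟩ 1, by
    intro h
    have := congrFun h ⟨0, hn0⟩
    simp at this⟩
  obtain ⟨φ, hφ⟩ := exists_equiv hK hv₀
  have hsurj := exists_mulVec hK hv₀
  obtain ⟨Φ, hΦ⟩ := frob_lin hn0 hK
  obtain ⟨g, hg⟩ : ∃ g : Matrix (Fin n) (Fin n) F, ∀ a ∈ K,
      g *ᵥ (a *ᵥ v₀) = (a ^ Fintype.card F) *ᵥ v₀ := by
    refine ⟨LinearMap.toMatrix' (φ.toLinearMap ∘ₗ Φ ∘ₗ φ.symm.toLinearMap), fun a ha => ?_⟩
    have h1 : a *ᵥ v₀ = φ ⟨a, ha⟩ := (hφ ⟨a, ha⟩).symm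
    rw [LinearMap.toMatrix'_mulVec, h1]
    simp only [LinearMap.coe_comp, LinearEquiv.coe_coe, Function.comp_apply,
      LinearEquiv.symm_apply_apply]
    rw [hφ, hΦ]
  have hgb : ∀ b ∈ K, g * b = b ^ (Fintype.card F) * g := by
    intro b hb
    apply Matrix.toLin'.injective
    apply LinearMap.ext
    intro w
    obtain ⟨a, ha, rfl⟩ := hsurj w
    rw [Matrix.toLin'_apply, Matrix.toLin'_apply]
    calc (g * b) *ᵥ (a *ᵥ v₀) = g *ᵥ ((b * a) *ᵥ v₀) := by
          rw [← Matrix.mulVec_mulVec, Matrix.mulVec_mulVec v₀ b a]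
      _ = (b ^ Fintype.card F * a ^ Fintype.card F) *ᵥ v₀ := by
          rw [hg (b * a) (K.mul_mem hb ha), (show Commute b a from hK.comm b hb a ha).mul_pow]
      _ = (b ^ Fintype.card F) *ᵥ (g *ᵥ (a *ᵥ v₀)) := by
          rw [hg a ha, Matrix.mulVec_mulVec]
      _ = (b ^ Fintype.card F * g) *ᵥ (a *ᵥ v₀) := by rw [Matrix.mulVec_mulVec]
  have hpow : ∀ j : ℕ, ∀ a ∈ K, (g ^ j) *ᵥ (a *ᵥ v₀) = (a ^ (Fintype.card F ^ j)) *ᵥ v₀ := by
    intro j
    induction j with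
    | zero =>
      intro a ha
      rw [pow_zero, pow_zero, pow_one, Matrix.one_mulVec]
    | succ j ih =>
      intro a ha
      rw [pow_succ, ← Matrix.mulVec_mulVec, hg a ha, ih _ (K.pow_mem ha _), ← pow_mul,
        ← pow_succ']
  refine ⟨g, ?_, ?_, hgb⟩
  · apply Matrix.toLin'.injective
    apply LinearMap.ext
    intro w
    obtain ⟨a, ha, rfl⟩ := hsurj w
    rw [Matrix.toLin'_apply, Matrix.toLin'_apply, hpow n a ha, pow_card_pow hn0 hK a ha,
      Matrix.one_mulVec]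
  · intro h
    obtain ⟨ζ, hζK, hζ⟩ := Cfsg.Agent.Lib.Helper20.ExtNonMax.exists_gen hK hn0
    have h1 : ζ ^ Fintype.card F = ζ := by
      apply K_eq_of_mulVec hK (K.pow_mem hζK _) hζK hv₀
      rw [← hg ζ hζK, h, Matrix.one_mulVec]
    have hq2 : 2 ≤ Fintype.card F := Fintype.one_lt_card
    have hqn : Fintype.card F ^ 2 ≤ Fintype.card F ^ n := Nat.pow_le_pow_right (by omega) hn
    have hN : ζ ^ (Fintype.card F ^ n - 1) = 1 := (hζ _).2 dvd_rfl
    have hqq : 2 * Fintype.card F ≤ Fintype.card F ^ 2 := by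
      rw [sq]
      exact Nat.mul_le_mul_right _ hq2
    have hN1 : 1 ≤ Fintype.card F ^ n - 1 := by omega
    have h2 : ζ ^ (Fintype.card F - 1) = 1 := by
      calc ζ ^ (Fintype.card F - 1)
          = ζ ^ (Fintype.card F - 1) * (ζ * ζ ^ (Fintype.card F ^ n - 1 - 1)) := by
            rw [← pow_succ', Nat.sub_add_cancel hN1, hN, mul_one]
        _ = ζ ^ Fintype.card F * ζ ^ (Fintype.card F ^ n - 1 - 1) := by
            rw [← mul_assoc, ← pow_succ, Nat.sub_add_cancel (by omega)]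
        _ = 1 := by rw [h1, ← pow_succ', Nat.sub_add_cancel hN1, hN]
    have h3 := Nat.le_of_dvd (by omega) ((hζ _).1 h2)
    omega

omit [Fintype F] in
theorem mem_norm_of_frob (hn : 0 < n) (g : Matrix.SpecialLinearGroup (Fin n) F)
    (hg : (g : Matrix (Fin n) (Fin n) F) ^ n = 1) (m : ℕ)
    (h : ∀ b ∈ K, (g : Matrix (Fin n) (Fin n) F) * b = b ^ m * (g : Matrix (Fin n) (Fin n) F)) :
    g ∈ (subalgebraNormalizer K).comap (Matrix.SpecialLinearGroup.toGL :
      Matrix.SpecialLinearGroup (Fin n) F →* GL (Fin n) F) := by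
  rw [Subgroup.mem_comap]
  have h1 : (g : Matrix (Fin n) (Fin n) F) ^ (n - 1) * (g : Matrix (Fin n) (Fin n) F) = 1 := by
    rw [← pow_succ, Nat.sub_add_cancel hn, hg]
  have h3 : (g : Matrix (Fin n) (Fin n) F) * (g : Matrix (Fin n) (Fin n) F) ^ (n - 1) = 1 := by
    rw [← pow_succ', Nat.sub_add_cancel hn, hg]
  have hcoe : ((Matrix.SpecialLinearGroup.toGL g : GL (Fin n) F) : Matrix (Fin n) (Fin n) F) =
      g := rfl
  have hinv : (((Matrix.SpecialLinearGroup.toGL g)⁻¹ : GL (Fin n) F) :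
      Matrix (Fin n) (Fin n) F) = (g : Matrix (Fin n) (Fin n) F) ^ (n - 1) := by
    have h2 : (((Matrix.SpecialLinearGroup.toGL g)⁻¹ : GL (Fin n) F) :
        Matrix (Fin n) (Fin n) F) * (g : Matrix (Fin n) (Fin n) F) = 1 := by
      rw [← hcoe, ← Units.val_mul, inv_mul_cancel, Units.val_one]
    calc (((Matrix.SpecialLinearGroup.toGL g)⁻¹ : GL (Fin n) F) : Matrix (Fin n) (Fin n) F)
        = (((Matrix.SpecialLinearGroup.toGL g)⁻¹ : GL (Fin n) F) : Matrix (Fin n) (Fin n) F) *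
          ((g : Matrix (Fin n) (Fin n) F) * (g : Matrix (Fin n) (Fin n) F) ^ (n - 1)) := by
          rw [h3, mul_one]
      _ = ((((Matrix.SpecialLinearGroup.toGL g)⁻¹ : GL (Fin n) F) : Matrix (Fin n) (Fin n) F) *
          (g : Matrix (Fin n) (Fin n) F)) * (g : Matrix (Fin n) (Fin n) F) ^ (n - 1) :=
          (mul_assoc _ _ _).symm
      _ = (g : Matrix (Fin n) (Fin n) F) ^ (n - 1) := by rw [h2, one_mul]
  intro k
  rw [hinv, hcoe]
  constructor
  · intro hk
    rw [h k hk, mul_assoc, h3, mul_one]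
    exact K.pow_mem hk m
  · intro hk'
    have hj : ∀ j : ℕ, ∀ b ∈ K, (g : Matrix (Fin n) (Fin n) F) ^ j * b =
        b ^ (m ^ j) * (g : Matrix (Fin n) (Fin n) F) ^ j := by
      intro j
      induction j with
      | zero =>
        intro b hb
        simp
      | succ j ih =>
        intro b hb
        rw [pow_succ, mul_assoc, h b hb, ← mul_assoc, ih _ (K.pow_mem hb m), ← pow_mul,
          mul_assoc, ← pow_succ, ← pow_succ']
    have h5 := hj (n - 1) _ hk'
    have h6 : k = (g : Matrix (Fin n) (Fin n) F) ^ (n - 1) *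
        ((g : Matrix (Fin n) (Fin n) F) * k * (g : Matrix (Fin n) (Fin n) F) ^ (n - 1)) *
          (g : Matrix (Fin n) (Fin n) F) := by
      simp only [mul_assoc]
      rw [h1, mul_one, ← mul_assoc, h1, one_mul]
    rw [h6, h5, mul_assoc, h1, mul_one]
    exact K.pow_mem hk' _

end Frob

section Model

variable {F : Type*} [Field F] [Fintype F]

omit [Fintype F] in
/-- `A ⊕ 1` with at least two trailing ones. -/
theorem block_embed {m n : ℕ} (hmn : m + 2 ≤ n) (A : Matrix (Fin m) (Fin m) F)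
    (hdet : A.det = 1) (r : ℕ) (hA : A ^ r = 1) (hA1 : A ≠ 1) :
    ∃ (x : Matrix.SpecialLinearGroup (Fin n) F) (v₁ v₂ : Fin n → F),
      (x : Matrix (Fin n) (Fin n) F) ^ r = 1 ∧ (x : Matrix (Fin n) (Fin n) F) ≠ 1 ∧
      (x : Matrix (Fin n) (Fin n) F) *ᵥ v₁ = v₁ ∧ (x : Matrix (Fin n) (Fin n) F) *ᵥ v₂ = v₂ ∧
      v₁ ≠ 0 ∧ ∀ c : F, v₂ ≠ c • v₁ := by
  classical
  have hsum : m + (n - m) = n := by omega
  obtain ⟨e'⟩ : Nonempty (Fin m ⊕ Fin (n - m) ≃ Fin n) :=
    ⟨finSumFinEquiv.trans (finCongr hsum)⟩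
  obtain ⟨X, hX⟩ : ∃ X : Matrix (Fin n) (Fin n) F, X = Matrix.reindexAlgEquiv F F e'
      (Matrix.fromBlocks A 0 0 1) := ⟨_, rfl⟩
  have hXsub : X = (Matrix.fromBlocks A 0 0 1).submatrix e'.symm e'.symm := by
    rw [hX]
    rfl
  have hXdet : X.det = 1 := by
    rw [hXsub, Matrix.det_submatrix_equiv_self, Matrix.det_fromBlocks_zero₂₁, hdet, Matrix.det_one,
      mul_one]
  have hpow : ∀ k : ℕ, (Matrix.fromBlocks A 0 0
      (1 : Matrix (Fin (n - m)) (Fin (n - m)) F)) ^ k = Matrix.fromBlocks (A ^ k) 0 0 1 := by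
    intro k
    induction k with
    | zero => rw [pow_zero, pow_zero, Matrix.fromBlocks_one]
    | succ k ih =>
      rw [pow_succ, ih, Matrix.fromBlocks_multiply]
      simp [pow_succ]
  have hXr : X ^ r = 1 := by
    rw [hX, ← map_pow, hpow, hA, Matrix.fromBlocks_one, map_one]
  have hX1 : X ≠ 1 := by
    intro h
    rw [hX, ← map_one (Matrix.reindexAlgEquiv F F e')] at h
    have h2 := (Matrix.reindexAlgEquiv F F e').injective h
    rw [← Matrix.fromBlocks_one, Matrix.fromBlocks_inj] at h2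
    exact hA1 h2.1
  obtain ⟨b₁, hb₁⟩ : ∃ b₁ : Fin (n - m), (b₁ : ℕ) = 0 := ⟨⟨0, by omega⟩, rfl⟩
  obtain ⟨b₂, hb₂⟩ : ∃ b₂ : Fin (n - m), (b₂ : ℕ) = 1 := ⟨⟨1, by omega⟩, rfl⟩
  have hb12 : b₂ ≠ b₁ := by
    intro h
    rw [h] at hb₂
    omega
  have hfix : ∀ b : Fin (n - m), X *ᵥ Pi.single (e' (Sum.inr b)) 1 =
      Pi.single (e' (Sum.inr b)) 1 := by
    intro b
    rw [Matrix.mulVec_single_one]
    funext k
    obtain ⟨s, rfl⟩ := e'.surjective k
    rw [hXsub]
    cases s <;> simp [Matrix.col, Matrix.one_apply, Pi.single_apply, eq_comm]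
  obtain ⟨x, hx⟩ : ∃ x : Matrix.SpecialLinearGroup (Fin n) F,
      (x : Matrix (Fin n) (Fin n) F) = X := ⟨⟨X, hXdet⟩, rfl⟩
  refine ⟨x, Pi.single (e' (Sum.inr b₁)) 1, Pi.single (e' (Sum.inr b₂)) 1, ?_, ?_, ?_, ?_, ?_, ?_⟩
  · rw [hx, hXr]
  · rw [hx]
    exact hX1
  · rw [hx]
    exact hfix b₁
  · rw [hx]
    exact hfix b₂
  · intro h
    have h2 := congrFun h (e' (Sum.inr b₁))
    simp at h2
  · intro c h
    have h2 := congrFun h (e' (Sum.inr b₂))
    simp [hb12] at h2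

/-- An element of order `r` of `SL_n(q)` with two independent fixed vectors. -/
theorem exists_two_fixed {p q : ℕ} [Fact p.Prime] [CharP F p] (hq : Fintype.card F = q)
    (n r : ℕ) [Fact r.Prime] (hrp : r ≠ p) (hn : 4 ≤ n) (hin : orderOf (q : ZMod r) + 2 ≤ n) :
    ∃ (x : Matrix.SpecialLinearGroup (Fin n) F) (v₁ v₂ : Fin n → F),
      (x : Matrix (Fin n) (Fin n) F) ^ r = 1 ∧ (x : Matrix (Fin n) (Fin n) F) ≠ 1 ∧
      (x : Matrix (Fin n) (Fin n) F) *ᵥ v₁ = v₁ ∧ (x : Matrix (Fin n) (Fin n) F) *ᵥ v₂ = v₂ ∧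
      v₁ ≠ 0 ∧ ∀ c : F, v₂ ≠ c • v₁ := by
  classical
  have hr : r.Prime := Fact.out
  by_cases hi : 2 ≤ orderOf (q : ZMod r)
  · obtain ⟨x₀, π, hx₀r, hns, -, -, -⟩ :=
      Cfsg.Agent.Lib.Helper40.Elusive.exists_model hq (orderOf (q : ZMod r)) r hrp hi le_rfl
    apply block_embed hin (x₀ : Matrix (Fin (orderOf (q : ZMod r))) (Fin (orderOf (q : ZMod r))) F)
      x₀.2 r hx₀r
    intro h
    exact hns 1 (by rw [h, one_smul])
  · have hpos := Cfsg.Agent.Lib.Helper40.Elusive.orderOf_pos_of_ne hq r hrp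
    have hi1 : orderOf (q : ZMod r) = 1 := by omega
    have hq1 : 1 ≤ q := by
      rw [← hq]
      exact Fintype.card_pos
    have hdvd : r ∣ q - 1 := by
      have h1 := (Cfsg.Agent.Lib.Helper40.Elusive.dvd_pow_sub_one_iff q r hq1 1).2 (by rw [hi1])
      rwa [pow_one] at h1
    have hcard : r ∣ Fintype.card Fˣ := by
      rw [Fintype.card_units, hq]
      exact hdvd
    obtain ⟨ω, hω⟩ := exists_prime_orderOf_dvd_card r hcard
    have hωr : (ω : F) ^ r = 1 := by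
      rw [← Units.val_pow_eq_pow_val, ← hω, pow_orderOf_eq_one, Units.val_one]
    have hωr' : ((ω⁻¹ : Fˣ) : F) ^ r = 1 := by
      rw [← Units.val_pow_eq_pow_val, inv_pow, ← hω, pow_orderOf_eq_one, inv_one, Units.val_one]
    have hω1 : (ω : F) ≠ 1 := by
      intro h
      have h2 : ω = 1 := Units.ext h
      rw [h2, orderOf_one] at hω
      exact hr.one_lt.ne hω
    apply block_embed (m := 2) (by omega) (Matrix.diagonal ![(ω : F), ((ω⁻¹ : Fˣ) : F)]) ?_ r ?_ ?_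
    · rw [Matrix.det_diagonal, Fin.prod_univ_two]
      simp
    · rw [Matrix.diagonal_pow, ← Matrix.diagonal_one]
      congr 1
      funext i
      fin_cases i
      · simpa using hωr
      · simpa using hωr'
    · intro h
      have h2 := congrFun (congrFun h 0) 0
      simp at h2
      exact hω1 (by rw [h2, Units.val_one])

open Polynomial in
/-- If `q` has order `n - 1` modulo the prime `n`, then every non-trivial matrix of order `n` has
characteristic polynomial `X ^ n - 1`. -/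
theorem charpoly_of_order {p q : ℕ} [Fact p.Prime] [CharP F p] (hq : Fintype.card F = q)
    (n : ℕ) [Fact n.Prime] (hnp : n ≠ p) (hn3 : 3 ≤ n) (hi : orderOf (q : ZMod n) = n - 1)
    (M : Matrix (Fin n) (Fin n) F) (hM : M ^ n = 1) (hM1 : M ≠ 1) :
    M.charpoly = X ^ n - 1 := by
  classical
  obtain ⟨S, hS, -⟩ := Cfsg.Agent.Lib.Helper40.Elusive.exists_factors hq n hnp
  rw [hi] at hS
  obtain ⟨a, hle, hχ⟩ := Cfsg.Agent.Lib.Helper40.PrimeOrderGL.charpoly_eq_chi hS M hM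
  have hss := Cfsg.Agent.Lib.Helper40.isSemisimple_of_pow_eq_one M n
    (Cfsg.Agent.Lib.Helper40.Elusive.natCast_ne_zero_of_ne n hnp) hM
  have hsum : ∑ π, a π = 1 := by
    have h2 : ∑ π, a π ≤ 1 := by
      by_contra hcon
      have h3 : (n - 1) * 2 ≤ (n - 1) * ∑ π, a π := Nat.mul_le_mul_left _ (by omega)
      omega
    by_contra hcon
    have h0 : ∑ π, a π = 0 := by omega
    apply hM1
    apply Cfsg.Agent.Lib.Helper40.PrimeOrderGL.eq_one_of_charpoly M hss
    rw [hχ, h0, mul_zero, Nat.sub_zero]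
    unfold Cfsg.Agent.Lib.Helper40.PrimeOrderGL.chi
    have h4 : ∀ π : S, a π = 0 := by
      intro π
      exact (Finset.sum_eq_zero_iff.1 h0) π (Finset.mem_univ _)
    simp [h4]
  rw [hsum, mul_one] at hχ
  have hk : n - (n - 1) = 1 := by omega
  rw [hk] at hχ
  obtain ⟨π₀, hπ₀⟩ : ∃ π₀ : S, a π₀ ≠ 0 := by
    by_contra hcon
    simp only [not_exists, not_not] at hcon
    rw [Finset.sum_eq_zero (fun π _ => hcon π)] at hsum
    exact zero_ne_one hsum
  have hsplit := Finset.add_sum_erase Finset.univ a (Finset.mem_univ π₀)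
  have hπ₀1 : a π₀ = 1 := by omega
  have hrest : ∀ π ∈ Finset.univ.erase π₀, a π = 0 := by
    have h5 : ∑ π ∈ Finset.univ.erase π₀, a π = 0 := by omega
    exact Finset.sum_eq_zero_iff.1 h5
  have hprod : ∏ π : S, π.1 ^ a π = π₀.1 := by
    rw [← Finset.mul_prod_erase Finset.univ (fun π : S => π.1 ^ a π) (Finset.mem_univ π₀),
      Finset.prod_eq_one, mul_one, hπ₀1, pow_one]
    intro π hπ
    rw [hrest π hπ, pow_zero]
  have hχ2 : M.charpoly = (X - C 1) * π₀.1 := by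
    rw [hχ]
    unfold Cfsg.Agent.Lib.Helper40.PrimeOrderGL.chi
    rw [hprod, pow_one]
  have hcop : IsCoprime (X - C 1 : F[X]) π₀.1 := by
    rw [(irreducible_X_sub_C (1 : F)).coprime_iff_not_dvd]
    intro hd
    have hassoc := (irreducible_X_sub_C (1 : F)).associated_of_dvd (hS.irred π₀.1 π₀.2) hd
    have heq := eq_of_monic_of_associated (monic_X_sub_C (1 : F)) (hS.monic π₀.1 π₀.2) hassoc
    apply hS.notMem
    rw [heq]
    exact π₀.2
  have hdvd : M.charpoly ∣ (X ^ n - 1 : F[X]) := by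
    rw [hχ2]
    exact hcop.mul_dvd hS.one_dvd (hS.dvd π₀.1 π₀.2)
  have hn0 : n ≠ 0 := by omega
  have hmon : (X ^ n - 1 : F[X]).Monic := monic_X_pow_sub_C (1 : F) hn0
  have hdeg : (X ^ n - 1 : F[X]).natDegree = n := natDegree_X_pow_sub_C (n := n) (r := (1 : F))
  exact (Polynomial.eq_of_monic_of_dvd_of_natDegree_le (Matrix.charpoly_monic M) hmon hdvd
    (by rw [hdeg, Matrix.charpoly_natDegree_eq_dim, Fintype.card_fin])).symm

end Model

end Cfsg.Agent.Lib.Helper40.Singer
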