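-- Normalisers of Singer cycles in dimension three (helper40).
import Mathlib
import Cfsg.Prelude.Def_GeometricClasses
import Cfsg.Agent.Lib.Helper20.ExtNonMax
import Cfsg.Agent.Lib.Helper40.Elusive
import Cfsg.Agent.Lib.Helper40.Singer
import Cfsg.Agent.Lib.Helper40.SLSylow

set_option autoImplicit false

namespace Cfsg.Agent.Lib.Helper40.Singer2

open Cfsg Cfsg.Geo Matrix Cfsg.Agent.Lib.Helper20.ExtNonMax Cfsg.Agent.Lib.Helper40.Singer

section Alg

variable {F : Type*} [Field F]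

open Polynomial in
/-- A non-scalar `3 × 3` matrix of determinant one whose cube is one has characteristic
polynomial `X ^ 3 - 1` (Cayley–Hamilton). -/
theorem charpoly_of_cube (x : Matrix (Fin 3) (Fin 3) F) (hx : x ^ 3 = 1) (hdet : x.det = 1)
    (hns : ∀ c : F, x ≠ c • (1 : Matrix (Fin 3) (Fin 3) F)) : x.charpoly = X ^ 3 - 1 := by
  have hmon := Matrix.charpoly_monic x
  have hdeg : x.charpoly.natDegree = 3 := by
    rw [Matrix.charpoly_natDegree_eq_dim, Fintype.card_fin]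
  have hc3 : x.charpoly.coeff 3 = 1 := by
    have h := hmon.coeff_natDegree
    rwa [hdeg] at h
  have hc0 : x.charpoly.coeff 0 = -1 := by
    have h := Matrix.det_eq_sign_charpoly_coeff x
    rw [hdet, Fintype.card_fin] at h
    have h2 : ((-1 : F)) ^ 3 = -1 := by ring
    rw [h2] at h
    linear_combination h
  have hCH := Matrix.aeval_self_charpoly x
  rw [Polynomial.aeval_eq_sum_range, hdeg, Finset.sum_range_succ, Finset.sum_range_succ,
    Finset.sum_range_succ, Finset.sum_range_succ, Finset.sum_range_zero, hc3, hc0, hx, pow_zero,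
    pow_one, zero_add] at hCH
  have h1 : x.charpoly.coeff 1 • x + x.charpoly.coeff 2 • x ^ 2 = 0 := by
    have h2 : (-1 : F) • (1 : Matrix (Fin 3) (Fin 3) F) + x.charpoly.coeff 1 • x +
        x.charpoly.coeff 2 • x ^ 2 + (1 : F) • (1 : Matrix (Fin 3) (Fin 3) F) =
        x.charpoly.coeff 1 • x + x.charpoly.coeff 2 • x ^ 2 := by
      rw [one_smul, neg_smul, one_smul]
      abel
    rw [← h2]
    exact hCH
  have h4 : x ^ 4 = x := by
    rw [pow_succ, hx, one_mul]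
  have h3 : x.charpoly.coeff 1 • (1 : Matrix (Fin 3) (Fin 3) F) + x.charpoly.coeff 2 • x = 0 := by
    have h5 := congrArg (fun t => t * x ^ 2) h1
    simp only [add_mul, smul_mul_assoc, zero_mul] at h5
    rw [← pow_succ', ← pow_add, hx, h4] at h5
    exact h5
  have hc2 : x.charpoly.coeff 2 = 0 := by
    by_contra hne
    apply hns (-(x.charpoly.coeff 1) / x.charpoly.coeff 2)
    have h5 : x.charpoly.coeff 2 • x = (-(x.charpoly.coeff 1)) • (1 : Matrix (Fin 3) (Fin 3) F) := by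
      rw [neg_smul]
      exact eq_neg_of_add_eq_zero_right h3
    calc x = (x.charpoly.coeff 2)⁻¹ • (x.charpoly.coeff 2 • x) := by
          rw [smul_smul, inv_mul_cancel₀ hne, one_smul]
      _ = (-(x.charpoly.coeff 1) / x.charpoly.coeff 2) • (1 : Matrix (Fin 3) (Fin 3) F) := by
          rw [h5, smul_smul]
          congr 1
          field_simp
  have hc1 : x.charpoly.coeff 1 = 0 := by
    rw [hc2, zero_smul, add_zero] at h3
    have h5 := congrFun (congrFun h3 0) 0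
    simpa using h5
  ext i
  rcases i with _ | _ | _ | _ | i
  · simp [hc0, Polynomial.coeff_X_pow, Polynomial.coeff_one]
  · simp [hc1, Polynomial.coeff_X_pow, Polynomial.coeff_one]
  · simp [hc2, Polynomial.coeff_X_pow, Polynomial.coeff_one]
  · simp [hc3, Polynomial.coeff_X_pow, Polynomial.coeff_one]
  · rw [Polynomial.coeff_eq_zero_of_natDegree_lt (by rw [hdeg]; omega)]
    simp [Polynomial.coeff_X_pow, Polynomial.coeff_one]

open Polynomial in
theorem cube_factor (w : F) (hw : w ^ 2 + w + 1 = 0) :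
    (X - C 1 : F[X]) * (X - C w) * (X - C (w ^ 2)) = X ^ 3 - 1 := by
  have hC : (C w : F[X]) ^ 2 + C w + 1 = 0 := by
    rw [← C_pow, ← C_1, ← C_add, ← C_add, hw, C_0]
  rw [C_pow, C_1]
  linear_combination (-(X : F[X]) ^ 2 + C w * X - (C w - 1)) * hC

open Polynomial in
/-- A `3 × 3` matrix with eigenvalues `1, w, w²` for a primitive cube root of unity `w` has
characteristic polynomial `X ^ 3 - 1`. -/
theorem charpoly_of_roots (M : Matrix (Fin 3) (Fin 3) F) (w : F) (hw : w ^ 2 + w + 1 = 0)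
    (hw1 : w ≠ 1) (u₀ u₁ u₂ : Fin 3 → F) (hu₀ : u₀ ≠ 0) (hu₁ : u₁ ≠ 0) (hu₂ : u₂ ≠ 0)
    (h₀ : M *ᵥ u₀ = u₀) (h₁ : M *ᵥ u₁ = w • u₁) (h₂ : M *ᵥ u₂ = w ^ 2 • u₂) :
    M.charpoly = X ^ 3 - 1 := by
  have hroot : ∀ (t : F) (u : Fin 3 → F), u ≠ 0 → M *ᵥ u = t • u → (X - C t) ∣ M.charpoly := by
    intro t u hu h
    rw [Polynomial.dvd_iff_isRoot, Polynomial.IsRoot, Matrix.eval_charpoly]
    apply Matrix.exists_mulVec_eq_zero_iff.1
    refine ⟨u, hu, ?_⟩
    rw [Matrix.sub_mulVec, h]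
    have h2 : Matrix.scalar (Fin 3) t = t • (1 : Matrix (Fin 3) (Fin 3) F) := by
      rw [Matrix.smul_one_eq_diagonal]
      rfl
    rw [h2, Matrix.smul_mulVec, Matrix.one_mulVec, sub_self]
  have hd0 := hroot 1 u₀ hu₀ (by rw [h₀, one_smul])
  have hd1 := hroot w u₁ hu₁ h₁
  have hd2 := hroot (w ^ 2) u₂ hu₂ h₂
  have hw0 : w ≠ 0 := by
    rintro rfl
    simp at hw
  have hw2 : w ^ 2 ≠ 1 := by
    intro h
    apply hw1
    have h3 : w = -2 := by linear_combination hw - h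
    have h4 : (3 : F) = 0 := by
      rw [h3] at h
      linear_combination h
    have h5 : (w - 1) ^ 2 = 0 := by linear_combination hw - w * h4
    exact sub_eq_zero.1 ((pow_eq_zero_iff two_ne_zero).1 h5)
  have hcop01 : IsCoprime (X - C 1 : F[X]) (X - C w) :=
    Polynomial.isCoprime_X_sub_C_of_isUnit_sub (sub_ne_zero.2 (Ne.symm hw1)).isUnit
  have hcop02 : IsCoprime (X - C 1 : F[X]) (X - C (w ^ 2)) :=
    Polynomial.isCoprime_X_sub_C_of_isUnit_sub (sub_ne_zero.2 (Ne.symm hw2)).isUnit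
  have hcop12 : IsCoprime (X - C w : F[X]) (X - C (w ^ 2)) := by
    apply Polynomial.isCoprime_X_sub_C_of_isUnit_sub
    apply IsUnit.mk0
    intro h
    have h3 : w * (1 - w) = 0 := by linear_combination h
    rcases mul_eq_zero.1 h3 with h4 | h4
    · exact hw0 h4
    · exact hw1 (sub_eq_zero.1 h4).symm
  have hdvd : (X ^ 3 - 1 : F[X]) ∣ M.charpoly := by
    rw [← cube_factor w hw]
    exact (hcop02.mul_left hcop12).mul_dvd (hcop01.mul_dvd hd0 hd1) hd2
  have hmon : (X ^ 3 - 1 : F[X]).Monic := monic_X_pow_sub_C (1 : F) (by norm_num)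
  have hdeg : (X ^ 3 - 1 : F[X]).natDegree = 3 := natDegree_X_pow_sub_C (n := 3) (r := (1 : F))
  exact Polynomial.eq_of_monic_of_dvd_of_natDegree_le hmon (Matrix.charpoly_monic M) hdvd
    (by rw [hdeg, Matrix.charpoly_natDegree_eq_dim, Fintype.card_fin])

end Alg

section Frob

variable {F : Type*} [Field F] [Fintype F] {n : ℕ} {K : Subalgebra F (Matrix (Fin n) (Fin n) F)}

/-- The Frobenius element of the normaliser of a Singer cycle, with its action. -/
theorem exists_frob' (hn : 2 ≤ n) (hK : IsFieldSubalgebra n K) :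
    ∃ (g : Matrix (Fin n) (Fin n) F) (v₀ : Fin n → F), v₀ ≠ 0 ∧ g ^ n = 1 ∧
      (∀ z : F, g ≠ z • (1 : Matrix (Fin n) (Fin n) F)) ∧
      (∀ a ∈ K, g *ᵥ (a *ᵥ v₀) = (a ^ Fintype.card F) *ᵥ v₀) ∧
      ∀ b ∈ K, g * b = b ^ (Fintype.card F) * g := by
  classical
  have hn0 : 0 < n := by omega
  obtain ⟨v₀, hv₀⟩ : ∃ v₀ : Fin n → F, v₀ ≠ 0 := ⟨Pi.single ⟨0, hn0⟩ 1, by
    intro h
    have := congrFun h ⟨0, hn0⟩
    simp at this⟩
  obtain ⟨φ, hφ⟩ := exists_equiv hK hv₀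
  have hsurj := exists_mulVec hK hv₀
  obtain ⟨Φ, hΦ⟩ := frob_lin hn0 hK
  obtain ⟨g, hg⟩ : ∃ g : Matrix (Fin n) (Fin n) F, ∀ a ∈ K,
      g *ᵥ (a *ᵥ v₀) = (a ^ Fintype.card F) *ᵥ v₀ := by
    refine ⟨LinearMap.toMatrix' (φ.toLinearMap ∘ₗ Φ ∘ₗ φ.symm.toLinearMap), fun a ha => ?_⟩
    have h1 : a *ᵥ v₀ = φ ⟨a, ha⟩ := (hφ ⟨a, ha⟩).symm
    rw [LinearMap.toMatrix'_mulVec, h1]
    simp only [LinearMap.coe_comp, LinearEquiv.coe_coe, Function.comp_apply,
      LinearEquiv.symm_apply_apply]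
    rw [hφ, hΦ]
  have hgb : ∀ b ∈ K, g * b = b ^ (Fintype.card F) * g := by
    intro b hb
    apply Matrix.toLin'.injective
    apply LinearMap.ext
    intro w
    obtain ⟨a, ha, rfl⟩ := hsurj w
    rw [Matrix.toLin'_apply, Matrix.toLin'_apply]
    calc (g * b) *ᵥ (a *ᵥ v₀) = g *ᵥ ((b * a) *ᵥ v₀) := by
          rw [← Matrix.mulVec_mulVec, Matrix.mulVec_mulVec v₀ b a]
      _ = (b ^ Fintype.card F * a ^ Fintype.card F) *ᵥ v₀ := by
          rw [hg (b * a) (K.mul_mem hb ha), (show Commute b a from hK.comm b hb a ha).mul_pow]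
      _ = (b ^ Fintype.card F) *ᵥ (g *ᵥ (a *ᵥ v₀)) := by
          rw [hg a ha, Matrix.mulVec_mulVec]
      _ = (b ^ Fintype.card F * g) *ᵥ (a *ᵥ v₀) := by rw [Matrix.mulVec_mulVec]
  have hpow : ∀ j : ℕ, ∀ a ∈ K, (g ^ j) *ᵥ (a *ᵥ v₀) = (a ^ (Fintype.card F ^ j)) *ᵥ v₀ := by
    intro j
    induction j with
    | zero =>
      intro a ha
      rw [pow_zero, pow_zero, pow_one, Matrix.one_mulVec]
    | succ j ih =>
      intro a ha
      rw [pow_succ, ← Matrix.mulVec_mulVec, hg a ha, ih _ (K.pow_mem ha _), ← pow_mul,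
        ← pow_succ']
  have hg1 : g ≠ 1 := by
    intro h
    obtain ⟨ζ, hζK, hζ⟩ := Cfsg.Agent.Lib.Helper20.ExtNonMax.exists_gen hK hn0
    have h1 : ζ ^ Fintype.card F = ζ := by
      apply K_eq_of_mulVec hK (K.pow_mem hζK _) hζK hv₀
      rw [← hg ζ hζK, h, Matrix.one_mulVec]
    have hq2 : 2 ≤ Fintype.card F := Fintype.one_lt_card
    have hqn : Fintype.card F ^ 2 ≤ Fintype.card F ^ n := Nat.pow_le_pow_right (by omega) hn
    have hN : ζ ^ (Fintype.card F ^ n - 1) = 1 := (hζ _).2 dvd_rfl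
    have hqq : 2 * Fintype.card F ≤ Fintype.card F ^ 2 := by
      rw [sq]
      exact Nat.mul_le_mul_right _ hq2
    have hN1 : 1 ≤ Fintype.card F ^ n - 1 := by omega
    have h2 : ζ ^ (Fintype.card F - 1) = 1 := by
      calc ζ ^ (Fintype.card F - 1)
          = ζ ^ (Fintype.card F - 1) * (ζ * ζ ^ (Fintype.card F ^ n - 1 - 1)) := by
            rw [← pow_succ', Nat.sub_add_cancel hN1, hN, mul_one]
        _ = ζ ^ Fintype.card F * ζ ^ (Fintype.card F ^ n - 1 - 1) := by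
            rw [← mul_assoc, ← pow_succ, Nat.sub_add_cancel (by omega)]
        _ = 1 := by rw [h1, ← pow_succ', Nat.sub_add_cancel hN1, hN]
    have h3 := Nat.le_of_dvd (by omega) ((hζ _).1 h2)
    omega
  have hfix : g *ᵥ v₀ = v₀ := by
    have h1 := hg 1 K.one_mem
    rwa [one_pow, Matrix.one_mulVec] at h1
  refine ⟨g, v₀, hv₀, ?_, ?_, hg, hgb⟩
  · apply Matrix.toLin'.injective
    apply LinearMap.ext
    intro w
    obtain ⟨a, ha, rfl⟩ := hsurj w
    rw [Matrix.toLin'_apply, Matrix.toLin'_apply, hpow n a ha, pow_card_pow hn0 hK a ha,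
      Matrix.one_mulVec]
  · intro z hz
    rw [hz, Matrix.smul_mulVec, Matrix.one_mulVec] at hfix
    have hz1 : z = 1 := by
      by_contra hz1
      apply hv₀
      have h3 : (z - 1) • v₀ = 0 := by rw [sub_smul, hfix, one_smul, sub_self]
      exact (smul_eq_zero.1 h3).resolve_left (sub_ne_zero.2 hz1)
    apply hg1
    rw [hz, hz1, one_smul]

end Frob

section Three

variable {F : Type*} [Field F] [Fintype F] {K : Subalgebra F (Matrix (Fin 3) (Fin 3) F)}

/-- an element of `K` twisted by a primitive cube root of unity under Frobenius -/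
theorem exists_twist (hK : IsFieldSubalgebra 3 K) (h3 : 3 ∣ Fintype.card F - 1) :
    ∃ b ∈ K, ∃ w : F, b ≠ 0 ∧ w ^ 2 + w + 1 = 0 ∧ w ≠ 1 ∧ b ^ Fintype.card F = w • b := by
  classical
  obtain ⟨ζ, hζK, hζ⟩ := Cfsg.Agent.Lib.Helper20.ExtNonMax.exists_gen hK (by norm_num)
  have hq2 : 2 ≤ Fintype.card F := Fintype.one_lt_card
  obtain ⟨Q, hQ⟩ : ∃ Q : ℕ, Q = Fintype.card F := ⟨_, rfl⟩
  rw [← hQ] at hζ h3 hq2 ⊢
  obtain ⟨s, hs⟩ := h3
  have hQs : Q = 3 * s + 1 := by omega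
  have hs1 : 1 ≤ s := by omega
  -- m = (Q² + Q + 1) / 3 = 3 s² + 3 s + 1
  obtain ⟨m, hm⟩ : ∃ m : ℕ, m = 3 * s ^ 2 + 3 * s + 1 := ⟨_, rfl⟩
  have hm3 : 3 * (m * (Q - 1)) = Q ^ 3 - 1 := by
    have h1 : Q - 1 = 3 * s := by omega
    have h2 : Q ^ 3 = 3 * (m * (3 * s)) + 1 := by
      rw [hQs, hm]
      ring
    rw [h1, h2]
    omega
  have hcard : Fintype.card Fˣ = Q - 1 := by rw [Fintype.card_units, hQ]
  obtain ⟨ω, hω⟩ := exists_prime_orderOf_dvd_card 3 (by rw [hcard]; exact ⟨s, hs⟩)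
  have hω3 : (ω : F) ^ 3 = 1 := by
    rw [← Units.val_pow_eq_pow_val, ← hω, pow_orderOf_eq_one, Units.val_one]
  have hω1 : (ω : F) ≠ 1 := by
    intro h
    have h2 : ω = 1 := Units.ext h
    rw [h2, orderOf_one] at hω
    omega
  have hω2 : (ω : F) ^ 2 + (ω : F) + 1 = 0 := by
    have h1 : ((ω : F) - 1) * ((ω : F) ^ 2 + (ω : F) + 1) = 0 := by linear_combination hω3
    exact (mul_eq_zero.1 h1).resolve_left (sub_ne_zero.2 hω1)
  obtain ⟨b, hb⟩ : ∃ b : Matrix (Fin 3) (Fin 3) F, b = ζ ^ m := ⟨_, rfl⟩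
  have hbK : b ∈ K := by
    rw [hb]
    exact K.pow_mem hζK m
  obtain ⟨y, hy⟩ : ∃ y : Matrix (Fin 3) (Fin 3) F, y = b ^ (Q - 1) := ⟨_, rfl⟩
  have hyK : y ∈ K := by
    rw [hy]
    exact K.pow_mem hbK _
  have hy3 : y ^ 3 = 1 := by
    have e : m * ((Q - 1) * 3) = Q ^ 3 - 1 := by
      rw [← hm3]
      ring
    rw [hy, hb, ← pow_mul, ← pow_mul, e]
    exact (hζ _).2 dvd_rfl
  have hy1 : y ≠ 1 := by
    intro h
    rw [hy, hb, ← pow_mul] at h
    have hmpos : 0 < m := by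
      rw [hm]
      positivity
    have h1 := Nat.le_of_dvd (Nat.mul_pos hmpos (by omega)) ((hζ _).1 h)
    have h2 : 0 < m * (Q - 1) := Nat.mul_pos hmpos (by omega)
    obtain ⟨X, hX⟩ : ∃ X : ℕ, X = m * (Q - 1) := ⟨_, rfl⟩
    rw [← hX] at hm3 h1 h2
    omega
  have hb0 : b ≠ 0 := by
    intro h
    rw [h, zero_pow (by omega)] at hy
    rw [hy] at hy3
    simp at hy3
  have hfac : (y - 1) * (y - (ω : F) • (1 : Matrix (Fin 3) (Fin 3) F)) *
      (y - ((ω : F) ^ 2) • (1 : Matrix (Fin 3) (Fin 3) F)) = 0 := by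
    have h1 := congrArg (Polynomial.aeval y) (cube_factor (ω : F) hω2)
    simp only [map_mul, map_sub, Polynomial.aeval_X, Polynomial.aeval_C, map_one, map_pow,
      Algebra.algebraMap_eq_smul_one] at h1
    rw [smul_pow, one_pow] at h1
    rw [h1, hy3, sub_self]
  have hmemK : ∀ t : F, y - t • (1 : Matrix (Fin 3) (Fin 3) F) ∈ K := fun t =>
    K.sub_mem hyK (K.smul_mem K.one_mem t)
  obtain ⟨v₀, hv₀⟩ : ∃ v₀ : Fin 3 → F, v₀ ≠ 0 := ⟨Pi.single 0 1, by
    intro h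
    have := congrFun h 0
    simp at this⟩
  have hcases : y = (ω : F) • (1 : Matrix (Fin 3) (Fin 3) F) ∨
      y = ((ω : F) ^ 2) • (1 : Matrix (Fin 3) (Fin 3) F) := by
    by_contra hcon
    rw [not_or] at hcon
    have h1 := congrArg (fun M => M *ᵥ v₀) hfac
    simp only [Matrix.zero_mulVec, ← Matrix.mulVec_mulVec] at h1
    have hy1' : y - 1 ≠ 0 := sub_ne_zero.2 hy1
    have h2 := K_cancel hK (by simpa using hmemK 1) hy1' h1
    have h3 := K_cancel hK (hmemK _) (sub_ne_zero.2 hcon.1) h2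
    exact hv₀ (K_cancel hK (hmemK _) (sub_ne_zero.2 hcon.2) h3)
  have hbq : b ^ Q = y * b := by
    rw [hy, ← pow_succ, Nat.sub_add_cancel (by omega)]
  rcases hcases with h | h
  · refine ⟨b, hbK, (ω : F), hb0, hω2, hω1, ?_⟩
    rw [hbq, h, smul_mul_assoc, one_mul]
  · refine ⟨b, hbK, (ω : F) ^ 2, hb0, ?_, ?_, ?_⟩
    · linear_combination (ω : F) * hω3 + hω2
    · intro h2
      apply hω1
      have h3 : (ω : F) = -2 := by linear_combination hω2 - h2
      have h4 : (3 : F) = 0 := by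
        rw [h3] at h2
        linear_combination h2
      have h5 : ((ω : F) - 1) ^ 2 = 0 := by linear_combination hω2 - (ω : F) * h4
      exact sub_eq_zero.1 ((pow_eq_zero_iff two_ne_zero).1 h5)
    · rw [hbq, h, smul_mul_assoc, one_mul]

/-- If `3 ∣ q - 1` then the Frobenius element has characteristic polynomial `X ^ 3 - 1`. -/
theorem frob_charpoly (hK : IsFieldSubalgebra 3 K) (h3 : 3 ∣ Fintype.card F - 1)
    (g : Matrix (Fin 3) (Fin 3) F) (v₀ : Fin 3 → F) (hv₀ : v₀ ≠ 0)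
    (hg : ∀ a ∈ K, g *ᵥ (a *ᵥ v₀) = (a ^ Fintype.card F) *ᵥ v₀) :
    g.charpoly = Polynomial.X ^ 3 - 1 := by
  obtain ⟨b, hbK, w, hb0, hw, hw1, hbq⟩ := exists_twist hK h3
  have h0 : g *ᵥ v₀ = v₀ := by
    have h1 := hg 1 K.one_mem
    rwa [one_pow, Matrix.one_mulVec] at h1
  have hbv : b *ᵥ v₀ ≠ 0 := fun h => hv₀ (K_cancel hK hbK hb0 h)
  have hbbv : (b ^ 2) *ᵥ v₀ ≠ 0 := by
    intro h
    rw [sq, ← Matrix.mulVec_mulVec] at h
    exact hbv (K_cancel hK hbK hb0 h)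
  apply charpoly_of_roots g w hw hw1 v₀ (b *ᵥ v₀) ((b ^ 2) *ᵥ v₀) hv₀ hbv hbbv h0
  · rw [hg b hbK, hbq, Matrix.smul_mulVec]
  · rw [hg _ (K.pow_mem hbK 2), ← pow_mul, mul_comm, pow_mul, hbq, smul_pow, Matrix.smul_mulVec]

end Three

section Conj

variable {F : Type*} [Field F]

/-- an element of `SL_n` with a two-dimensional eigenspace that is not a scalar has no conjugate
in the normaliser of a field subalgebra of prime degree `n` -/
theorem not_conj_of_two_eigen {n : ℕ} {K : Subalgebra F (Matrix (Fin n) (Fin n) F)}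
    (hn : n.Prime) (hK : IsFieldSubalgebra n K) (x : Matrix.SpecialLinearGroup (Fin n) F)
    (v₁ v₂ : Fin n → F) (hv₁ : v₁ ≠ 0) (hv₂ : ∀ c : F, v₂ ≠ c • v₁) (μ : F)
    (h1 : (x : Matrix (Fin n) (Fin n) F) *ᵥ v₁ = μ • v₁)
    (h2 : (x : Matrix (Fin n) (Fin n) F) *ᵥ v₂ = μ • v₂)
    (hx : (x : Matrix (Fin n) (Fin n) F) ≠ μ • (1 : Matrix (Fin n) (Fin n) F))
    (P : Matrix.SpecialLinearGroup (Fin n) F) :
    P⁻¹ * x * P ∉ (subalgebraNormalizer K).comap (Matrix.SpecialLinearGroup.toGL :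
      Matrix.SpecialLinearGroup (Fin n) F →* GL (Fin n) F) := by
  intro hP
  rw [Subgroup.mem_comap] at hP
  have hcoe : ((Matrix.SpecialLinearGroup.toGL (P⁻¹ * x * P) : GL (Fin n) F) :
      Matrix (Fin n) (Fin n) F) = (↑(P⁻¹) : Matrix (Fin n) (Fin n) F) *
        (x : Matrix (Fin n) (Fin n) F) * (P : Matrix (Fin n) (Fin n) F) := rfl
  have hPP : (P : Matrix (Fin n) (Fin n) F) * (↑(P⁻¹) : Matrix (Fin n) (Fin n) F) = 1 := by
    rw [← Matrix.SpecialLinearGroup.coe_mul, mul_inv_cancel, Matrix.SpecialLinearGroup.coe_one]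
  have hy := scalar_of_eigen hn hK _ hP
    ((↑(P⁻¹) : Matrix (Fin n) (Fin n) F) *ᵥ v₁) ((↑(P⁻¹) : Matrix (Fin n) (Fin n) F) *ᵥ v₂)
    ?_ ?_ μ ?_ ?_
  · rw [hcoe] at hy
    apply hx
    have h3 : (x : Matrix (Fin n) (Fin n) F) = (P : Matrix (Fin n) (Fin n) F) *
        ((↑(P⁻¹) : Matrix (Fin n) (Fin n) F) * (x : Matrix (Fin n) (Fin n) F) *
          (P : Matrix (Fin n) (Fin n) F)) * (↑(P⁻¹) : Matrix (Fin n) (Fin n) F) := by
      simp only [mul_assoc]
      rw [hPP, mul_one, ← mul_assoc, hPP, one_mul]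
    rw [h3, hy, Matrix.mul_smul, mul_one, Matrix.smul_mul, hPP]
  · intro h0
    apply hv₁
    have h5 := congrArg (fun w => (P : Matrix (Fin n) (Fin n) F) *ᵥ w) h0
    simp only [Matrix.mulVec_mulVec, hPP, Matrix.one_mulVec, Matrix.mulVec_zero] at h5
    exact h5
  · intro c hc
    apply hv₂ c
    have h5 := congrArg (fun w => (P : Matrix (Fin n) (Fin n) F) *ᵥ w) hc
    simp only [Matrix.mulVec_mulVec, hPP, Matrix.one_mulVec, Matrix.mulVec_smul] at h5
    exact h5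
  · rw [hcoe, Matrix.mulVec_mulVec, mul_assoc, mul_assoc, hPP, mul_one,
      ← Matrix.mulVec_mulVec, h1, Matrix.mulVec_smul]
  · rw [hcoe, Matrix.mulVec_mulVec, mul_assoc, mul_assoc, hPP, mul_one,
      ← Matrix.mulVec_mulVec, h2, Matrix.mulVec_smul]

/-- elements of order three with characteristic polynomial `X ^ 3 - 1` are conjugate to the
Frobenius element -/
theorem conj_into_norm [Finite F] {K : Subalgebra F (Matrix (Fin 3) (Fin 3) F)} (h3 : (3 : F) ≠ 0)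
    (g : Matrix (Fin 3) (Fin 3) F) (hg3 : g ^ 3 = 1) (hχ : g.charpoly = Polynomial.X ^ 3 - 1)
    (m : ℕ) (hgb : ∀ b ∈ K, g * b = b ^ m * g) (x : Matrix.SpecialLinearGroup (Fin 3) F)
    (hx3 : (x : Matrix (Fin 3) (Fin 3) F) ^ 3 = 1)
    (hns : ∀ c : F, (x : Matrix (Fin 3) (Fin 3) F) ≠ c • (1 : Matrix (Fin 3) (Fin 3) F)) :
    ∃ P : Matrix.SpecialLinearGroup (Fin 3) F, P⁻¹ * x * P ∈
      (subalgebraNormalizer K).comap (Matrix.SpecialLinearGroup.toGL :
        Matrix.SpecialLinearGroup (Fin 3) F →* GL (Fin 3) F) := by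
  have hχx := charpoly_of_cube _ hx3 x.2 hns
  have hgdet : g.det = 1 := by
    rw [Matrix.det_eq_sign_charpoly_coeff, hχ, Fintype.card_fin]
    have h5 : (Polynomial.X ^ 3 - 1 : Polynomial F).coeff 0 = -1 := by
      simp [Polynomial.coeff_X_pow, Polynomial.coeff_one]
    rw [h5]
    ring
  obtain ⟨G, hG⟩ : ∃ G : Matrix.SpecialLinearGroup (Fin 3) F,
      (G : Matrix (Fin 3) (Fin 3) F) = g := ⟨⟨g, hgdet⟩, rfl⟩
  have h3' : ((3 : ℕ) : F) ≠ 0 := by exact_mod_cast h3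
  have hconj := Cfsg.Agent.Lib.Helper40.isConj_SL_of_semisimple x G
    (Cfsg.Agent.Lib.Helper40.isSemisimple_of_pow_eq_one _ 3 h3' hx3)
    (Cfsg.Agent.Lib.Helper40.isSemisimple_of_pow_eq_one _ 3 h3' (by rw [hG]; exact hg3))
    (by rw [hχx, hG, hχ])
  obtain ⟨c, hc⟩ := isConj_iff.1 hconj
  refine ⟨c⁻¹, ?_⟩
  rw [inv_inv, hc]
  exact mem_norm_of_frob (by norm_num) G (by rw [hG]; exact hg3) m (by rw [hG]; exact hgb)

/-- in characteristic three a transvection is a derangement -/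
theorem transvection_derange [CharP F 3] {K : Subalgebra F (Matrix (Fin 3) (Fin 3) F)}
    (hK : IsFieldSubalgebra 3 K) :
    ∃ x : Matrix.SpecialLinearGroup (Fin 3) F, (x : Matrix (Fin 3) (Fin 3) F) ^ 3 = 1 ∧
      (∀ z : F, (x : Matrix (Fin 3) (Fin 3) F) ≠ z • (1 : Matrix (Fin 3) (Fin 3) F)) ∧
      ∀ P : Matrix.SpecialLinearGroup (Fin 3) F, P⁻¹ * x * P ∉
        (subalgebraNormalizer K).comap (Matrix.SpecialLinearGroup.toGL :
          Matrix.SpecialLinearGroup (Fin 3) F →* GL (Fin 3) F) := by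
  have h01 : (0 : Fin 3) ≠ 1 := by decide
  obtain ⟨x, hx⟩ : ∃ x : Matrix.SpecialLinearGroup (Fin 3) F,
      (x : Matrix (Fin 3) (Fin 3) F) = Matrix.transvection 0 1 1 :=
    ⟨⟨Matrix.transvection 0 1 1, Matrix.det_transvection_of_ne 0 1 h01 1⟩, rfl⟩
  have h30 : (1 : F) + 1 + 1 = 0 := by
    have h := CharP.cast_eq_zero F 3
    have h2 : ((3 : ℕ) : F) = 1 + 1 + 1 := by norm_num
    rw [← h2, h]
  have hx3 : (x : Matrix (Fin 3) (Fin 3) F) ^ 3 = 1 := by
    rw [hx, pow_succ, pow_two, Matrix.transvection_mul_transvection_same 0 1 h01,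
      Matrix.transvection_mul_transvection_same 0 1 h01, h30, Matrix.transvection_zero]
  have hns : ∀ z : F, (x : Matrix (Fin 3) (Fin 3) F) ≠ z • (1 : Matrix (Fin 3) (Fin 3) F) := by
    intro z hz
    rw [hx] at hz
    have h5 := congrFun (congrFun hz 0) 1
    simp [Matrix.transvection] at h5
  have hfix : ∀ j : Fin 3, j ≠ 1 → (x : Matrix (Fin 3) (Fin 3) F) *ᵥ Pi.single j 1 =
      (1 : F) • Pi.single j 1 := by
    intro j hj
    rw [hx, Matrix.transvection, Matrix.add_mulVec, Matrix.one_mulVec, one_smul,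
      Matrix.mulVec_single_one]
    have h6 : (Matrix.single (0 : Fin 3) (1 : Fin 3) (1 : F)).col j = 0 := by
      funext k
      simp [Matrix.col, hj.symm]
    rw [h6, add_zero]
  refine ⟨x, hx3, hns, fun P => ?_⟩
  apply not_conj_of_two_eigen Nat.prime_three hK x (Pi.single 0 1) (Pi.single 2 1) ?_ ?_ 1
    (hfix 0 (by decide)) (hfix 2 (by decide)) (by rw [one_smul]; exact fun h => hns 1 (by rw [h, one_smul]))
  · intro h
    have h5 := congrFun h 0
    simp at h5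
  · intro c h
    have h5 := congrFun h 2
    simp at h5

/-- if `9 ∣ q - 1` then `diag(c, c, c⁷)` with `c` of order nine is a derangement -/
theorem diag_derange [Fintype F] {K : Subalgebra F (Matrix (Fin 3) (Fin 3) F)}
    (hK : IsFieldSubalgebra 3 K) (h9 : 9 ∣ Fintype.card F - 1) :
    ∃ x : Matrix.SpecialLinearGroup (Fin 3) F,
      (∃ z : F, (x : Matrix (Fin 3) (Fin 3) F) ^ 3 = z • (1 : Matrix (Fin 3) (Fin 3) F)) ∧
      (∀ z : F, (x : Matrix (Fin 3) (Fin 3) F) ≠ z • (1 : Matrix (Fin 3) (Fin 3) F)) ∧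
      ∀ P : Matrix.SpecialLinearGroup (Fin 3) F, P⁻¹ * x * P ∉
        (subalgebraNormalizer K).comap (Matrix.SpecialLinearGroup.toGL :
          Matrix.SpecialLinearGroup (Fin 3) F →* GL (Fin 3) F) := by
  classical
  have hq2 : 2 ≤ Fintype.card F := Fintype.one_lt_card
  obtain ⟨d, hd⟩ := h9
  have hd1 : 1 ≤ d := by omega
  obtain ⟨γ, hγ⟩ := IsCyclic.exists_ofOrder_eq_natCard (α := Fˣ)
  rw [Nat.card_units, Nat.card_eq_fintype_card, hd] at hγ
  obtain ⟨c, hc⟩ : ∃ c : F, c = ((γ ^ d : Fˣ) : F) := ⟨_, rfl⟩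
  have hc9 : c ^ 9 = 1 := by
    rw [hc, ← Units.val_pow_eq_pow_val, ← pow_mul, mul_comm, ← hγ, pow_orderOf_eq_one,
      Units.val_one]
  have hc3 : c ^ 3 ≠ 1 := by
    intro h
    rw [hc, ← Units.val_pow_eq_pow_val, ← pow_mul] at h
    have h2 : γ ^ (d * 3) = 1 := Units.ext h
    have h3 := Nat.le_of_dvd (by omega) (orderOf_dvd_of_pow_eq_one h2)
    omega
  have hc71 : c ^ 7 ≠ c := by
    intro h
    apply hc3
    have h2 : c ^ 9 = c ^ 3 := by
      calc c ^ 9 = c ^ 7 * c ^ 2 := by ring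
        _ = c ^ 3 := by rw [h]; ring
    rw [← h2, hc9]
  have hdet : (Matrix.diagonal ![c, c, c ^ 7]).det = 1 := by
    rw [Matrix.det_diagonal, Fin.prod_univ_three]
    simp only [Matrix.cons_val_zero, Matrix.cons_val_one, Matrix.cons_val_two, Matrix.head_cons,
      Matrix.tail_cons]
    rw [← hc9]
    ring
  obtain ⟨x, hx⟩ : ∃ x : Matrix.SpecialLinearGroup (Fin 3) F,
      (x : Matrix (Fin 3) (Fin 3) F) = Matrix.diagonal ![c, c, c ^ 7] := ⟨⟨_, hdet⟩, rfl⟩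
  have hns : ∀ z : F, (x : Matrix (Fin 3) (Fin 3) F) ≠ z • (1 : Matrix (Fin 3) (Fin 3) F) := by
    intro z hz
    rw [hx] at hz
    have h5 := congrFun (congrFun hz 0) 0
    have h6 := congrFun (congrFun hz 2) 2
    simp at h5 h6
    exact hc71 (by rw [h6, h5])
  have hfix : ∀ j : Fin 3, j ≠ 2 → (x : Matrix (Fin 3) (Fin 3) F) *ᵥ Pi.single j 1 =
      c • Pi.single j 1 := by
    intro j hj
    rw [hx, Matrix.diagonal_mulVec_single, mul_one]
    funext k
    fin_cases j <;> fin_cases k <;> simp at hj ⊢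
  refine ⟨x, ⟨c ^ 3, ?_⟩, hns, fun P => ?_⟩
  · rw [hx, Matrix.diagonal_pow, Matrix.smul_one_eq_diagonal]
    congr 1
    funext i
    fin_cases i
    · simp
    · simp
    · simp only [Pi.pow_apply]
      show (c ^ 7) ^ 3 = c ^ 3
      calc (c ^ 7) ^ 3 = c ^ 3 * (c ^ 9) ^ 2 := by ring
        _ = c ^ 3 := by rw [hc9, one_pow, mul_one]
  · apply not_conj_of_two_eigen Nat.prime_three hK x (Pi.single 0 1) (Pi.single 1 1) ?_ ?_ c
      (hfix 0 (by decide)) (hfix 1 (by decide)) (hns c)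
    · intro h
      have h5 := congrFun h 0
      simp at h5
    · intro t h
      have h5 := congrFun h 1
      simp at h5

end Conj

section Index

variable {F : Type*} [Field F] [Fintype F]

theorem orderOf_mod_three (q : ℕ) (h : q % 3 = 2) : orderOf (q : ZMod 3) = 3 - 1 := by
  have h1 : (q : ZMod 3) = ((q % 3 : ℕ) : ZMod 3) := (ZMod.natCast_mod q 3).symm
  have : Fact (Nat.Prime 2) := ⟨Nat.prime_two⟩
  rw [h1, h]
  exact orderOf_eq_prime (by decide) (by decide)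

/-- if `q ≡ 2, 5 (mod 9)` then the index of the normaliser of a Singer cycle in `SL_3(q)` is
prime to three -/
theorem not_dvd_index {p q : ℕ} [Fact p.Prime] [CharP F p] (hq : Fintype.card F = q)
    (hq9 : q % 9 = 2 ∨ q % 9 = 5) {K : Subalgebra F (Matrix (Fin 3) (Fin 3) F)}
    (hK : IsFieldSubalgebra 3 K) :
    ¬ 3 ∣ ((subalgebraNormalizer K).comap (Matrix.SpecialLinearGroup.toGL :
      Matrix.SpecialLinearGroup (Fin 3) F →* GL (Fin 3) F)).index := by
  classical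
  intro hdiv
  have : Fact (Nat.Prime 3) := ⟨Nat.prime_three⟩
  have h3p : 3 ≠ p := by
    intro h
    have h1 := Cfsg.Agent.Lib.Helper40.Elusive.char_dvd_card (F := F) p
    rw [hq, ← h] at h1
    omega
  have hi : orderOf (q : ZMod 3) = 3 - 1 := orderOf_mod_three q (by omega)
  obtain ⟨g, hg3, hg1, hgb⟩ := exists_frob (n := 3) (by norm_num) hK
  have hχ := charpoly_of_order hq 3 h3p le_rfl hi g hg3 hg1
  have hgdet : g.det = 1 := by
    rw [Matrix.det_eq_sign_charpoly_coeff, hχ, Fintype.card_fin]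
    have h5 : (Polynomial.X ^ 3 - 1 : Polynomial F).coeff 0 = -1 := by
      simp [Polynomial.coeff_X_pow, Polynomial.coeff_one]
    rw [h5]
    ring
  obtain ⟨G, hG⟩ : ∃ G : Matrix.SpecialLinearGroup (Fin 3) F,
      (G : Matrix (Fin 3) (Fin 3) F) = g := ⟨⟨g, hgdet⟩, rfl⟩
  have hGmem := mem_norm_of_frob (K := K) (by norm_num) G (by rw [hG]; exact hg3)
    (Fintype.card F) (by rw [hG]; exact hgb)
  obtain ⟨H, hH⟩ : ∃ H : Subgroup (Matrix.SpecialLinearGroup (Fin 3) F),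
      H = (subalgebraNormalizer K).comap (Matrix.SpecialLinearGroup.toGL :
        Matrix.SpecialLinearGroup (Fin 3) F →* GL (Fin 3) F) := ⟨_, rfl⟩
  rw [← hH] at hdiv hGmem
  have hG3 : G ^ 3 = 1 := by
    apply Subtype.ext
    rw [Matrix.SpecialLinearGroup.coe_pow, hG, hg3]
    rfl
  have hG1 : G ≠ 1 := by
    intro h
    apply hg1
    rw [← hG, h]
    rfl
  have hord : orderOf (⟨G, hGmem⟩ : ↥H) = 3 :=
    orderOf_eq_prime (Subtype.ext hG3) (fun h => hG1 (congrArg Subtype.val h))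
  have h3H : 3 ∣ Nat.card ↥H := by
    have h5 := orderOf_dvd_natCard (⟨G, hGmem⟩ : ↥H)
    rwa [hord] at h5
  have h9 : 9 ∣ Nat.card (Matrix.SpecialLinearGroup (Fin 3) F) := by
    rw [← Subgroup.card_mul_index H]
    exact Nat.mul_dvd_mul h3H hdiv
  have hGL := Cfsg.Agent.Lib.Helper40.card_GL_eq_card_SL_mul (F := F) 3 (by norm_num)
  have hGLc := Matrix.card_GL_field (𝔽 := F) 3
  rw [hGL, Fin.prod_univ_three, hq] at hGLc
  have h9' : 9 ∣ (q ^ 3 - q ^ ((0 : Fin 3) : ℕ)) * (q ^ 3 - q ^ ((1 : Fin 3) : ℕ)) *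
      (q ^ 3 - q ^ ((2 : Fin 3) : ℕ)) := by
    rw [← hGLc]
    exact Dvd.dvd.mul_right h9 _
  have hq1 : 1 ≤ q := by omega
  have e0 : ((q ^ 3 - q ^ ((0 : Fin 3) : ℕ) : ℕ) : ZMod 9) = (q : ZMod 9) ^ 3 - 1 := by
    rw [Nat.cast_sub (Nat.pow_le_pow_right hq1 (by decide))]
    push_cast
    simp
  have e1 : ((q ^ 3 - q ^ ((1 : Fin 3) : ℕ) : ℕ) : ZMod 9) = (q : ZMod 9) ^ 3 - (q : ZMod 9) := by
    rw [Nat.cast_sub (Nat.pow_le_pow_right hq1 (by decide))]
    push_cast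
    simp
  have e2 : ((q ^ 3 - q ^ ((2 : Fin 3) : ℕ) : ℕ) : ZMod 9) =
      (q : ZMod 9) ^ 3 - (q : ZMod 9) ^ 2 := by
    rw [Nat.cast_sub (Nat.pow_le_pow_right hq1 (by decide))]
    push_cast
    simp
  have h0 := (ZMod.natCast_eq_zero_iff _ 9).2 h9'
  rw [Nat.cast_mul, Nat.cast_mul, e0, e1, e2] at h0
  have hqz : (q : ZMod 9) = 2 ∨ (q : ZMod 9) = 5 := by
    rcases hq9 with h | h
    · left
      rw [← ZMod.natCast_mod q 9, h]
      rfl
    · right
      rw [← ZMod.natCast_mod q 9, h]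
      rfl
  rcases hqz with h | h <;> rw [h] at h0 <;> revert h0 <;> decide

end Index

end Cfsg.Agent.Lib.Helper40.Singer2
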