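-- Involutions and extension-field subgroups of degree two (helper40).
import Mathlib
import Cfsg.Prelude.Def_GeometricClasses
import Cfsg.Agent.Lib.Helper20.ExtNonMax
import Cfsg.Agent.Lib.Helper40.Elusive
import Cfsg.Agent.Lib.Helper40.Singer
import Cfsg.Agent.Lib.Helper40.Singer2
import Cfsg.Agent.Lib.Helper40.Alt2
import Cfsg.Agent.Lib.Helper40.Jordan

set_option autoImplicit false

namespace Cfsg.Agent.Lib.Helper40.Ext2

open Cfsg Cfsg.Geo Matrix Cfsg.Agent.Lib.Helper20.ExtNonMax Cfsg.Agent.Lib.Helper40.Singer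

section RankOne

variable {F : Type*} [Field F] {n k : ℕ} {K : Subalgebra F (Matrix (Fin n) (Fin n) F)}

/-- An element of the normaliser of a field subalgebra of degree at least two which is a scalar
plus a matrix of rank at most one is a scalar (`n ≥ 3`). -/
theorem normalizer_rank_one (hK : IsFieldSubalgebra k K) (hk : 2 ≤ k) (hn : 3 ≤ n)
    (y : GL (Fin n) F) (hy : y ∈ subalgebraNormalizer K) (α : F) (u : Fin n → F)
    (φ : (Fin n → F) →ₗ[F] F)
    (hyM : ∀ v, (y : Matrix (Fin n) (Fin n) F) *ᵥ v = α • v + φ v • u) :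
    ∀ v, φ v • u = 0 := by
  classical
  have hyi : ((y⁻¹ : GL (Fin n) F) : Matrix (Fin n) (Fin n) F) *
      (y : Matrix (Fin n) (Fin n) F) = 1 := by
    rw [← Units.val_mul, inv_mul_cancel, Units.val_one]
  have hyinj : ∀ v, (y : Matrix (Fin n) (Fin n) F) *ᵥ v = 0 → v = 0 := by
    intro v hv
    have h3 := congrArg (fun w => ((y⁻¹ : GL (Fin n) F) : Matrix (Fin n) (Fin n) F) *ᵥ w) hv
    simp only [Matrix.mulVec_mulVec, hyi, Matrix.one_mulVec, Matrix.mulVec_zero] at h3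
    exact h3
  have hker2 : ∀ ψ₁ ψ₂ : (Fin n → F) →ₗ[F] F, ∃ v, v ≠ 0 ∧ ψ₁ v = 0 ∧ ψ₂ v = 0 := by
    intro ψ₁ ψ₂
    have h : LinearMap.ker (ψ₁.prod ψ₂) ≠ ⊥ := by
      apply LinearMap.ker_ne_bot_of_finrank_lt
      rw [Module.finrank_prod, Module.finrank_self, Module.finrank_fin_fun]
      omega
    obtain ⟨v, hv, hv0⟩ := Submodule.exists_mem_ne_zero_of_ne_bot h
    rw [LinearMap.mem_ker, LinearMap.prod_apply, Prod.mk_eq_zero] at hv
    exact ⟨v, hv0, hv.1, hv.2⟩
  have hα : α ≠ 0 := by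
    rintro rfl
    obtain ⟨v, hv0, hv1, -⟩ := hker2 φ φ
    apply hv0
    apply hyinj
    rw [hyM, zero_smul, hv1, zero_smul, add_zero]
  have hcomm : ∀ b ∈ K, (y : Matrix (Fin n) (Fin n) F) * b =
      b * (y : Matrix (Fin n) (Fin n) F) := by
    intro b hb
    have hb' := (hy b).1 hb
    obtain ⟨b', hb'def⟩ : ∃ b' : Matrix (Fin n) (Fin n) F, b' = (y : Matrix (Fin n) (Fin n) F) * b *
      ((y⁻¹ : GL (Fin n) F) : Matrix (Fin n) (Fin n) F) := ⟨_, rfl⟩
    rw [← hb'def] at hb'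
    have hb'y : b' * (y : Matrix (Fin n) (Fin n) F) = (y : Matrix (Fin n) (Fin n) F) * b := by
      rw [hb'def, mul_assoc, hyi, mul_one]
    obtain ⟨v, hv0, hv1, hv2⟩ := hker2 (φ.comp (Matrix.toLin' b)) φ
    have hv1' : φ (b *ᵥ v) = 0 := hv1
    have h3 : (b' - b) *ᵥ v = 0 := by
      have h4 : b' *ᵥ ((y : Matrix (Fin n) (Fin n) F) *ᵥ v) =
          (y : Matrix (Fin n) (Fin n) F) *ᵥ (b *ᵥ v) := by
        rw [Matrix.mulVec_mulVec, hb'y, Matrix.mulVec_mulVec]
      rw [hyM v, hyM (b *ᵥ v), hv2, zero_smul, add_zero, hv1', zero_smul, add_zero,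
        Matrix.mulVec_smul] at h4
      rw [Matrix.sub_mulVec, smul_right_injective _ hα h4, sub_self]
    have h5 : b' = b := by
      by_contra hne
      exact hv0 (K_cancel hK (K.sub_mem hb' hb) (sub_ne_zero.2 hne) h3)
    rw [← hb'y, h5]
  intro v₀
  by_contra hne
  have hφ0 : φ v₀ ≠ 0 := fun h => hne (by rw [h, zero_smul])
  have hu0 : u ≠ 0 := fun h => hne (by rw [h, smul_zero])
  have hscal : ∀ b ∈ K, ∃ c : F, b = c • (1 : Matrix (Fin n) (Fin n) F) := by
    intro b hb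
    have h3 : (y : Matrix (Fin n) (Fin n) F) *ᵥ (b *ᵥ v₀) =
        b *ᵥ ((y : Matrix (Fin n) (Fin n) F) *ᵥ v₀) := by
      rw [Matrix.mulVec_mulVec, hcomm b hb, Matrix.mulVec_mulVec]
    rw [hyM, hyM, Matrix.mulVec_add, Matrix.mulVec_smul, Matrix.mulVec_smul] at h3
    have h4 : φ (b *ᵥ v₀) • u = φ v₀ • (b *ᵥ u) := add_left_cancel h3
    refine ⟨φ (b *ᵥ v₀) / φ v₀, ?_⟩
    by_contra hne2
    apply hu0
    apply K_cancel hK (K.sub_mem hb (K.smul_mem K.one_mem _)) (sub_ne_zero.2 hne2)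
    have h5 : b *ᵥ u = (φ (b *ᵥ v₀) / φ v₀) • u := by
      rw [div_eq_inv_mul, ← smul_smul, h4, smul_smul, inv_mul_cancel₀ hφ0, one_smul]
    rw [Matrix.sub_mulVec, Matrix.smul_mulVec, Matrix.one_mulVec, h5, sub_self]
  have hKbot : K = ⊥ := by
    rw [eq_bot_iff]
    intro b hb
    obtain ⟨c, hc⟩ := hscal b hb
    rw [Algebra.mem_bot]
    exact ⟨c, by rw [hc, Algebra.algebraMap_eq_smul_one]⟩
  have hfr := hK.finrank_eq
  have : Nonempty (Fin n) := ⟨⟨0, by omega⟩⟩
  subst hKbot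
  rw [Subalgebra.finrank_bot] at hfr
  omega

/-- A scalar plus a matrix unit has no conjugate in the normaliser of a field subalgebra. -/
theorem rank_one_derange (hK : IsFieldSubalgebra k K) (hk : 2 ≤ k) (hn : 3 ≤ n)
    (x : Matrix.SpecialLinearGroup (Fin n) F) (α : F) (i j : Fin n) (c : F) (hc : c ≠ 0)
    (hx : (x : Matrix (Fin n) (Fin n) F) = α • (1 : Matrix (Fin n) (Fin n) F) +
      Matrix.single i j c) (P : Matrix.SpecialLinearGroup (Fin n) F) :
    P⁻¹ * x * P ∉ (subalgebraNormalizer K).comap (Matrix.SpecialLinearGroup.toGL :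
      Matrix.SpecialLinearGroup (Fin n) F →* GL (Fin n) F) := by
  classical
  intro hP
  rw [Subgroup.mem_comap] at hP
  have hcoe : ((Matrix.SpecialLinearGroup.toGL (P⁻¹ * x * P) : GL (Fin n) F) :
      Matrix (Fin n) (Fin n) F) = (↑(P⁻¹) : Matrix (Fin n) (Fin n) F) *
        (x : Matrix (Fin n) (Fin n) F) * (P : Matrix (Fin n) (Fin n) F) := rfl
  have hPP : (P : Matrix (Fin n) (Fin n) F) * (↑(P⁻¹) : Matrix (Fin n) (Fin n) F) = 1 := by
    rw [← Matrix.SpecialLinearGroup.coe_mul, mul_inv_cancel, Matrix.SpecialLinearGroup.coe_one]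
  have hPP' : (↑(P⁻¹) : Matrix (Fin n) (Fin n) F) * (P : Matrix (Fin n) (Fin n) F) = 1 := by
    rw [← Matrix.SpecialLinearGroup.coe_mul, inv_mul_cancel, Matrix.SpecialLinearGroup.coe_one]
  obtain ⟨φ, hφ⟩ : ∃ φ : (Fin n → F) →ₗ[F] F,
      ∀ v, φ v = c * ((P : Matrix (Fin n) (Fin n) F) *ᵥ v) j :=
    ⟨c • ((LinearMap.proj j).comp (Matrix.mulVecLin (P : Matrix (Fin n) (Fin n) F))),
      fun v => rfl⟩
  have h := normalizer_rank_one hK hk hn _ hP α
    ((↑(P⁻¹) : Matrix (Fin n) (Fin n) F) *ᵥ Pi.single i 1) φ ?_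
    ((↑(P⁻¹) : Matrix (Fin n) (Fin n) F) *ᵥ Pi.single j 1)
  · rw [hφ, Matrix.mulVec_mulVec, hPP, Matrix.one_mulVec, Pi.single_eq_same, mul_one] at h
    have h2 := (smul_eq_zero.1 h).resolve_left hc
    have h3 := congrArg (fun w => (P : Matrix (Fin n) (Fin n) F) *ᵥ w) h2
    simp only [Matrix.mulVec_mulVec, hPP, Matrix.one_mulVec, Matrix.mulVec_zero] at h3
    have h4 := congrFun h3 i
    simp at h4
  · intro v
    have h5 : Matrix.single i j c *ᵥ ((P : Matrix (Fin n) (Fin n) F) *ᵥ v) =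
        (c * ((P : Matrix (Fin n) (Fin n) F) *ᵥ v) j) • Pi.single i 1 := by
      rw [Matrix.single_mulVec]
      funext t
      by_cases ht : t = i
      · subst ht
        simp
      · simp [ht]
    calc ((Matrix.SpecialLinearGroup.toGL (P⁻¹ * x * P) : GL (Fin n) F) :
          Matrix (Fin n) (Fin n) F) *ᵥ v
        = (↑(P⁻¹) : Matrix (Fin n) (Fin n) F) *ᵥ ((x : Matrix (Fin n) (Fin n) F) *ᵥ
            ((P : Matrix (Fin n) (Fin n) F) *ᵥ v)) := by
          rw [hcoe, Matrix.mulVec_mulVec, Matrix.mulVec_mulVec]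
      _ = (↑(P⁻¹) : Matrix (Fin n) (Fin n) F) *ᵥ (α • ((P : Matrix (Fin n) (Fin n) F) *ᵥ v) +
            (c * ((P : Matrix (Fin n) (Fin n) F) *ᵥ v) j) • Pi.single i 1) := by
          rw [hx, Matrix.add_mulVec, Matrix.smul_mulVec, Matrix.one_mulVec, h5]
      _ = α • v + φ v • ((↑(P⁻¹) : Matrix (Fin n) (Fin n) F) *ᵥ Pi.single i 1) := by
          rw [Matrix.mulVec_add, Matrix.mulVec_smul, Matrix.mulVec_smul, Matrix.mulVec_mulVec,
            hPP', Matrix.one_mulVec, hφ]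

/-- in characteristic two a transvection is a derangement (`n ≥ 3`) -/
theorem transv_derange2 [CharP F 2] (hK : IsFieldSubalgebra k K) (hk : 2 ≤ k) (hn : 3 ≤ n) :
    ∃ x : Matrix.SpecialLinearGroup (Fin n) F, (x : Matrix (Fin n) (Fin n) F) ^ 2 = 1 ∧
      (∀ z : F, (x : Matrix (Fin n) (Fin n) F) ≠ z • (1 : Matrix (Fin n) (Fin n) F)) ∧
      ∀ P : Matrix.SpecialLinearGroup (Fin n) F, P⁻¹ * x * P ∉
        (subalgebraNormalizer K).comap (Matrix.SpecialLinearGroup.toGL :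
          Matrix.SpecialLinearGroup (Fin n) F →* GL (Fin n) F) := by
  classical
  obtain ⟨i0, hi0⟩ : ∃ i0 : Fin n, (i0 : ℕ) = 0 := ⟨⟨0, by omega⟩, rfl⟩
  obtain ⟨i1, hi1⟩ : ∃ i1 : Fin n, (i1 : ℕ) = 1 := ⟨⟨1, by omega⟩, rfl⟩
  have h01 : i0 ≠ i1 := by
    intro h
    rw [Fin.ext_iff] at h
    omega
  obtain ⟨x, hx⟩ : ∃ x : Matrix.SpecialLinearGroup (Fin n) F,
      (x : Matrix (Fin n) (Fin n) F) = Matrix.transvection i0 i1 1 :=
    ⟨⟨Matrix.transvection i0 i1 1, Matrix.det_transvection_of_ne i0 i1 h01 1⟩, rfl⟩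
  have h20 : (1 : F) + 1 = 0 := by
    have h := CharP.cast_eq_zero F 2
    have h2 : ((2 : ℕ) : F) = 1 + 1 := by norm_num
    rw [← h2, h]
  refine ⟨x, ?_, ?_, fun P => ?_⟩
  · rw [hx, pow_two, Matrix.transvection_mul_transvection_same i0 i1 h01, h20,
      Matrix.transvection_zero]
  · intro z hz
    rw [hx] at hz
    have h5 := congrFun (congrFun hz i0) i1
    simp [Matrix.transvection, h01] at h5
  · exact rank_one_derange hK hk hn x 1 i0 i1 1 one_ne_zero
      (by rw [hx, Matrix.transvection, one_smul]) P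

/-- in odd characteristic, `l • diag(-1, 1, …, 1)` with `l ^ n = -1` is a derangement -/
theorem diag_derange2 (h2F : (2 : F) ≠ 0) (hK : IsFieldSubalgebra k K) (hk : 2 ≤ k) (hn : 3 ≤ n)
    (l : F) (hl : l ^ n = -1) :
    ∃ x : Matrix.SpecialLinearGroup (Fin n) F,
      (x : Matrix (Fin n) (Fin n) F) ^ 2 = (l * l) • (1 : Matrix (Fin n) (Fin n) F) ∧
      (∀ z : F, (x : Matrix (Fin n) (Fin n) F) ≠ z • (1 : Matrix (Fin n) (Fin n) F)) ∧
      ∀ P : Matrix.SpecialLinearGroup (Fin n) F, P⁻¹ * x * P ∉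
        (subalgebraNormalizer K).comap (Matrix.SpecialLinearGroup.toGL :
          Matrix.SpecialLinearGroup (Fin n) F →* GL (Fin n) F) := by
  classical
  have hl0 : l ≠ 0 := by
    rintro rfl
    rw [zero_pow (by omega)] at hl
    have : (1 : F) = 0 := by linear_combination hl
    exact one_ne_zero this
  obtain ⟨i0, hi0⟩ : ∃ i0 : Fin n, (i0 : ℕ) = 0 := ⟨⟨0, by omega⟩, rfl⟩
  obtain ⟨i1, hi1⟩ : ∃ i1 : Fin n, (i1 : ℕ) = 1 := ⟨⟨1, by omega⟩, rfl⟩
  have h01 : i1 ≠ i0 := by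
    intro h
    rw [Fin.ext_iff] at h
    omega
  obtain ⟨d, hd⟩ : ∃ d : Fin n → F, d = fun i : Fin n => if i = i0 then -1 else 1 := ⟨_, rfl⟩
  have hd0 : d i0 = -1 := by
    rw [hd]
    simp
  have hdne : ∀ j, j ≠ i0 → d j = 1 := by
    intro j hj
    rw [hd]
    simp [hj]
  have hdd : ∀ i, d i * d i = 1 := by
    intro i
    by_cases h : i = i0
    · rw [h, hd0]
      norm_num
    · rw [hdne i h, one_mul]
  obtain ⟨X, hX⟩ : ∃ X : Matrix (Fin n) (Fin n) F, X = l • Matrix.diagonal d := ⟨_, rfl⟩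
  have hXdet : X.det = 1 := by
    rw [hX, Matrix.det_smul, Fintype.card_fin, hl, Matrix.det_diagonal, hd,
      Finset.prod_ite_eq' Finset.univ i0]
    simp
  have hXX : X ^ 2 = (l * l) • (1 : Matrix (Fin n) (Fin n) F) := by
    rw [pow_two, hX, Matrix.smul_mul, Matrix.mul_smul, smul_smul, Matrix.diagonal_mul_diagonal,
      ← Matrix.diagonal_one]
    congr 2
    funext i
    exact hdd i
  have hXform : X = l • (1 : Matrix (Fin n) (Fin n) F) + Matrix.single i0 i0 (-2 * l) := by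
    rw [hX]
    ext a b
    by_cases hab : a = b
    · subst hab
      by_cases ha : a = i0
      · subst ha
        simp [hd0]
        ring
      · simp [hdne a ha, Ne.symm ha]
    · simp [Matrix.diagonal_apply_ne _ hab, Matrix.one_apply_ne hab]
      rw [Matrix.single_apply, if_neg]
      rintro ⟨h1, h2⟩
      exact hab (h1.symm.trans h2)
  obtain ⟨x, hx⟩ : ∃ x : Matrix.SpecialLinearGroup (Fin n) F,
      (x : Matrix (Fin n) (Fin n) F) = X := ⟨⟨X, hXdet⟩, rfl⟩
  refine ⟨x, by rw [hx, hXX], ?_, fun P => ?_⟩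
  · intro z hz
    rw [hx, hX] at hz
    have h5 := congrFun (congrFun hz i0) i0
    have h6 := congrFun (congrFun hz i1) i1
    simp [hd0, hdne i1 h01] at h5 h6
    apply hl0
    have h7 : (2 : F) * l = 0 := by linear_combination h6 - h5
    exact (mul_eq_zero.1 h7).resolve_left h2F
  · exact rank_one_derange hK hk hn x l i0 i0 (-2 * l)
      (mul_ne_zero (neg_ne_zero.2 h2F) hl0) (by rw [hx, hXform]) P

end RankOne

section Twist

variable {F : Type*} [Field F] {n : ℕ} {K : Subalgebra F (Matrix (Fin n) (Fin n) F)}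

/-- an element of `SL_n` acting on `K` by a power map, with a scalar power, normalises `K` -/
theorem mem_norm_of_twist (hn : 0 < n) (Y : Matrix.SpecialLinearGroup (Fin n) F) (m N : ℕ)
    (hN : 0 < N) (c : F)
    (hYN : (Y : Matrix (Fin n) (Fin n) F) ^ N = c • (1 : Matrix (Fin n) (Fin n) F))
    (h : ∀ b ∈ K, (Y : Matrix (Fin n) (Fin n) F) * b = b ^ m * (Y : Matrix (Fin n) (Fin n) F)) :
    Y ∈ (subalgebraNormalizer K).comap (Matrix.SpecialLinearGroup.toGL :
      Matrix.SpecialLinearGroup (Fin n) F →* GL (Fin n) F) := by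
  rw [Subgroup.mem_comap]
  have hne : Nonempty (Fin n) := ⟨⟨0, hn⟩⟩
  have hc0 : c ≠ 0 := by
    rintro rfl
    rw [zero_smul] at hYN
    have h1 := congrArg Matrix.det hYN
    rw [Matrix.det_pow, Y.det_coe, one_pow, Matrix.det_zero] at h1
    exact one_ne_zero h1
  have hcoe : ((Matrix.SpecialLinearGroup.toGL Y : GL (Fin n) F) : Matrix (Fin n) (Fin n) F) =
      Y := rfl
  obtain ⟨Yi, hYi⟩ : ∃ Yi : Matrix (Fin n) (Fin n) F,
      Yi = (((Matrix.SpecialLinearGroup.toGL Y)⁻¹ : GL (Fin n) F) : Matrix (Fin n) (Fin n) F) :=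
    ⟨_, rfl⟩
  have h1 : Yi * (Y : Matrix (Fin n) (Fin n) F) = 1 := by
    rw [hYi, ← hcoe, ← Units.val_mul, inv_mul_cancel, Units.val_one]
  have h2 : (Y : Matrix (Fin n) (Fin n) F) * Yi = 1 := by
    rw [hYi, ← hcoe, ← Units.val_mul, mul_inv_cancel, Units.val_one]
  intro k
  rw [← hYi, hcoe]
  constructor
  · intro hk
    rw [h k hk, mul_assoc, h2, mul_one]
    exact K.pow_mem hk m
  · intro hk'
    have hj : ∀ j : ℕ, ∀ b ∈ K, (Y : Matrix (Fin n) (Fin n) F) ^ j * b =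
        b ^ (m ^ j) * (Y : Matrix (Fin n) (Fin n) F) ^ j := by
      intro j
      induction j with
      | zero =>
        intro b hb
        simp
      | succ j ih =>
        intro b hb
        rw [pow_succ, mul_assoc, h b hb, ← mul_assoc, ih _ (K.pow_mem hb m), ← pow_mul,
          mul_assoc, ← pow_succ, ← pow_succ']
    have h5 := hj (N - 1) _ hk'
    have h6 : (Y : Matrix (Fin n) (Fin n) F) ^ (N - 1) *
        ((Y : Matrix (Fin n) (Fin n) F) * k * Yi) * (Y : Matrix (Fin n) (Fin n) F) = c • k := by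
      rw [mul_assoc, mul_assoc, mul_assoc, h1, mul_one, ← mul_assoc, ← pow_succ,
        Nat.sub_add_cancel hN, hYN, Matrix.smul_mul, one_mul]
    rw [h5, mul_assoc, ← pow_succ, Nat.sub_add_cancel hN, hYN, Matrix.mul_smul, mul_one] at h6
    have h7 : k = ((Y : Matrix (Fin n) (Fin n) F) * k * Yi) ^ m ^ (N - 1) :=
      (smul_right_injective _ hc0 h6).symm
    rw [h7]
    exact K.pow_mem hk' _

open Polynomial in
/-- A non-scalar `2 × 2` matrix whose square is the scalar `z` has characteristic polynomial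
`X ^ 2 - z`. -/
theorem charpoly_of_sq (x : Matrix (Fin 2) (Fin 2) F) (z : F)
    (hx : x ^ 2 = z • (1 : Matrix (Fin 2) (Fin 2) F))
    (hns : ∀ c : F, x ≠ c • (1 : Matrix (Fin 2) (Fin 2) F)) : x.charpoly = X ^ 2 - C z := by
  have hmon := Matrix.charpoly_monic x
  have hdeg : x.charpoly.natDegree = 2 := by
    rw [Matrix.charpoly_natDegree_eq_dim, Fintype.card_fin]
  have hc2 : x.charpoly.coeff 2 = 1 := by
    have h := hmon.coeff_natDegree
    rwa [hdeg] at h
  have hCH := Matrix.aeval_self_charpoly x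
  rw [Polynomial.aeval_eq_sum_range, hdeg, Finset.sum_range_succ, Finset.sum_range_succ,
    Finset.sum_range_succ, Finset.sum_range_zero, hc2, hx, pow_zero, pow_one, zero_add,
    one_smul] at hCH
  have h1 : x.charpoly.coeff 1 • x = (-(x.charpoly.coeff 0) - z) • (1 : Matrix (Fin 2) (Fin 2) F) := by
    rw [sub_smul, neg_smul]
    rw [← sub_eq_zero]
    rw [← hCH]
    abel
  have hc1 : x.charpoly.coeff 1 = 0 := by
    by_contra hne
    apply hns ((-(x.charpoly.coeff 0) - z) / x.charpoly.coeff 1)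
    calc x = (x.charpoly.coeff 1)⁻¹ • (x.charpoly.coeff 1 • x) := by
          rw [smul_smul, inv_mul_cancel₀ hne, one_smul]
      _ = ((-(x.charpoly.coeff 0) - z) / x.charpoly.coeff 1) • (1 : Matrix (Fin 2) (Fin 2) F) := by
          rw [h1, smul_smul]
          congr 1
          field_simp
  have hc0 : x.charpoly.coeff 0 = -z := by
    rw [hc1, zero_smul] at h1
    have h5 := congrFun (congrFun h1 0) 0
    simp at h5
    linear_combination h5
  ext i
  rcases i with _ | _ | _ | i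
  · simp [hc0, Polynomial.coeff_X_pow]
  · simp [hc1, Polynomial.coeff_X_pow]
  · simp [hc2, Polynomial.coeff_X_pow]
  · rw [Polynomial.coeff_eq_zero_of_natDegree_lt (by rw [hdeg]; omega)]
    simp [Polynomial.coeff_X_pow]

end Twist

section Fin

variable {F : Type*} [Field F] [Fintype F] {n k : ℕ} {K : Subalgebra F (Matrix (Fin n) (Fin n) F)}

/-- not every element of `K` is fixed by the Frobenius map -/
theorem exists_not_fixed (hn : 0 < n) (hK : IsFieldSubalgebra k K) (hk : 2 ≤ k) :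
    ∃ b ∈ K, b ^ Fintype.card F ≠ b := by
  by_contra hcon
  push Not at hcon
  obtain ⟨ζ, hζK, hζ⟩ := Cfsg.Agent.Lib.Helper20.ExtNonMax.exists_gen hK hn
  have h1 : ζ ^ Fintype.card F = ζ := hcon ζ hζK
  have hq2 : 2 ≤ Fintype.card F := Fintype.one_lt_card
  have hqn : Fintype.card F ^ 2 ≤ Fintype.card F ^ k := Nat.pow_le_pow_right (by omega) hk
  have hN : ζ ^ (Fintype.card F ^ k - 1) = 1 := (hζ _).2 dvd_rfl
  have hqq : 2 * Fintype.card F ≤ Fintype.card F ^ 2 := by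
    rw [sq]
    exact Nat.mul_le_mul_right _ hq2
  have hN1 : 1 ≤ Fintype.card F ^ k - 1 := by omega
  have h2 : ζ ^ (Fintype.card F - 1) = 1 := by
    calc ζ ^ (Fintype.card F - 1)
        = ζ ^ (Fintype.card F - 1) * (ζ * ζ ^ (Fintype.card F ^ k - 1 - 1)) := by
          rw [← pow_succ', Nat.sub_add_cancel hN1, hN, mul_one]
      _ = ζ ^ Fintype.card F * ζ ^ (Fintype.card F ^ k - 1 - 1) := by
          rw [← mul_assoc, ← pow_succ, Nat.sub_add_cancel (by omega)]
      _ = 1 := by rw [h1, ← pow_succ', Nat.sub_add_cancel hN1, hN]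
  have h3 := Nat.le_of_dvd (by omega) ((hζ _).1 h2)
  omega

/-- an element of norm `-1` in a field subalgebra of degree two (`q` odd) -/
theorem exists_norm_neg_one (hn : 0 < n) (hK : IsFieldSubalgebra 2 K)
    (hodd : Odd (Fintype.card F)) :
    ∃ a ∈ K, a ^ (Fintype.card F + 1) = -1 := by
  obtain ⟨ζ, hζK, hζ⟩ := Cfsg.Agent.Lib.Helper20.ExtNonMax.exists_gen hK hn
  obtain ⟨Q, hQ⟩ : ∃ Q : ℕ, Q = Fintype.card F := ⟨_, rfl⟩
  rw [← hQ] at hζ hodd ⊢
  obtain ⟨t, ht⟩ := hodd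
  have hQ2 : 2 ≤ Q := by
    rw [hQ]
    exact Fintype.one_lt_card
  have ht1 : 1 ≤ t := by omega
  -- (Q - 1) / 2 = t, Q + 1 = 2 t + 2, Q ^ 2 - 1 = 2 * (t * (Q + 1))
  have hfac : 2 * (t * (Q + 1)) = Q ^ 2 - 1 := by
    have h1 : Q ^ 2 = 2 * (t * (Q + 1)) + 1 := by
      rw [ht]
      ring
    rw [h1]
    omega
  obtain ⟨X, hX⟩ : ∃ X : ℕ, X = t * (Q + 1) := ⟨_, rfl⟩
  have hXpos : 0 < X := by
    rw [hX]
    exact Nat.mul_pos ht1 (by omega)
  rw [← hX] at hfac
  refine ⟨ζ ^ t, K.pow_mem hζK t, ?_⟩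
  obtain ⟨w, hw⟩ : ∃ w : Matrix (Fin n) (Fin n) F, w = ζ ^ X := ⟨_, rfl⟩
  have hwK : w ∈ K := by
    rw [hw]
    exact K.pow_mem hζK _
  have hww : w * w = 1 := by
    rw [hw, ← pow_add, ← two_mul, hfac]
    exact (hζ _).2 dvd_rfl
  have hw1 : w ≠ 1 := by
    intro h
    rw [hw] at h
    have h1 := Nat.le_of_dvd hXpos ((hζ _).1 h)
    omega
  have hprod : (w - 1) * (w + 1) = 0 := by
    have h3 : (w - 1) * (w + 1) = w * w - 1 := by noncomm_ring
    rw [h3, hww, sub_self]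
  obtain ⟨y, hyK, hy⟩ := hK.inv (w - 1) (K.sub_mem hwK K.one_mem) (sub_ne_zero.2 hw1)
  have hy' : y * (w - 1) = 1 := by
    rw [← hK.comm (w - 1) (K.sub_mem hwK K.one_mem) y hyK, hy]
  have hw2 : w + 1 = 0 := by
    calc w + 1 = y * (w - 1) * (w + 1) := by rw [hy', one_mul]
      _ = 0 := by rw [mul_assoc, hprod, mul_zero]
  rw [← pow_mul, ← hX, ← hw]
  exact eq_neg_of_add_eq_zero_left hw2

end Fin

section Two

variable {F : Type*} [Field F] [Fintype F] {K : Subalgebra F (Matrix (Fin 2) (Fin 2) F)}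

/-- `n = 2`, `q` odd: every involution of `PSL_2(q)` is conjugate into the normaliser. -/
theorem conj_two_odd (hodd : Odd (Fintype.card F)) (hK : IsFieldSubalgebra 2 K)
    (x : Matrix.SpecialLinearGroup (Fin 2) F) (z : F)
    (hx : (x : Matrix (Fin 2) (Fin 2) F) ^ 2 = z • (1 : Matrix (Fin 2) (Fin 2) F))
    (hns : ∀ c : F, (x : Matrix (Fin 2) (Fin 2) F) ≠ c • (1 : Matrix (Fin 2) (Fin 2) F)) :
    ∃ P : Matrix.SpecialLinearGroup (Fin 2) F, P⁻¹ * x * P ∈
      (subalgebraNormalizer K).comap (Matrix.SpecialLinearGroup.toGL :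
        Matrix.SpecialLinearGroup (Fin 2) F →* GL (Fin 2) F) := by
  classical
  obtain ⟨g, v₀, hv₀, hg2, hgns, hg, hgb⟩ :=
    Cfsg.Agent.Lib.Helper40.Singer2.exists_frob' (n := 2) le_rfl hK
  obtain ⟨a, haK, ha⟩ := exists_norm_neg_one (by norm_num) hK hodd
  obtain ⟨Y, hY⟩ : ∃ Y : Matrix (Fin 2) (Fin 2) F, Y = a * g := ⟨_, rfl⟩
  have hYb : ∀ b ∈ K, Y * b = b ^ Fintype.card F * Y := by
    intro b hb
    rw [hY, mul_assoc, hgb b hb, ← mul_assoc, ← mul_assoc,
      hK.comm a haK (b ^ Fintype.card F) (K.pow_mem hb _)]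
  have hYY : Y ^ 2 = (-1 : F) • (1 : Matrix (Fin 2) (Fin 2) F) := by
    rw [pow_two, hY]
    calc a * g * (a * g) = a * (g * a) * g := by simp only [mul_assoc]
      _ = a * (a ^ Fintype.card F * g) * g := by rw [hgb a haK]
      _ = (a * a ^ Fintype.card F) * (g * g) := by simp only [mul_assoc]
      _ = a ^ (Fintype.card F + 1) * g ^ 2 := by rw [← pow_succ', pow_two]
      _ = (-1 : F) • (1 : Matrix (Fin 2) (Fin 2) F) := by
          rw [ha, hg2, mul_one, neg_smul, one_smul]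
  have hYns : ∀ c : F, Y ≠ c • (1 : Matrix (Fin 2) (Fin 2) F) := by
    intro c hc
    have hc0 : c ≠ 0 := by
      rintro rfl
      rw [hc, zero_smul, zero_pow (by norm_num)] at hYY
      have h5 := congrFun (congrFun hYY 0) 0
      simp at h5
    obtain ⟨b, hbK, hb⟩ := exists_not_fixed (by norm_num) hK le_rfl
    apply hb
    have h1 := hYb b hbK
    rw [hc, Matrix.smul_mul, one_mul, Matrix.mul_smul, mul_one] at h1
    exact (smul_right_injective _ hc0 h1).symm
  have hχY := charpoly_of_sq Y (-1) hYY hYns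
  have hχx := charpoly_of_sq _ z hx hns
  have hcoef : ∀ w : F, (Polynomial.X ^ 2 - Polynomial.C w : Polynomial F).coeff 0 = -w := by
    intro w
    simp [Polynomial.coeff_X_pow]
  have hz : z = -1 := by
    have h1 := Matrix.det_eq_sign_charpoly_coeff (x : Matrix (Fin 2) (Fin 2) F)
    rw [x.det_coe, hχx, hcoef, Fintype.card_fin] at h1
    linear_combination h1
  have hYdet : Y.det = 1 := by
    rw [Matrix.det_eq_sign_charpoly_coeff, hχY, hcoef, Fintype.card_fin]
    ring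
  obtain ⟨Y', hY'⟩ : ∃ Y' : Matrix.SpecialLinearGroup (Fin 2) F,
      (Y' : Matrix (Fin 2) (Fin 2) F) = Y := ⟨⟨Y, hYdet⟩, rfl⟩
  have hchar : ringChar F ≠ 2 := by
    intro h3
    have h4 := FiniteField.even_card_iff_char_two.1 h3
    obtain ⟨m, hm⟩ := hodd
    omega
  have h2F : (2 : F) ≠ 0 := Ring.two_ne_zero hchar
  have h4F : ((4 : ℕ) : F) ≠ 0 := by
    have h5 : ((4 : ℕ) : F) = 2 * 2 := by norm_num
    rw [h5]
    exact mul_ne_zero h2F h2F
  have hpow4 : ∀ M : Matrix (Fin 2) (Fin 2) F, M ^ 2 = (-1 : F) • (1 : Matrix (Fin 2) (Fin 2) F) →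
      M ^ 4 = 1 := by
    intro M hM
    rw [show 4 = 2 * 2 from rfl, pow_mul, hM, smul_pow, one_pow]
    norm_num
  have hx4 : (x : Matrix (Fin 2) (Fin 2) F) ^ 4 = 1 := hpow4 _ (by rw [hx, hz])
  have hconj := Cfsg.Agent.Lib.Helper40.isConj_SL_of_semisimple x Y'
    (Cfsg.Agent.Lib.Helper40.isSemisimple_of_pow_eq_one _ 4 h4F hx4)
    (Cfsg.Agent.Lib.Helper40.isSemisimple_of_pow_eq_one _ 4 h4F (by rw [hY']; exact hpow4 _ hYY))
    (by rw [hχx, hY', hχY, hz])
  obtain ⟨c, hc⟩ := isConj_iff.1 hconj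
  refine ⟨c⁻¹, ?_⟩
  rw [inv_inv, hc]
  exact mem_norm_of_twist (by norm_num) Y' (Fintype.card F) 2 (by norm_num) (-1)
    (by rw [hY']; exact hYY) (by rw [hY']; exact hYb)

omit [Fintype F] in
theorem rank_eq_one_of_sq_zero (N : Matrix (Fin 2) (Fin 2) F) (hNN : N * N = 0) (hN : N ≠ 0) :
    N.rank = 1 := by
  have h1 : N.rank ≠ 0 := fun h => hN (PGLClasses.eq_zero_of_rank_eq_zero N h)
  have h3 := Matrix.rank_add_rank_le_card_of_mul_eq_zero hNN
  rw [Fintype.card_fin] at h3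
  omega

/-- `n = 2`, `q` even: every involution of `PSL_2(q)` is conjugate into the normaliser. -/
theorem conj_two_even (hF2 : ringChar F = 2) (hK : IsFieldSubalgebra 2 K)
    (x : Matrix.SpecialLinearGroup (Fin 2) F) (z : F)
    (hx : (x : Matrix (Fin 2) (Fin 2) F) * (x : Matrix (Fin 2) (Fin 2) F) =
      z • (1 : Matrix (Fin 2) (Fin 2) F))
    (hns : ∀ c : F, (x : Matrix (Fin 2) (Fin 2) F) ≠ c • (1 : Matrix (Fin 2) (Fin 2) F)) :
    ∃ P : Matrix.SpecialLinearGroup (Fin 2) F, P⁻¹ * x * P ∈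
      (subalgebraNormalizer K).comap (Matrix.SpecialLinearGroup.toGL :
        Matrix.SpecialLinearGroup (Fin 2) F →* GL (Fin 2) F) := by
  classical
  have : CharP F 2 := ringChar.of_eq hF2
  have h2 : (2 : F) = 0 := CharTwo.two_eq_zero
  obtain ⟨b, hb⟩ := FiniteField.isSquare_of_char_two hF2 z
  have hb0 : b ≠ 0 := by
    rintro rfl
    rw [hb, mul_zero, zero_smul] at hx
    have h3 := congrArg Matrix.det hx
    rw [Matrix.det_mul, x.det_coe, Matrix.det_zero] at h3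
    simp at h3
  obtain ⟨N, hN⟩ : ∃ N : Matrix (Fin 2) (Fin 2) F,
      N = b⁻¹ • (x : Matrix (Fin 2) (Fin 2) F) - 1 := ⟨_, rfl⟩
  have hxN : (x : Matrix (Fin 2) (Fin 2) F) = b • (N + 1) := by
    rw [hN, sub_add_cancel, smul_smul, mul_inv_cancel₀ hb0, one_smul]
  have hNN : N * N = 0 := by
    have h3 : N * N = (b⁻¹ * b⁻¹) • ((x : Matrix (Fin 2) (Fin 2) F) *
        (x : Matrix (Fin 2) (Fin 2) F)) - (2 : F) • (b⁻¹ • (x : Matrix (Fin 2) (Fin 2) F)) + 1 := by
      rw [hN, two_smul]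
      simp only [sub_mul, mul_sub, Matrix.smul_mul, Matrix.mul_smul, smul_smul, Matrix.one_mul,
        Matrix.mul_one]
      abel
    rw [h3, hx, h2, zero_smul, sub_zero, smul_smul, hb]
    have h4 : b⁻¹ * b⁻¹ * (b * b) = 1 := by field_simp
    rw [h4, one_smul, ← two_smul F (1 : Matrix (Fin 2) (Fin 2) F), h2, zero_smul]
  have hN0 : N ≠ 0 := by
    intro h
    apply hns b
    rw [hxN, h, zero_add]
  obtain ⟨g, v₀, hv₀, hg2, hgns, hg, hgb⟩ :=
    Cfsg.Agent.Lib.Helper40.Singer2.exists_frob' (n := 2) le_rfl hK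
  obtain ⟨N', hN'⟩ : ∃ N' : Matrix (Fin 2) (Fin 2) F, N' = g - 1 := ⟨_, rfl⟩
  have hgN' : g = N' + 1 := by rw [hN', sub_add_cancel]
  have hN'N' : N' * N' = 0 := by
    have h3 : N' * N' = g ^ 2 - (2 : F) • g + 1 := by
      rw [hN', two_smul, pow_two]
      noncomm_ring
    rw [h3, hg2, h2, zero_smul, sub_zero, ← two_smul F (1 : Matrix (Fin 2) (Fin 2) F), h2,
      zero_smul]
  have hN'0 : N' ≠ 0 := by
    intro h
    apply hgns 1
    rw [hgN', h, zero_add, one_smul]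
  have hranks : ∀ j, (N ^ j).rank = (N' ^ j).rank := by
    intro j
    rcases j with _ | _ | j
    · simp
    · rw [zero_add, pow_one, pow_one, rank_eq_one_of_sq_zero N hNN hN0,
        rank_eq_one_of_sq_zero N' hN'N' hN'0]
    · rw [pow_succ, pow_succ, Matrix.mul_assoc, hNN, Matrix.mul_zero, pow_succ, pow_succ,
        Matrix.mul_assoc, hN'N', Matrix.mul_zero]
  obtain ⟨P, hP⟩ := Jordan.similar_of_rank_pow_eq N N' ⟨2, by rw [pow_two, hNN]⟩ hranks
  have hPx : (P : Matrix (Fin 2) (Fin 2) F) * (x : Matrix (Fin 2) (Fin 2) F) =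
      (b • g) * (P : Matrix (Fin 2) (Fin 2) F) := by
    rw [hxN, Matrix.mul_smul, Matrix.mul_add, hP, Matrix.mul_one, Matrix.smul_mul, hgN',
      Matrix.add_mul, Matrix.one_mul]
  have hδ0 : (P : Matrix (Fin 2) (Fin 2) F).det ≠ 0 :=
    ((Matrix.isUnit_iff_isUnit_det _).mp P.isUnit).ne_zero
  obtain ⟨s, hs⟩ := FiniteField.isSquare_of_char_two hF2 (P : Matrix (Fin 2) (Fin 2) F).det
  have hs0 : s ≠ 0 := by
    rintro rfl
    rw [mul_zero] at hs
    exact hδ0 hs
  obtain ⟨Q, hQ⟩ : ∃ Q : Matrix.SpecialLinearGroup (Fin 2) F,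
      (Q : Matrix (Fin 2) (Fin 2) F) = s⁻¹ • (P : Matrix (Fin 2) (Fin 2) F) := by
    refine ⟨⟨s⁻¹ • (P : Matrix (Fin 2) (Fin 2) F), ?_⟩, rfl⟩
    rw [Matrix.det_smul, Fintype.card_fin, hs]
    field_simp
  have hQx : (Q : Matrix (Fin 2) (Fin 2) F) * (x : Matrix (Fin 2) (Fin 2) F) =
      (b • g) * (Q : Matrix (Fin 2) (Fin 2) F) := by
    rw [hQ, Matrix.smul_mul, hPx, Matrix.mul_smul]
  have hQQ : (Q : Matrix (Fin 2) (Fin 2) F) * (↑(Q⁻¹) : Matrix (Fin 2) (Fin 2) F) = 1 := by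
    rw [← Matrix.SpecialLinearGroup.coe_mul, mul_inv_cancel, Matrix.SpecialLinearGroup.coe_one]
  have hYcoe : ((Q * x * Q⁻¹ : Matrix.SpecialLinearGroup (Fin 2) F) :
      Matrix (Fin 2) (Fin 2) F) = b • g := by
    rw [Matrix.SpecialLinearGroup.coe_mul, Matrix.SpecialLinearGroup.coe_mul, hQx, mul_assoc, hQQ,
      mul_one]
  refine ⟨Q⁻¹, ?_⟩
  rw [inv_inv]
  apply mem_norm_of_twist (by norm_num) (Q * x * Q⁻¹) (Fintype.card F) 2 (by norm_num) (b * b)
  · rw [hYcoe, smul_pow, hg2, pow_two]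
  · intro k hk
    rw [hYcoe, Matrix.smul_mul, hgb k hk, Matrix.mul_smul]

end Two

section Abstract

/-- every element of `F` is a square in a quadratic extension (odd `q`) -/
theorem exists_sqrt {F : Type*} [Field F] [Fintype F] {E : Type*} [Field E] [Algebra F E]
    [Fintype E] (hE : Fintype.card E = (Fintype.card F) ^ 2) (hodd : Odd (Fintype.card F))
    (z : F) (hz : z ≠ 0) : ∃ κ : E, κ ^ 2 = algebraMap F E z := by
  classical
  obtain ⟨ζ, hζord, hζgen⟩ := Cfsg.Agent.Lib.Helper40.Elusive.exists_gen (F := E)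
  have hu0 : algebraMap F E z ≠ 0 := (map_ne_zero (algebraMap F E)).2 hz
  obtain ⟨s, hs⟩ := hζgen (Units.mk0 _ hu0)
  have hpow : (Units.mk0 (algebraMap F E z) hu0) ^ (Fintype.card F - 1) = 1 := by
    apply Units.ext
    rw [Units.val_pow_eq_pow_val, Units.val_mk0, ← map_pow,
      FiniteField.pow_card_sub_one_eq_one z hz, map_one, Units.val_one]
  rw [← hs, ← pow_mul] at hpow
  have hdvd := orderOf_dvd_of_pow_eq_one hpow
  rw [hζord, hE] at hdvd
  obtain ⟨Q, hQ⟩ : ∃ Q : ℕ, Q = Fintype.card F := ⟨_, rfl⟩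
  rw [← hQ] at hdvd hodd
  have hQ2 : 2 ≤ Q := by
    rw [hQ]
    exact Fintype.one_lt_card
  have hfac : Q ^ 2 - 1 = (Q + 1) * (Q - 1) := by
    obtain ⟨t, ht⟩ : ∃ t : ℕ, Q = t + 1 := ⟨Q - 1, by omega⟩
    have h1 : Q ^ 2 = (Q + 1) * t + 1 := by
      rw [ht]
      ring
    have h2 : Q - 1 = t := by omega
    rw [h1, h2]
    omega
  rw [hfac] at hdvd
  have hdvd2 : Q + 1 ∣ s := Nat.dvd_of_mul_dvd_mul_right (by omega : 0 < Q - 1) hdvd
  obtain ⟨t, ht⟩ := hdvd2
  obtain ⟨h, hh⟩ := hodd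
  refine ⟨((ζ ^ ((h + 1) * t) : Eˣ) : E), ?_⟩
  rw [← Units.val_pow_eq_pow_val, ← pow_mul]
  have h5 : (h + 1) * t * 2 = s := by
    rw [ht, hh]
    ring
  rw [h5, hs, Units.val_mk0]

/-- an idempotent commuting with a field of matrices, of prescribed rank -/
theorem exists_proj_commute {F : Type*} [Field F] {n : ℕ} {E : Type*} [Field E] [Algebra F E]
    (ρ : E →ₐ[F] Matrix (Fin n) (Fin n) F) (k : ℕ) (hk : 0 < k) (hkE : Module.finrank F E = k)
    (e' : ℕ) (he' : k * e' ≤ n) :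
    ∃ π : Matrix (Fin n) (Fin n) F, π * π = π ∧ (∀ e : E, π * ρ e = ρ e * π) ∧
      π.rank = k * e' := by
  classical
  let _ : Module E (Fin n → F) := modE ρ
  have hsmul : ∀ (e : E) (u : Fin n → F), e • u = ρ e *ᵥ u := fun e u => rfl
  have : IsScalarTower F E (Fin n → F) :=
    ⟨fun c e u => by rw [hsmul, hsmul, map_smul, Matrix.smul_mulVec]⟩
  have : Module.Finite F E := Module.finite_of_finrank_pos (by rw [hkE]; exact hk)
  have : Module.Finite E (Fin n → F) := Module.Finite.of_restrictScalars_finite F E (Fin n → F)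
  have hfr := Module.finrank_mul_finrank F E (Fin n → F)
  rw [hkE, Module.finrank_fin_fun] at hfr
  have he'd : e' ≤ Module.finrank E (Fin n → F) := by
    by_contra hlt
    push Not at hlt
    have h1 := Nat.mul_lt_mul_of_pos_left hlt hk
    omega
  obtain ⟨f, hf⟩ := exists_linearIndependent_of_le_finrank he'd
  obtain ⟨W, hW⟩ : ∃ W : Submodule E (Fin n → F), W = Submodule.span E (Set.range f) :=
    ⟨_, rfl⟩
  have hWfr : Module.finrank E W = e' := by
    rw [hW, finrank_span_eq_card hf, Fintype.card_fin]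
  obtain ⟨W', hW'⟩ := Submodule.exists_isCompl W
  obtain ⟨πE, hπE⟩ : ∃ πE : (Fin n → F) →ₗ[E] (Fin n → F),
      πE = W.subtype ∘ₗ (Submodule.projectionOnto W W' hW') := ⟨_, rfl⟩
  have hπmem : ∀ v, πE v ∈ W := by
    intro v
    rw [hπE]
    exact Submodule.coe_mem _
  have hπfix : ∀ w ∈ W, πE w = w := by
    intro w hw
    rw [hπE, LinearMap.comp_apply]
    have h1 : (Submodule.projectionOnto W W' hW') w = ⟨w, hw⟩ :=
      Submodule.projectionOnto_apply_left hW' ⟨w, hw⟩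
    rw [h1]
    rfl
  refine ⟨LinearMap.toMatrix' (πE.restrictScalars F), ?_, ?_, ?_⟩
  · rw [← LinearMap.toMatrix'_comp]
    congr 1
    apply LinearMap.ext
    intro v
    exact hπfix _ (hπmem v)
  · intro e
    apply Matrix.toLin'.injective
    apply LinearMap.ext
    intro v
    rw [Matrix.toLin'_apply, Matrix.toLin'_apply, ← Matrix.mulVec_mulVec, ← Matrix.mulVec_mulVec,
      LinearMap.toMatrix'_mulVec, LinearMap.toMatrix'_mulVec]
    show πE (ρ e *ᵥ v) = ρ e *ᵥ πE v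
    rw [← hsmul, ← hsmul, map_smul]
  · have h1 : (LinearMap.toMatrix' (πE.restrictScalars F)).rank =
        Module.finrank F (LinearMap.range (πE.restrictScalars F)) := by
      unfold Matrix.rank
      rw [← Matrix.toLin'_apply', Matrix.toLin'_toMatrix']
    have h2 : LinearMap.range (πE.restrictScalars F) = W.restrictScalars F := by
      ext v
      constructor
      · rintro ⟨w, rfl⟩
        exact hπmem w
      · intro hv
        exact ⟨v, hπfix v hv⟩
    have h3 := Module.finrank_mul_finrank F E W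
    rw [h1, h2]
    show Module.finrank F W = k * e'
    rw [← h3, hkE, hWfr]

end Abstract

section Main

variable {F : Type*} [Field F] [Fintype F] {n : ℕ} {K : Subalgebra F (Matrix (Fin n) (Fin n) F)}

/-- a semisimple element similar to a matrix commuting with `K` is conjugate in `SL_n` into the
normaliser of `K` -/
theorem conj_of_similar_commute (x : Matrix.SpecialLinearGroup (Fin n) F)
    (Y : Matrix (Fin n) (Fin n) F) (P : GL (Fin n) F)
    (hP : (P : Matrix (Fin n) (Fin n) F) * (x : Matrix (Fin n) (Fin n) F) =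
      Y * (P : Matrix (Fin n) (Fin n) F))
    (hY : ∀ k ∈ K, Y * k = k * Y) (N : ℕ) (hN : (N : F) ≠ 0)
    (hxN : (x : Matrix (Fin n) (Fin n) F) ^ N = 1) :
    ∃ Q : Matrix.SpecialLinearGroup (Fin n) F, Q⁻¹ * x * Q ∈
      (subalgebraNormalizer K).comap (Matrix.SpecialLinearGroup.toGL :
        Matrix.SpecialLinearGroup (Fin n) F →* GL (Fin n) F) := by
  classical
  have hPi : (P : Matrix (Fin n) (Fin n) F) * ((P⁻¹ : GL (Fin n) F) : Matrix (Fin n) (Fin n) F) =
      1 := by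
    rw [← Units.val_mul, mul_inv_cancel, Units.val_one]
  have hYx : Y = (P : Matrix (Fin n) (Fin n) F) * (x : Matrix (Fin n) (Fin n) F) *
      ((P⁻¹ : GL (Fin n) F) : Matrix (Fin n) (Fin n) F) := by
    rw [hP, mul_assoc, hPi, mul_one]
  have hχ : Y.charpoly = (x : Matrix (Fin n) (Fin n) F).charpoly := by
    rw [hYx, Matrix.coe_units_inv]
    exact Matrix.charpoly_units_conj P _
  have hYdet : Y.det = 1 := by
    rw [Matrix.det_eq_sign_charpoly_coeff, hχ, ← Matrix.det_eq_sign_charpoly_coeff, x.det_coe]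
  obtain ⟨Y', hY'⟩ : ∃ Y' : Matrix.SpecialLinearGroup (Fin n) F,
      (Y' : Matrix (Fin n) (Fin n) F) = Y := ⟨⟨Y, hYdet⟩, rfl⟩
  have hYN : Y ^ N = 1 := by
    have h1 := (show SemiconjBy (P : Matrix (Fin n) (Fin n) F) (x : Matrix (Fin n) (Fin n) F) Y
      from hP).pow_right N
    have h2 : (P : Matrix (Fin n) (Fin n) F) * (x : Matrix (Fin n) (Fin n) F) ^ N =
        Y ^ N * (P : Matrix (Fin n) (Fin n) F) := h1
    rw [hxN, mul_one] at h2
    calc Y ^ N = Y ^ N * ((P : Matrix (Fin n) (Fin n) F) *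
          ((P⁻¹ : GL (Fin n) F) : Matrix (Fin n) (Fin n) F)) := by rw [hPi, mul_one]
      _ = 1 := by rw [← mul_assoc, ← h2, hPi]
  have hconj := Cfsg.Agent.Lib.Helper40.isConj_SL_of_semisimple x Y'
    (Cfsg.Agent.Lib.Helper40.isSemisimple_of_pow_eq_one _ N hN hxN)
    (Cfsg.Agent.Lib.Helper40.isSemisimple_of_pow_eq_one _ N hN (by rw [hY']; exact hYN))
    (by rw [hY', hχ])
  obtain ⟨c, hc⟩ := isConj_iff.1 hconj
  refine ⟨c⁻¹, ?_⟩
  rw [inv_inv, hc, Subgroup.mem_comap]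
  apply mem_normalizer_of_commute
  intro k hk
  show (Y' : Matrix (Fin n) (Fin n) F) * k = k * (Y' : Matrix (Fin n) (Fin n) F)
  rw [hY']
  exact hY k hk

/-- powers killing an element whose square is a non-zero scalar -/
theorem pow_of_sq (x : Matrix (Fin n) (Fin n) F) (z : F) (hz : z ≠ 0)
    (hx : x ^ 2 = z • (1 : Matrix (Fin n) (Fin n) F)) :
    x ^ (2 * (Fintype.card F - 1)) = 1 := by
  rw [pow_mul, hx, smul_pow, one_pow, FiniteField.pow_card_sub_one_eq_one z hz, one_smul]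

theorem cast_ne_zero_of_odd (hodd : Odd (Fintype.card F)) :
    ((2 * (Fintype.card F - 1) : ℕ) : F) ≠ 0 := by
  have hchar : ringChar F ≠ 2 := by
    intro h3
    have h4 := FiniteField.even_card_iff_char_two.1 h3
    obtain ⟨m, hm⟩ := hodd
    omega
  have h2F : (2 : F) ≠ 0 := Ring.two_ne_zero hchar
  have hq1 : 1 ≤ Fintype.card F := Fintype.card_pos
  rw [Nat.cast_mul, Nat.cast_sub hq1, FiniteField.cast_card_eq_zero, Nat.cast_one, Nat.cast_ofNat]
  simpa using h2F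

/-- `q` odd, `x² = z` a non-square: `x` is conjugate to an element of `K`. -/
theorem conj_nonsq (hn : 0 < n) (hodd : Odd (Fintype.card F)) (hK : IsFieldSubalgebra 2 K)
    (x : Matrix.SpecialLinearGroup (Fin n) F) (z : F) (hz : ∀ b : F, b ^ 2 ≠ z)
    (hx : (x : Matrix (Fin n) (Fin n) F) ^ 2 = z • (1 : Matrix (Fin n) (Fin n) F)) :
    ∃ Q : Matrix.SpecialLinearGroup (Fin n) F, Q⁻¹ * x * Q ∈
      (subalgebraNormalizer K).comap (Matrix.SpecialLinearGroup.toGL :
        Matrix.SpecialLinearGroup (Fin n) F →* GL (Fin n) F) := by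
  classical
  have hz0 : z ≠ 0 := by
    rintro rfl
    exact hz 0 (by norm_num)
  obtain ⟨κ, hκK, hκ⟩ : ∃ κ ∈ K, κ ^ 2 = z • (1 : Matrix (Fin n) (Fin n) F) := by
    let instField : Field ↥K := fieldOfSub hn K hK.comm hK.inv
    have hcard : Nat.card ↥K = Fintype.card F ^ 2 := by
      have h := Module.natCard_eq_pow_finrank (K := F) (V := ↥K)
      rw [hK.finrank_eq] at h
      rw [h, Nat.card_eq_fintype_card]
    let instFt : Fintype ↥K := Fintype.ofFinite _
    obtain ⟨κ, hκ⟩ := exists_sqrt (F := F) (E := ↥K)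
      (by rw [← Nat.card_eq_fintype_card, hcard]) hodd z hz0
    refine ⟨(κ : Matrix (Fin n) (Fin n) F), κ.2, ?_⟩
    calc (κ : Matrix (Fin n) (Fin n) F) ^ 2 = ((κ ^ 2 : ↥K) : Matrix (Fin n) (Fin n) F) := rfl
      _ = ((algebraMap F ↥K z : ↥K) : Matrix (Fin n) (Fin n) F) := congrArg Subtype.val hκ
      _ = algebraMap F (Matrix (Fin n) (Fin n) F) z := rfl
      _ = z • (1 : Matrix (Fin n) (Fin n) F) := Algebra.algebraMap_eq_smul_one z
  obtain ⟨P, hP⟩ := PGLClasses.similar_of_pow_eq Nat.prime_two z hz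
    (x : Matrix (Fin n) (Fin n) F) κ hx hκ
  exact conj_of_similar_commute x κ P hP (fun k hk => hK.comm κ hκK k hk)
    (2 * (Fintype.card F - 1)) (cast_ne_zero_of_odd hodd) (pow_of_sq _ z hz0 hx)

omit [Fintype F] in
/-- parity of the `(-1)`-eigenspace of an involution of determinant prescribed by `hpar` -/
theorem even_neg_count (hF2 : ringChar F ≠ 2) (x : Matrix.SpecialLinearGroup (Fin n) F) (b : F)
    (s : Matrix (Fin n) (Fin n) F) (hxs : (x : Matrix (Fin n) (Fin n) F) = b • s)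
    (hss : s * s = 1) (hpar : ∀ c : F, c ^ n ≠ -1) : Even (n - (s + 1).rank) := by
  classical
  have h1 : (1 : F) ≠ -1 := (Ring.neg_one_ne_one_of_char_ne_two hF2).symm
  obtain ⟨k, hk⟩ : ∃ k : ℕ, k = n - (s + 1).rank := ⟨_, rfl⟩
  have hkn : k ≤ n := by omega
  rw [← hk]
  by_contra hodd
  rw [Nat.not_even_iff_odd] at hodd
  obtain ⟨d, hd⟩ : ∃ d : Fin n → F, d = fun i : Fin n => if (i : ℕ) < k then -1 else 1 :=
    ⟨_, rfl⟩
  have hd1 : ∀ i, d i = 1 ∨ d i = -1 := by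
    intro i
    rw [hd]
    simp only
    split_ifs
    · exact Or.inr rfl
    · exact Or.inl rfl
  have hfil : (Finset.univ.filter fun i : Fin n => d i = -1) =
      Finset.univ.filter fun i : Fin n => (i : ℕ) < k := by
    apply Finset.filter_congr
    intro i _
    rw [hd]
    simp only
    by_cases h3 : (i : ℕ) < k
    · simp [h3]
    · simp [h3, h1]
  have hcount : Nat.card {i // d i = -1} = n - (s + 1).rank := by
    rw [Nat.card_eq_fintype_card, Fintype.card_subtype, hfil, Fin.card_filter_val_lt, ← hk]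
    exact min_eq_right hkn
  obtain ⟨g, hg⟩ := Cfsg.Agent.Lib.Helper40.Alt.invol_model hF2 s hss d hd1 hcount
  have hgdet : (g : Matrix (Fin n) (Fin n) F).det ≠ 0 :=
    ((Matrix.isUnit_iff_isUnit_det _).mp g.isUnit).ne_zero
  have hdet := congrArg Matrix.det hg
  rw [Matrix.det_mul, Matrix.det_mul, mul_comm] at hdet
  have hsdet : s.det = (-1) ^ k := by
    have h3 := mul_right_cancel₀ hgdet hdet
    rw [h3, Matrix.det_diagonal, hd, Finset.prod_ite, Finset.prod_const_one, mul_one,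
      Finset.prod_const]
    congr 1
    rw [Fin.card_filter_val_lt]
    exact min_eq_right hkn
  have hxdet := x.det_coe
  rw [hxs, Matrix.det_smul, Fintype.card_fin, hsdet, hodd.neg_one_pow] at hxdet
  apply hpar b
  linear_combination -hxdet

/-- `q` odd, `x² = b²`: `x` is conjugate to an element commuting with `K`. -/
theorem conj_sq (hn : 0 < n) (hodd : Odd (Fintype.card F)) (hK : IsFieldSubalgebra 2 K)
    (x : Matrix.SpecialLinearGroup (Fin n) F) (b : F) (hb : b ≠ 0)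
    (hx : (x : Matrix (Fin n) (Fin n) F) ^ 2 = (b * b) • (1 : Matrix (Fin n) (Fin n) F))
    (hpar : ∀ c : F, c ^ n ≠ -1) :
    ∃ Q : Matrix.SpecialLinearGroup (Fin n) F, Q⁻¹ * x * Q ∈
      (subalgebraNormalizer K).comap (Matrix.SpecialLinearGroup.toGL :
        Matrix.SpecialLinearGroup (Fin n) F →* GL (Fin n) F) := by
  classical
  have hF2 : ringChar F ≠ 2 := by
    intro h3
    have h4 := FiniteField.even_card_iff_char_two.1 h3
    obtain ⟨m, hm⟩ := hodd
    omega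
  have h2F : (2 : F) ≠ 0 := Ring.two_ne_zero hF2
  have h1 : (1 : F) ≠ -1 := (Ring.neg_one_ne_one_of_char_ne_two hF2).symm
  obtain ⟨s, hs⟩ : ∃ s : Matrix (Fin n) (Fin n) F,
      s = b⁻¹ • (x : Matrix (Fin n) (Fin n) F) := ⟨_, rfl⟩
  have hxs : (x : Matrix (Fin n) (Fin n) F) = b • s := by
    rw [hs, smul_smul, mul_inv_cancel₀ hb, one_smul]
  have hx' : (x : Matrix (Fin n) (Fin n) F) * (x : Matrix (Fin n) (Fin n) F) =
      (b * b) • (1 : Matrix (Fin n) (Fin n) F) := by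
    rw [← pow_two]
    exact hx
  have hss : s * s = 1 := by
    rw [hs, Matrix.smul_mul, Matrix.mul_smul, smul_smul, hx', smul_smul]
    have h4 : b⁻¹ * b⁻¹ * (b * b) = 1 := by field_simp
    rw [h4, one_smul]
  obtain ⟨e', he'⟩ := even_neg_count hF2 x b s hxs hss hpar
  have hr2 : (s + 1).rank ≤ n := by
    have := Matrix.rank_le_width (s + 1)
    simpa using this
  obtain ⟨π, hππ, hπK, hπr⟩ : ∃ π : Matrix (Fin n) (Fin n) F, π * π = π ∧
      (∀ k ∈ K, π * k = k * π) ∧ π.rank = 2 * e' := by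
    let instField : Field ↥K := fieldOfSub hn K hK.comm hK.inv
    obtain ⟨π, h5, h6, h7⟩ := exists_proj_commute (E := ↥K) K.val 2 (by norm_num)
      hK.finrank_eq e' (by omega)
    exact ⟨π, h5, fun k hk => h6 ⟨k, hk⟩, h7⟩
  obtain ⟨s', hs'⟩ : ∃ s' : Matrix (Fin n) (Fin n) F, s' = 1 - (2 : F) • π := ⟨_, rfl⟩
  have hs's' : s' * s' = 1 := by
    rw [hs']
    have h3 : (1 - (2 : F) • π) * (1 - (2 : F) • π) =
        1 - (2 : F) • π - ((2 : F) • π - (2 : F) • ((2 : F) • (π * π))) := by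
      rw [sub_mul, one_mul, mul_sub, mul_one, Matrix.smul_mul, Matrix.mul_smul]
    rw [h3, hππ, two_smul F ((2 : F) • π)]
    abel
  have hsS := Cfsg.Agent.Lib.Helper40.Subf.aeval_pm h1 s hss
  have hs'S := Cfsg.Agent.Lib.Helper40.Subf.aeval_pm h1 s' hs's'
  have e1 : ∀ M : Matrix (Fin n) (Fin n) F, M - (1 : F) • (1 : Matrix (Fin n) (Fin n) F) =
      M - 1 := fun M => by rw [one_smul]
  have e2 : ∀ M : Matrix (Fin n) (Fin n) F, M - (-1 : F) • (1 : Matrix (Fin n) (Fin n) F) =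
      M + 1 := fun M => by rw [neg_smul, one_smul, sub_neg_eq_add]
  have hsum := Cfsg.Agent.Lib.Helper40.Diag.sum_sub_rank s ({1, -1} : Finset F) hsS
  rw [Finset.sum_pair h1, e1, e2] at hsum
  have hsum' := Cfsg.Agent.Lib.Helper40.Diag.sum_sub_rank s' ({1, -1} : Finset F) hs'S
  rw [Finset.sum_pair h1, e1, e2] at hsum'
  have hr1 : (s - 1).rank ≤ n := by
    have := Matrix.rank_le_width (s - 1)
    simpa using this
  have hr1' : (s' - 1).rank ≤ n := by
    have := Matrix.rank_le_width (s' - 1)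
    simpa using this
  have hr2' : (s' + 1).rank ≤ n := by
    have := Matrix.rank_le_width (s' + 1)
    simpa using this
  have hrank' : (s' - 1).rank = 2 * e' := by
    have h3 : s' - 1 = π * ((-2 : F) • (1 : Matrix (Fin n) (Fin n) F)) := by
      rw [hs', Matrix.mul_smul, mul_one, neg_smul]
      abel
    rw [h3, Matrix.rank_mul_eq_left_of_isUnit_det _ _ ?_, hπr]
    rw [Matrix.det_smul, Matrix.det_one, mul_one]
    exact (IsUnit.mk0 _ (neg_ne_zero.2 h2F)).pow _
  obtain ⟨P, hP⟩ := Cfsg.Agent.Lib.Helper40.Diag.similar_of_rank_eq s s' ({1, -1} : Finset F)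
    hsS hs'S (by
      intro ζ hζ
      rw [Finset.mem_insert, Finset.mem_singleton] at hζ
      rcases hζ with rfl | rfl
      · rw [e1, e1]
        omega
      · rw [e2, e2]
        omega)
  have hPx : (P : Matrix (Fin n) (Fin n) F) * (x : Matrix (Fin n) (Fin n) F) =
      (b • s') * (P : Matrix (Fin n) (Fin n) F) := by
    rw [hxs, Matrix.mul_smul, hP, Matrix.smul_mul]
  have hbb : b * b ≠ 0 := mul_ne_zero hb hb
  apply conj_of_similar_commute x (b • s') P hPx ?_ (2 * (Fintype.card F - 1))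
    (cast_ne_zero_of_odd hodd) (pow_of_sq _ (b * b) hbb hx)
  intro k hk
  rw [hs', Matrix.smul_mul, Matrix.mul_smul, sub_mul, mul_sub, Matrix.smul_mul, Matrix.mul_smul,
    hπK k hk, one_mul, mul_one]

end Main

end Cfsg.Agent.Lib.Helper40.Ext2
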