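-- helper40: subfield subgroups of SL_n and elements of odd prime order r ≠ p (S5965).
import Mathlib
import Cfsg.Prelude.Def_GeometricClasses
import Cfsg.Agent.Lib.Helper40.Subf
import Cfsg.Agent.Lib.Helper40.Subf3
import Cfsg.Agent.Lib.Helper40.PrimeOrderGL

set_option autoImplicit false

namespace Cfsg.Agent.Lib.Helper40.Subf5

open Polynomial

section Fixed

variable {F : Type*} [Field F]

theorem pow_card_of_mem [Finite F] (F₀ : Subfield F) (q₀ : ℕ) (hF₀ : Nat.card ↥F₀ = q₀) (a : F)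
    (ha : a ∈ F₀) : a ^ q₀ = a := by
  classical
  have : Fintype ↥F₀ := Fintype.ofFinite _
  have h1 := FiniteField.pow_card (⟨a, ha⟩ : ↥F₀)
  rw [← Nat.card_eq_fintype_card, hF₀] at h1
  have h2 := congrArg (Subtype.val) h1
  simpa using h2

theorem mem_of_pow_card [Finite F] (F₀ : Subfield F) (q₀ : ℕ) (hF₀ : Nat.card ↥F₀ = q₀) (a : F)
    (ha : a ^ q₀ = a) : a ∈ F₀ := by
  classical
  have : Fintype ↥F₀ := Fintype.ofFinite _
  have hc₀ : Fintype.card ↥F₀ = q₀ := by rw [← hF₀, Nat.card_eq_fintype_card]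
  have hq₀ : 1 < q₀ := by
    rw [← hc₀]
    exact Fintype.one_lt_card
  have hf0 : (X ^ q₀ - X : F[X]) ≠ 0 := FiniteField.X_pow_card_sub_X_ne_zero F hq₀
  have hdeg : (X ^ q₀ - X : F[X]).natDegree = q₀ :=
    FiniteField.X_pow_card_sub_X_natDegree_eq F hq₀
  let T : Finset F := (Finset.univ : Finset ↥F₀).map ⟨Subtype.val, Subtype.val_injective⟩
  have hT : T.card = q₀ := by
    rw [Finset.card_map, Finset.card_univ, hc₀]
  have hsub : T ⊆ (X ^ q₀ - X : F[X]).roots.toFinset := by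
    intro b hb
    obtain ⟨b', -, rfl⟩ := Finset.mem_map.1 hb
    rw [Multiset.mem_toFinset, mem_roots hf0]
    simp only [IsRoot, eval_sub, eval_pow, eval_X, Function.Embedding.coeFn_mk]
    rw [pow_card_of_mem F₀ q₀ hF₀ _ b'.2, sub_self]
  have hcard : (X ^ q₀ - X : F[X]).roots.toFinset.card ≤ T.card := by
    rw [hT]
    exact (Multiset.toFinset_card_le _).trans ((card_roots' _).trans hdeg.le)
  have heq := Finset.eq_of_subset_of_card_le hsub hcard
  have ha' : a ∈ (X ^ q₀ - X : F[X]).roots.toFinset := by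
    rw [Multiset.mem_toFinset, mem_roots hf0]
    simp only [IsRoot, eval_sub, eval_pow, eval_X]
    rw [ha, sub_self]
  rw [← heq] at ha'
  obtain ⟨b, -, rfl⟩ := Finset.mem_map.1 ha'
  exact b.2

end Fixed

section Index

theorem index_mul {F : Type*} [Field F] [Fintype F] {q : ℕ} (hq : Fintype.card F = q) (n : ℕ)
    (hn : 1 ≤ n) (F₀ : Subfield F) (k q₀ : ℕ) (hF₀ : Nat.card ↥F₀ = q₀) (hqk : q = q₀ ^ k) :
    ∃ m : ℕ, ((Cfsg.Geo.subfieldSubgroup F₀ 1).comap (Matrix.SpecialLinearGroup.toGL :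
      Matrix.SpecialLinearGroup (Fin n) F →* GL (Fin n) F)).index * m *
        (∑ l ∈ Finset.range k, q₀ ^ l * 1 ^ (k - 1 - l)) =
      ∏ i : Fin n, ∑ l ∈ Finset.range k, (q₀ ^ n) ^ l * (q₀ ^ (i : ℕ)) ^ (k - 1 - l) := by
  classical
  have : Fintype ↥F₀ := Fintype.ofFinite _
  have hc₀ : Fintype.card ↥F₀ = q₀ := by rw [← hF₀, Nat.card_eq_fintype_card]
  have h1 := Cfsg.Agent.Lib.Helper40.card_GL_eq_card_SL_mul (F := F) n hn
  have h2 := Matrix.card_GL_field (𝔽 := F) (n := n)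
  have h1₀ := Cfsg.Agent.Lib.Helper40.card_GL_eq_card_SL_mul (F := ↥F₀) n hn
  have h2₀ := Matrix.card_GL_field (𝔽 := ↥F₀) (n := n)
  rw [hq] at h1 h2
  rw [hc₀] at h1₀ h2₀
  have hq₀2 : 2 ≤ q₀ := by
    rw [← hc₀]
    exact Fintype.one_lt_card
  have hS : q - 1 = (∑ l ∈ Finset.range k, q₀ ^ l * 1 ^ (k - 1 - l)) * (q₀ - 1) := by
    rw [geom_sum₂_mul_of_ge (by omega : 1 ≤ q₀) k, one_pow, hqk]
  have hT : ∀ i : Fin n, q ^ n - q ^ (i : ℕ) =
      (∑ l ∈ Finset.range k, (q₀ ^ n) ^ l * (q₀ ^ (i : ℕ)) ^ (k - 1 - l)) *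
        (q₀ ^ n - q₀ ^ (i : ℕ)) := by
    intro i
    rw [geom_sum₂_mul_of_ge (Nat.pow_le_pow_right (by omega) (by omega)) k, hqk, ← pow_mul,
      ← pow_mul, ← pow_mul, ← pow_mul, mul_comm k n, mul_comm k (i : ℕ)]
  have h3 : Nat.card (Matrix.SpecialLinearGroup (Fin n) F) *
      ((∑ l ∈ Finset.range k, q₀ ^ l * 1 ^ (k - 1 - l)) * (q₀ - 1)) =
      (∏ i : Fin n, ∑ l ∈ Finset.range k, (q₀ ^ n) ^ l * (q₀ ^ (i : ℕ)) ^ (k - 1 - l)) *
        (Nat.card (Matrix.SpecialLinearGroup (Fin n) ↥F₀) * (q₀ - 1)) := by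
    rw [← hS, ← h1, h2, ← h1₀, h2₀, ← Finset.prod_mul_distrib]
    exact Finset.prod_congr rfl fun i _ => hT i
  obtain ⟨φ, hφ⟩ : ∃ φ : Matrix.SpecialLinearGroup (Fin n) ↥F₀ →*
      Matrix.SpecialLinearGroup (Fin n) F, φ = Matrix.SpecialLinearGroup.map F₀.subtype :=
    ⟨_, rfl⟩
  have hinj : Function.Injective φ := by
    intro A B hAB
    ext i j
    have h1 := congrArg (fun M : Matrix.SpecialLinearGroup (Fin n) F =>
      (M : Matrix (Fin n) (Fin n) F) i j) hAB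
    simp only [hφ, Matrix.SpecialLinearGroup.map_apply_coe, RingHom.mapMatrix_apply,
      Matrix.map_apply] at h1
    exact h1
  have hle : φ.range ≤ (Cfsg.Geo.subfieldSubgroup F₀ 1).comap
      (Matrix.SpecialLinearGroup.toGL :
        Matrix.SpecialLinearGroup (Fin n) F →* GL (Fin n) F) := by
    rintro _ ⟨A, rfl⟩
    rw [Subgroup.mem_comap]
    apply Subf.mem_sub_of F₀ _ 1 one_ne_zero (A : Matrix (Fin n) (Fin n) ↥F₀)
    rw [one_smul, Matrix.SpecialLinearGroup.coe_GL_coe_matrix, hφ,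
      Matrix.SpecialLinearGroup.map_apply_coe, RingHom.mapMatrix_apply]
  have hcard : Nat.card φ.range = Nat.card (Matrix.SpecialLinearGroup (Fin n) ↥F₀) :=
    Nat.card_congr (MonoidHom.ofInjective hinj).toEquiv.symm
  obtain ⟨m, hm⟩ := Subgroup.card_dvd_of_le hle
  have hidx := Subgroup.index_mul_card ((Cfsg.Geo.subfieldSubgroup F₀ 1).comap
      (Matrix.SpecialLinearGroup.toGL :
        Matrix.SpecialLinearGroup (Fin n) F →* GL (Fin n) F))
  rw [hm, hcard] at hidx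
  refine ⟨m, ?_⟩
  have hpos : 0 < Nat.card (Matrix.SpecialLinearGroup (Fin n) ↥F₀) * (q₀ - 1) :=
    Nat.mul_pos Nat.card_pos (by omega)
  apply Nat.eq_of_mul_eq_mul_right hpos
  rw [← hidx] at h3
  rw [← h3]
  ring

end Index

section Twist

variable {F : Type*} [Field F] [Fintype F] {n : ℕ}

omit [Fintype F] in
/-- Membership of a conjugate in the subfield group, in matrix form. -/
theorem exists_of_conj (F₀ : Subfield F) (x P : Matrix.SpecialLinearGroup (Fin n) F)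
    (h : P⁻¹ * x * P ∈ (Cfsg.Geo.subfieldSubgroup F₀ 1).comap
      (Matrix.SpecialLinearGroup.toGL :
        Matrix.SpecialLinearGroup (Fin n) F →* GL (Fin n) F)) :
    ∃ (c : F) (B₀ : Matrix (Fin n) (Fin n) ↥F₀), c ≠ 0 ∧
      ((P⁻¹ : Matrix.SpecialLinearGroup (Fin n) F) : Matrix (Fin n) (Fin n) F) *
        (x : Matrix (Fin n) (Fin n) F) * (P : Matrix (Fin n) (Fin n) F) =
          c • B₀.map F₀.subtype := by
  rw [Subgroup.mem_comap] at h
  obtain ⟨c, B₀, hc, hE⟩ := Subf.exists_of_mem_sub F₀ _ h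
  refine ⟨c, B₀, hc, ?_⟩
  rw [← hE, Matrix.SpecialLinearGroup.coe_GL_coe_matrix, Matrix.SpecialLinearGroup.coe_mul,
    Matrix.SpecialLinearGroup.coe_mul]

/-- Frobenius-twisted invariance of the ranks of `x - μ` for `x` conjugate into the subfield
group. -/
theorem rank_of_conj {p : ℕ} [Fact p.Prime] [CharP F p] (F₀ : Subfield F) (q₀ : ℕ)
    (hF₀ : Nat.card ↥F₀ = q₀) (x P : Matrix.SpecialLinearGroup (Fin n) F)
    (h : P⁻¹ * x * P ∈ (Cfsg.Geo.subfieldSubgroup F₀ 1).comap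
      (Matrix.SpecialLinearGroup.toGL :
        Matrix.SpecialLinearGroup (Fin n) F →* GL (Fin n) F)) :
    ∃ κ : F, κ ≠ 0 ∧ ∀ μ : F, ((x : Matrix (Fin n) (Fin n) F) - μ • 1).rank =
      ((x : Matrix (Fin n) (Fin n) F) - (κ * μ ^ q₀) • 1).rank := by
  classical
  obtain ⟨c, B₀, hc, hY⟩ := exists_of_conj F₀ x P h
  have : Fintype ↥F₀ := Fintype.ofFinite _
  have hc₀ : Fintype.card ↥F₀ = q₀ := by rw [← hF₀, Nat.card_eq_fintype_card]
  obtain ⟨m, -, hm⟩ := FiniteField.card ↥F₀ p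
  rw [hc₀] at hm
  obtain ⟨φ, hφ⟩ : ∃ φ : F →+* F, ∀ a, φ a = a ^ q₀ :=
    ⟨iterateFrobenius F p m, fun a => by rw [iterateFrobenius_def, hm]⟩
  have hφ₀ : ∀ b : ↥F₀, φ (b : F) = b := fun b => by
    rw [hφ]
    exact pow_card_of_mem F₀ q₀ hF₀ _ b.2
  have hPdet : IsUnit (P : Matrix (Fin n) (Fin n) F).det := by
    rw [P.det_coe]
    exact isUnit_one
  have hPidet : IsUnit
      ((P⁻¹ : Matrix.SpecialLinearGroup (Fin n) F) : Matrix (Fin n) (Fin n) F).det := by
    rw [(P⁻¹).det_coe]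
    exact isUnit_one
  have hPiP : ((P⁻¹ : Matrix.SpecialLinearGroup (Fin n) F) : Matrix (Fin n) (Fin n) F) *
      (P : Matrix (Fin n) (Fin n) F) = 1 := by
    rw [← Matrix.SpecialLinearGroup.coe_mul, inv_mul_cancel, Matrix.SpecialLinearGroup.coe_one]
  have hR1 : ∀ μ : F, ((x : Matrix (Fin n) (Fin n) F) - μ • 1).rank =
      (c • B₀.map F₀.subtype - μ • (1 : Matrix (Fin n) (Fin n) F)).rank := by
    intro μ
    have h1 : c • B₀.map F₀.subtype - μ • (1 : Matrix (Fin n) (Fin n) F) =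
        ((P⁻¹ : Matrix.SpecialLinearGroup (Fin n) F) : Matrix (Fin n) (Fin n) F) *
          ((x : Matrix (Fin n) (Fin n) F) - μ • 1) * (P : Matrix (Fin n) (Fin n) F) := by
      rw [Matrix.mul_sub, Matrix.sub_mul, hY, Matrix.mul_smul, Matrix.mul_one, Matrix.smul_mul,
        hPiP]
    rw [h1, Matrix.rank_mul_eq_left_of_isUnit_det _ _ hPdet,
      Matrix.rank_mul_eq_right_of_isUnit_det _ _ hPidet]
  have hR2 : ∀ μ : F, (c • B₀.map F₀.subtype - μ • (1 : Matrix (Fin n) (Fin n) F)).rank =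
      (φ c • B₀.map F₀.subtype - φ μ • (1 : Matrix (Fin n) (Fin n) F)).rank := by
    intro μ
    rw [← Subf.rank_map φ (c • B₀.map F₀.subtype - μ • (1 : Matrix (Fin n) (Fin n) F))]
    congr 1
    ext i j
    simp only [Matrix.map_apply, Matrix.sub_apply, Matrix.smul_apply, smul_eq_mul, map_sub,
      map_mul, Subfield.coe_subtype, hφ₀, Matrix.one_apply]
    split_ifs <;> simp
  have hφc : φ c ≠ 0 := by
    rw [hφ]
    exact pow_ne_zero _ hc
  have hR3 : ∀ μ : F, (φ c • B₀.map F₀.subtype - φ μ • (1 : Matrix (Fin n) (Fin n) F)).rank =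
      (c • B₀.map F₀.subtype - (c * (φ c)⁻¹ * φ μ) • (1 : Matrix (Fin n) (Fin n) F)).rank := by
    intro μ
    have h1 : φ c • B₀.map F₀.subtype - φ μ • (1 : Matrix (Fin n) (Fin n) F) =
        ((φ c * c⁻¹) • (1 : Matrix (Fin n) (Fin n) F)) *
          (c • B₀.map F₀.subtype - (c * (φ c)⁻¹ * φ μ) • (1 : Matrix (Fin n) (Fin n) F)) := by
      rw [Matrix.smul_mul, Matrix.one_mul, smul_sub, smul_smul, smul_smul]
      congr 2
      · field_simp
      · field_simp
    rw [h1]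
    apply Matrix.rank_mul_eq_right_of_isUnit_det
    rw [Matrix.det_smul, Matrix.det_one, mul_one]
    exact (IsUnit.mk0 _ (mul_ne_zero hφc (inv_ne_zero hc))).pow _
  refine ⟨c * (φ c)⁻¹, mul_ne_zero hc (inv_ne_zero hφc), fun μ => ?_⟩
  rw [hR1 μ, hR2 μ, hR3 μ, hR1 (c * (φ c)⁻¹ * μ ^ q₀), hφ μ]

/-- Frobenius-twisted invariance of eigenvalue multiplicities of a diagonal matrix conjugate into
the subfield group. -/
theorem card_of_conj {p : ℕ} [Fact p.Prime] [CharP F p] (F₀ : Subfield F) (q₀ : ℕ)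
    (hF₀ : Nat.card ↥F₀ = q₀) (x P : Matrix.SpecialLinearGroup (Fin n) F) (d : Fin n → F)
    (hx : (x : Matrix (Fin n) (Fin n) F) = Matrix.diagonal d)
    (h : P⁻¹ * x * P ∈ (Cfsg.Geo.subfieldSubgroup F₀ 1).comap
      (Matrix.SpecialLinearGroup.toGL :
        Matrix.SpecialLinearGroup (Fin n) F →* GL (Fin n) F)) :
    ∃ κ : F, κ ≠ 0 ∧ ∀ μ : F, Nat.card {j // d j = μ} = Nat.card {j // d j = κ * μ ^ q₀} := by
  classical
  obtain ⟨κ, hκ, hr⟩ := rank_of_conj F₀ q₀ hF₀ x P h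
  refine ⟨κ, hκ, fun μ => ?_⟩
  have h1 := Diag.rank_diagonal_sub d μ
  have h2 := Diag.rank_diagonal_sub d (κ * μ ^ q₀)
  have h3 := hr μ
  rw [hx] at h3
  rw [Nat.card_eq_fintype_card, Nat.card_eq_fintype_card]
  omega


/-- An element of order `r` (with `r ∤ q - 1`) conjugate into the subfield group has the
characteristic polynomial of a matrix of order `r` over the subfield. -/
theorem descend_of_conj {q : ℕ} (hq : Fintype.card F = q) (hn : 1 ≤ n) (F₀ : Subfield F) (q₀ : ℕ)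
    (hF₀ : Nat.card ↥F₀ = q₀) (r : ℕ) (hr : r.Prime) (hrq : ¬ r ∣ q - 1)
    (x P : Matrix.SpecialLinearGroup (Fin n) F) (hx : (x : Matrix (Fin n) (Fin n) F) ^ r = 1)
    (h : P⁻¹ * x * P ∈ (Cfsg.Geo.subfieldSubgroup F₀ 1).comap
      (Matrix.SpecialLinearGroup.toGL :
        Matrix.SpecialLinearGroup (Fin n) F →* GL (Fin n) F)) :
    ∃ M₀ : Matrix (Fin n) (Fin n) ↥F₀, M₀ ^ r = 1 ∧
      (x : Matrix (Fin n) (Fin n) F).charpoly = M₀.charpoly.map F₀.subtype := by
  classical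
  obtain ⟨c, B₀, hc, hY⟩ := exists_of_conj F₀ x P h
  have hPPi : (P : Matrix (Fin n) (Fin n) F) *
      ((P⁻¹ : Matrix.SpecialLinearGroup (Fin n) F) : Matrix (Fin n) (Fin n) F) = 1 := by
    rw [← Matrix.SpecialLinearGroup.coe_mul, mul_inv_cancel, Matrix.SpecialLinearGroup.coe_one]
  have hxr : x ^ r = 1 := by
    apply Subtype.ext
    rw [Matrix.SpecialLinearGroup.coe_pow, hx, Matrix.SpecialLinearGroup.coe_one]
  have hYr : (c • B₀.map F₀.subtype) ^ r = (1 : Matrix (Fin n) (Fin n) F) := by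
    have h1 : (P⁻¹ * x * P) ^ r = 1 := by
      have h2 := conj_pow (a := P⁻¹) (b := x) (i := r)
      rw [inv_inv] at h2
      rw [h2, hxr, mul_one, inv_mul_cancel]
    have h3 := congrArg (fun g : Matrix.SpecialLinearGroup (Fin n) F =>
      (g : Matrix (Fin n) (Fin n) F)) h1
    simp only [Matrix.SpecialLinearGroup.coe_pow, Matrix.SpecialLinearGroup.coe_mul,
      Matrix.SpecialLinearGroup.coe_one] at h3
    rw [hY] at h3
    exact h3
  have hYr' := hYr
  rw [_root_.smul_pow, Subf.map_pow'] at hYr'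
  have h00 := congrFun (congrFun hYr' ⟨0, hn⟩) ⟨0, hn⟩
  simp only [Matrix.smul_apply, Matrix.map_apply, Matrix.one_apply_eq, smul_eq_mul,
    Subfield.coe_subtype] at h00
  have hcr : c ^ r ∈ F₀ := by
    have h1 : c ^ r = (((B₀ ^ r) ⟨0, hn⟩ ⟨0, hn⟩ : ↥F₀) : F)⁻¹ := eq_inv_of_mul_eq_one_left h00
    rw [h1]
    exact F₀.inv_mem (Subtype.prop _)
  have hcq : c ^ q₀ = c := by
    have h1 := pow_card_of_mem F₀ q₀ hF₀ _ hcr
    have h2 : (c ^ q₀ * c⁻¹) ^ r = 1 := by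
      rw [mul_pow, ← pow_mul, mul_comm q₀ r, pow_mul, h1, inv_pow]
      exact mul_inv_cancel₀ (pow_ne_zero _ hc)
    have h3 : (c ^ q₀ * c⁻¹) ^ (q - 1) = 1 := by
      rw [← hq]
      exact FiniteField.pow_card_sub_one_eq_one _
        (mul_ne_zero (pow_ne_zero _ hc) (inv_ne_zero hc))
    have h4 : (c ^ q₀ * c⁻¹) ^ (r.gcd (q - 1)) = 1 := pow_gcd_eq_one.2 ⟨h2, h3⟩
    rw [(Nat.Prime.coprime_iff_not_dvd hr).2 hrq, pow_one] at h4
    have h5 : c ^ q₀ = c ^ q₀ * c⁻¹ * c := by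
      rw [mul_assoc, inv_mul_cancel₀ hc, mul_one]
    rw [h5, h4, one_mul]
  have hcF₀ := mem_of_pow_card F₀ q₀ hF₀ c hcq
  have hmap : ((⟨c, hcF₀⟩ : ↥F₀) • B₀).map F₀.subtype = c • B₀.map F₀.subtype := by
    ext i j
    simp [Matrix.map_apply, Matrix.smul_apply]
  refine ⟨(⟨c, hcF₀⟩ : ↥F₀) • B₀, ?_, ?_⟩
  · apply Matrix.map_injective (f := F₀.subtype) Subtype.val_injective
    change (((⟨c, hcF₀⟩ : ↥F₀) • B₀) ^ r).map F₀.subtype =
      (1 : Matrix (Fin n) (Fin n) ↥F₀).map F₀.subtype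
    rw [← Subf.map_pow', hmap, hYr, Matrix.map_one _ (map_zero _) (map_one _)]
  · rw [← Matrix.charpoly_map, hmap, ← hY, Matrix.mul_assoc, Matrix.charpoly_mul_comm,
      Matrix.mul_assoc, hPPi, Matrix.mul_one]

/-- A semisimple element whose characteristic polynomial (after rescaling) is defined over the
subfield is conjugate in `SL_n` into the subfield group. -/
theorem conj_of_lifts {p : ℕ} [Fact p.Prime] [CharP F p] (hn : 1 ≤ n) (F₀ : Subfield F)
    (x : Matrix.SpecialLinearGroup (Fin n) F) (c : F) (hc : c ≠ 0)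
    (y : Matrix (Fin n) (Fin n) F) (hxy : (x : Matrix (Fin n) (Fin n) F) = c • y) (N : ℕ)
    (hN : N.Coprime p) (hy : y ^ N = 1) (hl : y.charpoly ∈ Polynomial.lifts F₀.subtype) :
    ∃ P : Matrix.SpecialLinearGroup (Fin n) F, P⁻¹ * x * P ∈
      (Cfsg.Geo.subfieldSubgroup F₀ 1).comap (Matrix.SpecialLinearGroup.toGL :
        Matrix.SpecialLinearGroup (Fin n) F →* GL (Fin n) F) := by
  classical
  have hp : p.Prime := Fact.out
  have : Fintype ↥F₀ := Fintype.ofFinite _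
  have : Nonempty (Fin n) := ⟨⟨0, hn⟩⟩
  have hN0 : N ≠ 0 := by
    rintro rfl
    rw [Nat.coprime_zero_left] at hN
    exact hp.one_lt.ne' hN
  obtain ⟨f₀, hf₀, hdeg, hmon⟩ :=
    Polynomial.lifts_and_natDegree_eq_and_monic hl (Matrix.charpoly_monic y)
  rw [Matrix.charpoly_natDegree_eq_dim, Fintype.card_fin] at hdeg
  have hydet : y.det ≠ 0 := by
    intro h0
    have h1 := congrArg Matrix.det hy
    rw [Matrix.det_pow, h0, zero_pow hN0, Matrix.det_one] at h1
    exact zero_ne_one h1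
  have h0 : f₀.coeff 0 ≠ 0 := by
    intro h
    have h1 : y.charpoly.coeff 0 = 0 := by rw [← hf₀, Polynomial.coeff_map, h, map_zero]
    have h2 := Matrix.det_eq_sign_charpoly_coeff y
    rw [h1, mul_zero] at h2
    exact hydet h2
  obtain ⟨M₀, hM₀, N', hN'pos, hN'cop, hM₀N'⟩ :=
    Cfsg.Agent.Lib.Helper40.exists_matrix_charpoly p n f₀ hmon hdeg h0
  have hBN' : (M₀.map F₀.subtype) ^ N' = 1 := by
    rw [Subf.map_pow', hM₀N', Matrix.map_one _ (map_zero _) (map_one _)]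
  have hBss : Module.End.IsSemisimple (Matrix.toLin' (M₀.map F₀.subtype)) :=
    isSemisimple_of_pow_eq_one _ N' (natCast_ne_zero_of_coprime p N' hN'cop) hBN'
  have hyss : Module.End.IsSemisimple (Matrix.toLin' y) :=
    isSemisimple_of_pow_eq_one _ N (natCast_ne_zero_of_coprime p N hN) hy
  have hchar : y.charpoly = (M₀.map F₀.subtype).charpoly := by
    rw [Matrix.charpoly_map, hM₀, hf₀]
  obtain ⟨e, he⟩ := exists_similar_of_charpoly_eq _ _ hyss hBss hchar
  obtain ⟨c', hc'comm, hc'det⟩ := exists_commute_det_eq (Matrix.toLin' (M₀.map F₀.subtype)) hBss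
    (LinearMap.det (e : (Fin n → F) →ₗ[F] (Fin n → F)))
  have hedet : LinearMap.det (e : (Fin n → F) →ₗ[F] (Fin n → F)) ≠ 0 := e.isUnit_det'.ne_zero
  obtain ⟨G, hG⟩ : ∃ G : Matrix (Fin n) (Fin n) F,
      G = LinearMap.toMatrix' (e : (Fin n → F) →ₗ[F] (Fin n → F)) := ⟨_, rfl⟩
  obtain ⟨C, hC⟩ : ∃ C : Matrix (Fin n) (Fin n) F, C = LinearMap.toMatrix' c' := ⟨_, rfl⟩
  have hGdet : G.det ≠ 0 := by
    rw [hG, LinearMap.det_toMatrix']
    exact hedet
  have hCdet : C.det = G.det := by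
    rw [hC, hG, LinearMap.det_toMatrix', LinearMap.det_toMatrix', hc'det]
  have hGy : G * y = M₀.map F₀.subtype * G := by
    apply Matrix.toLin'.injective
    apply LinearMap.ext
    intro v
    rw [hG]
    simp only [Matrix.toLin'_mul, Matrix.toLin'_toMatrix', LinearMap.comp_apply]
    exact he v
  have hCB : C * M₀.map F₀.subtype = M₀.map F₀.subtype * C := by
    apply Matrix.toLin'.injective
    apply LinearMap.ext
    intro v
    rw [hC]
    simp only [Matrix.toLin'_mul, Matrix.toLin'_toMatrix', LinearMap.comp_apply]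
    exact hc'comm v
  obtain ⟨g, hg⟩ : ∃ g : GL (Fin n) F, (g : Matrix (Fin n) (Fin n) F) = G :=
    ⟨Matrix.GeneralLinearGroup.mk'' G (isUnit_iff_ne_zero.2 hGdet), rfl⟩
  obtain ⟨cg, hcg⟩ : ∃ g : GL (Fin n) F, (g : Matrix (Fin n) (Fin n) F) = C :=
    ⟨Matrix.GeneralLinearGroup.mk'' C (isUnit_iff_ne_zero.2 (hCdet ▸ hGdet)), rfl⟩
  apply Subf.conj_mem F₀ x c hc M₀ g cg
  · rw [hg, hxy, Matrix.mul_smul, hGy, Matrix.smul_mul]
  · rw [hcg]
    exact hCB
  · rw [hcg, hg]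
    exact hCdet

end Twist

section Exp

variable {F : Type*} [Field F] {r : ℕ} [Fact r.Prime] {ω : F}

omit [Fact r.Prime] in
theorem pow_mod_r (h : ω ^ r = 1) (a : ℕ) : ω ^ (a % r) = ω ^ a := by
  conv_rhs => rw [← Nat.div_add_mod a r, pow_add, pow_mul, h, one_pow, one_mul]

theorem psi_add (h : ω ^ r = 1) (u v : ZMod r) : ω ^ (u + v).val = ω ^ u.val * ω ^ v.val := by
  rw [ZMod.val_add, pow_mod_r h, pow_add]

theorem psi_zero : ω ^ (0 : ZMod r).val = 1 := by rw [ZMod.val_zero, pow_zero]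

theorem psi_neg (h : ω ^ r = 1) (u : ZMod r) : ω ^ (-u).val = (ω ^ u.val)⁻¹ := by
  have h1 := psi_add h u (-u)
  rw [add_neg_cancel, psi_zero] at h1
  exact eq_inv_of_mul_eq_one_right h1.symm

theorem psi_sub (h : ω ^ r = 1) (u v : ZMod r) :
    ω ^ (u - v).val = ω ^ u.val * (ω ^ v.val)⁻¹ := by
  rw [sub_eq_add_neg, psi_add h, psi_neg h]

theorem psi_natCast_mul (h : ω ^ r = 1) (a : ℕ) (u : ZMod r) :
    ω ^ ((a : ZMod r) * u).val = (ω ^ u.val) ^ a := by
  rw [ZMod.val_mul, ZMod.val_natCast, pow_mod_r h, pow_mul, pow_mod_r h, ← pow_mul, ← pow_mul,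
    mul_comm]

theorem psi_inj (hω : IsPrimitiveRoot ω r) {u v : ZMod r} (h : ω ^ u.val = ω ^ v.val) : u = v :=
  ZMod.val_injective r (hω.pow_inj (ZMod.val_lt u) (ZMod.val_lt v) h)

theorem prod_psi {ι : Type*} (h : ω ^ r = 1) (T : Finset ι) (e : ι → ZMod r) :
    ∏ j ∈ T, ω ^ (e j).val = ω ^ (∑ j ∈ T, e j).val := by
  classical
  induction T using Finset.induction_on with
  | empty => rw [Finset.prod_empty, Finset.sum_empty, psi_zero]
  | insert a T ha ih => rw [Finset.prod_insert ha, Finset.sum_insert ha, psi_add h, ih]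

end Exp

section Derange

variable {F : Type*} [Field F] [Fintype F] {n : ℕ}

/-- Exponent form of the Frobenius-twisted invariance of multiplicities. -/
theorem exp_of_conj {p : ℕ} [Fact p.Prime] [CharP F p] (hn : 1 ≤ n) (F₀ : Subfield F) (q₀ : ℕ)
    (hF₀ : Nat.card ↥F₀ = q₀) {r : ℕ} [Fact r.Prime] {ω : F} (hω : IsPrimitiveRoot ω r) (c : F)
    (hc : c ≠ 0) (e : Fin n → ZMod r) (x P : Matrix.SpecialLinearGroup (Fin n) F)
    (hx : (x : Matrix (Fin n) (Fin n) F) = Matrix.diagonal (fun j => c * ω ^ (e j).val))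
    (h : P⁻¹ * x * P ∈ (Cfsg.Geo.subfieldSubgroup F₀ 1).comap
      (Matrix.SpecialLinearGroup.toGL :
        Matrix.SpecialLinearGroup (Fin n) F →* GL (Fin n) F)) :
    ∃ s : ZMod r, ∀ u : ZMod r,
      Nat.card {j // e j = u} = Nat.card {j // e j = s + (q₀ : ZMod r) * u} := by
  classical
  have hω1 : ω ^ r = 1 := hω.pow_eq_one
  have hω0 : ω ≠ 0 := hω.ne_zero (Fact.out : r.Prime).ne_zero
  obtain ⟨κ, hκ, hcard⟩ := card_of_conj F₀ q₀ hF₀ x P _ hx h
  have hfib : ∀ u : ZMod r,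
      Nat.card {j // c * ω ^ (e j).val = c * ω ^ u.val} = Nat.card {j // e j = u} := by
    intro u
    apply Nat.card_congr
    apply Equiv.subtypeEquivRight
    intro j
    constructor
    · intro h1
      exact psi_inj hω (mul_left_cancel₀ hc h1)
    · intro h1
      rw [h1]
  obtain ⟨j₁, hj₁⟩ : ∃ j₁ : Fin n,
      c * ω ^ (e j₁).val = κ * (c * ω ^ (e ⟨0, hn⟩).val) ^ q₀ := by
    have h1 := hcard (c * ω ^ (e ⟨0, hn⟩).val)
    have h2 : 0 < Nat.card {j // c * ω ^ (e j).val = c * ω ^ (e ⟨0, hn⟩).val} := by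
      rw [Nat.card_pos_iff]
      exact ⟨⟨⟨⟨0, hn⟩, rfl⟩⟩, inferInstance⟩
    rw [h1, Nat.card_pos_iff] at h2
    obtain ⟨⟨⟨j₁, hj₁⟩⟩, -⟩ := h2
    exact ⟨j₁, hj₁⟩
  refine ⟨e j₁ - (q₀ : ZMod r) * e ⟨0, hn⟩, fun u => ?_⟩
  have hkey : κ * (c * ω ^ u.val) ^ q₀ =
      c * ω ^ (e j₁ - (q₀ : ZMod r) * e ⟨0, hn⟩ + (q₀ : ZMod r) * u).val := by
    rw [psi_add hω1, psi_sub hω1, psi_natCast_mul hω1, psi_natCast_mul hω1]
    rw [mul_pow] at hj₁ ⊢
    have hne : (ω ^ (e ⟨0, hn⟩).val) ^ q₀ ≠ 0 := pow_ne_zero _ (pow_ne_zero _ hω0)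
    have h5 : c * ω ^ (e j₁).val * ((ω ^ (e ⟨0, hn⟩).val) ^ q₀)⁻¹ = κ * c ^ q₀ := by
      rw [hj₁, mul_assoc, mul_assoc, mul_inv_cancel₀ hne, mul_one]
    rw [← mul_assoc κ, ← h5]
    ring
  rw [← hfib u, hcard, hkey, hfib]

/-- A general derangement: a diagonal element whose exponent pattern has no twisted symmetry. -/
theorem derange_gen {p : ℕ} [Fact p.Prime] [CharP F p] (hn : 1 ≤ n) (F₀ : Subfield F) (q₀ : ℕ)
    (hF₀ : Nat.card ↥F₀ = q₀) {r : ℕ} [Fact r.Prime] {ω : F} (hω : IsPrimitiveRoot ω r) (c : F)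
    (e : Fin n → ZMod r) (hdet : c ^ n * ω ^ (∑ j, e j).val = 1) (j j' : Fin n)
    (hjj : e j ≠ e j')
    (hcomb : ∀ s : ZMod r, ¬ ∀ u : ZMod r,
      Nat.card {j // e j = u} = Nat.card {j // e j = s + (q₀ : ZMod r) * u}) :
    ∃ x : Matrix.SpecialLinearGroup (Fin n) F,
      (∃ z : F, ((x ^ r : Matrix.SpecialLinearGroup (Fin n) F) : Matrix (Fin n) (Fin n) F) =
        z • (1 : Matrix (Fin n) (Fin n) F)) ∧
      (∀ z : F, (x : Matrix (Fin n) (Fin n) F) ≠ z • (1 : Matrix (Fin n) (Fin n) F)) ∧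
      ∀ P : Matrix.SpecialLinearGroup (Fin n) F, P⁻¹ * x * P ∉
        (Cfsg.Geo.subfieldSubgroup F₀ 1).comap (Matrix.SpecialLinearGroup.toGL :
          Matrix.SpecialLinearGroup (Fin n) F →* GL (Fin n) F) := by
  classical
  have hω1 := hω.pow_eq_one
  have hc : c ≠ 0 := by
    rintro rfl
    rw [zero_pow (by omega), zero_mul] at hdet
    exact zero_ne_one hdet
  have hd : (Matrix.diagonal (fun j => c * ω ^ (e j).val)).det = 1 := by
    rw [Matrix.det_diagonal, Finset.prod_mul_distrib, Finset.prod_const, Finset.card_univ,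
      Fintype.card_fin, prod_psi hω1, hdet]
  obtain ⟨x, hx⟩ : ∃ x : Matrix.SpecialLinearGroup (Fin n) F,
      (x : Matrix (Fin n) (Fin n) F) = Matrix.diagonal (fun j => c * ω ^ (e j).val) :=
    ⟨⟨_, hd⟩, rfl⟩
  refine ⟨x, ⟨c ^ r, ?_⟩, ?_, ?_⟩
  · rw [Matrix.SpecialLinearGroup.coe_pow, hx, Matrix.diagonal_pow, Matrix.smul_one_eq_diagonal]
    congr 1
    ext i
    simp only [Pi.pow_apply]
    rw [mul_pow, ← pow_mul, mul_comm (e i).val r, pow_mul, hω1, one_pow, mul_one]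
  · intro z hz
    rw [hx] at hz
    have h1 := congrFun (congrFun hz j) j
    have h2 := congrFun (congrFun hz j') j'
    simp only [Matrix.diagonal_apply_eq, Matrix.smul_apply, Matrix.one_apply_eq, smul_eq_mul,
      mul_one] at h1 h2
    exact hjj (psi_inj hω (mul_left_cancel₀ hc (h1.trans h2.symm)))
  · intro P hP
    obtain ⟨s, hs⟩ := exp_of_conj hn F₀ q₀ hF₀ hω c hc e x P hx hP
    exact hcomb s hs

end Derange

section Comb

variable {r : ℕ} [Fact r.Prime]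

theorem natCast_ne_zero_of_lt (a : ℕ) (ha : 0 < a) (har : a < r) : ((a : ℕ) : ZMod r) ≠ 0 := by
  intro h
  rw [ZMod.natCast_eq_zero_iff] at h
  exact absurd (Nat.le_of_dvd ha h) (by omega)

omit [Fact r.Prime] in
theorem card_cons3 {κ : Type*} [DecidableEq κ] (m : ℕ) (a b c z μ : κ) :
    Nat.card {j : Fin (m + 3) //
      (Fin.cons a (Fin.cons b (Fin.cons c (fun _ => z))) : Fin (m + 3) → κ) j = μ} =
      (if a = μ then 1 else 0) + (if b = μ then 1 else 0) + (if c = μ then 1 else 0) +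
        (if z = μ then m else 0) := by
  rw [Nat.card_eq_fintype_card, Fintype.card_subtype, Finset.card_filter, Fin.sum_univ_succ,
    Fin.sum_univ_succ, Fin.sum_univ_succ]
  simp only [Fin.cons_zero, Fin.cons_succ]
  by_cases hz : z = μ
  · simp [hz, add_assoc]
  · simp [hz, add_assoc]

omit [Fact r.Prime] in
theorem sum_cons3 {κ : Type*} [AddCommMonoid κ] (m : ℕ) (a b c : κ) :
    ∑ j : Fin (m + 3), (Fin.cons a (Fin.cons b (Fin.cons c (fun _ => 0))) : Fin (m + 3) → κ) j =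
      a + b + c := by
  rw [Fin.sum_univ_succ, Fin.sum_univ_succ, Fin.sum_univ_succ]
  simp only [Fin.cons_zero, Fin.cons_succ, Finset.sum_const_zero, add_zero, add_assoc]

omit [Fact r.Prime] in
theorem card_two {κ : Type*} [DecidableEq κ] (a b μ : κ) :
    Nat.card {j : Fin 2 // (![a, b] : Fin 2 → κ) j = μ} =
      (if a = μ then 1 else 0) + (if b = μ then 1 else 0) := by
  rw [Nat.card_eq_fintype_card, Fintype.card_subtype, Finset.card_filter, Fin.sum_univ_two]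
  simp only [Matrix.cons_val_zero, Matrix.cons_val_one]
  congr

/-- The multiplicity function of the pattern `(1, 1, -2, 0, …, 0)`. -/
theorem val_b (h12 : (1 : ZMod r) ≠ -2) (h20 : (-2 : ZMod r) ≠ 0) (m : ℕ) (t : ZMod r) :
    ((if (1 : ZMod r) = t then 1 else 0) + (if (1 : ZMod r) = t then 1 else 0) +
      (if (-2 : ZMod r) = t then 1 else 0) + (if (0 : ZMod r) = t then m else 0) : ℕ) =
      if t = 1 then 2 else if t = -2 then 1 else if t = 0 then m else 0 := by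
  by_cases c1 : t = 1
  · subst c1
    rw [if_pos rfl, if_neg h12.symm, if_neg zero_ne_one, if_pos rfl]
  · by_cases c2 : t = -2
    · subst c2
      rw [if_neg h12, if_pos rfl, if_neg h20.symm, if_neg c1, if_pos rfl]
    · by_cases c3 : t = 0
      · subst c3
        rw [if_neg one_ne_zero, if_neg h20, if_pos rfl, if_neg c1, if_neg c2]
        omega
      · rw [if_neg (Ne.symm c1), if_neg (Ne.symm c2), if_neg (Ne.symm c3), if_neg c1, if_neg c2,
          if_neg c3]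

/-- The pattern `(1, 1, -2, 0, …, 0)` has no twisted symmetry. -/
theorem comb_b (hr5 : 5 ≤ r) (Q s : ZMod r) (hQ : Q ≠ 1) (m : ℕ) (hm5 : ¬ (m = 2 ∧ r = 5))
    (hs : ∀ u : ZMod r,
      ((if (1 : ZMod r) = u then 1 else 0) + (if (1 : ZMod r) = u then 1 else 0) +
        (if (-2 : ZMod r) = u then 1 else 0) + (if (0 : ZMod r) = u then m else 0) : ℕ) =
      (if (1 : ZMod r) = s + Q * u then 1 else 0) + (if (1 : ZMod r) = s + Q * u then 1 else 0) +
        (if (-2 : ZMod r) = s + Q * u then 1 else 0) +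
        (if (0 : ZMod r) = s + Q * u then m else 0)) : False := by
  have hr : r.Prime := Fact.out
  have h2 : (2 : ZMod r) ≠ 0 := by
    have := natCast_ne_zero_of_lt (r := r) 2 (by norm_num) (by omega)
    simpa using this
  have h3 : (3 : ZMod r) ≠ 0 := by
    have := natCast_ne_zero_of_lt (r := r) 3 (by norm_num) (by omega)
    simpa using this
  have h4 : (4 : ZMod r) ≠ 0 := by
    have := natCast_ne_zero_of_lt (r := r) 4 (by norm_num) (by omega)
    simpa using this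
  have h12 : (1 : ZMod r) ≠ -2 := by
    intro h
    apply h3
    linear_combination h
  have h20 : (-2 : ZMod r) ≠ 0 := by
    intro h
    apply h2
    linear_combination -h
  have W := val_b h12 h20 m
  have E1 : s + Q = 1 ∨ (m = 2 ∧ s + Q = 0) := by
    have h := hs 1
    rw [W, W, mul_one, if_pos rfl] at h
    by_cases c1 : s + Q = 1
    · exact Or.inl c1
    · rw [if_neg c1] at h
      by_cases c2 : s + Q = -2
      · rw [if_pos c2] at h
        omega
      · rw [if_neg c2] at h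
        by_cases c3 : s + Q = 0
        · rw [if_pos c3] at h
          exact Or.inr ⟨by omega, c3⟩
        · rw [if_neg c3] at h
          omega
  have E2 : s - 2 * Q = -2 ∨ (m = 1 ∧ s - 2 * Q = 0) := by
    have h := hs (-2)
    have e : s + Q * -2 = s - 2 * Q := by ring
    rw [W, W, if_neg h12.symm, if_pos rfl, e] at h
    by_cases c1 : s - 2 * Q = 1
    · rw [if_pos c1] at h
      omega
    · rw [if_neg c1] at h
      by_cases c2 : s - 2 * Q = -2
      · exact Or.inl c2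
      · rw [if_neg c2] at h
        by_cases c3 : s - 2 * Q = 0
        · rw [if_pos c3] at h
          exact Or.inr ⟨by omega, c3⟩
        · rw [if_neg c3] at h
          omega
  have E0 : (s = 1 ∧ m = 2) ∨ (s = -2 ∧ m = 1) ∨ s = 0 ∨ m = 0 := by
    have h := hs 0
    rw [W, W, mul_zero, add_zero, if_neg zero_ne_one, if_neg h20.symm, if_pos rfl] at h
    by_cases c1 : s = 1
    · rw [if_pos c1] at h
      exact Or.inl ⟨c1, by omega⟩
    · rw [if_neg c1] at h
      by_cases c2 : s = -2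
      · rw [if_pos c2] at h
        exact Or.inr (Or.inl ⟨c2, by omega⟩)
      · rw [if_neg c2] at h
        by_cases c3 : s = 0
        · exact Or.inr (Or.inr (Or.inl c3))
        · rw [if_neg c3] at h
          exact Or.inr (Or.inr (Or.inr (by omega)))
  rcases E1 with e1 | ⟨hm2, e1⟩
  · rcases E2 with e2 | ⟨hm1, e2⟩
    · apply hQ
      have : (3 : ZMod r) * Q = 3 * 1 := by linear_combination e1 - e2
      exact mul_left_cancel₀ h3 this
    · rcases E0 with ⟨-, hm⟩ | ⟨e0, -⟩ | e0 | hm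
      · omega
      · apply h4
        have hQ1 : Q = -1 := by
          have : (2 : ZMod r) * Q = 2 * (-1) := by linear_combination e0 - e2
          exact mul_left_cancel₀ h2 this
        linear_combination (-1 : ZMod r) * e1 + e0 + hQ1
      · apply hQ
        linear_combination e1 - e0
      · omega
  · rcases E2 with e2 | ⟨hm1, e2⟩
    · rcases E0 with ⟨e0, -⟩ | ⟨-, hm⟩ | e0 | hm
      · have h5 : ((5 : ℕ) : ZMod r) = 0 := by
          push_cast
          linear_combination (2 : ZMod r) * e1 + e2 - 3 * e0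
        rw [ZMod.natCast_eq_zero_iff] at h5
        exact hm5 ⟨hm2, (Nat.prime_dvd_prime_iff_eq hr Nat.prime_five).1 h5⟩
      · omega
      · apply h2
        linear_combination (2 : ZMod r) * e1 + e2 - 3 * e0
      · omega
    · omega

/-- The pattern `(1, 0, …, 0)` has no twisted symmetry. -/
theorem comb_c (Q s : ZMod r) (hQ : Q ≠ 1) (m : ℕ)
    (hs : ∀ u : ZMod r,
      ((if (1 : ZMod r) = u then 1 else 0) + (if (0 : ZMod r) = u then 1 else 0) +
        (if (0 : ZMod r) = u then 1 else 0) + (if (0 : ZMod r) = u then m else 0) : ℕ) =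
      (if (1 : ZMod r) = s + Q * u then 1 else 0) + (if (0 : ZMod r) = s + Q * u then 1 else 0) +
        (if (0 : ZMod r) = s + Q * u then 1 else 0) +
        (if (0 : ZMod r) = s + Q * u then m else 0)) : False := by
  have h0 := hs 0
  have h1 := hs 1
  rw [mul_zero, add_zero] at h0
  rw [mul_one] at h1
  simp only [if_pos, if_neg (one_ne_zero (α := ZMod r)), if_neg (zero_ne_one (α := ZMod r))]
    at h0 h1
  have hs0 : s = 0 := by
    by_contra hne
    rw [if_neg (Ne.symm hne)] at h0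
    split_ifs at h0 <;> omega
  rw [hs0, zero_add] at h1
  by_cases c1 : (1 : ZMod r) = Q
  · exact hQ c1.symm
  · rw [if_neg c1] at h1
    split_ifs at h1 <;> omega

/-- The pattern `(1, 1, 1, 0, …, 0)` has no twisted symmetry when `m ≠ 0, 3`. -/
theorem comb_d (Q s : ZMod r) (hQ : Q ≠ 1) (m : ℕ) (hm0 : m ≠ 0) (hm3 : m ≠ 3)
    (hs : ∀ u : ZMod r,
      ((if (1 : ZMod r) = u then 1 else 0) + (if (1 : ZMod r) = u then 1 else 0) +
        (if (1 : ZMod r) = u then 1 else 0) + (if (0 : ZMod r) = u then m else 0) : ℕ) =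
      (if (1 : ZMod r) = s + Q * u then 1 else 0) + (if (1 : ZMod r) = s + Q * u then 1 else 0) +
        (if (1 : ZMod r) = s + Q * u then 1 else 0) +
        (if (0 : ZMod r) = s + Q * u then m else 0)) : False := by
  have h0 := hs 0
  have h1 := hs 1
  rw [mul_zero, add_zero] at h0
  rw [mul_one] at h1
  simp only [if_pos, if_neg (one_ne_zero (α := ZMod r)), if_neg (zero_ne_one (α := ZMod r))]
    at h0 h1
  have hs0 : s = 0 := by
    by_contra hne
    rw [if_neg (Ne.symm hne)] at h0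
    split_ifs at h0 <;> omega
  rw [hs0, zero_add] at h1
  by_cases c1 : (1 : ZMod r) = Q
  · exact hQ c1.symm
  · rw [if_neg c1] at h1
    split_ifs at h1 <;> omega

/-- The pattern `(1, -1)` has no twisted symmetry. -/
theorem comb_a (hr3 : 3 ≤ r) (Q s : ZMod r) (hQ : Q ≠ 1) (hQ0 : Q ≠ 0) (hQm : Q ≠ -1)
    (hs : ∀ u : ZMod r,
      ((if (1 : ZMod r) = u then 1 else 0) + (if (-1 : ZMod r) = u then 1 else 0) : ℕ) =
      (if (1 : ZMod r) = s + Q * u then 1 else 0) +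
        (if (-1 : ZMod r) = s + Q * u then 1 else 0)) : False := by
  have h2 : (2 : ZMod r) ≠ 0 := by
    have := natCast_ne_zero_of_lt (r := r) 2 (by norm_num) (by omega)
    simpa using this
  have h11 : (1 : ZMod r) ≠ -1 := by
    intro h
    apply h2
    linear_combination h
  have h1 := hs 1
  have h1' := hs (-1)
  rw [mul_one, if_pos rfl, if_neg h11.symm] at h1
  rw [if_neg h11, if_pos rfl] at h1'
  have e : s + Q * -1 = s - Q := by ring
  rw [e] at h1'
  have E1 : s + Q = 1 ∨ s + Q = -1 := by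
    by_cases c1 : (1 : ZMod r) = s + Q
    · exact Or.inl c1.symm
    · by_cases c2 : (-1 : ZMod r) = s + Q
      · exact Or.inr c2.symm
      · rw [if_neg c1, if_neg c2] at h1
        omega
  have E2 : s - Q = 1 ∨ s - Q = -1 := by
    by_cases c1 : (1 : ZMod r) = s - Q
    · exact Or.inl c1.symm
    · by_cases c2 : (-1 : ZMod r) = s - Q
      · exact Or.inr c2.symm
      · rw [if_neg c1, if_neg c2] at h1'
        omega
  rcases E1 with e1 | e1 <;> rcases E2 with e2 | e2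
  · apply hQ0
    have : (2 : ZMod r) * Q = 2 * 0 := by linear_combination e1 - e2
    exact mul_left_cancel₀ h2 this
  · apply hQ
    have : (2 : ZMod r) * Q = 2 * 1 := by linear_combination e1 - e2
    exact mul_left_cancel₀ h2 this
  · apply hQm
    have : (2 : ZMod r) * Q = 2 * (-1) := by linear_combination e1 - e2
    exact mul_left_cancel₀ h2 this
  · apply hQ0
    have : (2 : ZMod r) * Q = 2 * 0 := by linear_combination e1 - e2
    exact mul_left_cancel₀ h2 this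

end Comb

section Cases

variable {F : Type*} [Field F] [Fintype F]

/-- An element of order `r` modulo scalars with no conjugate in the subfield group. -/
def HasDerangement (F₀ : Subfield F) (r n : ℕ) : Prop :=
  ∃ x : Matrix.SpecialLinearGroup (Fin n) F,
    (∃ z : F, ((x ^ r : Matrix.SpecialLinearGroup (Fin n) F) : Matrix (Fin n) (Fin n) F) =
      z • (1 : Matrix (Fin n) (Fin n) F)) ∧
    (∀ z : F, (x : Matrix (Fin n) (Fin n) F) ≠ z • (1 : Matrix (Fin n) (Fin n) F)) ∧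
    ∀ P : Matrix.SpecialLinearGroup (Fin n) F, P⁻¹ * x * P ∉
      (Cfsg.Geo.subfieldSubgroup F₀ 1).comap (Matrix.SpecialLinearGroup.toGL :
        Matrix.SpecialLinearGroup (Fin n) F →* GL (Fin n) F)

theorem derange_b (p : ℕ) [Fact p.Prime] [CharP F p] (F₀ : Subfield F) (q₀ : ℕ) (hF₀ : Nat.card ↥F₀ = q₀) {r : ℕ} [Fact r.Prime]
    {ω : F} (hω : IsPrimitiveRoot ω r) (hr5 : 5 ≤ r) (hQ : (q₀ : ZMod r) ≠ 1) (m : ℕ)
    (hm5 : ¬ (m = 2 ∧ r = 5)) : HasDerangement F₀ r (m + 3) := by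
  have h3 : (3 : ZMod r) ≠ 0 := by
    have := natCast_ne_zero_of_lt (r := r) 3 (by norm_num) (by omega)
    simpa using this
  have h12 : (1 : ZMod r) ≠ -2 := by
    intro h
    apply h3
    linear_combination h
  apply derange_gen (p := p) (by omega) F₀ q₀ hF₀ hω 1
    (Fin.cons 1 (Fin.cons 1 (Fin.cons (-2) (fun _ => 0)))) ?_ 0 (Fin.succ (Fin.succ 0)) ?_ ?_
  · rw [one_pow, one_mul, sum_cons3]
    have : (1 : ZMod r) + 1 + -2 = 0 := by ring
    rw [this, psi_zero]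
  · simp only [Fin.cons_zero, Fin.cons_succ]
    exact h12
  · intro s hs
    apply comb_b hr5 _ s hQ m hm5
    intro u
    have h := hs u
    rw [card_cons3, card_cons3] at h
    exact h

theorem derange_c (p : ℕ) [Fact p.Prime] [CharP F p] (F₀ : Subfield F) (q₀ : ℕ) (hF₀ : Nat.card ↥F₀ = q₀) {r : ℕ} [Fact r.Prime]
    {ω : F} (hω : IsPrimitiveRoot ω r) (hQ : (q₀ : ZMod r) ≠ 1) (m : ℕ) (c : F)
    (hc : c ^ (m + 3) * ω = 1) : HasDerangement F₀ r (m + 3) := by
  have hr : r.Prime := Fact.out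
  have : Fact (1 < r) := ⟨hr.one_lt⟩
  apply derange_gen (p := p) (by omega) F₀ q₀ hF₀ hω c
    (Fin.cons 1 (Fin.cons 0 (Fin.cons 0 (fun _ => 0)))) ?_ 0 (Fin.succ 0) ?_ ?_
  · rw [sum_cons3, add_zero, add_zero, ZMod.val_one, pow_one]
    exact hc
  · simp only [Fin.cons_zero, Fin.cons_succ]
    exact one_ne_zero
  · intro s hs
    apply comb_c _ s hQ m
    intro u
    have h := hs u
    rw [card_cons3, card_cons3] at h
    exact h

theorem derange_d (p : ℕ) [Fact p.Prime] [CharP F p] (F₀ : Subfield F) (q₀ : ℕ) (hF₀ : Nat.card ↥F₀ = q₀) {r : ℕ} [Fact r.Prime]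
    {ω : F} (hω : IsPrimitiveRoot ω r) (hr3 : r = 3) (hQ : (q₀ : ZMod r) ≠ 1) (m : ℕ)
    (hm0 : m ≠ 0) (hm3 : m ≠ 3) : HasDerangement F₀ r (m + 3) := by
  have h3 : ((3 : ℕ) : ZMod r) = 0 := (ZMod.natCast_eq_zero_iff 3 r).2 ⟨1, by omega⟩
  apply derange_gen (p := p) (by omega) F₀ q₀ hF₀ hω 1
    (Fin.cons 1 (Fin.cons 1 (Fin.cons 1 (fun _ => 0)))) ?_ 0
    (Fin.succ (Fin.succ (Fin.succ ⟨0, by omega⟩))) ?_ ?_
  · rw [one_pow, one_mul, sum_cons3]
    have : (1 : ZMod r) + 1 + 1 = 0 := by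
      push_cast at h3
      linear_combination h3
    rw [this, psi_zero]
  · simp only [Fin.cons_zero, Fin.cons_succ]
    exact one_ne_zero
  · intro s hs
    apply comb_d _ s hQ m hm0 hm3
    intro u
    have h := hs u
    rw [card_cons3, card_cons3] at h
    exact h

theorem derange_a (p : ℕ) [Fact p.Prime] [CharP F p] (F₀ : Subfield F) (q₀ : ℕ) (hF₀ : Nat.card ↥F₀ = q₀) {r : ℕ} [Fact r.Prime]
    {ω : F} (hω : IsPrimitiveRoot ω r) (hr3 : 3 ≤ r) (hQ : (q₀ : ZMod r) ≠ 1)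
    (hQ0 : (q₀ : ZMod r) ≠ 0) (hQm : (q₀ : ZMod r) ≠ -1) : HasDerangement F₀ r 2 := by
  have h2 : (2 : ZMod r) ≠ 0 := by
    have := natCast_ne_zero_of_lt (r := r) 2 (by norm_num) (by omega)
    simpa using this
  have h11 : (1 : ZMod r) ≠ -1 := by
    intro h
    apply h2
    linear_combination h
  apply derange_gen (p := p) (by norm_num) F₀ q₀ hF₀ hω 1 ![1, -1] ?_ 0 1 ?_ ?_
  · rw [one_pow, one_mul, Fin.sum_univ_two]
    simp only [Matrix.cons_val_zero, Matrix.cons_val_one]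
    rw [add_neg_cancel, psi_zero]
  · simp only [Matrix.cons_val_zero, Matrix.cons_val_one]
    exact h11
  · intro s hs
    apply comb_a hr3 _ s hQ hQ0 hQm
    intro u
    have h := hs u
    rw [card_two, card_two] at h
    exact h

/-- The derangement with an irreducible block when `ord_r(q) ≥ 2` differs from `ord_r(q₀)`. -/
theorem derange_irr {p : ℕ} [Fact p.Prime] [CharP F p] {q : ℕ} (hq : Fintype.card F = q) {n : ℕ} (F₀ : Subfield F) (q₀ : ℕ)
    (hF₀ : Nat.card ↥F₀ = q₀) (r : ℕ) [Fact r.Prime] (hrp : r ≠ p)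
    (hi : 2 ≤ orderOf (q : ZMod r)) (hin : orderOf (q : ZMod r) ≤ n)
    (hne : orderOf (q₀ : ZMod r) ≠ orderOf (q : ZMod r)) : HasDerangement F₀ r n := by
  classical
  have hr : r.Prime := Fact.out
  have : Fintype ↥F₀ := Fintype.ofFinite _
  have hc₀ : Fintype.card ↥F₀ = q₀ := by rw [← hF₀, Nat.card_eq_fintype_card]
  obtain ⟨S, hS, ⟨π₀, hπ₀⟩⟩ := Elusive.exists_factors hq r hrp
  obtain ⟨S₀, hS₀, -⟩ := Elusive.exists_factors (F := ↥F₀) hc₀ r hrp
  obtain ⟨i, hidef⟩ : ∃ i, i = orderOf (q : ZMod r) := ⟨_, rfl⟩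
  rw [← hidef] at hi hin hS hne
  have hn : 1 ≤ n := by omega
  let a : S → ℕ := fun π => if π.1 = π₀ then 1 else 0
  have hsum : ∑ π, a π = 1 := by
    rw [Finset.sum_eq_single ⟨π₀, hπ₀⟩]
    · simp [a]
    · intro b _ hb
      have : b.1 ≠ π₀ := fun h => hb (Subtype.ext h)
      simp [a, this]
    · intro h
      exact absurd (Finset.mem_univ _) h
  have ha : i * ∑ π, a π ≤ n := by
    rw [hsum]
    omega
  obtain ⟨g, hg, hχ⟩ := PrimeOrderGL.exists_GL_chi p hS hr.pos a ha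
  have hgr : (g : Matrix (Fin n) (Fin n) F) ^ r = 1 := by
    rw [← Units.val_pow_eq_pow_val, hg]
    rfl
  have hchi : PrimeOrderGL.chi S a (n - i * ∑ π, a π) = (X - C 1) ^ (n - i) * π₀ := by
    unfold PrimeOrderGL.chi
    rw [hsum, mul_one]
    congr 1
    rw [Finset.prod_eq_single ⟨π₀, hπ₀⟩]
    · simp [a]
    · intro b _ hb
      have : b.1 ≠ π₀ := fun h => hb (Subtype.ext h)
      simp [a, this]
    · intro h
      exact absurd (Finset.mem_univ _) h
  rw [hchi] at hχ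
  have hq1 : 1 ≤ q := by
    rw [← hq]
    exact Fintype.card_pos
  have hrq : ¬ r ∣ q - 1 := by
    intro h
    have h1 := (Elusive.dvd_pow_sub_one_iff q r hq1 1).1 (by rwa [pow_one])
    rw [← hidef] at h1
    have := Nat.le_of_dvd one_pos h1
    omega
  have hone : ∀ z : F, z ^ r = 1 → z = 1 := by
    intro z h1
    have h0 : z ≠ 0 := by
      intro h0
      rw [h0, zero_pow hr.ne_zero] at h1
      exact zero_ne_one h1
    have h2 : z ^ (q - 1) = 1 := by
      rw [← hq]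
      exact FiniteField.pow_card_sub_one_eq_one _ h0
    have h3 := pow_gcd_eq_one.2 ⟨h1, h2⟩
    rwa [(Nat.Prime.coprime_iff_not_dvd hr).2 hrq, pow_one] at h3
  have hdet : (g : Matrix (Fin n) (Fin n) F).det = 1 := by
    apply hone
    rw [← Matrix.det_pow, hgr, Matrix.det_one]
  have hπ₀irr := hS.irred π₀ hπ₀
  have hπ₀deg := hS.deg π₀ hπ₀
  obtain ⟨x, hx⟩ : ∃ x : Matrix.SpecialLinearGroup (Fin n) F,
      (x : Matrix (Fin n) (Fin n) F) = g := ⟨⟨_, hdet⟩, rfl⟩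
  refine ⟨x, ⟨1, ?_⟩, ?_, ?_⟩
  · rw [Matrix.SpecialLinearGroup.coe_pow, hx, hgr, one_smul]
  · intro z hz
    rw [hx] at hz
    have hz1 : z = 1 := by
      apply hone
      have h1 := hgr
      rw [hz, _root_.smul_pow, one_pow] at h1
      have h2 := congrFun (congrFun h1 ⟨0, hn⟩) ⟨0, hn⟩
      simpa using h2
    rw [hz, hz1, one_smul, Matrix.charpoly_one, Fintype.card_fin] at hχ
    have h1 : π₀ ∣ (X - 1 : F[X]) ^ n := ⟨(X - C 1) ^ (n - i), by rw [hχ]; ring⟩
    have h2 := hπ₀irr.prime.dvd_of_dvd_pow h1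
    have h3 := Polynomial.natDegree_le_of_dvd h2 (X_sub_C_ne_zero 1)
    rw [hπ₀deg] at h3
    have h4 : (X - 1 : F[X]).natDegree = 1 := by
      rw [← C_1]
      exact natDegree_X_sub_C 1
    rw [← C_1] at h3
    rw [natDegree_X_sub_C] at h3
    omega
  · intro P hP
    obtain ⟨M₀, hM₀r, hM₀⟩ := descend_of_conj hq hn F₀ q₀ hF₀ r hr hrq x P
      (by rw [hx]; exact hgr) hP
    obtain ⟨a₀, ha₀, hχ₀⟩ := PrimeOrderGL.charpoly_eq_chi hS₀ M₀ hM₀r
    rw [hx, hχ, hχ₀] at hM₀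
    have hM₀' : (X - C 1 : F[X]) ^ (n - i) * π₀ =
        (X - C 1) ^ (n - orderOf (q₀ : ZMod r) * ∑ π, a₀ π) *
          ∏ π : S₀, (π.1.map F₀.subtype) ^ a₀ π := by
      rw [hM₀]
      unfold PrimeOrderGL.chi
      rw [Polynomial.map_mul, Polynomial.map_pow, Polynomial.map_prod, Polynomial.map_sub,
        Polynomial.map_X, Polynomial.map_C, map_one]
      congr 1
      apply Finset.prod_congr rfl
      intro π _
      rw [Polynomial.map_pow]
    clear hM₀
    have hM₀ := hM₀'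
    have hdvd : π₀ ∣ (X - C 1) ^ (n - orderOf (q₀ : ZMod r) * ∑ π, a₀ π) *
        ∏ π : S₀, (π.1.map F₀.subtype) ^ a₀ π := ⟨(X - C 1) ^ (n - i), by rw [← hM₀]; ring⟩
    rcases hπ₀irr.prime.dvd_or_dvd hdvd with h1 | h1
    · have h2 := hπ₀irr.prime.dvd_of_dvd_pow h1
      have h3 := Polynomial.natDegree_le_of_dvd h2 (X_sub_C_ne_zero 1)
      rw [natDegree_X_sub_C, hπ₀deg] at h3
      omega
    · obtain ⟨π, -, hπ⟩ := (Prime.dvd_finsetProd_iff hπ₀irr.prime _).1 h1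
      have h2 := hπ₀irr.prime.dvd_of_dvd_pow hπ
      have hapos : a₀ π ≠ 0 := by
        intro h0
        rw [h0, pow_zero] at hπ
        exact hπ₀irr.not_isUnit (isUnit_of_dvd_one hπ)
      have hmonic : (π.1.map F₀.subtype).Monic := (hS₀.monic π.1 π.2).map _
      have hdegπ : (π.1.map F₀.subtype).natDegree = orderOf (q₀ : ZMod r) := by
        rw [Polynomial.natDegree_map, hS₀.deg π.1 π.2]
      have hle1 : i ≤ orderOf (q₀ : ZMod r) := by
        have := Polynomial.natDegree_le_of_dvd h2 hmonic.ne_zero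
        rw [hπ₀deg, hdegπ] at this
        exact this
      have hdvd2 : π.1.map F₀.subtype ∣ (X - C 1) ^ (n - i) * π₀ := by
        rw [hM₀]
        exact Dvd.dvd.mul_left ((dvd_pow_self _ hapos).trans
          (Finset.dvd_prod_of_mem (fun π : S₀ => (π.1.map F₀.subtype) ^ a₀ π)
            (Finset.mem_univ π))) _
      have hcop : IsCoprime (π.1.map F₀.subtype) ((X - C 1 : F[X]) ^ (n - i)) := by
        apply IsCoprime.pow_right
        rw [isCoprime_comm]
        apply (irreducible_X_sub_C (1 : F)).coprime_iff_not_dvd.2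
        intro h3
        have h4 : (X - C 1 : (↥F₀)[X]).map F₀.subtype ∣ π.1.map F₀.subtype := by
          simpa using h3
        have h5 := (Polynomial.map_dvd_map F₀.subtype Subtype.val_injective
          (monic_X_sub_C 1)).1 h4
        have h6 := eq_of_monic_of_associated (monic_X_sub_C 1) (hS₀.monic π.1 π.2)
          ((irreducible_X_sub_C 1).associated_of_dvd (hS₀.irred π.1 π.2) h5)
        exact hS₀.notMem (h6 ▸ π.2)
      have hdvd3 : π.1.map F₀.subtype ∣ π₀ := hcop.dvd_of_dvd_mul_left hdvd2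
      have hle2 : orderOf (q₀ : ZMod r) ≤ i := by
        have := Polynomial.natDegree_le_of_dvd hdvd3 hπ₀irr.ne_zero
        rw [hπ₀deg, hdegπ] at this
        exact this
      exact hne (le_antisymm hle2 hle1)

end Cases

section IndexArith

variable {F : Type*} [Field F] [Fintype F]

theorem natCast_card_ne_zero {p : ℕ} [Fact p.Prime] [CharP F p] {q : ℕ} (hq : Fintype.card F = q)
    (r : ℕ) [Fact r.Prime] (hrp : r ≠ p) : ((q : ℕ) : ZMod r) ≠ 0 := by
  have hr : r.Prime := Fact.out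
  rw [Ne, ZMod.natCast_eq_zero_iff]
  intro h
  obtain ⟨f, -, hf⟩ := FiniteField.card F p
  rw [← hq, hf] at h
  exact hrp ((Nat.prime_dvd_prime_iff_eq hr (Fact.out : p.Prime)).1 (hr.dvd_of_dvd_pow h))

/-- If `ord_r(q₀)` divides `ord_r(q)` and `r ≠ k`, then `r` does not divide the index. -/
theorem not_dvd_index {p : ℕ} [Fact p.Prime] [CharP F p] {q : ℕ} (hq : Fintype.card F = q) (n : ℕ)
    (hn : 1 ≤ n) (F₀ : Subfield F) (k q₀ : ℕ) (hk : k.Prime) (hF₀ : Nat.card ↥F₀ = q₀)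
    (hqk : q = q₀ ^ k) (r : ℕ) [Fact r.Prime] (hrp : r ≠ p) (hrk : r ≠ k)
    (hC : (q₀ : ZMod r) ^ orderOf (q : ZMod r) = 1) :
    ¬ r ∣ ((Cfsg.Geo.subfieldSubgroup F₀ 1).comap (Matrix.SpecialLinearGroup.toGL :
      Matrix.SpecialLinearGroup (Fin n) F →* GL (Fin n) F)).index := by
  intro hΩ
  have hr : r.Prime := Fact.out
  obtain ⟨m, hm⟩ := index_mul hq n hn F₀ k q₀ hF₀ hqk
  have h1 : r ∣ ∏ i : Fin n, ∑ l ∈ Finset.range k,
      (q₀ ^ n) ^ l * (q₀ ^ (i : ℕ)) ^ (k - 1 - l) := by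
    rw [← hm]
    exact Dvd.dvd.mul_right (Dvd.dvd.mul_right hΩ _) _
  obtain ⟨i', -, hi'⟩ := (Prime.dvd_finsetProd_iff (Nat.Prime.prime hr) _).1 h1
  have h2 : ((∑ l ∈ Finset.range k, (q₀ ^ n) ^ l * (q₀ ^ (i' : ℕ)) ^ (k - 1 - l) : ℕ) :
      ZMod r) = 0 := (ZMod.natCast_eq_zero_iff _ _).2 hi'
  push_cast at h2
  have hqr := natCast_card_ne_zero hq r hrp
  have hqQ : ((q : ℕ) : ZMod r) = (q₀ : ZMod r) ^ k := by
    rw [hqk]
    push_cast
    rfl
  obtain ⟨Q, hQdef⟩ : ∃ Q : ZMod r, Q = (q₀ : ZMod r) := ⟨_, rfl⟩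
  rw [← hQdef] at h2 hC hqQ
  have hQ0 : Q ≠ 0 := by
    intro h
    rw [hqQ, h, zero_pow hk.ne_zero] at hqr
    exact hqr rfl
  have h3 : (Q ^ n) ^ k - (Q ^ (i' : ℕ)) ^ k = 0 := by
    rw [← geom_sum₂_mul, h2, zero_mul]
  have hlt : (i' : ℕ) < n := i'.2
  have e : n = (i' : ℕ) + (n - (i' : ℕ)) := by omega
  have h4 : ((q : ℕ) : ZMod r) ^ (n - (i' : ℕ)) = 1 := by
    have h5 : ((q : ℕ) : ZMod r) ^ n = ((q : ℕ) : ZMod r) ^ (i' : ℕ) := by
      rw [hqQ, ← pow_mul, ← pow_mul, mul_comm k n, mul_comm k, pow_mul, pow_mul]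
      exact sub_eq_zero.1 h3
    have h6 : ((q : ℕ) : ZMod r) ^ n =
        ((q : ℕ) : ZMod r) ^ (i' : ℕ) * ((q : ℕ) : ZMod r) ^ (n - (i' : ℕ)) := by
      rw [← pow_add]
      exact congrArg (((q : ℕ) : ZMod r) ^ ·) e
    rw [h6] at h5
    exact mul_left_cancel₀ (pow_ne_zero _ hqr) (h5.trans (mul_one _).symm)
  obtain ⟨t, ht⟩ := orderOf_dvd_of_pow_eq_one h4
  have h8 : Q ^ (n - (i' : ℕ)) = 1 := by rw [ht, pow_mul, hC, one_pow]
  have h9 : Q ^ n = Q ^ (i' : ℕ) := by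
    calc Q ^ n = Q ^ ((i' : ℕ) + (n - (i' : ℕ))) := congrArg (Q ^ ·) e
      _ = Q ^ (i' : ℕ) := by rw [pow_add, h8, mul_one]
  rw [h9] at h2
  have h10 : ∑ l ∈ Finset.range k, (Q ^ (i' : ℕ)) ^ l * (Q ^ (i' : ℕ)) ^ (k - 1 - l) =
      (k : ZMod r) * (Q ^ (i' : ℕ)) ^ (k - 1) := by
    have h11 : ∀ l ∈ Finset.range k, (Q ^ (i' : ℕ)) ^ l * (Q ^ (i' : ℕ)) ^ (k - 1 - l) =
        (Q ^ (i' : ℕ)) ^ (k - 1) := by
      intro l hl
      rw [← pow_add]
      congr 1
      have := Finset.mem_range.1 hl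
      omega
    rw [Finset.sum_congr rfl h11, Finset.sum_const, Finset.card_range, nsmul_eq_mul]
  rw [h10] at h2
  rcases mul_eq_zero.1 h2 with h | h
  · rw [ZMod.natCast_eq_zero_iff] at h
    exact hrk ((Nat.prime_dvd_prime_iff_eq hr hk).1 h)
  · exact pow_ne_zero _ (pow_ne_zero _ hQ0) h

/-- For `n = 2`, `k = 2` and `r ∣ q₀ + 1` odd, `r` does not divide the index. -/
theorem not_dvd_index_two {q : ℕ} (hq : Fintype.card F = q) (F₀ : Subfield F) (q₀ : ℕ)
    (hF₀ : Nat.card ↥F₀ = q₀) (hqk : q = q₀ ^ 2) (r : ℕ) [Fact r.Prime] (hr2 : r ≠ 2)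
    (hrq : r ∣ q₀ + 1) :
    ¬ r ∣ ((Cfsg.Geo.subfieldSubgroup F₀ 1).comap (Matrix.SpecialLinearGroup.toGL :
      Matrix.SpecialLinearGroup (Fin 2) F →* GL (Fin 2) F)).index := by
  intro hΩ
  have hr : r.Prime := Fact.out
  obtain ⟨m, hm⟩ := index_mul hq 2 (by norm_num) F₀ 2 q₀ hF₀ hqk
  obtain ⟨I, hI⟩ : ∃ I : ℕ, I = ((Cfsg.Geo.subfieldSubgroup F₀ 1).comap
      (Matrix.SpecialLinearGroup.toGL :
        Matrix.SpecialLinearGroup (Fin 2) F →* GL (Fin 2) F)).index := ⟨_, rfl⟩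
  rw [← hI] at hm hΩ
  simp only [Fin.prod_univ_two, Finset.sum_range_succ, Finset.sum_range_zero, Fin.val_zero,
    Fin.val_one] at hm
  norm_num at hm
  have h1 : I * m = (1 + q₀ ^ 2) * q₀ := by
    apply Nat.eq_of_mul_eq_mul_right (show 0 < 1 + q₀ by omega)
    rw [hm]
    ring
  have h2 : r ∣ (1 + q₀ ^ 2) * q₀ := h1 ▸ Dvd.dvd.mul_right hΩ m
  rcases (Nat.Prime.dvd_mul hr).1 h2 with h | h
  · have h3 : r ∣ 2 := by
      have h4 : 1 + q₀ ^ 2 + (q₀ + 1) = (q₀ + 1) * q₀ + 2 := by ring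
      have h5 : r ∣ (q₀ + 1) * q₀ + 2 := h4 ▸ Dvd.dvd.add h hrq
      exact (Nat.dvd_add_right (Dvd.dvd.mul_right hrq _)).1 h5
    exact hr2 ((Nat.prime_dvd_prime_iff_eq hr Nat.prime_two).1 h3)
  · have h3 : r ∣ 1 := (Nat.dvd_add_right h).1 hrq
    exact hr.one_lt.ne' (Nat.dvd_one.1 h3)

/-- A prime `r ≠ p` dividing the index has `ord_r(q) ≤ n`. -/
theorem le_of_dvd_index {p : ℕ} [Fact p.Prime] [CharP F p] {q : ℕ} (hq : Fintype.card F = q)
    (n : ℕ) (hn : 1 ≤ n) (F₀ : Subfield F) (r : ℕ) [Fact r.Prime] (hrp : r ≠ p)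
    (hΩ : r ∣ ((Cfsg.Geo.subfieldSubgroup F₀ 1).comap (Matrix.SpecialLinearGroup.toGL :
      Matrix.SpecialLinearGroup (Fin n) F →* GL (Fin n) F)).index) :
    orderOf (q : ZMod r) ≤ n := by
  classical
  have hr : r.Prime := Fact.out
  have h1 := Cfsg.Agent.Lib.Helper40.card_GL_eq_card_SL_mul (F := F) n hn
  have h2 := Matrix.card_GL_field (𝔽 := F) (n := n)
  rw [hq] at h1 h2
  have h3 : r ∣ ∏ i : Fin n, (q ^ n - q ^ (i : ℕ)) := by
    rw [← h2, h1]
    exact Dvd.dvd.mul_right (hΩ.trans (Subgroup.index_dvd_card _)) _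
  obtain ⟨i', -, hi'⟩ := (Prime.dvd_finsetProd_iff (Nat.Prime.prime hr) _).1 h3
  have hq1 : 1 ≤ q := by
    rw [← hq]
    exact Fintype.card_pos
  have hlt : (i' : ℕ) < n := i'.2
  have hle : q ^ (i' : ℕ) ≤ q ^ n := Nat.pow_le_pow_right hq1 hlt.le
  have h4 : ((q ^ n - q ^ (i' : ℕ) : ℕ) : ZMod r) = 0 := (ZMod.natCast_eq_zero_iff _ _).2 hi'
  rw [Nat.cast_sub hle] at h4
  push_cast at h4
  have hqr := natCast_card_ne_zero hq r hrp
  have e : n = (i' : ℕ) + (n - (i' : ℕ)) := by omega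
  have h5 : ((q : ℕ) : ZMod r) ^ (n - (i' : ℕ)) = 1 := by
    have h6 : ((q : ℕ) : ZMod r) ^ n =
        ((q : ℕ) : ZMod r) ^ (i' : ℕ) * ((q : ℕ) : ZMod r) ^ (n - (i' : ℕ)) := by
      rw [← pow_add]
      exact congrArg (((q : ℕ) : ZMod r) ^ ·) e
    rw [h6] at h4
    exact mul_left_cancel₀ (pow_ne_zero _ hqr) ((sub_eq_zero.1 h4).trans (mul_one _).symm)
  have h7 := Nat.le_of_dvd (by omega) (orderOf_dvd_of_pow_eq_one h5)
  omega

omit [Fintype F] in
theorem k_eq_two (r k : ℕ) [Fact r.Prime] (hr2 : r ≠ 2) (hk : k.Prime) (Q : ZMod r)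
    (hQk : Q ^ k = 1) (hQm : Q = -1) : k = 2 := by
  have hr : r.Prime := Fact.out
  have h2 : (2 : ZMod r) ≠ 0 := by
    have := natCast_ne_zero_of_lt (r := r) 2 (by norm_num)
      (lt_of_le_of_ne hr.two_le (Ne.symm hr2))
    simpa using this
  have hQ1 : Q ≠ 1 := by
    intro h
    rw [hQm] at h
    apply h2
    linear_combination -h
  have h3 : orderOf Q ∣ k := orderOf_dvd_of_pow_eq_one hQk
  have h4 : orderOf Q ∣ 2 := orderOf_dvd_of_pow_eq_one (by rw [hQm]; ring)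
  rcases (Nat.dvd_prime hk).1 h3 with h | h
  · exact absurd (orderOf_eq_one_iff.1 h) hQ1
  · rw [h] at h4
    exact (Nat.prime_dvd_prime_iff_eq hk Nat.prime_two).1 h4

omit [Fintype F] in
theorem special_k (r k : ℕ) [Fact r.Prime] (hr35 : r = 3 ∨ r = 5) (hk : k.Prime) (Q : ZMod r)
    (hQk : Q ^ k = 1) (hQ1 : Q ≠ 1) : k = 2 ∧ Q = -1 := by
  have hQ0 : Q ≠ 0 := by
    intro h
    rw [h, zero_pow hk.ne_zero] at hQk
    exact zero_ne_one hQk
  have h3 : orderOf Q ∣ k := orderOf_dvd_of_pow_eq_one hQk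
  have h4 : orderOf Q ∣ r - 1 := orderOf_dvd_of_pow_eq_one (ZMod.pow_card_sub_one_eq_one hQ0)
  have hk2 : k = 2 := by
    rcases (Nat.dvd_prime hk).1 h3 with h | h
    · exact absurd (orderOf_eq_one_iff.1 h) hQ1
    · rw [h] at h4
      rcases hr35 with h5 | h5
      · rw [h5] at h4
        exact (Nat.prime_dvd_prime_iff_eq hk Nat.prime_two).1 h4
      · rw [h5] at h4
        have h6 : k ∣ 2 ^ 2 := h4
        exact (Nat.prime_dvd_prime_iff_eq hk Nat.prime_two).1 (hk.dvd_of_dvd_pow h6)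
  refine ⟨hk2, ?_⟩
  rw [hk2] at hQk
  have h5 : (Q - 1) * (Q + 1) = 0 := by linear_combination hQk
  rcases mul_eq_zero.1 h5 with h | h
  · exact absurd (sub_eq_zero.1 h) hQ1
  · exact eq_neg_of_add_eq_zero_left h

/-- A primitive `r`-th root of unity, with an `r`-th root of its inverse when `r² ∣ q - 1`. -/
theorem exists_omega {q : ℕ} (hq : Fintype.card F = q) (r : ℕ) [Fact r.Prime] (hrq : r ∣ q - 1)
    (hq2 : 2 ≤ q) :
    ∃ ω : F, IsPrimitiveRoot ω r ∧ (r ^ 2 ∣ q - 1 → ∃ c : F, c ^ r * ω = 1) := by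
  have hr : r.Prime := Fact.out
  obtain ⟨ζ, hζ, -⟩ := Elusive.exists_gen (F := F)
  rw [hq] at hζ
  obtain ⟨a, ha⟩ := hrq
  have ha0 : a ≠ 0 := by
    rintro rfl
    omega
  have hdiv : (q - 1) / r = a := by
    rw [ha]
    exact Nat.mul_div_cancel_left a hr.pos
  have hord : orderOf (ζ ^ a) = r := by
    rw [orderOf_pow_of_dvd ha0 (by rw [hζ, ha]; exact Dvd.intro_left r rfl), hζ, ha]
    exact Nat.mul_div_cancel r (Nat.pos_of_ne_zero ha0)
  refine ⟨((ζ ^ a : Fˣ) : F), ?_, ?_⟩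
  · rw [IsPrimitiveRoot.coe_units_iff, ← hord]
    exact IsPrimitiveRoot.orderOf _
  · rintro ⟨b, hb⟩
    have hab : a = r * b := by
      have h1 : r * a = r * (r * b) := by rw [← ha, hb]; ring
      exact Nat.eq_of_mul_eq_mul_left hr.pos h1
    refine ⟨(((ζ ^ b)⁻¹ : Fˣ) : F), ?_⟩
    have h1 : ((ζ ^ b)⁻¹ : Fˣ) ^ r * ζ ^ a = 1 := by
      rw [inv_pow, ← pow_mul, hab, mul_comm b r, inv_mul_cancel]
    have h2 := congrArg Units.val h1
    rw [Units.val_mul, Units.val_pow_eq_pow_val, Units.val_one] at h2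
    exact h2

end IndexArith

end Cfsg.Agent.Lib.Helper40.Subf5
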