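-- helper40: subfield subgroups of SL_n, odd prime order r ≠ p: the positive direction (S5965).
import Mathlib
import Cfsg.Prelude.Def_GeometricClasses
import Cfsg.Agent.Lib.Helper40.Subf5

set_option autoImplicit false

namespace Cfsg.Agent.Lib.Helper40.Subf5

open Polynomial UniqueFactorizationMonoid

section Positive

variable {F : Type*} [Field F] [Fintype F]

/-- The case `r = k`: elements whose `r`-th power is the `r`-th power of a scalar are conjugate
into the subfield group. -/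
theorem conj_of_eq {p : ℕ} [Fact p.Prime] [CharP F p] {q : ℕ} (hq : Fintype.card F = q) (n : ℕ)
    (hn : 1 ≤ n) (F₀ : Subfield F) (q₀ : ℕ) (hF₀ : Nat.card ↥F₀ = q₀) (r : ℕ) [Fact r.Prime]
    (hrp : r ≠ p) (hord : orderOf (q : ZMod r) = orderOf (q₀ : ZMod r))
    (x : Matrix.SpecialLinearGroup (Fin n) F) (c : F) (hc : c ≠ 0)
    (hx : (x : Matrix (Fin n) (Fin n) F) ^ r = c ^ r • (1 : Matrix (Fin n) (Fin n) F)) :
    ∃ P : Matrix.SpecialLinearGroup (Fin n) F, P⁻¹ * x * P ∈
      (Cfsg.Geo.subfieldSubgroup F₀ 1).comap (Matrix.SpecialLinearGroup.toGL :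
        Matrix.SpecialLinearGroup (Fin n) F →* GL (Fin n) F) := by
  classical
  have hr : r.Prime := Fact.out
  have hp : p.Prime := Fact.out
  have : Fintype ↥F₀ := Fintype.ofFinite _
  have hc₀ : Fintype.card ↥F₀ = q₀ := by rw [← hF₀, Nat.card_eq_fintype_card]
  obtain ⟨S, hS, -⟩ := Elusive.exists_factors hq r hrp
  obtain ⟨S₀, hS₀, -⟩ := Elusive.exists_factors (F := ↥F₀) hc₀ r hrp
  have hy : (c⁻¹ • (x : Matrix (Fin n) (Fin n) F)) ^ r = 1 := by
    rw [_root_.smul_pow, hx, smul_smul, inv_pow, inv_mul_cancel₀ (pow_ne_zero _ hc), one_smul]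
  obtain ⟨a, ha, hχ⟩ := PrimeOrderGL.charpoly_eq_chi hS _ hy
  have hmon : (X ^ r - 1 : (↥F₀)[X]).Monic := by
    have := monic_X_pow_sub_C (1 : ↥F₀) hr.ne_zero
    rwa [C_1] at this
  have hNmon : (normalizedFactors (X ^ r - 1 : (↥F₀)[X])).prod.Monic := by
    have := monic_multiset_prod_of_monic (normalizedFactors (X ^ r - 1 : (↥F₀)[X])) id
      (fun m hm => PrimeOrderGL.monic_of_mem_nf _ m hm)
    rwa [Multiset.map_id] at this
  have hNeq : (normalizedFactors (X ^ r - 1 : (↥F₀)[X])).prod = X ^ r - 1 :=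
    eq_of_monic_of_associated hNmon hmon (prod_normalizedFactors hmon.ne_zero)
  have hmapf : (X ^ r - 1 : F[X]) =
      ((normalizedFactors (X ^ r - 1 : (↥F₀)[X])).map (Polynomial.map F₀.subtype)).prod := by
    rw [← Polynomial.map_multiset_prod, hNeq]
    simp
  have hlift : ∀ π ∈ S, π ∈ Polynomial.lifts F₀.subtype := by
    intro π hπ
    have hπirr := hS.irred π hπ
    have hdvd := hS.dvd π hπ
    rw [hmapf] at hdvd
    obtain ⟨m', hm', hdvd'⟩ := Prime.exists_mem_multiset_dvd hπirr.prime hdvd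
    obtain ⟨m₀, hm₀, rfl⟩ := Multiset.mem_map.1 hm'
    have hm₀mon := PrimeOrderGL.monic_of_mem_nf _ m₀ hm₀
    have hm₀irr := irreducible_of_normalized_factor m₀ hm₀
    have hm₀dvd := dvd_of_mem_normalizedFactors hm₀
    rcases hS₀.cover m₀ hm₀mon hm₀irr hm₀dvd with h1 | h1
    · rw [h1] at hdvd'
      rw [Polynomial.map_sub, Polynomial.map_X, Polynomial.map_C, map_one] at hdvd'
      have h2 := eq_of_monic_of_associated (hS.monic π hπ) (monic_X_sub_C 1)
        (hπirr.associated_of_dvd (irreducible_X_sub_C 1) hdvd')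
      exact absurd (h2 ▸ hπ) hS.notMem
    · have hdeg : (m₀.map F₀.subtype).natDegree ≤ π.natDegree := by
        rw [Polynomial.natDegree_map, hS₀.deg m₀ h1, hS.deg π hπ, hord]
      have h2 := Polynomial.eq_of_monic_of_dvd_of_natDegree_le (hS.monic π hπ) (hm₀mon.map _)
        hdvd' hdeg
      rw [Polynomial.mem_lifts]
      exact ⟨m₀, h2⟩
  apply conj_of_lifts hn F₀ x c hc (c⁻¹ • (x : Matrix (Fin n) (Fin n) F))
    (by rw [smul_smul, mul_inv_cancel₀ hc, one_smul]) r ((Nat.coprime_primes hr hp).2 hrp) hy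
  rw [hχ]
  unfold PrimeOrderGL.chi
  apply Subsemiring.mul_mem
  · apply Subsemiring.pow_mem
    rw [Polynomial.mem_lifts]
    exact ⟨X - C 1, by simp⟩
  · apply Subsemiring.prod_mem
    intro π _
    exact Subsemiring.pow_mem _ (hlift π.1 π.2) _

omit [Fintype F] in
/-- A matrix of order `r` is diagonalisable when the field has a primitive `r`-th root of
unity. -/
theorem exists_diag {n : ℕ} {r : ℕ} [Fact r.Prime] {ω : F} (hω : IsPrimitiveRoot ω r)
    (M : Matrix (Fin n) (Fin n) F) (hM : M ^ r = 1) :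
    ∃ (e : Fin n → ZMod r) (g : GL (Fin n) F), (g : Matrix (Fin n) (Fin n) F) * M =
      Matrix.diagonal (fun j => ω ^ (e j).val) * (g : Matrix (Fin n) (Fin n) F) := by
  classical
  have hr : r.Prime := Fact.out
  have hω1 := hω.pow_eq_one
  obtain ⟨ψ, hψ⟩ : ∃ ψ : ZMod r → F, ∀ u, ψ u = ω ^ u.val := ⟨fun u => ω ^ u.val, fun _ => rfl⟩
  have hψinj : Function.Injective ψ := fun u v h => psi_inj hω (by rw [← hψ, ← hψ]; exact h)
  obtain ⟨S, hSdef⟩ : ∃ S : Finset F, S = Finset.univ.image ψ := ⟨_, rfl⟩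
  have hS : S = nthRootsFinset r (1 : F) := by
    apply Finset.eq_of_subset_of_card_le
    · intro ζ hζ
      rw [hSdef] at hζ
      obtain ⟨u, -, rfl⟩ := Finset.mem_image.1 hζ
      rw [mem_nthRootsFinset hr.pos, hψ, ← pow_mul, mul_comm, pow_mul, hω1, one_pow]
    · rw [hω.card_nthRootsFinset, hSdef, Finset.card_image_of_injective _ hψinj,
        Finset.card_univ, ZMod.card]
  have hprod : ∏ ζ ∈ S, (X - C ζ) = (X ^ r - 1 : F[X]) := by
    rw [hS]
    exact (X_pow_sub_one_eq_prod hr.pos hω).symm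
  have hM0 : aeval M (∏ ζ ∈ S, (X - C ζ)) = 0 := by
    rw [hprod]
    simp [hM]
  have hsum := Diag.sum_sub_rank M S hM0
  rw [hSdef, Finset.sum_image (fun u _ v _ h => hψinj h)] at hsum
  obtain ⟨e, he⟩ := Diag.exists_fibre_card
    (fun u : ZMod r => n - (M - ψ u • (1 : Matrix (Fin n) (Fin n) F)).rank) hsum
  have hD0 : aeval (Matrix.diagonal (fun j => ω ^ (e j).val)) (∏ ζ ∈ S, (X - C ζ)) = 0 := by
    rw [hprod]
    simp only [map_sub, map_pow, aeval_X, map_one]
    rw [Matrix.diagonal_pow, sub_eq_zero, ← Matrix.diagonal_one]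
    congr 1
    ext j
    simp only [Pi.pow_apply]
    rw [← pow_mul, mul_comm, pow_mul, hω1, one_pow]
  obtain ⟨P, hP⟩ := Diag.similar_of_rank_eq M (Matrix.diagonal (fun j => ω ^ (e j).val)) S hM0 hD0
    (by
      intro ζ hζ
      rw [hSdef] at hζ
      obtain ⟨u, -, rfl⟩ := Finset.mem_image.1 hζ
      have h1 := Diag.rank_diagonal_sub (fun j => ω ^ (e j).val) (ψ u)
      have h3 := he u
      rw [Fintype.card_eq_nat_card] at h1 h3
      have h2 : Nat.card {i // ω ^ (e i).val = ψ u} = Nat.card {i // e i = u} :=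
        Nat.card_congr (Equiv.subtypeEquivRight (fun i =>
          ⟨fun h => hψinj (by rw [hψ]; exact h), fun h => by rw [h, hψ]⟩))
      have h4 : (M - ψ u • (1 : Matrix (Fin n) (Fin n) F)).rank ≤ n := by
        have := Matrix.rank_le_card_width (M - ψ u • (1 : Matrix (Fin n) (Fin n) F))
        rwa [Fintype.card_fin] at this
      rw [h2, h3] at h1
      omega)
  exact ⟨e, P, hP⟩

/-- The special case: when `q₀ ≡ -1 (mod r)` and every multiplicity pattern of total `r` and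
weighted sum `0` is symmetric, every non-scalar element of order `r` of `SL_r` is conjugate into
the subfield group. -/
theorem conj_special {p : ℕ} [Fact p.Prime] [CharP F p] (F₀ : Subfield F) (q₀ : ℕ)
    (hF₀ : Nat.card ↥F₀ = q₀) (r : ℕ) [Fact r.Prime] (hrp : r ≠ p) {ω : F}
    (hω : IsPrimitiveRoot ω r) (hQ : (q₀ : ZMod r) = -1)
    (hcomb : ∀ M : ZMod r → ℕ, ∑ u, M u = r → ∑ u, (M u : ZMod r) * u = 0 → (∀ u, M u ≠ r) →
      ∃ t : ZMod r, ∀ u, M (t + u) = M (t - u))
    (x : Matrix.SpecialLinearGroup (Fin r) F)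
    (hx : (x : Matrix (Fin r) (Fin r) F) ^ r = 1)
    (hns : ∀ z : F, (x : Matrix (Fin r) (Fin r) F) ≠ z • (1 : Matrix (Fin r) (Fin r) F)) :
    ∃ P : Matrix.SpecialLinearGroup (Fin r) F, P⁻¹ * x * P ∈
      (Cfsg.Geo.subfieldSubgroup F₀ 1).comap (Matrix.SpecialLinearGroup.toGL :
        Matrix.SpecialLinearGroup (Fin r) F →* GL (Fin r) F) := by
  classical
  have hr : r.Prime := Fact.out
  have hp : p.Prime := Fact.out
  have hω1 := hω.pow_eq_one
  have hω0 : ω ≠ 0 := hω.ne_zero hr.ne_zero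
  obtain ⟨e, g, hg⟩ := exists_diag hω (x : Matrix (Fin r) (Fin r) F) hx
  have hgdet : (g : Matrix (Fin r) (Fin r) F).det ≠ 0 :=
    ((Matrix.isUnit_iff_isUnit_det _).mp g.isUnit).ne_zero
  have hsum : ∑ j, e j = 0 := by
    have h1 : (Matrix.diagonal (fun j => ω ^ (e j).val)).det = 1 := by
      have h2 := congrArg Matrix.det hg
      rw [Matrix.det_mul, Matrix.det_mul, x.det_coe, mul_one] at h2
      have h3 : (1 : F) * (g : Matrix (Fin r) (Fin r) F).det =
          (Matrix.diagonal (fun j => ω ^ (e j).val)).det * (g : Matrix (Fin r) (Fin r) F).det := by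
        rw [one_mul]
        exact h2
      exact (mul_right_cancel₀ hgdet h3).symm
    rw [Matrix.det_diagonal, prod_psi hω1] at h1
    exact psi_inj hω (h1.trans psi_zero.symm)
  obtain ⟨M, hMdef⟩ : ∃ M : ZMod r → ℕ, ∀ u, M u = Nat.card {j // e j = u} :=
    ⟨fun u => Nat.card {j // e j = u}, fun _ => rfl⟩
  have hMfilter : ∀ u, M u = (Finset.univ.filter (fun j => e j = u)).card := by
    intro u
    rw [hMdef, Nat.card_eq_fintype_card, Fintype.card_subtype]
  have hM1 : ∑ u, M u = r := by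
    have h1 : ∑ u, M u = ∑ u : ZMod r, ∑ j ∈ Finset.univ.filter (fun j => e j = u), 1 := by
      apply Finset.sum_congr rfl
      intro u _
      rw [hMfilter, Finset.sum_const, smul_eq_mul, mul_one]
    rw [h1, Finset.sum_fiberwise, Finset.sum_const, Finset.card_univ, Fintype.card_fin,
      smul_eq_mul, mul_one]
  have hM2 : ∑ u, (M u : ZMod r) * u = 0 := by
    rw [← hsum, ← Finset.sum_fiberwise Finset.univ e (fun j => e j)]
    apply Finset.sum_congr rfl
    intro u _
    rw [Finset.sum_congr rfl (fun j hj => (Finset.mem_filter.1 hj).2), Finset.sum_const,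
      nsmul_eq_mul, hMfilter]
  have hM3 : ∀ u, M u ≠ r := by
    intro u hu
    have hall : ∀ j, e j = u := by
      by_contra hne
      rw [not_forall] at hne
      obtain ⟨j, hj⟩ := hne
      have h1 : (Finset.univ.filter (fun j => e j = u)).card < (Finset.univ : Finset (Fin r)).card := by
        apply Finset.card_lt_card
        rw [Finset.ssubset_iff_of_subset (Finset.filter_subset _ _)]
        exact ⟨j, Finset.mem_univ _, fun h => hj (Finset.mem_filter.1 h).2⟩
      rw [← hMfilter, hu, Finset.card_univ, Fintype.card_fin] at h1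
      exact lt_irrefl _ h1
    apply hns (ω ^ u.val)
    have hD : Matrix.diagonal (fun j => ω ^ (e j).val) =
        ω ^ u.val • (1 : Matrix (Fin r) (Fin r) F) := by
      rw [Matrix.smul_one_eq_diagonal]
      congr 1
      ext j
      rw [hall j]
    rw [hD, Matrix.smul_mul, Matrix.one_mul] at hg
    have h2 : (x : Matrix (Fin r) (Fin r) F) = ((g⁻¹ : GL (Fin r) F) : Matrix (Fin r) (Fin r) F) *
        ((g : Matrix (Fin r) (Fin r) F) * (x : Matrix (Fin r) (Fin r) F)) := by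
      rw [← Matrix.mul_assoc, ← Units.val_mul, inv_mul_cancel, Units.val_one, Matrix.one_mul]
    rw [h2, hg, Matrix.mul_smul, ← Units.val_mul, inv_mul_cancel, Units.val_one]
  obtain ⟨t, ht⟩ := hcomb M hM1 hM2 hM3
  obtain ⟨c, hcdef⟩ : ∃ c : F, c = ω ^ t.val := ⟨_, rfl⟩
  have hc : c ≠ 0 := by
    rw [hcdef]
    exact pow_ne_zero _ hω0
  have hy : (c⁻¹ • (x : Matrix (Fin r) (Fin r) F)) ^ r = 1 := by
    rw [_root_.smul_pow, hx, inv_pow, hcdef, ← pow_mul, mul_comm, pow_mul, hω1, one_pow, inv_one,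
      one_smul]
  have hgy : (g : Matrix (Fin r) (Fin r) F) * (c⁻¹ • (x : Matrix (Fin r) (Fin r) F)) =
      Matrix.diagonal (fun j => ω ^ (e j - t).val) * (g : Matrix (Fin r) (Fin r) F) := by
    rw [Matrix.mul_smul, hg, ← Matrix.smul_mul]
    congr 1
    ext i j
    by_cases hij : i = j
    · subst hij
      rw [Matrix.smul_apply, Matrix.diagonal_apply_eq, Matrix.diagonal_apply_eq, psi_sub hω1,
        hcdef, smul_eq_mul, mul_comm]
    · rw [Matrix.smul_apply, Matrix.diagonal_apply_ne _ hij, Matrix.diagonal_apply_ne _ hij,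
        smul_zero]
  have hchar : (c⁻¹ • (x : Matrix (Fin r) (Fin r) F)).charpoly =
      ∏ j, (X - C (ω ^ (e j - t).val)) := by
    have h1 : c⁻¹ • (x : Matrix (Fin r) (Fin r) F) =
        ((g⁻¹ : GL (Fin r) F) : Matrix (Fin r) (Fin r) F) *
          (Matrix.diagonal (fun j => ω ^ (e j - t).val) * (g : Matrix (Fin r) (Fin r) F)) := by
      rw [← hgy, ← Matrix.mul_assoc, ← Units.val_mul, inv_mul_cancel, Units.val_one,
        Matrix.one_mul]
    rw [h1, Matrix.charpoly_mul_comm, Matrix.mul_assoc, ← Units.val_mul, mul_inv_cancel,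
      Units.val_one, Matrix.mul_one, Matrix.charpoly_diagonal]
  have : Fintype ↥F₀ := Fintype.ofFinite _
  have hc₀ : Fintype.card ↥F₀ = q₀ := by rw [← hF₀, Nat.card_eq_fintype_card]
  obtain ⟨mm, -, hmm⟩ := FiniteField.card ↥F₀ p
  rw [hc₀] at hmm
  obtain ⟨φ, hφ⟩ : ∃ φ : F →+* F, ∀ a, φ a = a ^ q₀ :=
    ⟨iterateFrobenius F p mm, fun a => by rw [iterateFrobenius_def, hmm]⟩
  have hfibre : ∀ f : ZMod r → F[X], ∏ j, f (e j) = ∏ u, f u ^ M u := by
    intro f
    rw [← Finset.prod_fiberwise Finset.univ e (fun j => f (e j))]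
    apply Finset.prod_congr rfl
    intro u _
    rw [Finset.prod_congr rfl (fun j hj => by rw [(Finset.mem_filter.1 hj).2] :
      ∀ j ∈ Finset.univ.filter (fun j => e j = u), f (e j) = f u), Finset.prod_const, hMfilter]
  have hfix : (∏ j, (X - C (ω ^ (e j - t).val))).map φ = ∏ j, (X - C (ω ^ (e j - t).val)) := by
    have h1 : ∀ u : ZMod r, (ω ^ u.val) ^ q₀ = ω ^ (-u).val := by
      intro u
      rw [← psi_natCast_mul hω1, hQ, neg_one_mul]
    rw [Polynomial.map_prod]
    have h2 : ∀ j, (X - C (ω ^ (e j - t).val)).map φ = X - C (ω ^ (-(e j - t)).val) := by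
      intro j
      rw [Polynomial.map_sub, Polynomial.map_X, Polynomial.map_C, hφ, h1]
    rw [Finset.prod_congr rfl (fun j _ => h2 j)]
    rw [hfibre (fun u => X - C (ω ^ (-(u - t)).val)), hfibre (fun u => X - C (ω ^ (u - t).val))]
    rw [← Equiv.prod_comp (Equiv.subLeft t) (fun u => (X - C (ω ^ (-(u - t)).val)) ^ M u),
      ← Equiv.prod_comp (Equiv.addLeft t) (fun u => (X - C (ω ^ (u - t).val)) ^ M u)]
    apply Finset.prod_congr rfl
    intro v _
    simp only [Equiv.subLeft_apply, Equiv.coe_addLeft]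
    rw [ht v]
    have e1 : -(t - v - t) = v := by ring
    have e2 : t + v - t = v := by ring
    rw [e1, e2]
  have hlift : (c⁻¹ • (x : Matrix (Fin r) (Fin r) F)).charpoly ∈ Polynomial.lifts F₀.subtype := by
    rw [hchar, Polynomial.lifts_iff_coeff_lifts]
    intro k
    have h1 := congrArg (fun f => f.coeff k) hfix
    simp only [Polynomial.coeff_map, hφ] at h1
    exact ⟨⟨_, mem_of_pow_card F₀ q₀ hF₀ _ h1⟩, rfl⟩
  exact conj_of_lifts hr.pos F₀ x c hc (c⁻¹ • (x : Matrix (Fin r) (Fin r) F))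
    (by rw [smul_smul, mul_inv_cancel₀ hc, one_smul]) r ((Nat.coprime_primes hr hp).2 hrp) hy hlift

end Positive

section Comb35

theorem sum_zmod {A : Type*} [AddCommMonoid A] (r : ℕ) [NeZero r] (f : ZMod r → A) :
    ∑ u, f u = ∑ i ∈ Finset.range r, f (i : ZMod r) := by
  refine Finset.sum_nbij' (fun u => u.val) (fun i => (i : ZMod r)) ?_ ?_ ?_ ?_ ?_
  · intro u _
    exact Finset.mem_range.2 (ZMod.val_lt u)
  · intro i _
    exact Finset.mem_univ _
  · intro u _
    exact ZMod.natCast_zmod_val u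
  · intro i hi
    exact ZMod.val_cast_of_lt (Finset.mem_range.1 hi)
  · intro u _
    rw [ZMod.natCast_zmod_val]

theorem sym3 (M : ZMod 3 → ℕ) (t : ZMod 3) (h1 : M (t + 1) = M (t - 1)) :
    ∀ u, M (t + u) = M (t - u) := by
  intro u
  have hu : u = 0 ∨ u = 1 ∨ u = -1 := by
    revert u
    decide
  rcases hu with rfl | rfl | rfl
  · rw [add_zero, sub_zero]
  · exact h1
  · rw [← sub_eq_add_neg, sub_neg_eq_add]
    exact h1.symm

theorem sym5 (M : ZMod 5 → ℕ) (t : ZMod 5) (h1 : M (t + 1) = M (t - 1))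
    (h2 : M (t + 2) = M (t - 2)) : ∀ u, M (t + u) = M (t - u) := by
  intro u
  have hu : u = 0 ∨ u = 1 ∨ u = 2 ∨ u = -2 ∨ u = -1 := by
    revert u
    decide
  rcases hu with rfl | rfl | rfl | rfl | rfl
  · rw [add_zero, sub_zero]
  · exact h1
  · exact h2
  · rw [← sub_eq_add_neg, sub_neg_eq_add]
    exact h2.symm
  · rw [← sub_eq_add_neg, sub_neg_eq_add]
    exact h1.symm

theorem comb3 (M : ZMod 3 → ℕ) (h1 : ∑ u, M u = 3) (h2 : ∑ u, (M u : ZMod 3) * u = 0)
    (h3 : ∀ u, M u ≠ 3) : ∃ t : ZMod 3, ∀ u, M (t + u) = M (t - u) := by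
  rw [sum_zmod] at h1 h2
  simp only [Finset.sum_range_succ, Finset.sum_range_zero, zero_add, Nat.cast_zero, Nat.cast_one,
    Nat.cast_ofNat] at h1 h2
  have h2' : ((M 1 + 2 * M 2 : ℕ) : ZMod 3) = 0 := by
    push_cast
    linear_combination h2
  rw [ZMod.natCast_eq_zero_iff] at h2'
  have a3 := h3 0
  have b3 := h3 1
  have c3 := h3 2
  obtain ⟨a, ha⟩ : ∃ a, a = M 0 := ⟨_, rfl⟩
  obtain ⟨b, hb⟩ : ∃ b, b = M 1 := ⟨_, rfl⟩
  obtain ⟨c, hc⟩ : ∃ c, c = M 2 := ⟨_, rfl⟩
  rw [← ha, ← hb, ← hc] at h1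
  rw [← hb, ← hc] at h2'
  rw [← ha] at a3
  rw [← hb] at b3
  rw [← hc] at c3
  have key : b = c := by omega
  refine ⟨0, sym3 M 0 ?_⟩
  have e1 : (0 : ZMod 3) + 1 = 1 := by decide
  have e2 : (0 : ZMod 3) - 1 = 2 := by decide
  rw [e1, e2, ← hb, ← hc]
  exact key

/-- The Boolean form of the symmetry statement for five multiplicities. -/
def P5 (a b c d e : ℕ) : Bool :=
  !(a + b + c + d + e = 5) || !((b + 2 * c + 3 * d + 4 * e) % 5 = 0) || a = 5 || b = 5 || c = 5
    || d = 5 || e = 5 || (b = e && c = d) || (c = a && d = e) || (d = b && e = a)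
    || (e = c && a = b) || (a = d && b = c)

set_option maxRecDepth 100000 in
theorem key5 : ∀ a < 6, ∀ b < 6, ∀ c < 6, ∀ d < 6, ∀ e < 6, P5 a b c d e = true := by
  decide

theorem comb5 (M : ZMod 5 → ℕ) (h1 : ∑ u, M u = 5) (h2 : ∑ u, (M u : ZMod 5) * u = 0)
    (h3 : ∀ u, M u ≠ 5) : ∃ t : ZMod 5, ∀ u, M (t + u) = M (t - u) := by
  rw [sum_zmod] at h1 h2
  simp only [Finset.sum_range_succ, Finset.sum_range_zero, zero_add, Nat.cast_zero, Nat.cast_one,
    Nat.cast_ofNat] at h1 h2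
  have h2' : ((M 1 + 2 * M 2 + 3 * M 3 + 4 * M 4 : ℕ) : ZMod 5) = 0 := by
    push_cast
    linear_combination h2
  rw [ZMod.natCast_eq_zero_iff] at h2'
  have a5 := h3 0
  have b5 := h3 1
  have c5 := h3 2
  have d5 := h3 3
  have e5 := h3 4
  obtain ⟨a, ha⟩ : ∃ a, a = M 0 := ⟨_, rfl⟩
  obtain ⟨b, hb⟩ : ∃ b, b = M 1 := ⟨_, rfl⟩
  obtain ⟨c, hc⟩ : ∃ c, c = M 2 := ⟨_, rfl⟩
  obtain ⟨d, hd⟩ : ∃ d, d = M 3 := ⟨_, rfl⟩
  obtain ⟨e, he⟩ : ∃ e, e = M 4 := ⟨_, rfl⟩
  rw [← ha, ← hb, ← hc, ← hd, ← he] at h1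
  rw [← hb, ← hc, ← hd, ← he] at h2'
  rw [← ha] at a5
  rw [← hb] at b5
  rw [← hc] at c5
  rw [← hd] at d5
  rw [← he] at e5
  have key : (b = e ∧ c = d) ∨ (c = a ∧ d = e) ∨ (d = b ∧ e = a) ∨ (e = c ∧ a = b) ∨
      (a = d ∧ b = c) := by
    have hk := key5 a (by omega) b (by omega) c (by omega) d (by omega) e (by omega)
    unfold P5 at hk
    simp only [Bool.or_eq_true, Bool.and_eq_true, decide_eq_true_eq, Bool.not_eq_true',
      decide_eq_false_iff_not] at hk
    rcases hk with ((((((((((h | h) | h) | h) | h) | h) | h) | h) | h) | h) | h) | h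
    · exact absurd h1 h
    · exact absurd (Nat.mod_eq_zero_of_dvd h2') h
    · exact absurd h a5
    · exact absurd h b5
    · exact absurd h c5
    · exact absurd h d5
    · exact absurd h e5
    · exact Or.inl h
    · exact Or.inr (Or.inl h)
    · exact Or.inr (Or.inr (Or.inl h))
    · exact Or.inr (Or.inr (Or.inr (Or.inl h)))
    · exact Or.inr (Or.inr (Or.inr (Or.inr h)))
  rcases key with ⟨k1, k2⟩ | ⟨k1, k2⟩ | ⟨k1, k2⟩ | ⟨k1, k2⟩ | ⟨k1, k2⟩
  · refine ⟨0, sym5 M 0 ?_ ?_⟩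
    · rw [show (0 : ZMod 5) + 1 = 1 from by decide, show (0 : ZMod 5) - 1 = 4 from by decide,
        ← hb, ← he]
      exact k1
    · rw [show (0 : ZMod 5) + 2 = 2 from by decide, show (0 : ZMod 5) - 2 = 3 from by decide,
        ← hc, ← hd]
      exact k2
  · refine ⟨1, sym5 M 1 ?_ ?_⟩
    · rw [show (1 : ZMod 5) + 1 = 2 from by decide, show (1 : ZMod 5) - 1 = 0 from by decide,
        ← hc, ← ha]
      exact k1
    · rw [show (1 : ZMod 5) + 2 = 3 from by decide, show (1 : ZMod 5) - 2 = 4 from by decide,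
        ← hd, ← he]
      exact k2
  · refine ⟨2, sym5 M 2 ?_ ?_⟩
    · rw [show (2 : ZMod 5) + 1 = 3 from by decide, show (2 : ZMod 5) - 1 = 1 from by decide,
        ← hd, ← hb]
      exact k1
    · rw [show (2 : ZMod 5) + 2 = 4 from by decide, show (2 : ZMod 5) - 2 = 0 from by decide,
        ← he, ← ha]
      exact k2
  · refine ⟨3, sym5 M 3 ?_ ?_⟩
    · rw [show (3 : ZMod 5) + 1 = 4 from by decide, show (3 : ZMod 5) - 1 = 2 from by decide,
        ← he, ← hc]
      exact k1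
    · rw [show (3 : ZMod 5) + 2 = 0 from by decide, show (3 : ZMod 5) - 2 = 1 from by decide,
        ← ha, ← hb]
      exact k2
  · refine ⟨4, sym5 M 4 ?_ ?_⟩
    · rw [show (4 : ZMod 5) + 1 = 0 from by decide, show (4 : ZMod 5) - 1 = 3 from by decide,
        ← ha, ← hd]
      exact k1
    · rw [show (4 : ZMod 5) + 2 = 1 from by decide, show (4 : ZMod 5) - 2 = 2 from by decide,
        ← hb, ← hc]
      exact k2

end Comb35

end Cfsg.Agent.Lib.Helper40.Subf5

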