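-- Elements of prime order and stabilisers of tensor decompositions (helper40).
import Mathlib
import Cfsg.Prelude.Def_GeometricClasses
import Cfsg.Agent.Lib.Helper40.Elusive
import Cfsg.Agent.Lib.Helper40.Subf6
import Cfsg.Agent.Lib.Helper40.Ext2

set_option autoImplicit false

namespace Cfsg.Agent.Lib.Helper40.Tensor

open Matrix Polynomial
open scoped Kronecker

universe u

section kron

variable {F : Type u} [Field F] {a b : ℕ}

theorem kron_mulVec (A : Matrix (Fin a) (Fin a) F) (B : Matrix (Fin b) (Fin b) F)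
    (v : Fin a → F) (w : Fin b → F) :
    (A ⊗ₖ B) *ᵥ (fun ij : Fin a × Fin b => v ij.1 * w ij.2) =
      fun ij => (A *ᵥ v) ij.1 * (B *ᵥ w) ij.2 := by
  funext ⟨i, j⟩
  simp only [Matrix.mulVec, dotProduct, Matrix.kroneckerMap_apply, Fintype.sum_prod_type]
  rw [Finset.sum_mul_sum]
  apply Finset.sum_congr rfl
  intro i' _
  apply Finset.sum_congr rfl
  intro j' _
  ring

theorem rank_ge_of_inj {ι : Type*} [Fintype ι] [DecidableEq ι] {m : ℕ} (M : Matrix ι ι F)
    (φ : (Fin m → F) →ₗ[F] (ι → F)) (h : ∀ w, M *ᵥ φ w = 0 → w = 0) : m ≤ M.rank := by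
  have hinj : Function.Injective (M.mulVecLin ∘ₗ φ) := by
    rw [← LinearMap.ker_eq_bot, LinearMap.ker_eq_bot']
    intro w hw
    exact h w hw
  have h1 := LinearMap.finrank_range_of_inj hinj
  have h2 : LinearMap.range (M.mulVecLin ∘ₗ φ) ≤ LinearMap.range M.mulVecLin :=
    LinearMap.range_comp_le_range _ _
  have h3 := Submodule.finrank_mono h2
  rw [h1, Module.finrank_fin_fun] at h3
  exact h3

theorem exists_indep (A : Matrix (Fin a) (Fin a) F) (hA : ∀ α : F, A ≠ α • 1) :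
    ∃ v : Fin a → F, ∀ s t : F, s • (A *ᵥ v) + t • v = 0 → s = 0 := by
  by_contra hcon
  push Not at hcon
  have key : ∀ v : Fin a → F, ∃ l : F, A *ᵥ v = l • v := by
    intro v
    obtain ⟨s, t, h, hs⟩ := hcon v
    refine ⟨-t / s, ?_⟩
    have h2 : s • (A *ᵥ v) = (-t) • v := by
      rw [neg_smul]
      exact eq_neg_of_add_eq_zero_left h
    calc A *ᵥ v = s⁻¹ • (s • (A *ᵥ v)) := by rw [smul_smul, inv_mul_cancel₀ hs, one_smul]
      _ = (-t / s) • v := by
        rw [h2, smul_smul]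
        congr 1
        field_simp
  choose l hl using fun i : Fin a => key (Pi.single i 1)
  have hdiag : ∀ i k, A k i = l i * (if k = i then 1 else 0) := by
    intro i k
    have h := congrFun (hl i) k
    rw [Matrix.mulVec_single_one] at h
    rw [Pi.smul_apply, Pi.single_apply, smul_eq_mul] at h
    exact h
  have hl_eq : ∀ i j, l i = l j := by
    intro i j
    by_cases hij : i = j
    · rw [hij]
    obtain ⟨m, hm⟩ := key (Pi.single i 1 + Pi.single j 1)
    rw [Matrix.mulVec_add, Matrix.mulVec_single_one, Matrix.mulVec_single_one] at hm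
    have h1 := congrFun hm i
    have h2 := congrFun hm j
    simp only [Pi.add_apply, Pi.smul_apply, Pi.single_apply, smul_eq_mul, Matrix.col_apply,
      hdiag] at h1 h2
    simp [hij, Ne.symm hij] at h1 h2
    rw [h1, h2]
  rcases Nat.eq_zero_or_pos a with rfl | ha
  · exact hA 0 (Subsingleton.elim _ _)
  · apply hA (l ⟨0, ha⟩)
    ext k i
    rw [hdiag i k, hl_eq i ⟨0, ha⟩, Matrix.smul_apply, Matrix.one_apply, smul_eq_mul]

theorem rank_kron_ge (A : Matrix (Fin a) (Fin a) F) (B : Matrix (Fin b) (Fin b) F)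
    (hB : B.det ≠ 0) (hA : ∀ α : F, A ≠ α • 1) (μ : F) :
    b ≤ (A ⊗ₖ B - μ • (1 : Matrix (Fin a × Fin b) (Fin a × Fin b) F)).rank := by
  obtain ⟨v, hv⟩ := exists_indep A hA
  let φ : (Fin b → F) →ₗ[F] (Fin a × Fin b → F) :=
    { toFun := fun w ij => v ij.1 * w ij.2
      map_add' := fun w w' => by
        funext ij
        simp [mul_add]
      map_smul' := fun c w => by
        funext ij
        simp
        ring }
  apply rank_ge_of_inj _ φ
  intro w hw
  have h1 : (A ⊗ₖ B - μ • (1 : Matrix (Fin a × Fin b) (Fin a × Fin b) F)) *ᵥ φ w =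
      fun ij => (A *ᵥ v) ij.1 * (B *ᵥ w) ij.2 - μ * (v ij.1 * w ij.2) := by
    rw [Matrix.sub_mulVec, Matrix.smul_mulVec, Matrix.one_mulVec]
    have h2 := kron_mulVec A B v w
    funext ij
    rw [Pi.sub_apply, Pi.smul_apply, smul_eq_mul]
    exact congrArg (· - μ * (v ij.1 * w ij.2)) (congrFun h2 ij)
  rw [h1] at hw
  apply Matrix.eq_zero_of_mulVec_eq_zero hB
  funext j
  apply hv ((B *ᵥ w) j) (-(μ * w j))
  funext i
  have h3 := congrFun hw (i, j)
  simp only [Pi.add_apply, Pi.smul_apply, smul_eq_mul, Pi.zero_apply] at h3 ⊢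
  linear_combination h3

theorem rank_one_kron_ge (N : Matrix (Fin b) (Fin b) F) (hN : N ≠ 0) :
    a ≤ ((1 : Matrix (Fin a) (Fin a) F) ⊗ₖ N).rank := by
  have h0 : ∃ w : Fin b → F, N *ᵥ w ≠ 0 := by
    by_contra h
    push Not at h
    apply hN
    ext k l
    have h1 := congrFun (h (Pi.single l 1)) k
    rw [Matrix.mulVec_single_one] at h1
    exact h1
  obtain ⟨w, hw⟩ := h0
  have h0' : ∃ j, (N *ᵥ w) j ≠ 0 := by
    by_contra h
    push Not at h
    exact hw (funext h)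
  obtain ⟨j, hj⟩ := h0'
  let φ : (Fin a → F) →ₗ[F] (Fin a × Fin b → F) :=
    { toFun := fun u ij => u ij.1 * w ij.2
      map_add' := fun u u' => by
        funext ij
        simp [add_mul]
      map_smul' := fun c u => by
        funext ij
        simp
        ring }
  apply rank_ge_of_inj _ φ
  intro u hu
  have h1 := kron_mulVec (1 : Matrix (Fin a) (Fin a) F) N u w
  rw [Matrix.one_mulVec] at h1
  funext i
  have h2 := congrFun (h1.symm.trans hu) (i, j)
  simpa [hj] using h2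

theorem charpoly_one_kron (B : Matrix (Fin b) (Fin b) F) :
    ((1 : Matrix (Fin a) (Fin a) F) ⊗ₖ B).charpoly = B.charpoly ^ a := by
  have h : ((1 : Matrix (Fin a) (Fin a) F) ⊗ₖ B).charmatrix =
      (1 : Matrix (Fin a) (Fin a) F[X]) ⊗ₖ B.charmatrix := by
    ext ⟨i, k⟩ ⟨j, l⟩
    rw [Matrix.charmatrix_apply, Matrix.kroneckerMap_apply, Matrix.kroneckerMap_apply,
      Matrix.charmatrix_apply]
    by_cases hij : i = j
    · subst hij
      by_cases hkl : k = l <;> simp [Matrix.diagonal_apply, hkl]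
    · simp [Matrix.diagonal_apply, hij]
  unfold Matrix.charpoly
  rw [h, Matrix.det_kronecker, Matrix.det_one, one_pow, one_mul, Fintype.card_fin]

theorem kron_pow (A : Matrix (Fin a) (Fin a) F) (B : Matrix (Fin b) (Fin b) F) (k : ℕ) :
    (A ⊗ₖ B) ^ k = (A ^ k) ⊗ₖ (B ^ k) := by
  induction k with
  | zero => simp
  | succ k ih => rw [pow_succ, pow_succ, pow_succ, ih, Matrix.mul_kronecker_mul]

theorem scalar_of_kron (A' : Matrix (Fin a) (Fin a) F) (B' : Matrix (Fin b) (Fin b) F)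
    (hB : B' ≠ 0) (z : F) (h : A' ⊗ₖ B' = z • (1 : Matrix (Fin a × Fin b) (Fin a × Fin b) F)) :
    ∃ z' : F, A' = z' • (1 : Matrix (Fin a) (Fin a) F) := by
  have h0 : ∃ k l, B' k l ≠ 0 := by
    by_contra hh
    push Not at hh
    exact hB (by ext k l; exact hh k l)
  obtain ⟨k, l, hkl⟩ := h0
  refine ⟨(if k = l then z else 0) / B' k l, ?_⟩
  ext i j
  have h1 := congrFun (congrFun h (i, k)) (j, l)
  rw [Matrix.kroneckerMap_apply] at h1
  simp only [Matrix.smul_apply, Matrix.one_apply, Prod.mk.injEq, smul_eq_mul] at h1 ⊢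
  rw [div_mul_eq_mul_div, eq_div_iff hkl, h1]
  by_cases hij : i = j <;> by_cases hkl' : k = l <;> simp [hij, hkl']

theorem one_kron_sub (B : Matrix (Fin b) (Fin b) F) (μ : F) :
    (1 : Matrix (Fin a) (Fin a) F) ⊗ₖ B - μ • (1 : Matrix (Fin a × Fin b) (Fin a × Fin b) F) =
      (1 : Matrix (Fin a) (Fin a) F) ⊗ₖ (B - μ • (1 : Matrix (Fin b) (Fin b) F)) := by
  ext ⟨i, k⟩ ⟨j, l⟩
  simp only [Matrix.sub_apply, Matrix.kroneckerMap_apply, Matrix.smul_apply, Matrix.one_apply,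
    Prod.mk.injEq, smul_eq_mul]
  by_cases hij : i = j <;> by_cases hkl : k = l <;> simp [hij, hkl]

end kron

section mem

variable {F : Type u} [Field F] {n a b : ℕ}

theorem tensor_cases (hb : 0 < b) (e : Fin n ≃ Fin a × Fin b) (P x g : GL (Fin n) F)
    (h : g⁻¹ * x * g ∈ Cfsg.Geo.tensorProductSubgroup a b e P) :
    ∃ A : GL (Fin a) F,
      (∀ (k : ℕ) (z : F),
        (x : Matrix (Fin n) (Fin n) F) ^ k = z • (1 : Matrix (Fin n) (Fin n) F) →
        ∃ z' : F, (A : Matrix (Fin a) (Fin a) F) ^ k = z' • (1 : Matrix (Fin a) (Fin a) F)) ∧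
      ((∃ α : F, (A : Matrix (Fin a) (Fin a) F) = α • (1 : Matrix (Fin a) (Fin a) F)) →
        (∃ χ : F[X], (x : Matrix (Fin n) (Fin n) F).charpoly = χ ^ a) ∧
        ∀ μ : F, (x : Matrix (Fin n) (Fin n) F) ≠ μ • (1 : Matrix (Fin n) (Fin n) F) →
          a ≤ ((x : Matrix (Fin n) (Fin n) F) - μ • (1 : Matrix (Fin n) (Fin n) F)).rank) ∧
      ((∀ α : F, (A : Matrix (Fin a) (Fin a) F) ≠ α • (1 : Matrix (Fin a) (Fin a) F)) →
        ∀ μ : F,
          b ≤ ((x : Matrix (Fin n) (Fin n) F) - μ • (1 : Matrix (Fin n) (Fin n) F)).rank) := by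
  classical
  obtain ⟨y, hy, hxy⟩ := h
  obtain ⟨k, hk, rfl⟩ := hy
  obtain ⟨A, B, hAB⟩ := hk
  set T : Matrix (Fin a × Fin b) (Fin a × Fin b) F :=
    (A : Matrix (Fin a) (Fin a) F) ⊗ₖ (B : Matrix (Fin b) (Fin b) F) with hT
  set Φ := Matrix.reindexAlgEquiv F F e.symm with hΦ
  have hY : ((Cfsg.Geo.glReindex e.symm k : GL (Fin n) F) : Matrix (Fin n) (Fin n) F) = Φ T := by
    rw [← hAB]
    rfl
  have hconj : x * (g * P) = (g * P) * Cfsg.Geo.glReindex e.symm k := by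
    have h1 : P * Cfsg.Geo.glReindex e.symm k * P⁻¹ = g⁻¹ * x * g := hxy
    calc x * (g * P) = g * (g⁻¹ * x * g) * P := by group
      _ = g * (P * Cfsg.Geo.glReindex e.symm k * P⁻¹) * P := by rw [h1]
      _ = (g * P) * Cfsg.Geo.glReindex e.symm k := by group
  set hh : GL (Fin n) F := g * P with hhdef
  have hconjM : (hh : Matrix (Fin n) (Fin n) F) * Φ T =
      (x : Matrix (Fin n) (Fin n) F) * (hh : Matrix (Fin n) (Fin n) F) := by
    rw [← hY, ← Units.val_mul, ← Units.val_mul, hconj]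
  have hrank : ∀ μ : F, ((x : Matrix (Fin n) (Fin n) F) - μ • 1).rank = (T - μ • 1).rank := by
    intro μ
    rw [PGLClasses.rank_conj hh (Φ T) x hconjM μ]
    have h1 : Φ T - μ • (1 : Matrix (Fin n) (Fin n) F) = Φ (T - μ • 1) := by
      rw [map_sub, map_smul, map_one]
    rw [h1, hΦ, Matrix.coe_reindexAlgEquiv, Matrix.rank_reindex]
  have hchar : (x : Matrix (Fin n) (Fin n) F).charpoly = T.charpoly := by
    have h1 : (x : Matrix (Fin n) (Fin n) F) = (hh : Matrix (Fin n) (Fin n) F) * Φ T *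
        ((hh⁻¹ : GL (Fin n) F) : Matrix (Fin n) (Fin n) F) := by
      rw [hconjM, mul_assoc, ← Units.val_mul, mul_inv_cancel, Units.val_one, mul_one]
    rw [h1]
    have h2 := Matrix.charpoly_units_conj hh (Φ T)
    rw [Matrix.coe_units_inv, h2, hΦ, Matrix.coe_reindexAlgEquiv, Matrix.charpoly_reindex]
  have hpowc : ∀ j : ℕ, (hh : Matrix (Fin n) (Fin n) F) * (Φ T) ^ j =
      (x : Matrix (Fin n) (Fin n) F) ^ j * (hh : Matrix (Fin n) (Fin n) F) := by
    intro j
    induction j with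
    | zero => simp
    | succ j ih => rw [pow_succ, ← mul_assoc, ih, mul_assoc, hconjM, ← mul_assoc, ← pow_succ]
  have hpow : ∀ (j : ℕ) (z : F), (x : Matrix (Fin n) (Fin n) F) ^ j = z • 1 → T ^ j = z • 1 := by
    intro j z hz
    have h1 := hpowc j
    rw [hz] at h1
    have h2 : (Φ T) ^ j = z • 1 := by
      have h3 : ((hh⁻¹ : GL (Fin n) F) : Matrix (Fin n) (Fin n) F) *
          ((hh : Matrix (Fin n) (Fin n) F) * (Φ T) ^ j) = (Φ T) ^ j := by
        rw [← mul_assoc, ← Units.val_mul, inv_mul_cancel, Units.val_one, one_mul]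
      rw [← h3, h1, Matrix.smul_mul, Matrix.one_mul, Matrix.mul_smul, ← Units.val_mul,
        inv_mul_cancel, Units.val_one]
    apply Φ.injective
    rw [map_pow, h2, map_smul, map_one]
  have hBdet : (B : Matrix (Fin b) (Fin b) F).det ≠ 0 :=
    ((Matrix.isUnit_iff_isUnit_det _).1 B.isUnit).ne_zero
  refine ⟨A, ?_, ?_, ?_⟩
  · intro j z hz
    have h1 := hpow j z hz
    rw [hT, kron_pow] at h1
    refine scalar_of_kron _ _ ?_ z h1
    intro h0
    have h2 : ((B : Matrix (Fin b) (Fin b) F) ^ j).det = 0 := by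
      rw [h0]
      have hne : Nonempty (Fin b) := ⟨⟨0, hb⟩⟩
      exact Matrix.det_zero
    rw [Matrix.det_pow] at h2
    exact pow_ne_zero j hBdet h2
  · rintro ⟨α, hα⟩
    have hT' : T = (1 : Matrix (Fin a) (Fin a) F) ⊗ₖ (α • (B : Matrix (Fin b) (Fin b) F)) := by
      rw [hT, hα, Matrix.smul_kronecker, ← Matrix.kronecker_smul]
    constructor
    · exact ⟨(α • (B : Matrix (Fin b) (Fin b) F)).charpoly, by
        rw [hchar, hT', charpoly_one_kron]⟩
    · intro μ hμ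
      rw [hrank μ, hT', one_kron_sub]
      apply rank_one_kron_ge
      intro h0
      apply hμ
      have h1 := hrank μ
      rw [hT', one_kron_sub, h0] at h1
      have h2 : ((1 : Matrix (Fin a) (Fin a) F) ⊗ₖ (0 : Matrix (Fin b) (Fin b) F)) = 0 := by
        ext i j
        simp
      rw [h2, Matrix.rank_zero] at h1
      exact sub_eq_zero.1 (PGLClasses.eq_zero_of_rank_eq_zero _ h1)
  · intro hA μ
    rw [hrank μ]
    exact rank_kron_ge _ _ hBdet hA μ

theorem forward (hb : 0 < b) (e : Fin n ≃ Fin a × Fin b) (P : GL (Fin n) F) (r : ℕ)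
    (H : ∀ x ∈ Cfsg.Geo.specialLinear (Fin n) F,
      (∃ z : F, ((x ^ r : GL (Fin n) F) : Matrix (Fin n) (Fin n) F) =
        z • (1 : Matrix (Fin n) (Fin n) F)) →
      (∀ z : F, (x : Matrix (Fin n) (Fin n) F) ≠ z • (1 : Matrix (Fin n) (Fin n) F)) →
      ∃ g ∈ Cfsg.Geo.specialLinear (Fin n) F,
        g⁻¹ * x * g ∈ Cfsg.Geo.tensorProductSubgroup a b e P)
    (M : Matrix (Fin n) (Fin n) F) (hdet : M.det = 1) (z : F)
    (hM : M ^ r = z • (1 : Matrix (Fin n) (Fin n) F))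
    (hns : ∀ z : F, M ≠ z • (1 : Matrix (Fin n) (Fin n) F)) :
    ∃ A : GL (Fin a) F,
      (∃ z' : F, (A : Matrix (Fin a) (Fin a) F) ^ r = z' • (1 : Matrix (Fin a) (Fin a) F)) ∧
      ((∃ α : F, (A : Matrix (Fin a) (Fin a) F) = α • (1 : Matrix (Fin a) (Fin a) F)) →
        (∃ χ : F[X], M.charpoly = χ ^ a) ∧
        ∀ μ : F, a ≤ (M - μ • (1 : Matrix (Fin n) (Fin n) F)).rank) ∧
      ((∀ α : F, (A : Matrix (Fin a) (Fin a) F) ≠ α • (1 : Matrix (Fin a) (Fin a) F)) →
        ∀ μ : F, b ≤ (M - μ • (1 : Matrix (Fin n) (Fin n) F)).rank) := by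
  classical
  set s : Matrix.SpecialLinearGroup (Fin n) F := ⟨M, hdet⟩ with hs
  set x : GL (Fin n) F := Matrix.SpecialLinearGroup.toGL s with hx
  have hxM : (x : Matrix (Fin n) (Fin n) F) = M := rfl
  have hxmem : x ∈ Cfsg.Geo.specialLinear (Fin n) F := by
    rw [Cfsg.Geo.specialLinear, MonoidHom.mem_ker]
    apply Units.ext
    rw [Matrix.GeneralLinearGroup.val_det_apply]
    exact hdet
  obtain ⟨g, -, hg⟩ := H x hxmem ⟨z, by rw [Units.val_pow_eq_pow_val, hxM, hM]⟩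
    (by rw [hxM]; exact hns)
  obtain ⟨A, h1, h2, h3⟩ := tensor_cases hb e P x g hg
  rw [hxM] at h1 h2 h3
  exact ⟨A, h1 r z hM, fun hα => ⟨(h2 hα).1, fun μ => (h2 hα).2 μ (hns μ)⟩, h3⟩

end mem

section derange

variable {F : Type u} [Field F] {n : ℕ}

/-- The invariants of an element having a conjugate in the tensor product subgroup. -/
def Good (a b r : ℕ) (M : Matrix (Fin n) (Fin n) F) : Prop :=
  ∃ A : GL (Fin a) F,
    (∃ z' : F, (A : Matrix (Fin a) (Fin a) F) ^ r = z' • (1 : Matrix (Fin a) (Fin a) F)) ∧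
    ((∃ α : F, (A : Matrix (Fin a) (Fin a) F) = α • (1 : Matrix (Fin a) (Fin a) F)) →
      (∃ χ : F[X], M.charpoly = χ ^ a) ∧
      ∀ μ : F, a ≤ (M - μ • (1 : Matrix (Fin n) (Fin n) F)).rank) ∧
    ((∀ α : F, (A : Matrix (Fin a) (Fin a) F) ≠ α • (1 : Matrix (Fin a) (Fin a) F)) →
      ∀ μ : F, b ≤ (M - μ • (1 : Matrix (Fin n) (Fin n) F)).rank)

theorem not_good_of_rank {a b r : ℕ} (M : Matrix (Fin n) (Fin n) F) (μ : F)
    (h1 : (M - μ • (1 : Matrix (Fin n) (Fin n) F)).rank < a)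
    (h2 : (M - μ • (1 : Matrix (Fin n) (Fin n) F)).rank < b) : ¬ Good a b r M := by
  rintro ⟨A, -, h3, h4⟩
  by_cases hA : ∃ α : F, (A : Matrix (Fin a) (Fin a) F) = α • (1 : Matrix (Fin a) (Fin a) F)
  · have := (h3 hA).2 μ
    omega
  · push Not at hA
    have := h4 hA μ
    omega

theorem rank_le_of_rows {ι : Type*} [Fintype ι] [DecidableEq ι] (M : Matrix ι ι F)
    (S : Finset ι) (h : ∀ i, i ∉ S → ∀ j, M i j = 0) : M.rank ≤ S.card := by
  classical
  have h1 : M = Matrix.diagonal (fun i => if i ∈ S then (1 : F) else 0) * M := by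
    ext i j
    rw [Matrix.diagonal_mul]
    by_cases hi : i ∈ S
    · rw [if_pos hi, one_mul]
    · rw [if_neg hi, zero_mul, h i hi j]
  have h2 := Matrix.rank_mul_le_left (Matrix.diagonal (fun i => if i ∈ S then (1 : F) else 0)) M
  rw [← h1, Matrix.rank_diagonal] at h2
  have h3 : Fintype.card {i // (if i ∈ S then (1 : F) else 0) ≠ 0} = S.card := by
    rw [← Fintype.card_coe]
    apply Fintype.card_congr
    apply Equiv.subtypeEquivRight
    intro i
    by_cases hi : i ∈ S <;> simp [hi]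
  rw [h3] at h2
  exact h2

theorem sq_dvd_of_pow (Q χ f : F[X]) (hQ : Irreducible Q) (hQf : Q ∣ f) (a : ℕ) (ha : 2 ≤ a)
    (hf : f = χ ^ a) : Q ^ 2 ∣ f := by
  rw [hf] at hQf ⊢
  have h1 : Q ∣ χ := hQ.prime.dvd_of_dvd_pow hQf
  exact (pow_dvd_pow_of_dvd h1 2).trans (pow_dvd_pow χ ha)

theorem diag_charpoly_ne (d : Fin n → F) (i0 : Fin n) (hd : ∀ i, i ≠ i0 → d i ≠ d i0) (a : ℕ)
    (ha : 2 ≤ a) (χ : F[X]) : (Matrix.diagonal d).charpoly ≠ χ ^ a := by
  classical
  intro h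
  rw [Matrix.charpoly_diagonal] at h
  have hirr : Irreducible (X - C (d i0) : F[X]) := irreducible_X_sub_C _
  have h1 : (X - C (d i0) : F[X]) ∣ ∏ i, (X - C (d i)) :=
    Finset.dvd_prod_of_mem (fun i => (X - C (d i) : F[X])) (Finset.mem_univ i0)
  have h2 := sq_dvd_of_pow _ χ _ hirr h1 a ha h
  rw [← Finset.mul_prod_erase Finset.univ (fun i => (X - C (d i) : F[X])) (Finset.mem_univ i0),
    pow_two] at h2
  have h3 := (mul_dvd_mul_iff_left (X_sub_C_ne_zero (d i0))).1 h2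
  obtain ⟨i, hi, h4⟩ := (Prime.dvd_finsetProd_iff hirr.prime _).1 h3
  rw [Polynomial.dvd_iff_isRoot, IsRoot.def, eval_sub, eval_X, eval_C, sub_eq_zero] at h4
  exact hd i (Finset.ne_of_mem_erase hi) h4.symm

/-- A transvection is a derangement. -/
theorem bad_transv (p : ℕ) [Fact p.Prime] [CharP F p] (hn : 2 ≤ n) {a b : ℕ} (ha : 2 ≤ a)
    (hb : 2 ≤ b) :
    ∃ M : Matrix (Fin n) (Fin n) F, M.det = 1 ∧
      M ^ p = (1 : F) • (1 : Matrix (Fin n) (Fin n) F) ∧
      (∀ z : F, M ≠ z • (1 : Matrix (Fin n) (Fin n) F)) ∧ ¬ Good a b p M := by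
  classical
  obtain ⟨i0, hi0⟩ : ∃ i0 : Fin n, (i0 : ℕ) = 0 := ⟨⟨0, by omega⟩, rfl⟩
  obtain ⟨i1, hi1⟩ : ∃ i1 : Fin n, (i1 : ℕ) = 1 := ⟨⟨1, by omega⟩, rfl⟩
  have h01 : i0 ≠ i1 := by
    intro h
    rw [Fin.ext_iff] at h
    omega
  have hpow : ∀ k : ℕ, (Matrix.transvection i0 i1 (1 : F)) ^ k =
      Matrix.transvection i0 i1 (k : F) := by
    intro k
    induction k with
    | zero => rw [pow_zero, Nat.cast_zero, Matrix.transvection_zero]
    | succ k ih =>
      rw [pow_succ, ih, Matrix.transvection_mul_transvection_same i0 i1 h01, Nat.cast_succ]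
  refine ⟨Matrix.transvection i0 i1 1, Matrix.det_transvection_of_ne i0 i1 h01 1, ?_, ?_, ?_⟩
  · rw [hpow, CharP.cast_eq_zero, Matrix.transvection_zero, one_smul]
  · intro z hz
    have h5 := congrFun (congrFun hz i0) i1
    simp [Matrix.transvection, h01] at h5
  · have hr : (Matrix.transvection i0 i1 (1 : F) - (1 : F) • (1 : Matrix (Fin n) (Fin n) F)).rank
        ≤ 1 := by
      have h1 := rank_le_of_rows
        (Matrix.transvection i0 i1 (1 : F) - (1 : F) • (1 : Matrix (Fin n) (Fin n) F)) {i0}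
        (by
          intro i hi j
          rw [Finset.mem_singleton] at hi
          simp [Matrix.transvection, Matrix.single_apply, Ne.symm hi])
      simpa using h1
    exact not_good_of_rank _ 1 (by omega) (by omega)

/-- `diag(-1, -1, 1, …, 1)` is a derangement when `a ≥ 3`. -/
theorem bad_diag2 (h2F : (2 : F) ≠ 0) (hn : 3 ≤ n) {a b : ℕ} (ha : 3 ≤ a) (hb : 3 ≤ b) :
    ∃ M : Matrix (Fin n) (Fin n) F, M.det = 1 ∧
      M ^ 2 = (1 : F) • (1 : Matrix (Fin n) (Fin n) F) ∧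
      (∀ z : F, M ≠ z • (1 : Matrix (Fin n) (Fin n) F)) ∧ ¬ Good a b 2 M := by
  classical
  obtain ⟨i0, hi0⟩ : ∃ i0 : Fin n, (i0 : ℕ) = 0 := ⟨⟨0, by omega⟩, rfl⟩
  obtain ⟨i1, hi1⟩ : ∃ i1 : Fin n, (i1 : ℕ) = 1 := ⟨⟨1, by omega⟩, rfl⟩
  obtain ⟨i2, hi2⟩ : ∃ i2 : Fin n, (i2 : ℕ) = 2 := ⟨⟨2, by omega⟩, rfl⟩
  have h01 : i0 ≠ i1 := by
    intro h
    rw [Fin.ext_iff] at h
    omega
  have h20 : i2 ≠ i0 := by
    intro h
    rw [Fin.ext_iff] at h
    omega
  have h21 : i2 ≠ i1 := by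
    intro h
    rw [Fin.ext_iff] at h
    omega
  obtain ⟨d, hd⟩ : ∃ d : Fin n → F, d = fun i => if i = i0 ∨ i = i1 then (-1 : F) else 1 :=
    ⟨_, rfl⟩
  have hd0 : d i0 = -1 := by rw [hd]; simp
  have hd1 : d i1 = -1 := by rw [hd]; simp
  have hd2 : d i2 = 1 := by rw [hd]; simp [h20, h21]
  have hdo : ∀ i, i ≠ i0 ∧ i ≠ i1 → d i = 1 := by
    intro i hi
    rw [hd]
    simp [hi.1, hi.2]
  refine ⟨Matrix.diagonal d, ?_, ?_, ?_, ?_⟩
  · rw [Matrix.det_diagonal, Fintype.prod_eq_mul i0 i1 h01 hdo, hd0, hd1]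
    ring
  · rw [Matrix.diagonal_pow, one_smul, ← Matrix.diagonal_one]
    congr 1
    funext i
    rw [Pi.pow_apply, hd]
    by_cases hi : i = i0 ∨ i = i1 <;> simp [hi]
  · intro z hz
    rw [Matrix.smul_one_eq_diagonal] at hz
    have h3 := Matrix.diagonal_injective hz
    have h4 := congrFun h3 i0
    have h5 := congrFun h3 i2
    rw [hd0] at h4
    rw [hd2] at h5
    apply h2F
    linear_combination h5 - h4
  · have hr : (Matrix.diagonal d - (1 : F) • (1 : Matrix (Fin n) (Fin n) F)).rank ≤ 2 := by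
      have h1 := rank_le_of_rows
        (Matrix.diagonal d - (1 : F) • (1 : Matrix (Fin n) (Fin n) F)) {i0, i1}
        (by
          intro i hi j
          rw [Finset.mem_insert, Finset.mem_singleton, not_or] at hi
          rw [Matrix.sub_apply, Matrix.smul_apply, Matrix.one_apply, Matrix.diagonal_apply,
            hdo i hi]
          by_cases hij : i = j <;> simp [hij])
      exact h1.trans Finset.card_le_two
    exact not_good_of_rank _ 1 (by omega) (by omega)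

/-- `c • diag(-1, 1, …, 1)` with `c ^ n = -1` is a derangement. -/
theorem bad_diag_c (h2F : (2 : F) ≠ 0) (hn : 2 ≤ n) {a b : ℕ} (ha : 2 ≤ a) (hb : 2 ≤ b) (c : F)
    (hc : c ^ n = -1) :
    ∃ M : Matrix (Fin n) (Fin n) F, M.det = 1 ∧
      M ^ 2 = (c ^ 2) • (1 : Matrix (Fin n) (Fin n) F) ∧
      (∀ z : F, M ≠ z • (1 : Matrix (Fin n) (Fin n) F)) ∧ ¬ Good a b 2 M := by
  classical
  obtain ⟨i0, hi0⟩ : ∃ i0 : Fin n, (i0 : ℕ) = 0 := ⟨⟨0, by omega⟩, rfl⟩
  obtain ⟨i1, hi1⟩ : ∃ i1 : Fin n, (i1 : ℕ) = 1 := ⟨⟨1, by omega⟩, rfl⟩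
  have h10 : i1 ≠ i0 := by
    intro h
    rw [Fin.ext_iff] at h
    omega
  have hc0 : c ≠ 0 := by
    rintro rfl
    rw [zero_pow (by omega)] at hc
    have : (1 : F) = 0 := by linear_combination hc
    exact one_ne_zero this
  obtain ⟨ε, hε⟩ : ∃ ε : Fin n → F, ε = fun i => if i = i0 then (-1 : F) else 1 := ⟨_, rfl⟩
  have hε0 : ε i0 = -1 := by rw [hε]; simp
  have hεo : ∀ i, i ≠ i0 → ε i = 1 := by
    intro i hi
    rw [hε]
    simp [hi]
  refine ⟨Matrix.diagonal (fun i => c * ε i), ?_, ?_, ?_, ?_⟩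
  · rw [Matrix.det_diagonal, Finset.prod_mul_distrib, Finset.prod_const, Finset.card_univ,
      Fintype.card_fin, Fintype.prod_eq_single i0 hεo, hε0, hc]
    ring
  · rw [Matrix.diagonal_pow, Matrix.smul_one_eq_diagonal]
    congr 1
    funext i
    rw [Pi.pow_apply, hε]
    by_cases hi : i = i0 <;> simp [hi]
  · intro z hz
    rw [Matrix.smul_one_eq_diagonal] at hz
    have h3 := Matrix.diagonal_injective hz
    have h4 : c * ε i0 = z := congrFun h3 i0
    have h5 : c * ε i1 = z := congrFun h3 i1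
    rw [hε0] at h4
    rw [hεo i1 h10] at h5
    have h6 : (2 : F) * c = 0 := by linear_combination h5 - h4
    rcases mul_eq_zero.1 h6 with h | h
    · exact h2F h
    · exact hc0 h
  · have hr : (Matrix.diagonal (fun i => c * ε i) -
        c • (1 : Matrix (Fin n) (Fin n) F)).rank ≤ 1 := by
      have h1 := rank_le_of_rows
        (Matrix.diagonal (fun i => c * ε i) - c • (1 : Matrix (Fin n) (Fin n) F)) {i0}
        (by
          intro i hi j
          rw [Finset.mem_singleton] at hi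
          rw [Matrix.sub_apply, Matrix.smul_apply, Matrix.one_apply, Matrix.diagonal_apply,
            hεo i hi]
          by_cases hij : i = j <;> simp [hij])
      simpa using h1
    exact not_good_of_rank _ c (by omega) (by omega)

/-- `diag(ω, ω⁻¹, 1, …, 1)` is a derangement for a primitive `r`-th root of unity `ω`, `r` odd. -/
theorem bad_diag_omega (r : ℕ) [Fact r.Prime] (hr2 : r ≠ 2) (ω : F) (hω : IsPrimitiveRoot ω r)
    (hn : 3 ≤ n) {a b : ℕ} (ha : 2 ≤ a) (hb : 3 ≤ b) :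
    ∃ M : Matrix (Fin n) (Fin n) F, M.det = 1 ∧
      M ^ r = (1 : F) • (1 : Matrix (Fin n) (Fin n) F) ∧
      (∀ z : F, M ≠ z • (1 : Matrix (Fin n) (Fin n) F)) ∧ ¬ Good a b r M := by
  classical
  have hr : r.Prime := Fact.out
  obtain ⟨i0, hi0⟩ : ∃ i0 : Fin n, (i0 : ℕ) = 0 := ⟨⟨0, by omega⟩, rfl⟩
  obtain ⟨i1, hi1⟩ : ∃ i1 : Fin n, (i1 : ℕ) = 1 := ⟨⟨1, by omega⟩, rfl⟩
  obtain ⟨i2, hi2⟩ : ∃ i2 : Fin n, (i2 : ℕ) = 2 := ⟨⟨2, by omega⟩, rfl⟩
  have h01 : i0 ≠ i1 := by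
    intro h
    rw [Fin.ext_iff] at h
    omega
  have h20 : i2 ≠ i0 := by
    intro h
    rw [Fin.ext_iff] at h
    omega
  have h21 : i2 ≠ i1 := by
    intro h
    rw [Fin.ext_iff] at h
    omega
  have hω0 : ω ≠ 0 := hω.ne_zero hr.ne_zero
  have hω1 : ω ≠ 1 := hω.ne_one hr.one_lt
  have hωr : ω ^ r = 1 := hω.pow_eq_one
  have hωi : ω⁻¹ ≠ ω := by
    intro h
    have h1 : ω ^ 2 = 1 := by
      rw [pow_two]
      nth_rewrite 1 [← h]
      exact inv_mul_cancel₀ hω0
    have h2 := hω.dvd_of_pow_eq_one 2 h1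
    have h3 := (Nat.prime_dvd_prime_iff_eq hr Nat.prime_two).1 h2
    exact hr2 h3
  obtain ⟨d, hd⟩ : ∃ d : Fin n → F, d = fun i => if i = i0 then ω else if i = i1 then ω⁻¹ else 1 :=
    ⟨_, rfl⟩
  have hd0 : d i0 = ω := by rw [hd]; simp
  have hd1 : d i1 = ω⁻¹ := by rw [hd]; simp [Ne.symm h01]
  have hd2 : d i2 = 1 := by rw [hd]; simp [h20, h21]
  have hdo : ∀ i, i ≠ i0 ∧ i ≠ i1 → d i = 1 := by
    intro i hi
    rw [hd]
    simp [hi.1, hi.2]
  refine ⟨Matrix.diagonal d, ?_, ?_, ?_, ?_⟩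
  · rw [Matrix.det_diagonal, Fintype.prod_eq_mul i0 i1 h01 hdo, hd0, hd1, mul_inv_cancel₀ hω0]
  · rw [Matrix.diagonal_pow, one_smul, ← Matrix.diagonal_one]
    congr 1
    funext i
    rw [Pi.pow_apply, hd]
    by_cases hi : i = i0
    · simp [hi, hωr]
    · by_cases hi' : i = i1
      · simp [hi', Ne.symm h01, hωr]
      · simp [hi, hi']
  · intro z hz
    rw [Matrix.smul_one_eq_diagonal] at hz
    have h3 := Matrix.diagonal_injective hz
    have h4 := congrFun h3 i0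
    have h5 := congrFun h3 i2
    rw [hd0] at h4
    rw [hd2] at h5
    exact hω1 (h4.trans h5.symm)
  · have hr' : (Matrix.diagonal d - (1 : F) • (1 : Matrix (Fin n) (Fin n) F)).rank ≤ 2 := by
      have h1 := rank_le_of_rows
        (Matrix.diagonal d - (1 : F) • (1 : Matrix (Fin n) (Fin n) F)) {i0, i1}
        (by
          intro i hi j
          rw [Finset.mem_insert, Finset.mem_singleton, not_or] at hi
          rw [Matrix.sub_apply, Matrix.smul_apply, Matrix.one_apply, Matrix.diagonal_apply,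
            hdo i hi]
          by_cases hij : i = j <;> simp [hij])
      exact h1.trans Finset.card_le_two
    rintro ⟨A, -, h3, h4⟩
    by_cases hA : ∃ α : F, (A : Matrix (Fin a) (Fin a) F) = α • (1 : Matrix (Fin a) (Fin a) F)
    · obtain ⟨χ, hχ⟩ := (h3 hA).1
      refine diag_charpoly_ne d i0 ?_ a ha χ hχ
      intro i hi
      rw [hd0]
      by_cases hi' : i = i1
      · rw [hi', hd1]
        exact hωi
      · rw [hdo i ⟨hi, hi'⟩]
        exact Ne.symm hω1
    · push Not at hA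
      have := h4 hA 1
      omega

end derange

section finite

variable {F : Type u} [Field F] [Fintype F]

theorem le_of_dvd_card_GL {p : ℕ} [Fact p.Prime] [CharP F p] {q : ℕ} (hq : Fintype.card F = q)
    (m : ℕ) (r : ℕ) [Fact r.Prime] (hrp : r ≠ p) (h : r ∣ Nat.card (GL (Fin m) F)) :
    orderOf (q : ZMod r) ≤ m := by
  classical
  have hr : r.Prime := Fact.out
  have h2 := Matrix.card_GL_field (𝔽 := F) m
  rw [hq] at h2
  rw [h2] at h
  obtain ⟨i', -, hi'⟩ := (Prime.dvd_finsetProd_iff (Nat.Prime.prime hr) _).1 h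
  have hq1 : 1 ≤ q := by
    rw [← hq]
    exact Fintype.card_pos
  have hlt : (i' : ℕ) < m := i'.2
  have hle : q ^ (i' : ℕ) ≤ q ^ m := Nat.pow_le_pow_right hq1 hlt.le
  have h4 : ((q ^ m - q ^ (i' : ℕ) : ℕ) : ZMod r) = 0 := (ZMod.natCast_eq_zero_iff _ _).2 hi'
  rw [Nat.cast_sub hle] at h4
  push_cast at h4
  have hqr := Subf5.natCast_card_ne_zero hq r hrp
  have e : m = (i' : ℕ) + (m - (i' : ℕ)) := by omega
  have h5 : ((q : ℕ) : ZMod r) ^ (m - (i' : ℕ)) = 1 := by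
    have h6 : ((q : ℕ) : ZMod r) ^ m =
        ((q : ℕ) : ZMod r) ^ (i' : ℕ) * ((q : ℕ) : ZMod r) ^ (m - (i' : ℕ)) := by
      rw [← pow_add]
      exact congrArg (((q : ℕ) : ZMod r) ^ ·) e
    rw [h6] at h4
    exact mul_left_cancel₀ (pow_ne_zero _ hqr) ((sub_eq_zero.1 h4).trans (mul_one _).symm)
  have h7 := Nat.le_of_dvd (by omega) (orderOf_dvd_of_pow_eq_one h5)
  omega

theorem scalar_of_coprime {a : ℕ} (A : GL (Fin a) F) (r : ℕ) [Fact r.Prime]
    (hr : ¬ r ∣ Nat.card (GL (Fin a) F)) (z' : F)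
    (h : (A : Matrix (Fin a) (Fin a) F) ^ r = z' • (1 : Matrix (Fin a) (Fin a) F)) :
    ∃ α : F, (A : Matrix (Fin a) (Fin a) F) = α • (1 : Matrix (Fin a) (Fin a) F) := by
  have hrp : r.Prime := Fact.out
  obtain ⟨N, hN⟩ : ∃ N : ℕ, N = Nat.card (GL (Fin a) F) := ⟨_, rfl⟩
  rw [← hN] at hr
  have hcop : Nat.Coprime r N := (Nat.Prime.coprime_iff_not_dvd hrp).2 hr
  have hNpos : 0 < N := by
    rw [hN]
    exact Nat.card_pos
  rcases Nat.lt_or_ge 1 N with h1 | h1
  · obtain ⟨u, -, hu⟩ := Nat.exists_mul_mod_eq_one_of_coprime hcop h1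
    have h2 : r * u = N * (r * u / N) + 1 := by
      have := Nat.div_add_mod (r * u) N
      omega
    have h3 : A ^ (r * u) = A := by
      rw [h2, pow_succ, pow_mul, hN, pow_card_eq_one', one_pow, one_mul]
    refine ⟨z' ^ u, ?_⟩
    have h4 : (A : Matrix (Fin a) (Fin a) F) ^ (r * u) = (A : Matrix (Fin a) (Fin a) F) := by
      rw [← Units.val_pow_eq_pow_val, h3]
    rw [← h4, pow_mul, h, _root_.smul_pow, one_pow]
  · have h2 : Nat.card (GL (Fin a) F) = 1 := by omega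
    have h3 : A = 1 := by
      have hsub : Subsingleton (GL (Fin a) F) := (Nat.card_eq_one_iff_unique.1 h2).1
      exact Subsingleton.elim _ _
    exact ⟨1, by rw [h3, one_smul]; rfl⟩

/-- An element with a single irreducible block of degree `ord_r(q) ≥ 2` is a derangement. -/
theorem bad_block {p q : ℕ} [Fact p.Prime] [CharP F p] (hF : Fintype.card F = q) (n r : ℕ)
    [Fact r.Prime] (hrp : r ≠ p) (hi : 2 ≤ orderOf (q : ZMod r)) (hin : orderOf (q : ZMod r) ≤ n)
    {a b : ℕ} (ha : 2 ≤ a) (hab : a < b) :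
    ∃ M : Matrix (Fin n) (Fin n) F, M.det = 1 ∧
      M ^ r = (1 : F) • (1 : Matrix (Fin n) (Fin n) F) ∧
      (∀ z : F, M ≠ z • (1 : Matrix (Fin n) (Fin n) F)) ∧ ¬ Good a b r M := by
  classical
  have hr : r.Prime := Fact.out
  obtain ⟨S, hS, ⟨π₀, hπ₀⟩⟩ := Elusive.exists_factors hF r hrp
  obtain ⟨c, hcdef⟩ : ∃ c : ℕ, c = orderOf (q : ZMod r) := ⟨_, rfl⟩
  rw [← hcdef] at hS hi hin
  let a' : S → ℕ := fun π => if π.1 = π₀ then 1 else 0
  have hsum : ∑ π, a' π = 1 := by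
    rw [Finset.sum_eq_single ⟨π₀, hπ₀⟩]
    · simp [a']
    · intro b _ hb
      have : b.1 ≠ π₀ := fun h => hb (Subtype.ext h)
      simp [a', this]
    · intro h
      exact absurd (Finset.mem_univ _) h
  have ha' : c * ∑ π, a' π ≤ c := by rw [hsum, mul_one]
  obtain ⟨G, hG, hχ⟩ := PrimeOrderGL.exists_GL_chi (n := c) p hS hr.pos a' ha'
  have hχ' : (G : Matrix (Fin c) (Fin c) F).charpoly = π₀ := by
    rw [hχ, hsum, mul_one, Nat.sub_self]
    unfold PrimeOrderGL.chi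
    rw [pow_zero, one_mul, Finset.prod_eq_single ⟨π₀, hπ₀⟩]
    · simp [a']
    · intro b _ hb
      have : b.1 ≠ π₀ := fun h => hb (Subtype.ext h)
      simp [a', this]
    · intro h
      exact absurd (Finset.mem_univ _) h
  have hGr : (G : Matrix (Fin c) (Fin c) F) ^ r = 1 := by
    rw [← Units.val_pow_eq_pow_val, hG]
    rfl
  have hq2 : 2 ≤ q := by
    rw [← hF]
    exact Fintype.one_lt_card
  have hdetG : (G : Matrix (Fin c) (Fin c) F).det = 1 := by
    have h1 : (G : Matrix (Fin c) (Fin c) F).det ^ r = 1 := by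
      rw [← Matrix.det_pow, hGr, Matrix.det_one]
    have h0 : (G : Matrix (Fin c) (Fin c) F).det ≠ 0 := by
      intro h
      rw [h, zero_pow hr.ne_zero] at h1
      exact zero_ne_one h1
    have h2 : (G : Matrix (Fin c) (Fin c) F).det ^ (q - 1) = 1 := by
      rw [← hF]
      exact FiniteField.pow_card_sub_one_eq_one _ h0
    have h3 : ¬ r ∣ q - 1 := by
      intro h
      have h' := (Elusive.dvd_pow_sub_one_iff q r (by omega) 1).1 (by simpa using h)
      have := Nat.le_of_dvd one_pos h'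
      omega
    have h4 : Nat.gcd r (q - 1) = 1 := (Nat.Prime.coprime_iff_not_dvd hr).2 h3
    have h5 := pow_gcd_eq_one.2 ⟨h1, h2⟩
    rwa [h4, pow_one] at h5
  have hπirr := hS.irred π₀ hπ₀
  have hπdeg : π₀.natDegree = c := hS.deg π₀ hπ₀
  have hnc : c + (n - c) = n := by omega
  obtain ⟨e', he'⟩ : ∃ e' : Fin c ⊕ Fin (n - c) ≃ Fin n, e' = finSumFinEquiv.trans (finCongr hnc) :=
    ⟨_, rfl⟩
  obtain ⟨N, hN⟩ : ∃ N : Matrix (Fin c ⊕ Fin (n - c)) (Fin c ⊕ Fin (n - c)) F,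
      N = Matrix.fromBlocks (G : Matrix (Fin c) (Fin c) F) 0 0 1 := ⟨_, rfl⟩
  obtain ⟨Ψ, hΨ⟩ : ∃ Ψ : Matrix (Fin c ⊕ Fin (n - c)) (Fin c ⊕ Fin (n - c)) F ≃ₐ[F]
      Matrix (Fin n) (Fin n) F, Ψ = Matrix.reindexAlgEquiv F F e' := ⟨_, rfl⟩
  have hNpow : ∀ k : ℕ, N ^ k =
      Matrix.fromBlocks ((G : Matrix (Fin c) (Fin c) F) ^ k) 0 0 1 := by
    intro k
    induction k with
    | zero => rw [pow_zero, pow_zero, Matrix.fromBlocks_one]
    | succ k ih =>
      rw [pow_succ, ih, hN, Matrix.fromBlocks_multiply]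
      simp [pow_succ]
  have hX1 : (X - 1 : F[X]) = X - C 1 := by rw [C_1]
  have hchar : (Ψ N).charpoly = π₀ * (X - C 1) ^ (n - c) := by
    rw [hΨ, Matrix.coe_reindexAlgEquiv, Matrix.charpoly_reindex, hN,
      Matrix.charpoly_fromBlocks_zero₁₂, hχ', Matrix.charpoly_one, Fintype.card_fin, hX1]
  refine ⟨Ψ N, ?_, ?_, ?_, ?_⟩
  · rw [hΨ, Matrix.coe_reindexAlgEquiv, Matrix.det_reindex_self, hN,
      Matrix.det_fromBlocks_zero₁₂, hdetG, Matrix.det_one, mul_one]
  · rw [← map_pow, hNpow, hGr, Matrix.fromBlocks_one, map_one, one_smul]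
  · intro z hz
    have h1 : π₀ ∣ (Ψ N).charpoly := by
      rw [hchar]
      exact dvd_mul_right _ _
    rw [hz, Matrix.smul_one_eq_diagonal, Matrix.charpoly_diagonal, Finset.prod_const] at h1
    have h2 := hπirr.prime.dvd_of_dvd_pow h1
    have h3 := natDegree_le_of_dvd h2 (X_sub_C_ne_zero z)
    rw [natDegree_X_sub_C, hπdeg] at h3
    omega
  · have hrank : (Ψ N - (1 : F) • (1 : Matrix (Fin n) (Fin n) F)).rank ≤ c := by
      have h1 : Ψ N - (1 : F) • (1 : Matrix (Fin n) (Fin n) F) = Ψ (N - 1) := by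
        rw [map_sub, map_one, one_smul]
      rw [h1, hΨ, Matrix.coe_reindexAlgEquiv, Matrix.rank_reindex]
      have h2 := rank_le_of_rows (N - 1) (Finset.univ.map ⟨Sum.inl, Sum.inl_injective⟩) (by
        intro i hi j
        rcases i with i | i
        · exact absurd (Finset.mem_map_of_mem _ (Finset.mem_univ i)) hi
        · rcases j with j | j
          · simp [hN]
          · simp [hN, Matrix.one_apply])
      rw [Finset.card_map, Finset.card_univ, Fintype.card_fin] at h2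
      exact h2
    rintro ⟨A, ⟨z', hz'⟩, h3, h4⟩
    have hA : ∃ α : F, (A : Matrix (Fin a) (Fin a) F) =
        α • (1 : Matrix (Fin a) (Fin a) F) := by
      rcases Nat.lt_or_ge a c with hac | hac
      · apply scalar_of_coprime A r _ z' hz'
        intro hdvd
        have := le_of_dvd_card_GL hF a r hrp hdvd
        omega
      · by_contra hA
        push Not at hA
        have := h4 hA 1
        omega
    obtain ⟨χ, hχ2⟩ := (h3 hA).1
    have h5 := sq_dvd_of_pow π₀ χ _ hπirr (by rw [hchar]; exact dvd_mul_right _ _) a ha hχ2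
    rw [hchar, pow_two] at h5
    have h6 := (mul_dvd_mul_iff_left hπirr.ne_zero).1 h5
    have h7 := hπirr.prime.dvd_of_dvd_pow h6
    have h8 := natDegree_le_of_dvd h7 (X_sub_C_ne_zero 1)
    rw [natDegree_X_sub_C, hπdeg] at h8
    omega

end finite

section backward

variable {F : Type u} [Field F] [Fintype F]

omit [Fintype F] in
theorem card_fin_lt (b m : ℕ) (h : m ≤ b) :
    (Finset.univ.filter (fun k : Fin b => k.val < m)).card = m := by
  have h1 : Finset.univ.filter (fun k : Fin b => k.val < m) =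
      Finset.univ.map (Fin.castLEEmb h) := by
    ext k
    simp only [Finset.mem_filter, Finset.mem_univ, true_and, Finset.mem_map]
    constructor
    · intro hk
      exact ⟨⟨k.val, hk⟩, Fin.ext rfl⟩
    · rintro ⟨j, rfl⟩
      exact j.2
  rw [h1, Finset.card_map, Finset.card_univ, Fintype.card_fin]

omit [Fintype F] in
theorem zmod2_pow (t : ZMod 2) (w : F) : w ^ t.val = if t = 1 then w else 1 := by
  have h : t = 0 ∨ t = 1 := by
    revert t
    decide
  rcases h with rfl | rfl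
  · simp
  · simp [ZMod.val_one]

omit [Fintype F] in
theorem prod_ite_const {ι : Type*} [Fintype ι] {R : Type*} [CommMonoid R] (pr : ι → Prop)
    [DecidablePred pr] (u v : R) :
    ∏ j, (if pr j then u else v) = u ^ (Finset.univ.filter pr).card *
      v ^ (Fintype.card ι - (Finset.univ.filter pr).card) := by
  rw [Finset.prod_ite, Finset.prod_const, Finset.prod_const]
  congr 2
  have h := Finset.card_filter_add_card_filter_not (s := (Finset.univ : Finset ι)) pr
  rw [Finset.card_univ] at h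
  omega

/-- Conjugating into the tensor product subgroup via the characteristic polynomial. -/
theorem conj_of_kron (hodd : Odd (Fintype.card F)) {n b : ℕ} (e : Fin n ≃ Fin 2 × Fin b)
    (P : GL (Fin n) F) (x : GL (Fin n) F) (hx : x ∈ Cfsg.Geo.specialLinear (Fin n) F) (z : F)
    (hz : z ≠ 0)
    (hxz : (x : Matrix (Fin n) (Fin n) F) ^ 2 = z • (1 : Matrix (Fin n) (Fin n) F))
    (A : GL (Fin 2) F) (B : GL (Fin b) F)
    (hT2 : ((A : Matrix (Fin 2) (Fin 2) F) ⊗ₖ (B : Matrix (Fin b) (Fin b) F)) ^ 2 =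
      z • (1 : Matrix (Fin 2 × Fin b) (Fin 2 × Fin b) F))
    (hTc : ((A : Matrix (Fin 2) (Fin 2) F) ⊗ₖ (B : Matrix (Fin b) (Fin b) F)).charpoly =
      (x : Matrix (Fin n) (Fin n) F).charpoly) :
    ∃ g ∈ Cfsg.Geo.specialLinear (Fin n) F,
      g⁻¹ * x * g ∈ Cfsg.Geo.tensorProductSubgroup 2 b e P := by
  classical
  obtain ⟨T, hT⟩ : ∃ T : Matrix (Fin 2 × Fin b) (Fin 2 × Fin b) F,
      T = (A : Matrix (Fin 2) (Fin 2) F) ⊗ₖ (B : Matrix (Fin b) (Fin b) F) := ⟨_, rfl⟩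
  rw [← hT] at hT2 hTc
  obtain ⟨k, hk⟩ : ∃ k : GL (Fin 2 × Fin b) F,
      (k : Matrix (Fin 2 × Fin b) (Fin 2 × Fin b) F) = T := by
    refine ⟨⟨T, ((A⁻¹ : GL (Fin 2) F) : Matrix (Fin 2) (Fin 2) F) ⊗ₖ
      ((B⁻¹ : GL (Fin b) F) : Matrix (Fin b) (Fin b) F), ?_, ?_⟩, rfl⟩
    · rw [hT, ← Matrix.mul_kronecker_mul, ← Units.val_mul, ← Units.val_mul, mul_inv_cancel,
        mul_inv_cancel, Units.val_one, Units.val_one, Matrix.one_kronecker_one]
    · rw [hT, ← Matrix.mul_kronecker_mul, ← Units.val_mul, ← Units.val_mul, inv_mul_cancel,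
        inv_mul_cancel, Units.val_one, Units.val_one, Matrix.one_kronecker_one]
  have hkmem : k ∈ Cfsg.Geo.kroneckerSubgroup 2 b F := ⟨A, B, by rw [hk, hT]⟩
  obtain ⟨y, hy⟩ : ∃ y : GL (Fin n) F, y = P * Cfsg.Geo.glReindex e.symm k * P⁻¹ := ⟨_, rfl⟩
  have hymem : y ∈ Cfsg.Geo.tensorProductSubgroup 2 b e P := by
    rw [hy]
    exact ⟨Cfsg.Geo.glReindex e.symm k, ⟨k, hkmem, rfl⟩, rfl⟩
  obtain ⟨Φ, hΦ⟩ : ∃ Φ : Matrix (Fin 2 × Fin b) (Fin 2 × Fin b) F ≃ₐ[F]
      Matrix (Fin n) (Fin n) F, Φ = Matrix.reindexAlgEquiv F F e.symm := ⟨_, rfl⟩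
  have hyM : (y : Matrix (Fin n) (Fin n) F) = (P : Matrix (Fin n) (Fin n) F) * Φ T *
      ((P⁻¹ : GL (Fin n) F) : Matrix (Fin n) (Fin n) F) := by
    rw [hy, Units.val_mul, Units.val_mul, hΦ, ← hk]
    rfl
  have hychar : (y : Matrix (Fin n) (Fin n) F).charpoly =
      (x : Matrix (Fin n) (Fin n) F).charpoly := by
    rw [hyM, Matrix.coe_units_inv, Matrix.charpoly_units_conj, hΦ, Matrix.coe_reindexAlgEquiv,
      Matrix.charpoly_reindex, hTc]
  have hy2 : (y : Matrix (Fin n) (Fin n) F) ^ 2 = z • (1 : Matrix (Fin n) (Fin n) F) := by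
    have h1 : (Φ T) ^ 2 = z • (1 : Matrix (Fin n) (Fin n) F) := by
      rw [← map_pow, hT2, map_smul, map_one]
    rw [hyM, pow_two]
    calc (P : Matrix (Fin n) (Fin n) F) * Φ T *
          ((P⁻¹ : GL (Fin n) F) : Matrix (Fin n) (Fin n) F) *
          ((P : Matrix (Fin n) (Fin n) F) * Φ T *
          ((P⁻¹ : GL (Fin n) F) : Matrix (Fin n) (Fin n) F))
        = (P : Matrix (Fin n) (Fin n) F) * (Φ T *
          (((P⁻¹ : GL (Fin n) F) : Matrix (Fin n) (Fin n) F) * (P : Matrix (Fin n) (Fin n) F)) *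
          Φ T) * ((P⁻¹ : GL (Fin n) F) : Matrix (Fin n) (Fin n) F) := by
          simp only [mul_assoc]
      _ = (P : Matrix (Fin n) (Fin n) F) * (Φ T) ^ 2 *
          ((P⁻¹ : GL (Fin n) F) : Matrix (Fin n) (Fin n) F) := by
          rw [← Units.val_mul, inv_mul_cancel, Units.val_one, mul_one, pow_two]
      _ = z • (1 : Matrix (Fin n) (Fin n) F) := by
          rw [h1, Matrix.mul_smul, Matrix.smul_mul, mul_one, ← Units.val_mul, mul_inv_cancel,
            Units.val_one]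
  have hdetx : (x : Matrix (Fin n) (Fin n) F).det = 1 := by
    have h1 : Matrix.GeneralLinearGroup.det x = 1 := hx
    rw [← Matrix.GeneralLinearGroup.val_det_apply, h1, Units.val_one]
  have hdety : (y : Matrix (Fin n) (Fin n) F).det = 1 := by
    rw [Matrix.det_eq_sign_charpoly_coeff, hychar, ← Matrix.det_eq_sign_charpoly_coeff, hdetx]
  obtain ⟨sx, hsx⟩ : ∃ sx : Matrix.SpecialLinearGroup (Fin n) F,
      (sx : Matrix (Fin n) (Fin n) F) = (x : Matrix (Fin n) (Fin n) F) := ⟨⟨_, hdetx⟩, rfl⟩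
  obtain ⟨sy, hsy⟩ : ∃ sy : Matrix.SpecialLinearGroup (Fin n) F,
      (sy : Matrix (Fin n) (Fin n) F) = (y : Matrix (Fin n) (Fin n) F) := ⟨⟨_, hdety⟩, rfl⟩
  have hss : ∀ M : Matrix (Fin n) (Fin n) F, M ^ 2 = z • (1 : Matrix (Fin n) (Fin n) F) →
      Module.End.IsSemisimple (Matrix.toLin' M) := by
    intro M hM
    exact isSemisimple_of_pow_eq_one M (2 * (Fintype.card F - 1))
      (Ext2.cast_ne_zero_of_odd hodd) (Ext2.pow_of_sq M z hz hM)
  have hconj : IsConj sx sy := isConj_SL_of_semisimple sx sy (by rw [hsx]; exact hss _ hxz)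
    (by rw [hsy]; exact hss _ hy2) (by rw [hsx, hsy, hychar])
  obtain ⟨c, hc⟩ := isConj_iff.1 hconj
  have hx' : x = Matrix.SpecialLinearGroup.toGL sx := Units.ext hsx.symm
  have hy' : y = Matrix.SpecialLinearGroup.toGL sy := Units.ext hsy.symm
  refine ⟨Matrix.SpecialLinearGroup.toGL c⁻¹, ?_, ?_⟩
  · rw [Cfsg.Geo.specialLinear, MonoidHom.mem_ker]
    apply Units.ext
    rw [Matrix.GeneralLinearGroup.val_det_apply]
    exact (c⁻¹).2
  · have h1 : (Matrix.SpecialLinearGroup.toGL c⁻¹)⁻¹ * x * Matrix.SpecialLinearGroup.toGL c⁻¹ =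
        y := by
      rw [hx', hy', ← hc, map_inv, inv_inv, map_mul, map_mul, map_inv]
    rw [h1]
    exact hymem

theorem back_nonsq (hodd : Odd (Fintype.card F)) {n b : ℕ} (hn : n = 2 * b)
    (e : Fin n ≃ Fin 2 × Fin b) (P : GL (Fin n) F) (x : GL (Fin n) F)
    (hx : x ∈ Cfsg.Geo.specialLinear (Fin n) F) (z : F) (hz : ∀ c : F, c ^ 2 ≠ z)
    (hxz : (x : Matrix (Fin n) (Fin n) F) ^ 2 = z • (1 : Matrix (Fin n) (Fin n) F)) :
    ∃ g ∈ Cfsg.Geo.specialLinear (Fin n) F,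
      g⁻¹ * x * g ∈ Cfsg.Geo.tensorProductSubgroup 2 b e P := by
  classical
  have hz0 : z ≠ 0 := by
    rintro rfl
    exact hz 0 (by norm_num)
  obtain ⟨A, hA⟩ : ∃ A : GL (Fin 2) F, (A : Matrix (Fin 2) (Fin 2) F) = !![0, z; 1, 0] := by
    refine ⟨⟨!![0, z; 1, 0], !![0, 1; z⁻¹, 0], ?_, ?_⟩, rfl⟩
    · ext i j
      fin_cases i <;> fin_cases j <;> simp [Matrix.mul_apply, Fin.sum_univ_two, hz0]
    · ext i j
      fin_cases i <;> fin_cases j <;> simp [Matrix.mul_apply, Fin.sum_univ_two, hz0]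
  have hA2 : (A : Matrix (Fin 2) (Fin 2) F) ^ 2 = z • (1 : Matrix (Fin 2) (Fin 2) F) := by
    rw [hA, pow_two]
    ext i j
    fin_cases i <;> fin_cases j <;> simp [Matrix.mul_apply, Fin.sum_univ_two]
  have hT2 : ((A : Matrix (Fin 2) (Fin 2) F) ⊗ₖ
      ((1 : GL (Fin b) F) : Matrix (Fin b) (Fin b) F)) ^ 2 =
      z • (1 : Matrix (Fin 2 × Fin b) (Fin 2 × Fin b) F) := by
    rw [kron_pow, hA2, Units.val_one, one_pow, Matrix.smul_kronecker, Matrix.one_kronecker_one]
  refine conj_of_kron hodd e P x hx z hz0 hxz A 1 hT2 ?_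
  obtain ⟨T, hT⟩ : ∃ T : Matrix (Fin 2 × Fin b) (Fin 2 × Fin b) F,
      T = (A : Matrix (Fin 2) (Fin 2) F) ⊗ₖ ((1 : GL (Fin b) F) : Matrix (Fin b) (Fin b) F) :=
    ⟨_, rfl⟩
  rw [← hT] at hT2 ⊢
  have h1 : T.charpoly = (Matrix.reindexAlgEquiv F F e.symm T).charpoly := by
    rw [Matrix.coe_reindexAlgEquiv, Matrix.charpoly_reindex]
  rw [h1]
  have hπ : Irreducible (X ^ 2 - C z : F[X]) :=
    X_pow_sub_C_irreducible_of_prime Nat.prime_two hz
  have hm : (X ^ 2 - C z : F[X]).Monic := monic_X_pow_sub_C z (by norm_num)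
  have hdeg : (X ^ 2 - C z : F[X]).natDegree = 2 := natDegree_X_pow_sub_C
  have key : ∀ M : Matrix (Fin n) (Fin n) F, M ^ 2 = z • (1 : Matrix (Fin n) (Fin n) F) →
      M.charpoly = (X ^ 2 - C z) ^ b := by
    intro M hM
    have h0 : aeval M (X ^ 2 - C z : F[X]) = 0 := by
      rw [map_sub, map_pow, aeval_X, aeval_C, hM, Algebra.algebraMap_eq_smul_one, sub_self]
    obtain ⟨k, hk⟩ := PGLClasses.charpoly_eq_pow M _ hm hπ h0
    have h4 := Matrix.charpoly_natDegree_eq_dim M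
    rw [hk, hm.natDegree_pow, hdeg, Fintype.card_fin] at h4
    have h5 : k = b := by omega
    rw [hk, h5]
  rw [key _ (by rw [← map_pow, hT2, map_smul, map_one]), key _ hxz]

theorem back_sq {q : ℕ} (hq : Fintype.card F = q) (hodd : Odd q) {n b : ℕ} (hn : n = 2 * b)
    (hb : 0 < b) (hv : padicValNat 2 (q - 1) ≤ padicValNat 2 n)
    (e : Fin n ≃ Fin 2 × Fin b) (P : GL (Fin n) F) (x : GL (Fin n) F)
    (hx : x ∈ Cfsg.Geo.specialLinear (Fin n) F) (c : F) (hc : c ≠ 0)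
    (hxz : (x : Matrix (Fin n) (Fin n) F) ^ 2 = (c ^ 2) • (1 : Matrix (Fin n) (Fin n) F)) :
    ∃ g ∈ Cfsg.Geo.specialLinear (Fin n) F,
      g⁻¹ * x * g ∈ Cfsg.Geo.tensorProductSubgroup 2 b e P := by
  classical
  have hodd' : Odd (Fintype.card F) := by
    rw [hq]
    exact hodd
  have hchar : ringChar F ≠ 2 := by
    intro h3
    have h4 := FiniteField.even_card_iff_char_two.1 h3
    obtain ⟨m, hm⟩ := hodd'
    omega
  have h2F : (2 : F) ≠ 0 := Ring.two_ne_zero hchar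
  obtain ⟨s, hs⟩ : ∃ s : Matrix (Fin n) (Fin n) F, s = c⁻¹ • (x : Matrix (Fin n) (Fin n) F) :=
    ⟨_, rfl⟩
  have hs2 : s ^ 2 = 1 := by
    rw [hs, _root_.smul_pow, hxz, smul_smul, ← mul_pow, inv_mul_cancel₀ hc, one_pow, one_smul]
  have hprim : IsPrimitiveRoot (-1 : F) 2 := IsPrimitiveRoot.neg_one (ringChar F) hchar
  have hf2 : Fact (Nat.Prime 2) := ⟨Nat.prime_two⟩
  obtain ⟨e', g, hg⟩ := Subf5.exists_diag hprim s hs2
  obtain ⟨d, hd⟩ : ∃ d : Fin n → F, d = fun j => if e' j = 1 then -c else c := ⟨_, rfl⟩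
  have hgx : (g : Matrix (Fin n) (Fin n) F) * (x : Matrix (Fin n) (Fin n) F) =
      Matrix.diagonal d * (g : Matrix (Fin n) (Fin n) F) := by
    have h1 : (x : Matrix (Fin n) (Fin n) F) = c • s := by
      rw [hs, smul_smul, mul_inv_cancel₀ hc, one_smul]
    rw [h1, Matrix.mul_smul, hg, ← Matrix.smul_mul, ← Matrix.diagonal_smul]
    congr 2
    funext j
    rw [Pi.smul_apply, smul_eq_mul, zmod2_pow, hd]
    by_cases hj : e' j = 1 <;> simp [hj]
  have hgdet : (g : Matrix (Fin n) (Fin n) F).det ≠ 0 :=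
    ((Matrix.isUnit_iff_isUnit_det _).1 g.isUnit).ne_zero
  have hdetx : (x : Matrix (Fin n) (Fin n) F).det = 1 := by
    have h1 : Matrix.GeneralLinearGroup.det x = 1 := hx
    rw [← Matrix.GeneralLinearGroup.val_det_apply, h1, Units.val_one]
  have hprod : ∏ j, d j = 1 := by
    have h1 := congrArg Matrix.det hgx
    rw [Matrix.det_mul, Matrix.det_mul, hdetx, Matrix.det_diagonal, mul_one] at h1
    exact mul_right_cancel₀ hgdet (h1.symm.trans (one_mul _).symm)
  have hxchar : (x : Matrix (Fin n) (Fin n) F).charpoly = ∏ j, (X - C (d j)) := by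
    have h1 : (x : Matrix (Fin n) (Fin n) F) =
        ((g : Matrix (Fin n) (Fin n) F))⁻¹ * Matrix.diagonal d * (g : Matrix (Fin n) (Fin n) F) := by
      rw [mul_assoc, ← hgx, ← mul_assoc, ← Matrix.coe_units_inv, ← Units.val_mul,
        inv_mul_cancel, Units.val_one, one_mul]
    rw [h1, Matrix.charpoly_units_conj', Matrix.charpoly_diagonal]
  obtain ⟨J, hJ⟩ : ∃ J : ℕ, J = (Finset.univ.filter (fun j => e' j = 1)).card := ⟨_, rfl⟩
  have hJn : J ≤ n := by
    rw [hJ]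
    exact (Finset.card_filter_le _ _).trans (by rw [Finset.card_univ, Fintype.card_fin])
  have hn0 : n ≠ 0 := by omega
  have hprod2 : (-c) ^ J * c ^ (n - J) = 1 := by
    rw [← hprod, hd, prod_ite_const, Fintype.card_fin, ← hJ]
  have hJeven : Even J := by
    by_contra hJo
    rw [Nat.not_even_iff_odd] at hJo
    rw [hJo.neg_pow, neg_mul, ← pow_add, Nat.add_sub_cancel' hJn] at hprod2
    exact Alt.not_neg_one_pow hq hodd hv hn0 c (by linear_combination -hprod2)
  obtain ⟨m, hm⟩ := hJeven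
  have hmb : m ≤ b := by omega
  obtain ⟨δ, hδ⟩ : ∃ δ : Fin b → F, δ = fun k => if k.val < m then -c else c := ⟨_, rfl⟩
  have hδ0 : ∀ k, δ k ≠ 0 := by
    intro k
    rw [hδ]
    by_cases hk : k.val < m <;> simp [hk, hc]
  obtain ⟨B, hB⟩ : ∃ B : GL (Fin b) F, (B : Matrix (Fin b) (Fin b) F) = Matrix.diagonal δ := by
    refine ⟨⟨Matrix.diagonal δ, Matrix.diagonal (fun k => (δ k)⁻¹), ?_, ?_⟩, rfl⟩
    · rw [Matrix.diagonal_mul_diagonal, ← Matrix.diagonal_one]
      congr 1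
      funext k
      exact mul_inv_cancel₀ (hδ0 k)
    · rw [Matrix.diagonal_mul_diagonal, ← Matrix.diagonal_one]
      congr 1
      funext k
      exact inv_mul_cancel₀ (hδ0 k)
  have hT : ((1 : GL (Fin 2) F) : Matrix (Fin 2) (Fin 2) F) ⊗ₖ (B : Matrix (Fin b) (Fin b) F) =
      Matrix.diagonal (fun ik : Fin 2 × Fin b => δ ik.2) := by
    rw [hB, Units.val_one, ← Matrix.diagonal_one, Matrix.diagonal_kronecker_diagonal]
    congr 1
    funext ik
    rw [one_mul]
  refine conj_of_kron hodd' e P x hx (c ^ 2) (pow_ne_zero 2 hc) hxz 1 B ?_ ?_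
  · rw [hT, Matrix.diagonal_pow, Matrix.smul_one_eq_diagonal]
    congr 1
    funext ik
    rw [Pi.pow_apply, hδ]
    by_cases hk : ik.2.val < m <;> simp [hk]
  · rw [hT, Matrix.charpoly_diagonal, hxchar, Fintype.prod_prod_type]
    change ∏ _i : Fin 2, ∏ k : Fin b, (X - C (δ k) : F[X]) = _
    rw [Finset.prod_const, Finset.card_univ, Fintype.card_fin]
    have h1 : ∀ k : Fin b, (X - C (δ k) : F[X]) =
        if k.val < m then (X - C (-c)) else (X - C c) := by
      intro k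
      rw [hδ]
      by_cases hk : k.val < m <;> simp [hk]
    have h2 : ∀ j : Fin n, (X - C (d j) : F[X]) =
        if e' j = 1 then (X - C (-c)) else (X - C c) := by
      intro j
      rw [hd]
      by_cases hj : e' j = 1 <;> simp [hj]
    rw [Finset.prod_congr rfl (fun k _ => h1 k), Finset.prod_congr rfl (fun j _ => h2 j),
      prod_ite_const, prod_ite_const, Fintype.card_fin, Fintype.card_fin, card_fin_lt b m hmb,
      ← hJ, mul_pow, ← pow_mul, ← pow_mul]
    have e1 : m * 2 = J := by omega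
    have e2 : (b - m) * 2 = n - J := by omega
    rw [e1, e2]

theorem backward {q : ℕ} (hq : Fintype.card F = q) (hodd : Odd q) {n b : ℕ} (hn : n = 2 * b)
    (hb : 0 < b) (hv : padicValNat 2 (q - 1) ≤ padicValNat 2 n)
    (e : Fin n ≃ Fin 2 × Fin b) (P : GL (Fin n) F) (x : GL (Fin n) F)
    (hx : x ∈ Cfsg.Geo.specialLinear (Fin n) F) (z : F)
    (hxz : (x : Matrix (Fin n) (Fin n) F) ^ 2 = z • (1 : Matrix (Fin n) (Fin n) F)) :
    ∃ g ∈ Cfsg.Geo.specialLinear (Fin n) F,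
      g⁻¹ * x * g ∈ Cfsg.Geo.tensorProductSubgroup 2 b e P := by
  by_cases hsq : ∃ c : F, c ^ 2 = z
  · obtain ⟨c, rfl⟩ := hsq
    have hc : c ≠ 0 := by
      rintro rfl
      have hdetx : (x : Matrix (Fin n) (Fin n) F).det = 1 := by
        have h1 : Matrix.GeneralLinearGroup.det x = 1 := hx
        rw [← Matrix.GeneralLinearGroup.val_det_apply, h1, Units.val_one]
      have h2 := congrArg Matrix.det hxz
      have hne : Nonempty (Fin n) := ⟨⟨0, by omega⟩⟩
      rw [Matrix.det_pow, hdetx, one_pow, zero_pow (by norm_num), zero_smul, Matrix.det_zero] at h2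
      exact one_ne_zero h2
    exact back_sq hq hodd hn hb hv e P x hx c hc hxz
  · push Not at hsq
    exact back_nonsq (by rw [hq]; exact hodd) hn e P x hx z hsq hxz

end backward

end Cfsg.Agent.Lib.Helper40.Tensor
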