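-- Elements of odd prime order and imprimitive decompositions (helper40).
import Mathlib
import Cfsg.Prelude.Def_GeometricClasses
import Cfsg.Agent.Lib.Helper20.C2NonMax
import Cfsg.Agent.Lib.Helper13.SpParab
import Cfsg.Agent.Lib.Helper40.Elusive
import Cfsg.Agent.Lib.Helper40.Tensor

set_option autoImplicit false

namespace Cfsg.Agent.Lib.Helper40.Decomp

open Cfsg Cfsg.Geo Polynomial Module Matrix

universe u

section basis

variable {F : Type u} [Field F] {n a t : ℕ}

/-- The block spanned by the `j`-th part of a basis. -/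
def blk (b : Module.Basis (Σ _ : Fin t, Fin a) F (Fin n → F)) (j : Fin t) :
    Submodule F (Fin n → F) :=
  Submodule.span F (Set.range fun s => b ⟨j, s⟩)

theorem decomp_of_basis (b : Module.Basis (Σ _ : Fin t, Fin a) F (Fin n → F)) (ht : 2 ≤ t)
    (ha : 0 < a) : IsMDecomposition a (blk b) := by
  classical
  have himg : ∀ j, blk b j = Submodule.span F (b '' {x | x.1 = j}) := by
    intro j
    unfold blk
    congr 1
    ext v
    constructor
    · rintro ⟨s, rfl⟩
      exact ⟨⟨j, s⟩, rfl, rfl⟩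
    · rintro ⟨⟨j', s⟩, hx, rfl⟩
      have hj : j' = j := hx
      subst hj
      exact ⟨s, rfl⟩
  refine ⟨ht, ha, ?_, ?_, ?_⟩
  · intro j
    have hli : LinearIndependent F (fun s : Fin a => b ⟨j, s⟩) :=
      b.linearIndependent.comp (fun s => (⟨j, s⟩ : Σ _ : Fin t, Fin a))
        (fun s s' h => by simpa using h)
    unfold blk
    rw [finrank_span_eq_card hli, Fintype.card_fin]
  · intro j
    rw [himg j]
    have h1 : (⨆ (k) (_ : k ≠ j), blk b k) ≤ Submodule.span F (b '' {x | x.1 ≠ j}) := by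
      apply iSup₂_le
      intro k hk
      rw [himg k]
      apply Submodule.span_mono
      apply Set.image_mono
      intro x hx
      have hx' : x.1 = k := hx
      show x.1 ≠ j
      rw [hx']
      exact hk
    refine Disjoint.mono_right h1 (b.linearIndependent.disjoint_span_image ?_)
    rw [Set.disjoint_left]
    intro x hx hx'
    exact hx' hx
  · rw [eq_top_iff, ← b.span_eq]
    apply Submodule.span_le.2
    rintro _ ⟨x, rfl⟩
    exact Submodule.mem_iSup_of_mem x.1 (Submodule.subset_span ⟨x.2, rfl⟩)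

theorem exists_decomp_of_basis (b : Module.Basis (Σ _ : Fin t, Fin a) F (Fin n → F)) (ht : 2 ≤ t)
    (ha : 0 < a) (f : (Fin n → F) →ₗ[F] (Fin n → F)) (hf : Function.Injective f)
    (σ : Fin t → Fin t) (h : ∀ j s, f (b ⟨j, s⟩) ∈ blk b (σ j)) :
    ∃ D : Fin t → Submodule F (Fin n → F), IsMDecomposition a D ∧
      ∃ τ : Equiv.Perm (Fin t), ∀ j, (D j).map f = D (τ j) := by
  have hD := decomp_of_basis b ht ha
  have hmap : ∀ j, (blk b j).map f = blk b (σ j) := by
    intro j
    have hle : (blk b j).map f ≤ blk b (σ j) := by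
      unfold blk
      rw [Submodule.map_span]
      apply Submodule.span_le.2
      rintro _ ⟨_, ⟨s, rfl⟩, rfl⟩
      exact h j s
    apply Submodule.eq_of_le_of_finrank_eq hle
    rw [hD.finrank_eq, ← (Submodule.equivMapOfInjective f hf (blk b j)).finrank_eq,
      hD.finrank_eq]
  have hne : ∀ j, blk b j ≠ ⊥ := by
    intro j hj
    have h1 := hD.finrank_eq j
    rw [hj, finrank_bot] at h1
    omega
  have hinj : Function.Injective σ := by
    intro j j' hjj
    have h1 : (blk b j).map f = (blk b j').map f := by rw [hmap, hmap, hjj]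
    exact hD.indep.injective hne (Submodule.map_injective_of_injective hf h1)
  have hbij : Function.Bijective σ := Finite.injective_iff_bijective.1 hinj
  exact ⟨blk b, hD, Equiv.ofBijective σ hbij, fun j => hmap j⟩

/-- A matrix similar to a block-monomial matrix stabilises a decomposition. -/
theorem decomp_of_similar {κ : Type} [Fintype κ] [DecidableEq κ] (ht : 2 ≤ t) (ha : 0 < a)
    (x Y : Matrix (Fin n) (Fin n) F) (P : GL (Fin n) F)
    (hP : (P : Matrix (Fin n) (Fin n) F) * x = Y * (P : Matrix (Fin n) (Fin n) F))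
    (hx : x.det ≠ 0) (ε : Fin n ≃ κ × Fin a) (τ : κ ≃ Fin t) (σ : κ → κ)
    (hY : ∀ i' i, Y i' i ≠ 0 → (ε i').1 = σ (ε i).1) :
    ∃ D : Fin t → Submodule F (Fin n → F), IsMDecomposition a D ∧
      ∃ ρ : Equiv.Perm (Fin t), ∀ j, (D j).map (Matrix.toLin' x) = D (ρ j) := by
  classical
  obtain ⟨Q, hQ⟩ : ∃ Q : Matrix (Fin n) (Fin n) F,
      Q = ((P⁻¹ : GL (Fin n) F) : Matrix (Fin n) (Fin n) F) := ⟨_, rfl⟩
  have hQP : Q * (P : Matrix (Fin n) (Fin n) F) = 1 := by
    rw [hQ, ← Units.val_mul, inv_mul_cancel, Units.val_one]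
  have hPQ : (P : Matrix (Fin n) (Fin n) F) * Q = 1 := by
    rw [hQ, ← Units.val_mul, mul_inv_cancel, Units.val_one]
  have hxQ : x * Q = Q * Y := by
    calc x * Q = Q * ((P : Matrix (Fin n) (Fin n) F) * x) * Q := by
          rw [← mul_assoc, hQP, one_mul]
      _ = Q * Y := by rw [hP, mul_assoc, mul_assoc, hPQ, mul_one]
  let L : (Fin n → F) ≃ₗ[F] (Fin n → F) :=
    LinearEquiv.ofLinearMap (Matrix.toLin' Q) (Matrix.toLin' (P : Matrix (Fin n) (Fin n) F))
      (by rw [← Matrix.toLin'_mul, hQP, Matrix.toLin'_one])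
      (by rw [← Matrix.toLin'_mul, hPQ, Matrix.toLin'_one])
  let ε' : Fin n ≃ (Σ _ : Fin t, Fin a) :=
    ε.trans ((Equiv.prodCongr τ (Equiv.refl (Fin a))).trans
      (Equiv.sigmaEquivProd (Fin t) (Fin a)).symm)
  let b : Module.Basis (Σ _ : Fin t, Fin a) F (Fin n → F) :=
    ((Pi.basisFun F (Fin n)).map L).reindex ε'
  have hb : ∀ i : Fin n, b (ε' i) = Q *ᵥ Pi.single i 1 := by
    intro i
    simp [b, L]
  have hε'1 : ∀ i : Fin n, (ε' i).1 = τ (ε i).1 := fun i => rfl
  have hinj : Function.Injective (Matrix.toLin' x) := by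
    rw [← LinearMap.ker_eq_bot, LinearMap.ker_eq_bot']
    intro v hv
    rw [Matrix.toLin'_apply] at hv
    exact Matrix.eq_zero_of_mulVec_eq_zero hx hv
  refine exists_decomp_of_basis b ht ha (Matrix.toLin' x) hinj
    (fun j => τ (σ (τ.symm j))) ?_
  intro j s
  obtain ⟨i, hi⟩ : ∃ i : Fin n, ε' i = ⟨j, s⟩ := ⟨ε'.symm ⟨j, s⟩, ε'.apply_symm_apply _⟩
  have hj : τ (ε i).1 = j := by
    have h1 := hε'1 i
    rw [hi] at h1
    exact h1.symm
  rw [← hi, hb, Matrix.toLin'_apply, Matrix.mulVec_mulVec, hxQ, ← Matrix.mulVec_mulVec]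
  have h2 : Y *ᵥ Pi.single i 1 = ∑ i', Y i' i • (Pi.single i' (1 : F) : Fin n → F) := by
    funext k
    rw [Matrix.mulVec_single_one, Finset.sum_apply]
    simp [Pi.single_apply]
  rw [h2, Matrix.mulVec_sum]
  apply Submodule.sum_mem
  intro i' _
  rw [Matrix.mulVec_smul]
  by_cases h0 : Y i' i = 0
  · rw [h0, zero_smul]
    exact Submodule.zero_mem _
  · apply Submodule.smul_mem
    rw [← hb]
    have h3 : (ε' i').1 = τ (σ (τ.symm j)) := by
      rw [hε'1, hY i' i h0, ← hj, Equiv.symm_apply_apply]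
    have h4 : ε' i' = ⟨τ (σ (τ.symm j)), (ε' i').2⟩ := by
      rw [← h3]
    rw [h4]
    exact Submodule.subset_span ⟨(ε' i').2, rfl⟩

end basis

section cyc

variable {F : Type u} [Field F]

/-- A monomial matrix whose `r`-th power is the scalar `z`, with characteristic polynomial
`X ^ r - z`. -/
theorem exists_cyc (r : ℕ) (hr : 0 < r) (z : F) :
    ∃ (d : ℕ) (_ : r = d) (B : Matrix (Fin d) (Fin d) F) (ρ : Fin d → Fin d),
      B ^ r = z • (1 : Matrix (Fin d) (Fin d) F) ∧ B.charpoly = X ^ r - C z ∧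
      ∀ i j, B i j ≠ 0 → i = ρ j := by
  classical
  have hmon : (X ^ r - C z : F[X]).Monic := monic_X_pow_sub_C z hr.ne'
  have hdeg : (X ^ r - C z : F[X]).natDegree = r := natDegree_X_pow_sub_C
  obtain ⟨pb, hpb⟩ : ∃ pb : PowerBasis F (AdjoinRoot (X ^ r - C z : F[X])),
      pb = AdjoinRoot.powerBasis' hmon := ⟨_, rfl⟩
  have hdim : pb.dim = r := by rw [hpb, AdjoinRoot.powerBasis'_dim, hdeg]
  have hgen : pb.gen = AdjoinRoot.root (X ^ r - C z) := by
    rw [hpb, AdjoinRoot.powerBasis'_gen hmon]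
  have hroot : AdjoinRoot.root (X ^ r - C z : F[X]) ^ r = algebraMap F _ z := by
    have h2 := AdjoinRoot.eval₂_root (X ^ r - C z : F[X])
    simp only [eval₂_sub, eval₂_pow, eval₂_X, eval₂_C] at h2
    exact sub_eq_zero.1 h2
  have hpos : 0 < pb.dim := by
    rw [hdim]
    exact hr
  refine ⟨pb.dim, hdim.symm, Algebra.leftMulMatrix pb.basis (AdjoinRoot.root (X ^ r - C z)),
    fun j => if h : j.val + 1 < pb.dim then ⟨j.val + 1, h⟩ else ⟨0, hpos⟩, ?_, ?_, ?_⟩
  · rw [← map_pow, hroot, AlgHom.commutes, Algebra.algebraMap_eq_smul_one]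
  · rw [← hgen, charpoly_leftMulMatrix, hgen, AdjoinRoot.minpoly_root hmon.ne_zero,
      hmon.leadingCoeff, inv_one, C_1, mul_one]
  · intro i j hij
    rw [Algebra.leftMulMatrix_eq_repr_mul, PowerBasis.coe_basis, hgen] at hij
    beta_reduce at hij
    beta_reduce
    by_cases h : j.val + 1 < pb.dim
    · rw [dif_pos h]
      have h1 : AdjoinRoot.root (X ^ r - C z : F[X]) *
          AdjoinRoot.root (X ^ r - C z) ^ (j : ℕ) = pb.basis ⟨j.val + 1, h⟩ := by
        rw [PowerBasis.coe_basis, hgen, ← pow_succ']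
      rw [h1, Module.Basis.repr_self, Finsupp.single_apply] at hij
      by_contra hne
      exact hij (if_neg (fun h' => hne h'.symm))
    · rw [dif_neg h]
      have hj : j.val + 1 = r := by
        have := j.2
        omega
      have h1 : AdjoinRoot.root (X ^ r - C z : F[X]) *
          AdjoinRoot.root (X ^ r - C z) ^ (j : ℕ) = z • pb.basis ⟨0, hpos⟩ := by
        rw [← pow_succ', hj, hroot, PowerBasis.coe_basis]
        beta_reduce
        rw [Fin.val_mk, pow_zero, Algebra.algebraMap_eq_smul_one]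
      rw [h1, map_smul, Module.Basis.repr_self, Finsupp.smul_apply, Finsupp.single_apply] at hij
      by_contra hne
      apply hij
      rw [if_neg (fun h' => hne h'.symm), smul_zero]

theorem charpoly_blockDiagonal {m o : Type*} [Fintype m] [DecidableEq m] [Fintype o]
    [DecidableEq o] (M : o → Matrix m m F) :
    (Matrix.blockDiagonal M).charpoly = ∏ k, (M k).charpoly := by
  have h : (Matrix.blockDiagonal M).charmatrix =
      Matrix.blockDiagonal (fun k => (M k).charmatrix) := by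
    ext ⟨i, k⟩ ⟨j, k'⟩
    rw [Matrix.charmatrix_apply, Matrix.blockDiagonal_apply, Matrix.blockDiagonal_apply]
    by_cases hk : k = k'
    · subst hk
      rw [if_pos rfl, if_pos rfl, Matrix.charmatrix_apply]
      by_cases hij : i = j <;> simp [hij]
    · simp [hk]
  unfold Matrix.charpoly
  rw [h, Matrix.det_blockDiagonal]

end cyc

section slots

theorem exists_sub {ι : Type*} [Fintype ι] (m : ι → ℕ) (s : ℕ) (hs : s ≤ ∑ i, m i) :
    ∃ μ : ι → ℕ, (∀ i, μ i ≤ m i) ∧ ∑ i, μ i = s := by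
  classical
  induction s with
  | zero => exact ⟨fun _ => 0, fun _ => Nat.zero_le _, by simp⟩
  | succ s ih =>
    obtain ⟨μ, h1, h2⟩ := ih (by omega)
    have h3 : ∃ i, μ i < m i := by
      by_contra hcon
      push Not at hcon
      have h4 : ∑ i, m i ≤ ∑ i, μ i := Finset.sum_le_sum (fun i _ => hcon i)
      omega
    obtain ⟨i₀, hi₀⟩ := h3
    refine ⟨Function.update μ i₀ (μ i₀ + 1), ?_, ?_⟩
    · intro i
      by_cases h : i = i₀
      · subst h
        rw [Function.update_self]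
        omega
      · rw [Function.update_of_ne h]
        exact h1 i
    · have h5 : ∑ i, μ i = μ i₀ + ∑ i ∈ Finset.univ.erase i₀, μ i :=
        (Finset.add_sum_erase Finset.univ μ (Finset.mem_univ i₀)).symm
      have h6 : ∑ i, Function.update μ i₀ (μ i₀ + 1) i =
          (μ i₀ + 1) + ∑ i ∈ Finset.univ.erase i₀, μ i := by
        rw [← Finset.add_sum_erase Finset.univ _ (Finset.mem_univ i₀), Function.update_self]
        congr 1
        apply Finset.sum_congr rfl
        intro i hi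
        rw [Function.update_of_ne (Finset.ne_of_mem_erase hi)]
      omega

theorem exists_slots {ι : Type*} [Fintype ι] (a' : ℕ) : ∀ (t : ℕ) (m : ι → ℕ),
    ∑ i, m i ≤ t * a' →
    ∃ μ : Fin t → ι → ℕ, (∀ j, ∑ i, μ j i ≤ a') ∧ ∀ i, ∑ j, μ j i = m i := by
  intro t
  induction t with
  | zero =>
    intro m hm
    refine ⟨fun j => j.elim0, fun j => j.elim0, fun i => ?_⟩
    have h1 : ∑ i, m i = 0 := by omega
    have h2 := (Finset.sum_eq_zero_iff.1 h1) i (Finset.mem_univ i)
    simp [h2]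
  | succ t ih =>
    intro m hm
    obtain ⟨μ₀, h1, h2⟩ := exists_sub m (min a' (∑ i, m i)) (min_le_right _ _)
    have h5 : ∑ i, (m i - μ₀ i) + ∑ i, μ₀ i = ∑ i, m i := by
      rw [← Finset.sum_add_distrib]
      exact Finset.sum_congr rfl (fun i _ => Nat.sub_add_cancel (h1 i))
    have h6 : (t + 1) * a' = t * a' + a' := Nat.succ_mul t a'
    rw [h6] at hm
    obtain ⟨μ, h3, h4⟩ := ih (fun i => m i - μ₀ i) (by
      rw [h2] at h5
      rcases Nat.le_total a' (∑ i, m i) with h7 | h7
      · rw [min_eq_left h7] at h5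
        omega
      · rw [min_eq_right h7] at h5
        omega)
    refine ⟨Fin.cons μ₀ μ, ?_, ?_⟩
    · intro j
      refine Fin.cases ?_ (fun j' => ?_) j
      · rw [Fin.cons_zero, h2]
        exact min_le_left _ _
      · rw [Fin.cons_succ]
        exact h3 j'
    · intro i
      rw [Fin.sum_univ_succ, Fin.cons_zero]
      have h8 : ∑ j : Fin t, (Fin.cons μ₀ μ : Fin (t + 1) → ι → ℕ) j.succ i = ∑ j, μ j i := by
        apply Finset.sum_congr rfl
        intro j _
        rw [Fin.cons_succ]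
      rw [h8, h4 i]
      have := h1 i
      omega

end slots

section models

variable {F : Type u} [Field F] {n a t : ℕ}

theorem det_ne_zero_of_pow {r : ℕ} (y : Matrix (Fin n) (Fin n) F) (z : F) (hz : z ≠ 0)
    (hr : 0 < r) (hy : y ^ r = z • (1 : Matrix (Fin n) (Fin n) F)) : y.det ≠ 0 := by
  intro h
  have h1 := congrArg Matrix.det hy
  rw [Matrix.det_pow, h, Matrix.det_smul, Matrix.det_one, mul_one, zero_pow hr.ne'] at h1
  exact pow_ne_zero _ hz h1.symm

variable [Fintype F]

theorem model_A (p : ℕ) [Fact p.Prime] [CharP F p] {S : Finset F[X]} {r c : ℕ}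
    (hS : PrimeOrderGL.Factors S r c) (hr0 : 0 < r) (hrF : (r : F) ≠ 0) (hc : 0 < c)
    (hat : n = a * t) (ht : 2 ≤ t) (ha : 0 < a) (hk : t * (a % c) ≤ n % c)
    (y : Matrix (Fin n) (Fin n) F) (hy : y ^ r = 1) :
    ∃ D : Fin t → Submodule F (Fin n → F), IsMDecomposition a D ∧
      ∃ ρ : Equiv.Perm (Fin t), ∀ j, (D j).map (Matrix.toLin' y) = D (ρ j) := by
  classical
  obtain ⟨m, hm, hχ⟩ := PrimeOrderGL.charpoly_eq_chi hS y hy
  have h3 : n / c = t * (a / c) := by
    have h4 : t * (a % c) < c := lt_of_le_of_lt hk (Nat.mod_lt _ hc)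
    have h5 : n = t * (a % c) + c * (t * (a / c)) := by
      have h6 := Nat.div_add_mod a c
      calc n = a * t := hat
        _ = (c * (a / c) + a % c) * t := by rw [h6]
        _ = t * (a % c) + c * (t * (a / c)) := by ring
    rw [h5, Nat.add_mul_div_left _ _ hc, Nat.div_eq_of_lt h4, zero_add]
  have h1 : ∑ π, m π ≤ t * (a / c) := by
    rw [← h3, Nat.le_div_iff_mul_le hc, mul_comm]
    exact hm
  obtain ⟨μ, hμ1, hμ2⟩ := exists_slots (a / c) t m h1
  have hμa : ∀ j, c * ∑ π, μ j π ≤ a := fun j =>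
    le_trans (Nat.mul_le_mul_left c (hμ1 j)) (Nat.mul_div_le a c)
  choose g hg1 hg2 using fun j => PrimeOrderGL.exists_GL_chi (n := a) p hS hr0 (μ j) (hμa j)
  have hcard : Fintype.card (Fin a × Fin t) = Fintype.card (Fin n) := by
    rw [Fintype.card_prod, Fintype.card_fin, Fintype.card_fin, Fintype.card_fin, hat]
  obtain ⟨e₀, -⟩ : ∃ e₀ : Fin a × Fin t ≃ Fin n, True := ⟨Fintype.equivOfCardEq hcard, trivial⟩
  obtain ⟨Y₀, hY₀⟩ : ∃ Y₀ : Matrix (Fin a × Fin t) (Fin a × Fin t) F,
      Y₀ = Matrix.blockDiagonal (fun j => (g j : Matrix (Fin a) (Fin a) F)) := ⟨_, rfl⟩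
  obtain ⟨Ψ, hΨ⟩ : ∃ Ψ : Matrix (Fin a × Fin t) (Fin a × Fin t) F ≃ₐ[F]
      Matrix (Fin n) (Fin n) F, Ψ = Matrix.reindexAlgEquiv F F e₀ := ⟨_, rfl⟩
  have hYr : (Ψ Y₀) ^ r = 1 := by
    rw [← map_pow, hY₀, ← Matrix.blockDiagonal_pow]
    have h7 : (fun j => (g j : Matrix (Fin a) (Fin a) F)) ^ r = 1 := by
      funext j
      rw [Pi.pow_apply, ← Units.val_pow_eq_pow_val, hg1 j]
      rfl
    rw [h7, Matrix.blockDiagonal_one, map_one]
  have hYχ : (Ψ Y₀).charpoly = y.charpoly := by
    rw [hΨ, Matrix.coe_reindexAlgEquiv, Matrix.charpoly_reindex, hY₀, charpoly_blockDiagonal, hχ]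
    rw [Finset.prod_congr rfl (fun j _ => hg2 j)]
    unfold PrimeOrderGL.chi
    rw [Finset.prod_mul_distrib, Finset.prod_pow_eq_pow_sum, Finset.prod_comm]
    congr 1
    · congr 1
      have h9 : ∑ j, (a - c * ∑ π, μ j π) + c * ∑ π, m π = n := by
        have h10 : ∑ π, m π = ∑ j, ∑ π, μ j π := by
          rw [Finset.sum_comm]
          exact Finset.sum_congr rfl (fun π _ => (hμ2 π).symm)
        rw [h10, Finset.mul_sum, ← Finset.sum_add_distrib]
        rw [Finset.sum_congr rfl (fun j _ => Nat.sub_add_cancel (hμa j))]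
        rw [Finset.sum_const, Finset.card_univ, Fintype.card_fin, smul_eq_mul, hat, mul_comm]
      omega
    · apply Finset.prod_congr rfl
      intro π _
      rw [Finset.prod_pow_eq_pow_sum, hμ2 π]
  have hss1 := isSemisimple_of_pow_eq_one y r hrF hy
  have hss2 := isSemisimple_of_pow_eq_one (Ψ Y₀) r hrF hYr
  obtain ⟨e, he⟩ := exists_similar_of_charpoly_eq y (Ψ Y₀) hss1 hss2 hYχ.symm
  obtain ⟨P, hP⟩ := Diag.exists_GL_of_conj y (Ψ Y₀) ⟨e, he⟩
  have hdet : y.det ≠ 0 := det_ne_zero_of_pow y 1 one_ne_zero hr0 (by rw [hy, one_smul])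
  refine decomp_of_similar (κ := Fin t) ht ha y (Ψ Y₀) P hP hdet
    (e₀.symm.trans (Equiv.prodComm (Fin a) (Fin t))) (Equiv.refl _) id ?_
  intro i' i hne
  by_contra hcon
  apply hne
  rw [hΨ, hY₀]
  show Matrix.blockDiagonal (fun j => (g j : Matrix (Fin a) (Fin a) F))
    (e₀.symm i') (e₀.symm i) = 0
  rw [Matrix.blockDiagonal_apply, if_neg]
  exact hcon

omit [Fintype F] in
theorem model_B {r : ℕ} (hr : r.Prime) (z : F) (hz : ∀ b : F, b ^ r ≠ z)
    (hat : n = a * t) (ht : 2 ≤ t) (ha : 0 < a)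
    (x : Matrix (Fin n) (Fin n) F) (hx : x ^ r = z • (1 : Matrix (Fin n) (Fin n) F)) :
    ∃ D : Fin t → Submodule F (Fin n → F), IsMDecomposition a D ∧
      ∃ ρ : Equiv.Perm (Fin t), ∀ j, (D j).map (Matrix.toLin' x) = D (ρ j) := by
  classical
  have hz0 : z ≠ 0 := by
    intro h
    exact hz 0 (by rw [h, zero_pow hr.ne_zero])
  have hdet : x.det ≠ 0 := det_ne_zero_of_pow x z hz0 hr.pos hx
  have hmon : (X ^ r - C z : F[X]).Monic := monic_X_pow_sub_C z hr.ne_zero
  have hirr : Irreducible (X ^ r - C z : F[X]) := X_pow_sub_C_irreducible_of_prime hr hz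
  have haev : aeval x (X ^ r - C z : F[X]) = 0 := by
    simp [hx, Algebra.algebraMap_eq_smul_one]
  obtain ⟨k, hk⟩ := PGLClasses.charpoly_eq_pow x _ hmon hirr haev
  have hrn : r ∣ n := by
    have h1 := Matrix.charpoly_natDegree_eq_dim x
    rw [hk, hmon.natDegree_pow, natDegree_X_pow_sub_C, Fintype.card_fin] at h1
    exact ⟨k, by rw [← h1, mul_comm]⟩
  rw [hat] at hrn
  rcases (Nat.Prime.dvd_mul hr).1 hrn with hra | hrt
  · obtain ⟨g, hg⟩ := PGLClasses.exists_GL_pow_eq_smul hr.pos hra z hz0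
    have hcard : Fintype.card (Fin a × Fin t) = Fintype.card (Fin n) := by
      rw [Fintype.card_prod, Fintype.card_fin, Fintype.card_fin, Fintype.card_fin, hat]
    obtain ⟨e₀, -⟩ : ∃ e₀ : Fin a × Fin t ≃ Fin n, True :=
      ⟨Fintype.equivOfCardEq hcard, trivial⟩
    obtain ⟨Y₀, hY₀⟩ : ∃ Y₀ : Matrix (Fin a × Fin t) (Fin a × Fin t) F,
        Y₀ = Matrix.blockDiagonal (fun _ : Fin t => (g : Matrix (Fin a) (Fin a) F)) := ⟨_, rfl⟩
    obtain ⟨Ψ, hΨ⟩ : ∃ Ψ : Matrix (Fin a × Fin t) (Fin a × Fin t) F ≃ₐ[F]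
        Matrix (Fin n) (Fin n) F, Ψ = Matrix.reindexAlgEquiv F F e₀ := ⟨_, rfl⟩
    have hYr : (Ψ Y₀) ^ r = z • (1 : Matrix (Fin n) (Fin n) F) := by
      rw [← map_pow, hY₀, ← Matrix.blockDiagonal_pow]
      have h7 : (fun _ : Fin t => (g : Matrix (Fin a) (Fin a) F)) ^ r = z • 1 := by
        funext j
        rw [Pi.pow_apply, hg]
        rfl
      rw [h7, Matrix.blockDiagonal_smul, Matrix.blockDiagonal_one, map_smul, map_one]
    obtain ⟨P, hP⟩ := PGLClasses.similar_of_pow_eq hr z hz x (Ψ Y₀) hx hYr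
    refine decomp_of_similar (κ := Fin t) ht ha x (Ψ Y₀) P hP hdet
      (e₀.symm.trans (Equiv.prodComm (Fin a) (Fin t))) (Equiv.refl _) id ?_
    intro i' i hne
    by_contra hcon
    apply hne
    rw [hΨ, hY₀]
    show Matrix.blockDiagonal (fun _ : Fin t => (g : Matrix (Fin a) (Fin a) F))
      (e₀.symm i') (e₀.symm i) = 0
    rw [Matrix.blockDiagonal_apply, if_neg]
    exact hcon
  · obtain ⟨t', ht'⟩ := hrt
    obtain ⟨d, hd, B, ρ, hB1, -, hB3⟩ := exists_cyc r hr.pos z
    subst hd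
    have hcard : Fintype.card (Fin r × (Fin t' × Fin a)) = Fintype.card (Fin n) := by
      simp only [Fintype.card_prod, Fintype.card_fin]
      rw [hat, ht']
      ring
    obtain ⟨e₁, -⟩ : ∃ e₁ : Fin r × (Fin t' × Fin a) ≃ Fin n, True :=
      ⟨Fintype.equivOfCardEq hcard, trivial⟩
    obtain ⟨Y₀, hY₀⟩ : ∃ Y₀ : Matrix (Fin r × (Fin t' × Fin a)) (Fin r × (Fin t' × Fin a)) F,
        Y₀ = Matrix.blockDiagonal (fun _ : Fin t' × Fin a => B) := ⟨_, rfl⟩
    obtain ⟨Ψ, hΨ⟩ : ∃ Ψ : Matrix (Fin r × (Fin t' × Fin a)) (Fin r × (Fin t' × Fin a)) F ≃ₐ[F]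
        Matrix (Fin n) (Fin n) F, Ψ = Matrix.reindexAlgEquiv F F e₁ := ⟨_, rfl⟩
    have hYr : (Ψ Y₀) ^ r = z • (1 : Matrix (Fin n) (Fin n) F) := by
      rw [← map_pow, hY₀, ← Matrix.blockDiagonal_pow]
      have h7 : (fun _ : Fin t' × Fin a => B) ^ r = z • 1 := by
        funext j
        rw [Pi.pow_apply, hB1]
        rfl
      rw [h7, Matrix.blockDiagonal_smul, Matrix.blockDiagonal_one, map_smul, map_one]
    obtain ⟨P, hP⟩ := PGLClasses.similar_of_pow_eq hr z hz x (Ψ Y₀) hx hYr
    have hcard2 : Fintype.card (Fin r × Fin t') = Fintype.card (Fin t) := by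
      simp only [Fintype.card_prod, Fintype.card_fin]
      rw [ht']
    refine decomp_of_similar (κ := Fin r × Fin t') ht ha x (Ψ Y₀) P hP hdet
      (e₁.symm.trans (Equiv.prodAssoc (Fin r) (Fin t') (Fin a)).symm)
      (Fintype.equivOfCardEq hcard2) (fun ls => (ρ ls.1, ls.2)) ?_
    intro i' i hne
    rw [hΨ, hY₀] at hne
    have hne' : Matrix.blockDiagonal (fun _ : Fin t' × Fin a => B) (e₁.symm i') (e₁.symm i)
        ≠ 0 := hne
    rw [Matrix.blockDiagonal_apply] at hne'
    by_cases h2 : (e₁.symm i').2 = (e₁.symm i).2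
    · rw [if_pos h2] at hne'
      have h3 := hB3 _ _ hne'
      show ((e₁.symm i').1, (e₁.symm i').2.1) = (ρ (e₁.symm i).1, (e₁.symm i).2.1)
      rw [h3, h2]
    · rw [if_neg h2] at hne'
      exact absurd rfl hne'

omit [Fintype F] in
theorem model_C (p : ℕ) [Fact p.Prime] [CharP F p] {S : Finset F[X]} {r c : ℕ}
    (hS : PrimeOrderGL.Factors S r c) (hr : r.Prime) (hrF : (r : F) ≠ 0) (hcr : c + 1 = r)
    (hn : n ≤ (n % c) * r) (ht : 2 ≤ n)
    (y : Matrix (Fin n) (Fin n) F) (hy : y ^ r = 1) :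
    ∃ D : Fin n → Submodule F (Fin n → F), IsMDecomposition 1 D ∧
      ∃ ρ : Equiv.Perm (Fin n), ∀ j, (D j).map (Matrix.toLin' y) = D (ρ j) := by
  classical
  have hc : 0 < c := by
    have := hr.two_le
    omega
  obtain ⟨m, hm, hχ⟩ := PrimeOrderGL.charpoly_eq_chi hS y hy
  obtain ⟨M, hM⟩ : ∃ M : ℕ, M = ∑ π, m π := ⟨_, rfl⟩
  rw [← hM] at hm hχ
  have hrMeq : r * M = c * M + M := by
    rw [← hcr]
    ring
  have hrM : r * M ≤ n := by
    have h1 := Nat.div_add_mod n c
    have h2 : M ≤ n / c := by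
      rw [Nat.le_div_iff_mul_le hc, mul_comm]
      exact hm
    have h3 : n / c ≤ n % c := by
      rw [← hcr] at hn
      have h4 : c * (n / c) ≤ c * (n % c) := by
        have h5 : (n % c) * (c + 1) = c * (n % c) + n % c := by ring
        omega
      exact Nat.le_of_mul_le_mul_left h4 hc
    have h6 : c * M ≤ c * (n / c) := Nat.mul_le_mul_left c h2
    omega
  have hfac : ∀ π ∈ S, (X - C 1 : F[X]) * π = X ^ r - C 1 := by
    intro π hπ
    have hcop : IsCoprime (X - C 1 : F[X]) π := by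
      refine ((irreducible_X_sub_C (1 : F)).coprime_iff_not_dvd).2 ?_
      intro hdvd
      have h1 := (irreducible_X_sub_C (1 : F)).dvd_symm (hS.irred π hπ) hdvd
      have h2 := eq_of_monic_of_associated (monic_X_sub_C (1 : F)) (hS.monic π hπ)
        (associated_of_dvd_dvd hdvd h1)
      exact hS.notMem (h2 ▸ hπ)
    have hdvd : (X - C 1 : F[X]) * π ∣ X ^ r - C 1 := by
      rw [C_1]
      have h1 := hS.one_dvd
      rw [C_1] at h1
      have hcop' : IsCoprime (X - 1 : F[X]) π := by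
        rw [C_1] at hcop
        exact hcop
      exact hcop'.mul_dvd h1 (hS.dvd π hπ)
    have hmon1 : ((X - C 1 : F[X]) * π).Monic := (monic_X_sub_C 1).mul (hS.monic π hπ)
    have hmon2 : (X ^ r - C 1 : F[X]).Monic := monic_X_pow_sub_C 1 hr.ne_zero
    have hdeg : (X ^ r - C 1 : F[X]).natDegree ≤ ((X - C 1 : F[X]) * π).natDegree := by
      rw [natDegree_X_pow_sub_C, (monic_X_sub_C 1).natDegree_mul (hS.monic π hπ),
        natDegree_X_sub_C, hS.deg π hπ]
      omega
    exact (eq_of_monic_of_dvd_of_natDegree_le hmon1 hmon2 hdvd hdeg).symm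
  obtain ⟨d, hd, B, ρ, hB1, hB2, hB3⟩ := exists_cyc (F := F) r hr.pos 1
  subst hd
  have hcard : Fintype.card ((Fin r × Fin M) ⊕ Fin (n - r * M)) = Fintype.card (Fin n) := by
    simp only [Fintype.card_sum, Fintype.card_prod, Fintype.card_fin]
    omega
  obtain ⟨e₂, -⟩ : ∃ e₂ : (Fin r × Fin M) ⊕ Fin (n - r * M) ≃ Fin n, True :=
    ⟨Fintype.equivOfCardEq hcard, trivial⟩
  obtain ⟨Y₀, hY₀⟩ : ∃ Y₀ : Matrix ((Fin r × Fin M) ⊕ Fin (n - r * M))
      ((Fin r × Fin M) ⊕ Fin (n - r * M)) F,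
      Y₀ = Matrix.fromBlocks (Matrix.blockDiagonal (fun _ : Fin M => B)) 0 0 1 := ⟨_, rfl⟩
  obtain ⟨Ψ, hΨ⟩ : ∃ Ψ : Matrix ((Fin r × Fin M) ⊕ Fin (n - r * M))
      ((Fin r × Fin M) ⊕ Fin (n - r * M)) F ≃ₐ[F]
      Matrix (Fin n) (Fin n) F, Ψ = Matrix.reindexAlgEquiv F F e₂ := ⟨_, rfl⟩
  have hbd : (Matrix.blockDiagonal (fun _ : Fin M => B)) ^ r = 1 := by
    rw [← Matrix.blockDiagonal_pow]
    have h7 : (fun _ : Fin M => B) ^ r = 1 := by
      funext j
      rw [Pi.pow_apply, hB1, one_smul]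
      rfl
    rw [h7, Matrix.blockDiagonal_one]
  have hY₀pow : ∀ k : ℕ, Y₀ ^ k =
      Matrix.fromBlocks ((Matrix.blockDiagonal (fun _ : Fin M => B)) ^ k) 0 0 1 := by
    intro k
    induction k with
    | zero => rw [pow_zero, pow_zero, Matrix.fromBlocks_one]
    | succ k ih =>
      rw [pow_succ, ih, hY₀, Matrix.fromBlocks_multiply]
      simp [pow_succ]
  have hYr : (Ψ Y₀) ^ r = 1 := by
    rw [← map_pow, hY₀pow, hbd, Matrix.fromBlocks_one, map_one]
  have hYχ : (Ψ Y₀).charpoly = y.charpoly := by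
    rw [hΨ, Matrix.coe_reindexAlgEquiv, Matrix.charpoly_reindex, hY₀,
      Matrix.charpoly_fromBlocks_zero₁₂, charpoly_blockDiagonal, Matrix.charpoly_one,
      Fintype.card_fin, hχ, Finset.prod_const, Finset.card_univ, Fintype.card_fin, hB2]
    unfold PrimeOrderGL.chi
    have h1 : (X ^ r - C 1 : F[X]) ^ M = (X - C 1) ^ M * ∏ π : S, π.1 ^ m π := by
      have h2 : (X ^ r - C 1 : F[X]) ^ M = ∏ π : S, (X ^ r - C 1 : F[X]) ^ m π := by
        rw [Finset.prod_pow_eq_pow_sum, hM]
      have h3 : (X - C 1 : F[X]) ^ M = ∏ π : S, (X - C 1 : F[X]) ^ m π := by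
        rw [Finset.prod_pow_eq_pow_sum, hM]
      rw [h2, h3, ← Finset.prod_mul_distrib]
      apply Finset.prod_congr rfl
      intro π _
      rw [← mul_pow, hfac π.1 π.2]
    have h2 : n - c * M = M + (n - r * M) := by omega
    rw [h1, h2, pow_add, C_1]
    ring
  have hss1 := isSemisimple_of_pow_eq_one y r hrF hy
  have hss2 := isSemisimple_of_pow_eq_one (Ψ Y₀) r hrF hYr
  obtain ⟨e, he⟩ := exists_similar_of_charpoly_eq y (Ψ Y₀) hss1 hss2 hYχ.symm
  obtain ⟨P, hP⟩ := Diag.exists_GL_of_conj y (Ψ Y₀) ⟨e, he⟩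
  have hdet : y.det ≠ 0 := det_ne_zero_of_pow y 1 one_ne_zero hr.pos (by rw [hy, one_smul])
  refine decomp_of_similar (κ := (Fin r × Fin M) ⊕ Fin (n - r * M)) ht Nat.one_pos y (Ψ Y₀) P
    hP hdet (e₂.symm.trans (Equiv.prodUnique _ (Fin 1)).symm) e₂
    (Sum.map (Prod.map ρ id) id) ?_
  intro i' i hne
  rw [hΨ, hY₀] at hne
  have hne' : Matrix.fromBlocks (Matrix.blockDiagonal (fun _ : Fin M => B)) 0 0 1
      (e₂.symm i') (e₂.symm i) ≠ 0 := hne
  show e₂.symm i' = Sum.map (Prod.map ρ id) id (e₂.symm i)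
  rcases h1 : e₂.symm i' with ⟨l', s'⟩ | u'
  · rcases h2 : e₂.symm i with ⟨l, s⟩ | u
    · rw [h1, h2, Matrix.fromBlocks_apply₁₁, Matrix.blockDiagonal_apply] at hne'
      by_cases h3 : s' = s
      · rw [if_pos h3] at hne'
        have h4 : l' = ρ l := hB3 _ _ hne'
        rw [Sum.map_inl, Prod.map_apply, h4, h3]
        rfl
      · rw [if_neg h3] at hne'
        exact absurd rfl hne'
    · rw [h1, h2, Matrix.fromBlocks_apply₁₂] at hne'
      exact absurd rfl hne'
  · rcases h2 : e₂.symm i with ⟨l, s⟩ | u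
    · rw [h1, h2, Matrix.fromBlocks_apply₂₁] at hne'
      exact absurd rfl hne'
    · rw [h1, h2, Matrix.fromBlocks_apply₂₂, Matrix.one_apply] at hne'
      by_cases h3 : u' = u
      · rw [Sum.map_inr, h3]
        rfl
      · rw [if_neg h3] at hne'
        exact absurd rfl hne'

end models

section forward

variable {F : Type u} [Field F] {n a t : ℕ}

/-- The fixed space of an endomorphism. -/
def fixS (f : Module.End F (Fin n → F)) : Submodule F (Fin n → F) := LinearMap.ker (f - 1)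

theorem mem_fixS (f : Module.End F (Fin n → F)) (v : Fin n → F) : v ∈ fixS f ↔ f v = v := by
  unfold fixS
  rw [LinearMap.mem_ker, LinearMap.sub_apply, Module.End.one_apply, sub_eq_zero]

theorem pow_fix (f : Module.End F (Fin n → F)) (v : Fin n → F) (hv : f v = v) (l : ℕ) :
    (f ^ l) v = v := by
  induction l with
  | zero => rfl
  | succ l ih => rw [pow_succ, Module.End.mul_apply, hv, ih]

variable {D : Fin t → Submodule F (Fin n → F)}

theorem map_pow_eq (f : Module.End F (Fin n → F))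
    (σ : Equiv.Perm (Fin t)) (hσ : ∀ j, (D j).map f = D (σ j)) (l : ℕ) (j : Fin t) :
    (D j).map (f ^ l) = D ((σ ^ l) j) := by
  induction l generalizing j with
  | zero =>
    rw [pow_zero, pow_zero]
    exact Submodule.map_id _
  | succ l ih =>
    rw [pow_succ, pow_succ]
    have h1 : (D j).map (f ^ l * f) = ((D j).map f).map (f ^ l) :=
      Submodule.map_comp f (f ^ l) (D j)
    rw [h1, hσ, ih]
    rfl

theorem pow_mem (f : Module.End F (Fin n → F))
    (σ : Equiv.Perm (Fin t)) (hσ : ∀ j, (D j).map f = D (σ j)) (l : ℕ) (j : Fin t)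
    (v : Fin n → F) (hv : v ∈ D j) : (f ^ l) v ∈ D ((σ ^ l) j) := by
  rw [← map_pow_eq f σ hσ l j]
  exact Submodule.mem_map_of_mem hv

theorem D_ne_bot (hD : IsMDecomposition a D) (j : Fin t) : D j ≠ ⊥ := by
  intro h
  have h1 := hD.finrank_eq j
  rw [h, finrank_bot] at h1
  have := hD.pos
  omega

theorem sigma_pow_eq_one (hD : IsMDecomposition a D) (f : Module.End F (Fin n → F))
    (σ : Equiv.Perm (Fin t)) (hσ : ∀ j, (D j).map f = D (σ j)) (r : ℕ) (hf : f ^ r = 1) :
    σ ^ r = 1 := by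
  apply Equiv.ext
  intro j
  have h1 := map_pow_eq f σ hσ r j
  rw [hf] at h1
  have h2 : D j = D ((σ ^ r) j) := by
    rw [← h1]
    exact (Submodule.map_id _).symm
  exact (hD.indep.injective (D_ne_bot hD) h2).symm

theorem pow_ne_of_moved (σ : Equiv.Perm (Fin t)) {r : ℕ} (hr : r.Prime) (hσr : σ ^ r = 1)
    (j₀ : Fin t) (hj : σ j₀ ≠ j₀) (l : ℕ) (hl0 : 0 < l) (hlr : l < r) : (σ ^ l) j₀ ≠ j₀ := by
  intro h
  have h1 : MulAction.period σ j₀ ∣ l := MulAction.pow_smul_eq_iff_period_dvd.1 h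
  have h2 : MulAction.period σ j₀ ∣ r :=
    MulAction.pow_smul_eq_iff_period_dvd.1 (by rw [hσr]; rfl)
  rcases (Nat.dvd_prime hr).1 h2 with h3 | h3
  · apply hj
    have h4 : σ ^ 1 • j₀ = j₀ := MulAction.pow_smul_eq_iff_period_dvd.2 (by rw [h3])
    rw [pow_one] at h4
    exact h4
  · rw [h3] at h1
    have := Nat.le_of_dvd hl0 h1
    omega

theorem finrank_biSup {ι : Type*} [DecidableEq ι] (K : ι → Submodule F (Fin n → F))
    (hK : iSupIndep K) (s : Finset ι) :
    finrank F (⨆ j ∈ s, K j : Submodule F (Fin n → F)) = ∑ j ∈ s, finrank F (K j) := by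
  induction s using Finset.induction_on with
  | empty => simp
  | insert j s hj ih =>
    rw [Finset.iSup_insert, Finset.sum_insert hj, ← ih]
    have h1 : Disjoint (K j) (⨆ i ∈ s, K i) :=
      hK.disjoint_biSup (y := (s : Set ι)) (fun h => hj (Finset.mem_coe.1 h))
    have h2 := Submodule.finrank_sup_add_finrank_inf_eq (K j) (⨆ i ∈ s, K i)
    rw [disjoint_iff.1 h1, finrank_bot, add_zero] at h2
    exact h2

theorem map_co_le (f : Module.End F (Fin n → F))
    (σ : Equiv.Perm (Fin t)) (hσ : ∀ j, (D j).map f = D (σ j)) (i : Fin t) :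
    (Helper20.C2NonMax.co D i).map f ≤ Helper20.C2NonMax.co D (σ i) := by
  unfold Helper20.C2NonMax.co
  rw [Submodule.map_iSup]
  apply iSup_le
  intro k
  rw [Submodule.map_iSup]
  apply iSup_le
  intro hk
  rw [hσ k]
  exact le_iSup₂_of_le (σ k) (fun h => hk (σ.injective h)) le_rfl

theorem pow_mem_co (f : Module.End F (Fin n → F))
    (σ : Equiv.Perm (Fin t)) (hσ : ∀ j, (D j).map f = D (σ j)) (l : ℕ) (i : Fin t)
    (v : Fin n → F) (hv : v ∈ Helper20.C2NonMax.co D i) :
    (f ^ l) v ∈ Helper20.C2NonMax.co D ((σ ^ l) i) := by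
  induction l with
  | zero => exact hv
  | succ l ih =>
    have h2 : f ((f ^ l) v) ∈ Helper20.C2NonMax.co D (σ ((σ ^ l) i)) :=
      map_co_le f σ hσ _ (Submodule.mem_map_of_mem ih)
    rw [pow_succ', pow_succ']
    exact h2

theorem pow_inj_of_moved (σ : Equiv.Perm (Fin t)) {r : ℕ} (hr : r.Prime) (hσr : σ ^ r = 1)
    (j₀ : Fin t) (hj : σ j₀ ≠ j₀) (l l' : ℕ) (hll : l ≤ l') (hl' : l' < r)
    (h : (σ ^ l) j₀ = (σ ^ l') j₀) : l = l' := by
  by_contra hne
  have h1 : (σ ^ l') j₀ = (σ ^ l) ((σ ^ (l' - l)) j₀) := by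
    rw [← Equiv.Perm.mul_apply, ← pow_add, Nat.add_sub_cancel' hll]
  rw [h1] at h
  have h2 := (σ ^ l).injective h
  exact pow_ne_of_moved σ hr hσr j₀ hj (l' - l) (by omega) (by omega) h2.symm

/-- If some block is moved, the fixed space is small. -/
theorem fix_le_of_moved (hD : IsMDecomposition a D) (f : Module.End F (Fin n → F))
    (σ : Equiv.Perm (Fin t)) (hσ : ∀ j, (D j).map f = D (σ j)) {r : ℕ} (hr : r.Prime)
    (hf : f ^ r = 1) (j₀ : Fin t) (hj : σ j₀ ≠ j₀) :
    finrank F (fixS f) + (r - 1) * a ≤ n := by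
  classical
  have hσr := sigma_pow_eq_one hD f σ hσ r hf
  obtain ⟨b, hb⟩ := Helper20.C2NonMax.exists_basis a D hD
  obtain ⟨T, hT⟩ : ∃ T : Finset (Fin t),
      T = (Finset.Ico 1 r).image (fun l => (σ ^ l) j₀) := ⟨_, rfl⟩
  have hinj : Set.InjOn (fun l => (σ ^ l) j₀) (Finset.Ico 1 r : Set ℕ) := by
    intro l hl l' hl' h
    rw [Finset.coe_Ico, Set.mem_Ico] at hl hl'
    rcases Nat.le_total l l' with hll | hll
    · exact pow_inj_of_moved σ hr hσr j₀ hj l l' hll hl'.2 h
    · exact (pow_inj_of_moved σ hr hσr j₀ hj l' l hll hl.2 h.symm).symm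
  have hTcard : T.card = r - 1 := by
    rw [hT, Finset.card_image_of_injOn hinj, Nat.card_Ico]
  have hW : finrank F (⨆ j ∈ T, D j : Submodule F (Fin n → F)) = (r - 1) * a := by
    rw [finrank_biSup D hD.indep T, Finset.sum_congr rfl (fun j _ => hD.finrank_eq j),
      Finset.sum_const, hTcard, smul_eq_mul]
  have hle0 : (⨆ j ∈ T, D j) ≤ Helper20.C2NonMax.co D j₀ := by
    apply iSup₂_le
    intro k hk
    have hk0 : k ≠ j₀ := by
      rintro rfl
      rw [hT, Finset.mem_image] at hk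
      obtain ⟨l', hl', h'⟩ := hk
      rw [Finset.mem_Ico] at hl'
      exact pow_ne_of_moved σ hr hσr k hj l' (by omega) hl'.2 h'
    exact le_iSup₂_of_le k hk0 le_rfl
  have hdisj : Disjoint (fixS f) (⨆ j ∈ T, D j) := by
    rw [Submodule.disjoint_def]
    intro v hv1 hv2
    rw [mem_fixS] at hv1
    have h0 : ∀ i s, b.repr v ⟨i, s⟩ = 0 := by
      intro i
      rw [← Helper20.C2NonMax.mem_co_iff b hb i v]
      by_cases hi : i ∈ T
      · rw [hT, Finset.mem_image] at hi
        obtain ⟨l, hl, rfl⟩ := hi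
        have h2 := pow_mem_co f σ hσ l j₀ v (hle0 hv2)
        rw [pow_fix f v hv1 l] at h2
        exact h2
      · have hle : (⨆ j ∈ T, D j) ≤ Helper20.C2NonMax.co D i := by
          apply iSup₂_le
          intro k hk
          exact le_iSup₂_of_le k (fun h => hi (h ▸ hk)) le_rfl
        exact hle hv2
    apply b.repr.injective
    ext ⟨i, s⟩
    rw [h0 i s, map_zero]
    rfl
  have h := Submodule.finrank_add_finrank_le_of_disjoint hdisj
  rw [hW, Module.finrank_fin_fun] at h
  exact h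

/-- If some block is moved, the fixed space is large. -/
theorem fix_ge_of_moved (hD : IsMDecomposition a D) (f : Module.End F (Fin n → F))
    (σ : Equiv.Perm (Fin t)) (hσ : ∀ j, (D j).map f = D (σ j)) {r : ℕ} (hr : r.Prime)
    (hf : f ^ r = 1) (j₀ : Fin t) (hj : σ j₀ ≠ j₀) : a ≤ finrank F (fixS f) := by
  classical
  have hσr := sigma_pow_eq_one hD f σ hσ r hf
  obtain ⟨N, hN⟩ : ∃ N : Module.End F (Fin n → F), N = ∑ l ∈ Finset.range r, f ^ l :=
    ⟨_, rfl⟩
  have hfN : (f - 1) * N = 0 := by rw [hN, mul_geom_sum, hf, sub_self]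
  have hle : (D j₀).map N ≤ fixS f := by
    rintro _ ⟨v, -, rfl⟩
    unfold fixS
    rw [LinearMap.mem_ker, ← Module.End.mul_apply, hfN, LinearMap.zero_apply]
  have hinj : Function.Injective (N.domRestrict (D j₀)) := by
    rw [← LinearMap.ker_eq_bot, LinearMap.ker_eq_bot']
    rintro ⟨v, hv⟩ h0
    have h1 : N v = 0 := h0
    have h2 : N v = v + ∑ l ∈ Finset.Ico 1 r, (f ^ l) v := by
      rw [hN, LinearMap.sum_apply, Finset.range_eq_Ico, Finset.sum_eq_sum_Ico_succ_bot hr.pos]
      rfl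
    have h3 : ∑ l ∈ Finset.Ico 1 r, (f ^ l) v ∈ ⨆ (k) (_ : k ≠ j₀), D k := by
      apply Submodule.sum_mem
      intro l hl
      rw [Finset.mem_Ico] at hl
      have h4 := pow_mem f σ hσ l j₀ v hv
      exact Submodule.mem_iSup_of_mem _ (Submodule.mem_iSup_of_mem
        (pow_ne_of_moved σ hr hσr j₀ hj l (by omega) hl.2) h4)
    have h5 : v ∈ ⨆ (k) (_ : k ≠ j₀), D k := by
      have h6 : v = -∑ l ∈ Finset.Ico 1 r, (f ^ l) v := by
        rw [h1] at h2
        exact eq_neg_of_add_eq_zero_left h2.symm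
      rw [h6]
      exact Submodule.neg_mem _ h3
    have h7 := (Submodule.disjoint_def.1 (hD.indep j₀)) v hv h5
    exact Subtype.ext h7
  have h8 := LinearMap.finrank_range_of_inj hinj
  rw [LinearMap.range_domRestrict, hD.finrank_eq] at h8
  rw [← h8]
  exact Submodule.finrank_mono hle

/-- The codimension of the fixed space in an invariant subspace is divisible by `c`. -/
theorem dvd_sub_fix {S : Finset F[X]} {r c : ℕ} (hS : PrimeOrderGL.Factors S r c)
    (hrF : (r : F) ≠ 0) (f : Module.End F (Fin n → F)) (hf : f ^ r = 1)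
    (W : Submodule F (Fin n → F)) (hW : W.map f ≤ W) :
    c ∣ finrank F W - finrank F (W ⊓ fixS f : Submodule F (Fin n → F)) := by
  classical
  obtain ⟨U, hU⟩ : ∃ U : Submodule F (Fin n → F), U = W.map (f - 1) := ⟨_, rfl⟩
  have hrn : finrank F U + finrank F (W ⊓ fixS f : Submodule F (Fin n → F)) = finrank F W := by
    have h1 := LinearMap.finrank_range_add_finrank_ker ((f - 1).domRestrict W)
    rw [LinearMap.range_domRestrict] at h1
    have h3 : LinearMap.ker ((f - 1).domRestrict W) = Submodule.comap W.subtype (fixS f) := by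
      ext w
      rw [LinearMap.mem_ker, Submodule.mem_comap]
      unfold fixS
      rw [LinearMap.mem_ker]
      rfl
    rw [h3, ← Submodule.finrank_map_subtype_eq W, Submodule.map_comap_subtype, ← hU] at h1
    exact h1
  have hUinv : U ∈ f.invtSubmodule := by
    rw [Module.End.mem_invtSubmodule_iff_forall_mem_of_mem]
    intro u hu
    rw [hU] at hu ⊢
    obtain ⟨w, hw, rfl⟩ := hu
    refine ⟨f w, hW (Submodule.mem_map_of_mem hw), ?_⟩
    rw [LinearMap.sub_apply, LinearMap.sub_apply, Module.End.one_apply, Module.End.one_apply,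
      map_sub]
  have hUfix : ∀ u ∈ U, f u = u → u = 0 := by
    intro u hu hfu
    rw [hU] at hu
    obtain ⟨w, -, rfl⟩ := hu
    have h1 : (∑ l ∈ Finset.range r, f ^ l) ((f - 1) w) = 0 := by
      rw [← Module.End.mul_apply, geom_sum_mul, hf, sub_self, LinearMap.zero_apply]
    have h2 : (∑ l ∈ Finset.range r, f ^ l) ((f - 1) w) = (r : F) • (f - 1) w := by
      rw [LinearMap.sum_apply, Finset.sum_congr rfl (fun l _ => pow_fix f _ hfu l),
        Finset.sum_const, Finset.card_range, Nat.cast_smul_eq_nsmul]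
    rw [h2] at h1
    exact (smul_eq_zero.1 h1).resolve_left hrF
  obtain ⟨g, hg⟩ : ∃ g : Module.End F U, g = f.restrict (p := U) (q := U) hUinv := ⟨_, rfl⟩
  have hgr : g ^ r = 1 := by
    apply LinearMap.ext
    intro u
    apply Subtype.ext
    rw [hg, Elusive.pow_restrict_apply, hf]
    rfl
  obtain ⟨M, hM⟩ : ∃ M : Matrix (Fin (finrank F U)) (Fin (finrank F U)) F,
      M = LinearMap.toMatrix (Module.finBasis F U) (Module.finBasis F U) g := ⟨_, rfl⟩
  have hMr : M ^ r = 1 := by
    have h1 : M = LinearMap.toMatrixAlgEquiv (Module.finBasis F U) g := hM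
    rw [h1, ← map_pow, hgr, map_one]
  obtain ⟨m, hm, hχ⟩ := PrimeOrderGL.charpoly_eq_chi hS M hMr
  have hk0 : finrank F U - c * ∑ π, m π = 0 := by
    by_contra hne
    have h1 : (X - C 1 : F[X]) ∣ M.charpoly := by
      rw [hχ]
      unfold PrimeOrderGL.chi
      exact Dvd.dvd.mul_right (dvd_pow_self _ hne) _
    rw [hM, LinearMap.charpoly_toMatrix] at h1
    have h2 : g.charpoly.IsRoot 1 := dvd_iff_isRoot.1 h1
    rw [← Module.End.hasEigenvalue_iff_isRoot_charpoly] at h2
    obtain ⟨u, hu⟩ := h2.exists_hasEigenvector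
    have h3 := hu.apply_eq_smul
    rw [one_smul] at h3
    have h4 : f (u : Fin n → F) = u := by
      have h5 := congrArg Subtype.val h3
      rw [hg] at h5
      exact h5
    have h5 := hUfix u u.2 h4
    exact hu.2 (Subtype.ext h5)
  exact ⟨∑ π, m π, by omega⟩

theorem card_reps (σ : Equiv.Perm (Fin t)) {r : ℕ} (hr : 0 < r) (hσr : σ ^ r = 1) :
    t ≤ r * (Finset.univ.filter (fun j : Fin t => ∀ l < r, j ≤ (σ ^ l) j)).card := by
  classical
  obtain ⟨R, hR⟩ : ∃ R : Finset (Fin t),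
      R = Finset.univ.filter (fun j : Fin t => ∀ l < r, j ≤ (σ ^ l) j) := ⟨_, rfl⟩
  rw [← hR]
  have hsub : (Finset.univ : Finset (Fin t)) ⊆
      (R ×ˢ Finset.range r).image (fun p : Fin t × ℕ => (σ ^ p.2) p.1) := by
    intro j _
    obtain ⟨l₀, hl₀, hmin⟩ := Finset.exists_min_image (Finset.range r) (fun l => (σ ^ l) j)
      ⟨0, Finset.mem_range.2 hr⟩
    rw [Finset.mem_image]
    refine ⟨((σ ^ l₀) j, (r - l₀) % r), ?_, ?_⟩
    · rw [Finset.mem_product]
      refine ⟨?_, Finset.mem_range.2 (Nat.mod_lt _ hr)⟩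
      rw [hR, Finset.mem_filter]
      refine ⟨Finset.mem_univ _, fun l hl => ?_⟩
      have h1 : (σ ^ l) ((σ ^ l₀) j) = (σ ^ ((l + l₀) % r)) j := by
        rw [← Equiv.Perm.mul_apply, ← pow_add, pow_eq_pow_mod (l + l₀) hσr]
      rw [h1]
      exact hmin _ (Finset.mem_range.2 (Nat.mod_lt _ hr))
    · show (σ ^ ((r - l₀) % r)) ((σ ^ l₀) j) = j
      rw [← pow_eq_pow_mod (r - l₀) hσr, ← Equiv.Perm.mul_apply, ← pow_add,
        Nat.sub_add_cancel (le_of_lt (Finset.mem_range.1 hl₀)), hσr]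
      rfl
  have h1 := Finset.card_le_card hsub
  have h2 := Finset.card_image_le (s := R ×ˢ Finset.range r)
    (f := fun p : Fin t × ℕ => (σ ^ p.2) p.1)
  rw [Finset.card_product, Finset.card_range] at h2
  rw [Finset.card_univ, Fintype.card_fin] at h1
  rw [mul_comm]
  exact le_trans h1 h2

/-- For a decomposition into lines, every orbit on the lines contributes a fixed vector. -/
theorem fix_ge_orbits (hD : IsMDecomposition 1 D) (f : Module.End F (Fin n → F))
    (σ : Equiv.Perm (Fin t)) (hσ : ∀ j, (D j).map f = D (σ j)) {r : ℕ} (hr : r.Prime)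
    (hf : f ^ r = 1) (hrF : (r : F) ≠ 0) (hroot : ∀ μ : F, μ ^ r = 1 → μ = 1) :
    t ≤ r * finrank F (fixS f) := by
  classical
  have hσr := sigma_pow_eq_one hD f σ hσ r hf
  obtain ⟨b, hb⟩ := Helper20.C2NonMax.exists_basis 1 D hD
  obtain ⟨N, hN⟩ : ∃ N : Module.End F (Fin n → F), N = ∑ l ∈ Finset.range r, f ^ l :=
    ⟨_, rfl⟩
  have hfN : (f - 1) * N = 0 := by rw [hN, mul_geom_sum, hf, sub_self]
  have hNfix : ∀ v, N v ∈ fixS f := by
    intro v
    unfold fixS
    rw [LinearMap.mem_ker, ← Module.End.mul_apply, hfN, LinearMap.zero_apply]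
  obtain ⟨R, hR⟩ : ∃ R : Finset (Fin t),
      R = Finset.univ.filter (fun j : Fin t => ∀ l < r, j ≤ (σ ^ l) j) := ⟨_, rfl⟩
  have hcard : t ≤ r * R.card := by
    rw [hR]
    exact card_reps σ hr.pos hσr
  have hbD : ∀ j, b ⟨j, 0⟩ ∈ D j := by
    intro j
    rw [hb j]
    exact Submodule.subset_span ⟨0, rfl⟩
  have hcoord : ∀ (j k : Fin t) (v : Fin n → F), v ∈ D k → k ≠ j → b.repr v ⟨j, 0⟩ = 0 := by
    intro j k v hv hkj
    have hle : D k ≤ Helper20.C2NonMax.co D j := le_iSup₂_of_le k hkj le_rfl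
    exact (Helper20.C2NonMax.mem_co_iff b hb j v).1 (hle hv) 0
  have hfixed : ∀ j, σ j = j → f (b ⟨j, 0⟩) = b ⟨j, 0⟩ := by
    intro j hj
    have h1 : f (b ⟨j, 0⟩) ∈ D j := by
      have h0 := Submodule.mem_map_of_mem (f := f) (hbD j)
      rw [hσ j, hj] at h0
      exact h0
    rw [hb j] at h1
    have h2 : (Set.range fun s : Fin 1 => b ⟨j, s⟩) = {b ⟨j, 0⟩} := by
      ext v
      constructor
      · rintro ⟨s, rfl⟩
        rw [Subsingleton.elim s 0]
        rfl
      · rintro rfl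
        exact ⟨0, rfl⟩
    rw [h2, Submodule.mem_span_singleton] at h1
    obtain ⟨μ, hμ⟩ := h1
    have h3 : ∀ l : ℕ, (f ^ l) (b ⟨j, 0⟩) = μ ^ l • b ⟨j, 0⟩ := by
      intro l
      induction l with
      | zero =>
        rw [pow_zero, pow_zero, one_smul]
        rfl
      | succ l ih =>
        rw [pow_succ', Module.End.mul_apply, ih, map_smul, ← hμ, smul_smul, pow_succ]
    have h4 := h3 r
    rw [hf, Module.End.one_apply] at h4
    have h5 : μ ^ r = 1 := by
      have h6 : (1 - μ ^ r) • b ⟨j, 0⟩ = 0 := by rw [sub_smul, one_smul, ← h4, sub_self]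
      have h7 := (smul_eq_zero.1 h6).resolve_right (b.ne_zero _)
      exact (sub_eq_zero.1 h7).symm
    rw [← hμ, hroot μ h5, one_smul]
  have hdiag : ∀ j ∈ R, b.repr (N (b ⟨j, 0⟩)) ⟨j, 0⟩ ≠ 0 := by
    intro j _
    by_cases hfix : σ j = j
    · have h1 : N (b ⟨j, 0⟩) = (r : F) • b ⟨j, 0⟩ := by
        rw [hN, LinearMap.sum_apply,
          Finset.sum_congr rfl (fun l _ => pow_fix f _ (hfixed j hfix) l),
          Finset.sum_const, Finset.card_range, Nat.cast_smul_eq_nsmul]
      rw [h1, map_smul, Finsupp.smul_apply, Module.Basis.repr_self, Finsupp.single_eq_same,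
        smul_eq_mul, mul_one]
      exact hrF
    · have h1 : N (b ⟨j, 0⟩) = b ⟨j, 0⟩ + ∑ l ∈ Finset.Ico 1 r, (f ^ l) (b ⟨j, 0⟩) := by
        rw [hN, LinearMap.sum_apply, Finset.range_eq_Ico,
          Finset.sum_eq_sum_Ico_succ_bot hr.pos]
        rfl
      rw [h1, map_add, Finsupp.add_apply, Module.Basis.repr_self, Finsupp.single_eq_same,
        map_sum, Finsupp.finsetSum_apply, Finset.sum_eq_zero, add_zero]
      · exact one_ne_zero
      · intro l hl
        rw [Finset.mem_Ico] at hl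
        exact hcoord j _ _ (pow_mem f σ hσ l j _ (hbD j))
          (pow_ne_of_moved σ hr hσr j hfix l (by omega) hl.2)
  have hoff : ∀ j ∈ R, ∀ j' ∈ R, j' ≠ j → b.repr (N (b ⟨j', 0⟩)) ⟨j, 0⟩ = 0 := by
    intro j hj j' hj' hne
    rw [hN, LinearMap.sum_apply, map_sum, Finsupp.finsetSum_apply]
    apply Finset.sum_eq_zero
    intro l hl
    rw [Finset.mem_range] at hl
    apply hcoord j _ _ (pow_mem f σ hσ l j' _ (hbD j'))
    intro h
    rw [hR, Finset.mem_filter] at hj hj'
    have h1 : j' ≤ j := h ▸ hj'.2 l hl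
    have h2 : (σ ^ ((r - l) % r)) j = j' := by
      rw [← h, ← pow_eq_pow_mod (r - l) hσr, ← Equiv.Perm.mul_apply, ← pow_add,
        Nat.sub_add_cancel (le_of_lt hl), hσr]
      rfl
    have h3 : j ≤ j' := h2 ▸ hj.2 _ (Nat.mod_lt _ hr.pos)
    exact hne (le_antisymm h1 h3)
  have hli : LinearIndependent F (fun j : R => (⟨N (b ⟨j.1, 0⟩), hNfix _⟩ : fixS f)) := by
    rw [Fintype.linearIndependent_iff]
    intro g hg j
    have h1 : b.repr ((∑ j' : R, g j' • (⟨N (b ⟨j'.1, 0⟩), hNfix _⟩ : fixS f) : fixS f) :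
        Fin n → F) ⟨j.1, 0⟩ = 0 := by
      rw [hg]
      simp
    rw [Submodule.coe_sum, map_sum, Finsupp.finsetSum_apply, Finset.sum_eq_single j] at h1
    · rw [Submodule.coe_smul, map_smul, Finsupp.smul_apply, smul_eq_mul] at h1
      exact (mul_eq_zero.1 h1).resolve_right (hdiag j.1 j.2)
    · intro j' _ hne
      rw [Submodule.coe_smul, map_smul, Finsupp.smul_apply, smul_eq_mul]
      have h2 : b.repr (N (b ⟨j'.1, 0⟩)) ⟨j.1, 0⟩ = 0 :=
        hoff j.1 j.2 j'.1 j'.2 (fun h => hne (Subtype.ext h))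
      rw [h2, mul_zero]
    · intro h
      exact absurd (Finset.mem_univ _) h
  have h9 := hli.fintype_card_le_finrank
  rw [Fintype.card_coe] at h9
  calc t ≤ r * R.card := hcard
    _ ≤ r * finrank F (fixS f) := Nat.mul_le_mul_left r h9

/-- The fixed space of a semisimple element with many non-trivial irreducible blocks. -/
theorem fix_le_of_model (f : Module.End F (Fin n → F)) (π : F[X]) (hπ : Irreducible π)
    (hdeg : 2 ≤ π.natDegree) (hss : f.IsSemisimple) (k : ℕ) (hk : π ^ k ∣ f.charpoly) :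
    finrank F (fixS f) + π.natDegree * k ≤ n := by
  have hW : fixS f ∈ f.invtSubmodule := by
    rw [Module.End.mem_invtSubmodule_iff_forall_mem_of_mem]
    intro v hv
    rw [mem_fixS] at hv ⊢
    rw [hv, hv]
  obtain ⟨W', hW', hc⟩ := (Module.End.isSemisimple_iff.1 hss) _ hW
  obtain ⟨b, b', hab, hb, hb'⟩ := Elusive.pow_dvd_split f π hπ _ W' hW hW' hc k hk
  have hb0 : b = 0 := by
    by_contra hne
    have h1 : π ∣ (f.restrict (p := fixS f) (q := fixS f) hW).charpoly :=
      (dvd_pow_self π hne).trans hb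
    have h0 : aeval (f.restrict (p := fixS f) (q := fixS f) hW) (X - C 1 : F[X]) = 0 := by
      apply LinearMap.ext
      intro w
      apply Subtype.ext
      rw [Elusive.aeval_restrict]
      have hw := (mem_fixS f w.1).1 w.2
      simp [hw]
    have h2 := Elusive.irr_dvd _ π hπ h1 (X - C 1) h0
    have h3 := natDegree_le_of_dvd h2 (X_sub_C_ne_zero 1)
    rw [natDegree_X_sub_C] at h3
    omega
  have h4 := Elusive.deg_le_of_pow_dvd _ π b' hb'
  have hdim := Submodule.finrank_add_eq_of_isCompl hc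
  rw [Module.finrank_fin_fun] at hdim
  subst hb0
  have h5 : π.natDegree * k ≤ π.natDegree * b' := Nat.mul_le_mul_left _ (by omega)
  omega

end forward

section tests

variable {F : Type u} [Field F] [Fintype F]

omit [Fintype F] in
theorem toLin_pow_eq_one {n : ℕ} (M : Matrix (Fin n) (Fin n) F) (r : ℕ) (h : M ^ r = 1) :
    (Matrix.toLin' M : Module.End F (Fin n → F)) ^ r = 1 := by
  change Matrix.toLinAlgEquiv' M ^ r = 1
  rw [← map_pow, h, map_one]

/-- An element of order `r` with a single non-trivial irreducible block. -/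
theorem exists_x1 {p q : ℕ} [Fact p.Prime] [CharP F p] (hF : Fintype.card F = q) (n r : ℕ)
    [Fact r.Prime] (hrp : r ≠ p) (hi : 2 ≤ orderOf (q : ZMod r))
    (hin : orderOf (q : ZMod r) ≤ n) :
    ∃ M : Matrix (Fin n) (Fin n) F, M.det = 1 ∧ M ^ r = 1 ∧ M ≠ 1 ∧
      n ≤ finrank F (fixS (Matrix.toLin' M)) + orderOf (q : ZMod r) := by
  classical
  have hr : r.Prime := Fact.out
  obtain ⟨S, hS, ⟨π₀, hπ₀⟩⟩ := Elusive.exists_factors hF r hrp
  obtain ⟨c, hcdef⟩ : ∃ c : ℕ, c = orderOf (q : ZMod r) := ⟨_, rfl⟩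
  rw [← hcdef] at hS hi hin ⊢
  let a' : S → ℕ := fun π => if π.1 = π₀ then 1 else 0
  have hsum : ∑ π, a' π = 1 := by
    rw [Finset.sum_eq_single ⟨π₀, hπ₀⟩]
    · simp [a']
    · intro b _ hb
      have : b.1 ≠ π₀ := fun h => hb (Subtype.ext h)
      simp [a', this]
    · intro h
      exact absurd (Finset.mem_univ _) h
  have ha' : c * ∑ π, a' π ≤ c := by rw [hsum, mul_one]
  obtain ⟨G, hG, hχ⟩ := PrimeOrderGL.exists_GL_chi (n := c) p hS hr.pos a' ha'
  have hχ' : (G : Matrix (Fin c) (Fin c) F).charpoly = π₀ := by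
    rw [hχ, hsum, mul_one, Nat.sub_self]
    unfold PrimeOrderGL.chi
    rw [pow_zero, one_mul, Finset.prod_eq_single ⟨π₀, hπ₀⟩]
    · simp [a']
    · intro b _ hb
      have : b.1 ≠ π₀ := fun h => hb (Subtype.ext h)
      simp [a', this]
    · intro h
      exact absurd (Finset.mem_univ _) h
  have hGr : (G : Matrix (Fin c) (Fin c) F) ^ r = 1 := by
    rw [← Units.val_pow_eq_pow_val, hG]
    rfl
  have hq2 : 2 ≤ q := by
    rw [← hF]
    exact Fintype.one_lt_card
  have hdetG : (G : Matrix (Fin c) (Fin c) F).det = 1 := by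
    have h1 : (G : Matrix (Fin c) (Fin c) F).det ^ r = 1 := by
      rw [← Matrix.det_pow, hGr, Matrix.det_one]
    have h0 : (G : Matrix (Fin c) (Fin c) F).det ≠ 0 := by
      intro h
      rw [h, zero_pow hr.ne_zero] at h1
      exact zero_ne_one h1
    have h2 : (G : Matrix (Fin c) (Fin c) F).det ^ (q - 1) = 1 := by
      rw [← hF]
      exact FiniteField.pow_card_sub_one_eq_one _ h0
    have h3 : ¬ r ∣ q - 1 := by
      intro h
      have h' := (Elusive.dvd_pow_sub_one_iff q r (by omega) 1).1 (by simpa using h)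
      have := Nat.le_of_dvd one_pos h'
      omega
    have h4 : Nat.gcd r (q - 1) = 1 := (Nat.Prime.coprime_iff_not_dvd hr).2 h3
    have h5 := pow_gcd_eq_one.2 ⟨h1, h2⟩
    rwa [h4, pow_one] at h5
  have hπirr := hS.irred π₀ hπ₀
  have hπdeg : π₀.natDegree = c := hS.deg π₀ hπ₀
  have hnc : c + (n - c) = n := by omega
  obtain ⟨e', he'⟩ : ∃ e' : Fin c ⊕ Fin (n - c) ≃ Fin n,
      e' = finSumFinEquiv.trans (finCongr hnc) := ⟨_, rfl⟩
  obtain ⟨N, hN⟩ : ∃ N : Matrix (Fin c ⊕ Fin (n - c)) (Fin c ⊕ Fin (n - c)) F,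
      N = Matrix.fromBlocks (G : Matrix (Fin c) (Fin c) F) 0 0 1 := ⟨_, rfl⟩
  obtain ⟨Ψ, hΨ⟩ : ∃ Ψ : Matrix (Fin c ⊕ Fin (n - c)) (Fin c ⊕ Fin (n - c)) F ≃ₐ[F]
      Matrix (Fin n) (Fin n) F, Ψ = Matrix.reindexAlgEquiv F F e' := ⟨_, rfl⟩
  have hNpow : ∀ k : ℕ, N ^ k =
      Matrix.fromBlocks ((G : Matrix (Fin c) (Fin c) F) ^ k) 0 0 1 := by
    intro k
    induction k with
    | zero => rw [pow_zero, pow_zero, Matrix.fromBlocks_one]
    | succ k ih =>
      rw [pow_succ, ih, hN, Matrix.fromBlocks_multiply]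
      simp [pow_succ]
  have hX1 : (X - 1 : F[X]) = X - C 1 := by rw [C_1]
  have hchar : (Ψ N).charpoly = π₀ * (X - C 1) ^ (n - c) := by
    rw [hΨ, Matrix.coe_reindexAlgEquiv, Matrix.charpoly_reindex, hN,
      Matrix.charpoly_fromBlocks_zero₁₂, hχ', Matrix.charpoly_one, Fintype.card_fin, hX1]
  refine ⟨Ψ N, ?_, ?_, ?_, ?_⟩
  · rw [hΨ, Matrix.coe_reindexAlgEquiv, Matrix.det_reindex_self, hN,
      Matrix.det_fromBlocks_zero₁₂, hdetG, Matrix.det_one, mul_one]
  · rw [← map_pow, hNpow, hGr, Matrix.fromBlocks_one, map_one]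
  · intro h1'
    have h1 : π₀ ∣ (Ψ N).charpoly := by
      rw [hchar]
      exact dvd_mul_right _ _
    rw [h1', Matrix.charpoly_one, Fintype.card_fin, hX1] at h1
    have h2 := hπirr.prime.dvd_of_dvd_pow h1
    have h3 := natDegree_le_of_dvd h2 (X_sub_C_ne_zero 1)
    rw [natDegree_X_sub_C, hπdeg] at h3
    omega
  · have hrank : (Ψ N - 1).rank ≤ c := by
      have h1 : Ψ N - 1 = Ψ (N - 1) := by
        rw [map_sub, map_one]
      rw [h1, hΨ, Matrix.coe_reindexAlgEquiv, Matrix.rank_reindex]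
      have h2 := Tensor.rank_le_of_rows (N - 1)
        (Finset.univ.map ⟨Sum.inl, Sum.inl_injective⟩) (by
        intro i hi j
        rcases i with i | i
        · exact absurd (Finset.mem_map_of_mem _ (Finset.mem_univ i)) hi
        · rcases j with j | j
          · simp [hN]
          · simp [hN, Matrix.one_apply])
      rw [Finset.card_map, Finset.card_univ, Fintype.card_fin] at h2
      exact h2
    have h3 : fixS (Matrix.toLin' (Ψ N)) = LinearMap.ker (Matrix.toLin' (Ψ N - 1)) := by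
      unfold fixS
      rw [map_sub, Matrix.toLin'_one]
      rfl
    have h4 := LinearMap.finrank_range_add_finrank_ker (Matrix.toLin' (Ψ N - 1))
    rw [Module.finrank_fin_fun] at h4
    have h5 : finrank F (LinearMap.range (Matrix.toLin' (Ψ N - 1))) = (Ψ N - 1).rank := by
      rw [Matrix.toLin'_apply']
      rfl
    rw [h3]
    omega

end tests

section count

variable {F : Type u} [Field F] {n a t : ℕ}

theorem exists_GL_of_equiv (L : (Fin n → F) ≃ₗ[F] (Fin n → F)) :
    ∃ g : GL (Fin n) F, Matrix.toLin' (g : Matrix (Fin n) (Fin n) F) =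
      (L : (Fin n → F) →ₗ[F] (Fin n → F)) := by
  refine ⟨⟨LinearMap.toMatrix' (L : (Fin n → F) →ₗ[F] (Fin n → F)),
    LinearMap.toMatrix' (L.symm : (Fin n → F) →ₗ[F] (Fin n → F)), ?_, ?_⟩, ?_⟩
  · rw [← LinearMap.toMatrix'_comp]
    simp
  · rw [← LinearMap.toMatrix'_comp]
    simp
  · exact Matrix.toLin'_toMatrix' _

theorem exists_equiv_of_GL (g : GL (Fin n) F) :
    ∃ L : (Fin n → F) ≃ₗ[F] (Fin n → F), (L : (Fin n → F) →ₗ[F] (Fin n → F)) =
      Matrix.toLin' (g : Matrix (Fin n) (Fin n) F) := by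
  refine ⟨LinearEquiv.ofLinearMap (Matrix.toLin' (g : Matrix (Fin n) (Fin n) F))
    (Matrix.toLin' ((g⁻¹ : GL (Fin n) F) : Matrix (Fin n) (Fin n) F)) ?_ ?_, rfl⟩
  · rw [← Matrix.toLin'_mul, ← Units.val_mul, mul_inv_cancel, Units.val_one, Matrix.toLin'_one]
  · rw [← Matrix.toLin'_mul, ← Units.val_mul, inv_mul_cancel, Units.val_one, Matrix.toLin'_one]

/-- The action of `GL_n` on families of subspaces. -/
noncomputable def famAct (n t : ℕ) (F : Type u) [Field F] :
    MulAction (GL (Fin n) F) (Fin t → Submodule F (Fin n → F)) where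
  smul g D := fun j => (D j).map (Matrix.toLin' (g : Matrix (Fin n) (Fin n) F))
  one_smul D := by
    funext j
    show (D j).map (Matrix.toLin' ((1 : GL (Fin n) F) : Matrix (Fin n) (Fin n) F)) = D j
    rw [Units.val_one, Matrix.toLin'_one, Submodule.map_id]
  mul_smul g h D := by
    funext j
    show (D j).map (Matrix.toLin' ((g * h : GL (Fin n) F) : Matrix (Fin n) (Fin n) F)) =
      ((D j).map (Matrix.toLin' (h : Matrix (Fin n) (Fin n) F))).map
        (Matrix.toLin' (g : Matrix (Fin n) (Fin n) F))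
    rw [Units.val_mul, Matrix.toLin'_mul, Submodule.map_comp]

theorem blk_map (b : Module.Basis (Σ _ : Fin t, Fin a) F (Fin n → F))
    (L : (Fin n → F) ≃ₗ[F] (Fin n → F)) (j : Fin t) :
    (blk b j).map (L : (Fin n → F) →ₗ[F] (Fin n → F)) = blk (b.map L) j := by
  unfold blk
  rw [Submodule.map_span, ← Set.range_comp]
  congr 2

theorem eq_blk {D : Fin t → Submodule F (Fin n → F)} (hD : IsMDecomposition a D) :
    ∃ b : Module.Basis (Σ _ : Fin t, Fin a) F (Fin n → F), D = blk b := by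
  obtain ⟨b, hb⟩ := Helper20.C2NonMax.exists_basis a D hD
  exact ⟨b, funext hb⟩

theorem card_dvd_GL [Fintype F] (ht : 2 ≤ t) (ha : 0 < a)
    (b₀ : Module.Basis (Σ _ : Fin t, Fin a) F (Fin n → F)) :
    Nat.card {D : Fin t → Submodule F (Fin n → F) // IsMDecomposition a D} ∣
      Nat.card (GL (Fin n) F) := by
  classical
  letI := famAct n t F
  have hmem : ∀ g : GL (Fin n) F, g • blk b₀ ∈ {D | IsMDecomposition a D} := by
    intro g
    obtain ⟨L, hL⟩ := exists_equiv_of_GL g
    have h1 : g • blk b₀ = blk (b₀.map L) := by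
      funext j
      show (blk b₀ j).map (Matrix.toLin' (g : Matrix (Fin n) (Fin n) F)) = blk (b₀.map L) j
      rw [← hL, blk_map]
    rw [h1]
    exact decomp_of_basis _ ht ha
  have h1 := Helper13.card_preimage_orbit (G := GL (Fin n) F) (blk b₀)
    {D | IsMDecomposition a D} (by
    intro D hD
    obtain ⟨b, rfl⟩ := eq_blk hD
    obtain ⟨g, hg⟩ := exists_GL_of_equiv (b₀.equiv b (Equiv.refl _))
    refine ⟨g, ?_⟩
    funext j
    show (blk b₀ j).map (Matrix.toLin' (g : Matrix (Fin n) (Fin n) F)) = blk b j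
    rw [hg]
    unfold blk
    rw [Submodule.map_span, ← Set.range_comp]
    congr 2
    funext s
    simp)
  have h2 : Nat.card {g : GL (Fin n) F // g • blk b₀ ∈ {D | IsMDecomposition a D}} =
      Nat.card (GL (Fin n) F) :=
    Nat.card_congr (Equiv.subtypeUnivEquiv hmem)
  rw [h2] at h1
  exact Dvd.intro _ h1.symm

/-- The action of the symmetric group on ordered decompositions. -/
noncomputable def permAct (n a t : ℕ) (F : Type u) [Field F] :
    MulAction (Equiv.Perm (Fin t))
      {D : Fin t → Submodule F (Fin n → F) // IsMDecomposition a D} where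
  smul σ D := ⟨fun j => D.1 (σ.symm j), ⟨D.2.two_le, D.2.pos, fun i => D.2.finrank_eq _,
    D.2.indep.comp σ.symm.injective, by
      rw [← D.2.iSup_eq_top]
      exact σ.symm.iSup_comp (g := D.1)⟩⟩
  one_smul D := Subtype.ext rfl
  mul_smul σ τ D := Subtype.ext rfl

theorem factorial_dvd_card [Fintype F] :
    t.factorial ∣ Nat.card {D : Fin t → Submodule F (Fin n → F) // IsMDecomposition a D} := by
  classical
  letI := permAct n a t F
  haveI : Fintype (MulAction.orbitRel.Quotient (Equiv.Perm (Fin t))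
      {D : Fin t → Submodule F (Fin n → F) // IsMDecomposition a D}) := Fintype.ofFinite _
  rw [Nat.card_congr (MulAction.selfEquivSigmaOrbits (Equiv.Perm (Fin t)) _), Nat.card_sigma]
  apply Finset.dvd_sum
  intro ω _
  have hstab : MulAction.stabilizer (Equiv.Perm (Fin t)) (Quotient.out ω) = ⊥ := by
    rw [eq_bot_iff]
    intro σ hσ
    rw [MulAction.mem_stabilizer_iff] at hσ
    rw [Subgroup.mem_bot]
    have hD := (Quotient.out ω).2
    apply Equiv.ext
    intro j
    have h1 : (Quotient.out ω).1 (σ.symm (σ j)) = (Quotient.out ω).1 (σ j) :=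
      congrFun (congrArg Subtype.val hσ) (σ j)
    have h2 := hD.indep.injective (D_ne_bot hD) h1
    rw [Equiv.symm_apply_apply] at h2
    exact h2.symm
  rw [Nat.card_congr (MulAction.orbitEquivQuotientStabilizer (Equiv.Perm (Fin t))
    (Quotient.out ω)), hstab,
    Nat.card_congr (QuotientGroup.quotientBot (G := Equiv.Perm (Fin t))).toEquiv,
    Nat.card_eq_fintype_card, Fintype.card_perm, Fintype.card_fin]

theorem c_le_of_dvd [Fintype F] {p : ℕ} [Fact p.Prime] [CharP F p] {q : ℕ}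
    (hq : Fintype.card F = q) (hat : n = a * t) (ht : 2 ≤ t) (ha : 0 < a)
    (r : ℕ) [Fact r.Prime] (hrp : r ≠ p)
    (hΩ : r ∣ Nat.card {D : Fin t → Submodule F (Fin n → F) // IsMDecomposition a D} /
      Nat.factorial t) : orderOf (q : ZMod r) ≤ n := by
  have hcard : Fintype.card (Fin n) = Fintype.card (Σ _ : Fin t, Fin a) := by
    simp [hat, mul_comm]
  have h1 := card_dvd_GL ht ha
    ((Pi.basisFun F (Fin n)).reindex (Fintype.equivOfCardEq hcard))
  have h2 := Nat.div_dvd_of_dvd (factorial_dvd_card (F := F) (n := n) (a := a) (t := t))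
  exact Tensor.le_of_dvd_card_GL hq n r hrp (hΩ.trans (h2.trans h1))

end count

section final

variable {F : Type u} [Field F] [Fintype F]

theorem main {p : ℕ} [Fact p.Prime] [CharP F p] {q : ℕ}
    (hq : Fintype.card F = q) (n a t : ℕ) (hat : n = a * t) (ha : 1 ≤ a) (ht : 2 ≤ t)
    (r : ℕ) [Fact r.Prime] (hrp : r ≠ p)
    (hΩ : r ∣ Nat.card {D : Fin t → Submodule F (Fin n → F) // IsMDecomposition a D} /
      Nat.factorial t)
    (c : ℕ) (hc : c = orderOf (q : ZMod r)) :
    (∀ x : Matrix.SpecialLinearGroup (Fin n) F,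
      (∃ z : F, ((x ^ r : Matrix.SpecialLinearGroup (Fin n) F) : Matrix (Fin n) (Fin n) F) =
        z • (1 : Matrix (Fin n) (Fin n) F)) →
      (∀ z : F, (x : Matrix (Fin n) (Fin n) F) ≠ z • (1 : Matrix (Fin n) (Fin n) F)) →
      ∃ D : Fin t → Submodule F (Fin n → F), IsMDecomposition a D ∧
        ∃ σ : Equiv.Perm (Fin t), ∀ j,
          (D j).map (Matrix.toLin' (x : Matrix (Fin n) (Fin n) F)) = D (σ j)) ↔
    ((a = 1 ∧ 1 < c ∧ c = r - 1 ∧ n ≤ (n % c) * r) ∨ (c ≤ a ∧ n % c = t * (a % c))) := by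
  classical
  have hr : r.Prime := Fact.out
  obtain ⟨S, hS, -⟩ := Elusive.exists_factors hq r hrp
  rw [← hc] at hS
  have hrF : (r : F) ≠ 0 := Elusive.natCast_ne_zero_of_ne r hrp
  have hc0 : 0 < c := by
    rw [hc]
    exact Elusive.orderOf_pos_of_ne hq r hrp
  have hn0 : 0 < n := by
    rw [hat]
    exact Nat.mul_pos (by omega) (by omega)
  constructor
  · intro h
    rcases Nat.lt_or_ge c 2 with hc1 | hc2
    · have hc1' : c = 1 := by omega
      refine Or.inr ⟨by omega, ?_⟩
      rw [hc1', Nat.mod_one, Nat.mod_one, mul_zero]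
    · have hcn : c ≤ n := by
        rw [hc]
        exact c_le_of_dvd hq hat ht (by omega) r hrp hΩ
      have hq2 : 2 ≤ q := by
        rw [← hq]
        exact Fintype.one_lt_card
      have hrq : ¬ r ∣ q - 1 := by
        intro h'
        have h'' := (Elusive.dvd_pow_sub_one_iff q r (by omega) 1).1 (by simpa using h')
        rw [← hc] at h''
        have := Nat.le_of_dvd one_pos h''
        omega
      have hroot : ∀ μ : F, μ ^ r = 1 → μ = 1 := by
        intro μ hμ
        have h0 : μ ≠ 0 := by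
          intro h0
          rw [h0, zero_pow hr.ne_zero] at hμ
          exact zero_ne_one hμ
        have h2 : μ ^ (q - 1) = 1 := by
          rw [← hq]
          exact FiniteField.pow_card_sub_one_eq_one _ h0
        have h4 : Nat.gcd r (q - 1) = 1 := (Nat.Prime.coprime_iff_not_dvd hr).2 hrq
        have h5 := pow_gcd_eq_one.2 ⟨hμ, h2⟩
        rwa [h4, pow_one] at h5
      have hcr : c ≤ r - 1 := by
        have hq0 : (q : ZMod r) ≠ 0 := by
          intro h0
          have h1 : (q : ZMod r) ^ c = 1 := by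
            rw [hc]
            exact pow_orderOf_eq_one _
          rw [h0, zero_pow (by omega)] at h1
          exact zero_ne_one h1
        have h1 := orderOf_dvd_of_pow_eq_one (ZMod.pow_card_sub_one_eq_one hq0)
        rw [← hc] at h1
        exact Nat.le_of_dvd (by have := hr.two_le; omega) h1
      obtain ⟨x₂, π, hx₂r, hx₂ns, hπirr, hπdeg, hπdvd⟩ :=
        Elusive.exists_model hq n r hrp (hc ▸ hc2) (hc ▸ hcn)
      rw [← hc] at hπdeg hπdvd
      obtain ⟨f₂, hf₂⟩ : ∃ f₂ : Module.End F (Fin n → F),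
          f₂ = Matrix.toLin' (x₂ : Matrix (Fin n) (Fin n) F) := ⟨_, rfl⟩
      have hf₂r : f₂ ^ r = 1 := by
        rw [hf₂]
        exact toLin_pow_eq_one _ r hx₂r
      have hss₂ : f₂.IsSemisimple := by
        rw [hf₂]
        exact isSemisimple_of_pow_eq_one _ r hrF hx₂r
      have hk₀ := fix_le_of_model f₂ π hπirr (by omega) hss₂ (n / c) (by
        rw [hf₂]
        exact hπdvd)
      rw [hπdeg] at hk₀
      have hmodlt := Nat.mod_lt n hc0
      have hk₀' : finrank F (fixS f₂) = n % c := by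
        have h1 := dvd_sub_fix hS hrF f₂ hf₂r ⊤ le_top
        rw [top_inf_eq, finrank_top, Module.finrank_fin_fun] at h1
        obtain ⟨u, hu⟩ := h1
        have h2 := Nat.div_add_mod n c
        have h5 : n = finrank F (fixS f₂) + c * u := by omega
        have h6 : n % c = finrank F (fixS f₂) % c := by
          conv_lhs => rw [h5]
          exact Nat.add_mul_mod_self_left _ _ _
        have h7 : finrank F (fixS f₂) % c = finrank F (fixS f₂) :=
          Nat.mod_eq_of_lt (by omega)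
        rw [h7] at h6
        exact h6.symm
      have hx₂pow : ∃ z : F, ((x₂ ^ r : Matrix.SpecialLinearGroup (Fin n) F) :
          Matrix (Fin n) (Fin n) F) = z • (1 : Matrix (Fin n) (Fin n) F) :=
        ⟨1, by rw [Matrix.SpecialLinearGroup.coe_pow, hx₂r, one_smul]⟩
      obtain ⟨D, hD, σ₂, hσ₂⟩ := h x₂ hx₂pow hx₂ns
      rw [← hf₂] at hσ₂
      by_cases hid : ∀ j, σ₂ j = j
      · right
        have hkj : ∀ j, finrank F (D j ⊓ fixS f₂ : Submodule F (Fin n → F)) = a % c := by
          intro j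
          have h1 := dvd_sub_fix hS hrF f₂ hf₂r (D j) (by rw [hσ₂ j, hid j])
          rw [hD.finrank_eq] at h1
          obtain ⟨u, hu⟩ := h1
          have h2 : finrank F (D j ⊓ fixS f₂ : Submodule F (Fin n → F)) ≤
              finrank F (fixS f₂) := Submodule.finrank_mono inf_le_right
          have h3 : finrank F (D j ⊓ fixS f₂ : Submodule F (Fin n → F)) ≤ a := by
            have h4 := Submodule.finrank_mono (inf_le_left : D j ⊓ fixS f₂ ≤ D j)
            rw [hD.finrank_eq] at h4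
            exact h4
          have h5 : a = finrank F (D j ⊓ fixS f₂ : Submodule F (Fin n → F)) + c * u := by
            omega
          have h6 : a % c = finrank F (D j ⊓ fixS f₂ : Submodule F (Fin n → F)) % c := by
            conv_lhs => rw [h5]
            exact Nat.add_mul_mod_self_left _ _ _
          have h7 : finrank F (D j ⊓ fixS f₂ : Submodule F (Fin n → F)) % c =
              finrank F (D j ⊓ fixS f₂ : Submodule F (Fin n → F)) :=
            Nat.mod_eq_of_lt (by omega)
          rw [h7] at h6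
          exact h6.symm
        have hsum : t * (a % c) ≤ n % c := by
          have hind : iSupIndep (fun j => D j ⊓ fixS f₂) :=
            hD.indep.mono (fun j => inf_le_left)
          have h1 := finrank_biSup (fun j => D j ⊓ fixS f₂) hind Finset.univ
          rw [Finset.sum_congr rfl (fun j _ => hkj j), Finset.sum_const, Finset.card_univ,
            Fintype.card_fin, smul_eq_mul] at h1
          rw [← h1, ← hk₀']
          apply Submodule.finrank_mono
          apply iSup₂_le
          intro j _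
          exact inf_le_right
        have h9 : n % c = (t * (a % c)) % c := by
          rw [hat, Nat.mul_comm a t, Nat.mul_mod t a c, Nat.mul_mod t (a % c) c, Nat.mod_mod]
        have h9' : (t * (a % c)) % c = t * (a % c) := Nat.mod_eq_of_lt (by omega)
        rw [h9'] at h9
        refine ⟨?_, h9⟩
        by_contra hca
        have h10 : a % c = a := Nat.mod_eq_of_lt (by omega)
        rw [h10, mul_comm, ← hat] at hsum
        omega
      · push Not at hid
        obtain ⟨j₀, hj₀⟩ := hid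
        have ha_lt : a < c := by
          have h1 := fix_ge_of_moved hD f₂ σ₂ hσ₂ hr hf₂r j₀ hj₀
          omega
        obtain ⟨M₁, hM₁det, hM₁r, hM₁ne, hM₁fix⟩ :=
          exists_x1 hq n r hrp (hc ▸ hc2) (hc ▸ hcn)
        rw [← hc] at hM₁fix
        obtain ⟨f₁, hf₁⟩ : ∃ f₁ : Module.End F (Fin n → F), f₁ = Matrix.toLin' M₁ :=
          ⟨_, rfl⟩
        rw [← hf₁] at hM₁fix
        have hf₁r : f₁ ^ r = 1 := by
          rw [hf₁]
          exact toLin_pow_eq_one _ r hM₁r
        obtain ⟨x₁, hx₁⟩ : ∃ x₁ : Matrix.SpecialLinearGroup (Fin n) F,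
            (x₁ : Matrix (Fin n) (Fin n) F) = M₁ := ⟨⟨M₁, hM₁det⟩, rfl⟩
        have hx₁pow : ∃ z : F, ((x₁ ^ r : Matrix.SpecialLinearGroup (Fin n) F) :
            Matrix (Fin n) (Fin n) F) = z • (1 : Matrix (Fin n) (Fin n) F) := by
          refine ⟨1, ?_⟩
          rw [Matrix.SpecialLinearGroup.coe_pow, one_smul, hx₁]
          exact hM₁r
        have hx₁ns : ∀ z : F, (x₁ : Matrix (Fin n) (Fin n) F) ≠
            z • (1 : Matrix (Fin n) (Fin n) F) := by
          intro z hz
          have hz' : M₁ = z • (1 : Matrix (Fin n) (Fin n) F) := by rw [← hx₁, hz]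
          have h1 : z ^ r = 1 := by
            have h2 := hM₁r
            rw [hz', _root_.smul_pow, one_pow] at h2
            have h3 : (z ^ r • (1 : Matrix (Fin n) (Fin n) F)) ⟨0, hn0⟩ ⟨0, hn0⟩ =
                (1 : Matrix (Fin n) (Fin n) F) ⟨0, hn0⟩ ⟨0, hn0⟩ := by rw [h2]
            simpa using h3
          rw [hroot z h1, one_smul] at hz'
          exact hM₁ne hz'
        obtain ⟨D', hD', σ₁, hσ₁⟩ := h x₁ hx₁pow hx₁ns
        have hσ₁' : ∀ j, (D' j).map f₁ = D' (σ₁ j) := by
          rw [hf₁, ← hx₁]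
          exact hσ₁
        have hmoved : ∃ j, σ₁ j ≠ j := by
          by_contra hall
          push Not at hall
          apply hM₁ne
          have hle : ∀ j, D' j ≤ fixS f₁ := by
            intro j
            have h1 := dvd_sub_fix hS hrF f₁ hf₁r (D' j) (by rw [hσ₁' j, hall j])
            rw [hD'.finrank_eq] at h1
            have h4 : a - finrank F (D' j ⊓ fixS f₁ : Submodule F (Fin n → F)) = 0 := by
              by_contra hne
              have := Nat.le_of_dvd (Nat.pos_of_ne_zero hne) h1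
              omega
            have h5 : D' j ⊓ fixS f₁ = D' j := by
              apply Submodule.eq_of_le_of_finrank_le inf_le_left
              rw [hD'.finrank_eq]
              omega
            rw [← h5]
            exact inf_le_right
          have htop : fixS f₁ = ⊤ := by
            rw [eq_top_iff, ← hD'.iSup_eq_top]
            exact iSup_le hle
          have h6 : f₁ = 1 := by
            apply LinearMap.ext
            intro v
            have hv : v ∈ fixS f₁ := by
              rw [htop]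
              exact Submodule.mem_top
            exact (mem_fixS f₁ v).1 hv
          apply Matrix.toLin'.injective
          rw [← hf₁, h6, Matrix.toLin'_one]
          rfl
        obtain ⟨j₁, hj₁⟩ := hmoved
        have hP2 := fix_le_of_moved hD' f₁ σ₁ hσ₁' hr hf₁r j₁ hj₁
        have h10 : (r - 1) * a ≤ c := by omega
        have ha1 : a = 1 := by
          by_contra hne
          have h11 : 2 ≤ a := by omega
          have h12 : (r - 1) * 2 ≤ (r - 1) * a := Nat.mul_le_mul_left _ h11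
          have := hr.two_le
          omega
        subst ha1
        have hc_eq : c = r - 1 := by omega
        have hP4 := fix_ge_orbits hD f₂ σ₂ hσ₂ hr hf₂r hrF hroot
        rw [hk₀'] at hP4
        left
        refine ⟨rfl, by omega, hc_eq, ?_⟩
        have htn : t = n := by omega
        rw [mul_comm]
        omega
  · rintro hRHS x ⟨z, hz⟩ hns
    rw [Matrix.SpecialLinearGroup.coe_pow] at hz
    by_cases hpow : ∃ w : F, w ^ r = z
    · obtain ⟨w, hw⟩ := hpow
      have hz0 : z ≠ 0 := by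
        intro h0
        have h1 := congrArg Matrix.det hz
        rw [Matrix.det_pow, x.det_coe, one_pow, Matrix.det_smul, Matrix.det_one, mul_one,
          Fintype.card_fin, h0, zero_pow hn0.ne'] at h1
        exact one_ne_zero h1
      have hw0 : w ≠ 0 := by
        intro h0
        rw [h0, zero_pow hr.ne_zero] at hw
        exact hz0 hw.symm
      obtain ⟨y, hy⟩ : ∃ y : Matrix (Fin n) (Fin n) F,
          y = w⁻¹ • (x : Matrix (Fin n) (Fin n) F) := ⟨_, rfl⟩
      have hyr : y ^ r = 1 := by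
        rw [hy, _root_.smul_pow, hz, smul_smul, inv_pow, hw, inv_mul_cancel₀ hz0, one_smul]
      have hxy : (x : Matrix (Fin n) (Fin n) F) = w • y := by
        rw [hy, smul_smul, mul_inv_cancel₀ hw0, one_smul]
      have htrans : ∀ D : Fin t → Submodule F (Fin n → F), ∀ j,
          (D j).map (Matrix.toLin' (x : Matrix (Fin n) (Fin n) F)) =
            (D j).map (Matrix.toLin' y) := by
        intro D j
        rw [hxy, map_smul]
        exact Submodule.map_smul _ _ w hw0
      rcases hRHS with ⟨ha1, hc1, hcr, hn⟩ | ⟨hca, hk⟩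
      · subst ha1
        have htn : t = n := by omega
        subst htn
        obtain ⟨D, hD, ρ, hρ⟩ := model_C p hS hr hrF (by have := hr.two_le; omega) hn ht y hyr
        exact ⟨D, hD, ρ, fun j => by rw [htrans D j, hρ j]⟩
      · obtain ⟨D, hD, ρ, hρ⟩ :=
          model_A p hS hr.pos hrF hc0 hat ht (by omega) (by rw [hk]) y hyr
        exact ⟨D, hD, ρ, fun j => by rw [htrans D j, hρ j]⟩
    · push Not at hpow
      exact model_B hr z hpow hat ht (by omega) (x : Matrix (Fin n) (Fin n) F) hz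

end final

end Cfsg.Agent.Lib.Helper40.Decomp
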