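-- Elements of odd prime order of symplectic groups and orthogonal decompositions (helper40).
import Mathlib
import Cfsg.Prelude.Def_GeometricClasses
import Cfsg.Agent.Lib.Helper40.Decomp
import Cfsg.Agent.Lib.Helper40.SpPrimeOrder
import Cfsg.Agent.Lib.Helper40.SympOrder
import Cfsg.Agent.Lib.Helper13.SpNondeg
import Cfsg.Agent.Lib.Helper94.SpBasis

set_option autoImplicit false
set_option linter.unusedSectionVars false

namespace Cfsg.Agent.Lib.Helper40.SpImprim

open Cfsg Cfsg.Geo Polynomial Module Matrix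

universe u

section gen

variable {F : Type u} [Field F] {ι : Type} [Fintype ι] [DecidableEq ι] {a t : ℕ}

/-- The sum of the other members of a decomposition. -/
def co (D : Fin t → Submodule F (ι → F)) (i : Fin t) : Submodule F (ι → F) :=
  ⨆ k, ⨆ (_ : k ≠ i), D k

theorem exists_basis (m : ℕ) (D : Fin t → Submodule F (ι → F)) (hD : IsMDecomposition m D) :
    ∃ b : Module.Basis (Σ _ : Fin t, Fin m) F (ι → F),
      ∀ i, D i = Submodule.span F (Set.range fun j => b ⟨i, j⟩) := by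
  classical
  have hInt := DirectSum.isInternal_submodule_of_iSupIndep_of_iSup_eq_top hD.indep hD.iSup_eq_top
  let v : ∀ i, Module.Basis (Fin m) F (D i) := fun i =>
    Module.finBasisOfFinrankEq F (D i) (hD.finrank_eq i)
  refine ⟨hInt.collectedBasis v, fun i => ?_⟩
  have h1 : Submodule.span F (Set.range (v i)) = ⊤ := (v i).span_eq
  have h2 : (Submodule.span F (Set.range (v i))).map (D i).subtype = D i := by
    rw [h1, Submodule.map_top, Submodule.range_subtype]
  conv_lhs => rw [← h2]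
  rw [Submodule.map_span, ← Set.range_comp]
  congr 2
  ext j
  simp [DirectSum.IsInternal.collectedBasis_coe]

theorem mem_co_iff {m : ℕ} {D : Fin t → Submodule F (ι → F)}
    (b : Module.Basis (Σ _ : Fin t, Fin m) F (ι → F))
    (hb : ∀ i, D i = Submodule.span F (Set.range fun j => b ⟨i, j⟩)) (i : Fin t) (x : ι → F) :
    x ∈ co D i ↔ ∀ j, b.repr x ⟨i, j⟩ = 0 := by
  classical
  constructor
  · intro hx j
    have hle : co D i ≤ LinearMap.ker (b.coord ⟨i, j⟩) := by
      apply iSup₂_le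
      intro k hk
      rw [hb k, Submodule.span_le]
      rintro _ ⟨j', rfl⟩
      simp only [SetLike.mem_coe, LinearMap.mem_ker, Module.Basis.coord_apply,
        Module.Basis.repr_self]
      rw [Finsupp.single_apply, if_neg]
      intro h
      exact hk (congrArg Sigma.fst h)
    have := hle hx
    simpa using this
  · intro h
    rw [← b.sum_repr x]
    apply Submodule.sum_mem
    rintro ⟨k, j⟩ _
    by_cases hk : k = i
    · subst hk
      rw [h j, zero_smul]
      exact zero_mem _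
    · apply Submodule.smul_mem
      apply Submodule.mem_iSup_of_mem k
      apply Submodule.mem_iSup_of_mem hk
      rw [hb k]
      exact Submodule.subset_span ⟨j, rfl⟩

/-- The block spanned by the `j`-th part of a basis. -/
def blk (b : Module.Basis (Σ _ : Fin t, Fin a) F (ι → F)) (j : Fin t) :
    Submodule F (ι → F) :=
  Submodule.span F (Set.range fun s => b ⟨j, s⟩)

theorem decomp_of_basis (b : Module.Basis (Σ _ : Fin t, Fin a) F (ι → F)) (ht : 2 ≤ t)
    (ha : 0 < a) : IsMDecomposition a (blk b) := by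
  classical
  have himg : ∀ j, blk b j = Submodule.span F (b '' {x | x.1 = j}) := by
    intro j
    unfold blk
    congr 1
    ext v
    constructor
    · rintro ⟨s, rfl⟩
      exact ⟨⟨j, s⟩, rfl, rfl⟩
    · rintro ⟨⟨j', s⟩, hx, rfl⟩
      have hj : j' = j := hx
      subst hj
      exact ⟨s, rfl⟩
  refine ⟨ht, ha, ?_, ?_, ?_⟩
  · intro j
    have hli : LinearIndependent F (fun s : Fin a => b ⟨j, s⟩) :=
      b.linearIndependent.comp (fun s => (⟨j, s⟩ : Σ _ : Fin t, Fin a))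
        (fun s s' h => by simpa using h)
    unfold blk
    rw [finrank_span_eq_card hli, Fintype.card_fin]
  · intro j
    rw [himg j]
    have h1 : (⨆ (k) (_ : k ≠ j), blk b k) ≤ Submodule.span F (b '' {x | x.1 ≠ j}) := by
      apply iSup₂_le
      intro k hk
      rw [himg k]
      apply Submodule.span_mono
      apply Set.image_mono
      intro x hx
      have hx' : x.1 = k := hx
      show x.1 ≠ j
      rw [hx']
      exact hk
    refine Disjoint.mono_right h1 (b.linearIndependent.disjoint_span_image ?_)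
    rw [Set.disjoint_left]
    intro x hx hx'
    exact hx' hx
  · rw [eq_top_iff, ← b.span_eq]
    apply Submodule.span_le.2
    rintro _ ⟨x, rfl⟩
    exact Submodule.mem_iSup_of_mem x.1 (Submodule.subset_span ⟨x.2, rfl⟩)

theorem blk_map_eq (b : Module.Basis (Σ _ : Fin t, Fin a) F (ι → F)) (ht : 2 ≤ t)
    (ha : 0 < a) (f : (ι → F) →ₗ[F] (ι → F)) (hf : Function.Injective f)
    (h : ∀ j s, f (b ⟨j, s⟩) ∈ blk b j) (j : Fin t) : (blk b j).map f = blk b j := by
  have hD := decomp_of_basis b ht ha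
  have hle : (blk b j).map f ≤ blk b j := by
    unfold blk
    rw [Submodule.map_span]
    apply Submodule.span_le.2
    rintro _ ⟨_, ⟨s, rfl⟩, rfl⟩
    exact h j s
  apply Submodule.eq_of_le_of_finrank_eq hle
  rw [hD.finrank_eq, ← (Submodule.equivMapOfInjective f hf (blk b j)).finrank_eq,
    hD.finrank_eq]

theorem blk_map (b : Module.Basis (Σ _ : Fin t, Fin a) F (ι → F))
    (L : (ι → F) ≃ₗ[F] (ι → F)) (j : Fin t) :
    (blk b j).map (L : (ι → F) →ₗ[F] (ι → F)) = blk (b.map L) j := by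
  unfold blk
  rw [Submodule.map_span, ← Set.range_comp]
  congr 2

/-- The fixed space of an endomorphism. -/
def fixS (f : Module.End F (ι → F)) : Submodule F (ι → F) := LinearMap.ker (f - 1)

theorem mem_fixS (f : Module.End F (ι → F)) (v : ι → F) : v ∈ fixS f ↔ f v = v := by
  unfold fixS
  rw [LinearMap.mem_ker, LinearMap.sub_apply, Module.End.one_apply, sub_eq_zero]

theorem pow_fix (f : Module.End F (ι → F)) (v : ι → F) (hv : f v = v) (l : ℕ) :
    (f ^ l) v = v := by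
  induction l with
  | zero => rfl
  | succ l ih => rw [pow_succ, Module.End.mul_apply, hv, ih]

variable {D : Fin t → Submodule F (ι → F)}

theorem map_pow_eq (f : Module.End F (ι → F))
    (σ : Equiv.Perm (Fin t)) (hσ : ∀ j, (D j).map f = D (σ j)) (l : ℕ) (j : Fin t) :
    (D j).map (f ^ l) = D ((σ ^ l) j) := by
  induction l generalizing j with
  | zero =>
    rw [pow_zero, pow_zero]
    exact Submodule.map_id _
  | succ l ih =>
    rw [pow_succ, pow_succ]
    have h1 : (D j).map (f ^ l * f) = ((D j).map f).map (f ^ l) :=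
      Submodule.map_comp f (f ^ l) (D j)
    rw [h1, hσ, ih]
    rfl

theorem pow_mem (f : Module.End F (ι → F))
    (σ : Equiv.Perm (Fin t)) (hσ : ∀ j, (D j).map f = D (σ j)) (l : ℕ) (j : Fin t)
    (v : ι → F) (hv : v ∈ D j) : (f ^ l) v ∈ D ((σ ^ l) j) := by
  rw [← map_pow_eq f σ hσ l j]
  exact Submodule.mem_map_of_mem hv

theorem D_ne_bot (hD : IsMDecomposition a D) (j : Fin t) : D j ≠ ⊥ := by
  intro h
  have h1 := hD.finrank_eq j
  rw [h, finrank_bot] at h1
  have := hD.pos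
  omega

theorem sigma_pow_eq_one (hD : IsMDecomposition a D) (f : Module.End F (ι → F))
    (σ : Equiv.Perm (Fin t)) (hσ : ∀ j, (D j).map f = D (σ j)) (r : ℕ) (hf : f ^ r = 1) :
    σ ^ r = 1 := by
  apply Equiv.ext
  intro j
  have h1 := map_pow_eq f σ hσ r j
  rw [hf] at h1
  have h2 : D j = D ((σ ^ r) j) := by
    rw [← h1]
    exact (Submodule.map_id _).symm
  exact (hD.indep.injective (D_ne_bot hD) h2).symm

theorem finrank_biSup {κ : Type*} [DecidableEq κ] (K : κ → Submodule F (ι → F))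
    (hK : iSupIndep K) (s : Finset κ) :
    finrank F (⨆ j ∈ s, K j : Submodule F (ι → F)) = ∑ j ∈ s, finrank F (K j) := by
  induction s using Finset.induction_on with
  | empty => simp
  | insert j s hj ih =>
    rw [Finset.iSup_insert, Finset.sum_insert hj, ← ih]
    have h1 : Disjoint (K j) (⨆ i ∈ s, K i) :=
      hK.disjoint_biSup (y := (s : Set κ)) (fun h => hj (Finset.mem_coe.1 h))
    have h2 := Submodule.finrank_sup_add_finrank_inf_eq (K j) (⨆ i ∈ s, K i)
    rw [disjoint_iff.1 h1, finrank_bot, add_zero] at h2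
    exact h2

theorem map_co_le (f : Module.End F (ι → F))
    (σ : Equiv.Perm (Fin t)) (hσ : ∀ j, (D j).map f = D (σ j)) (i : Fin t) :
    (co D i).map f ≤ co D (σ i) := by
  unfold co
  rw [Submodule.map_iSup]
  apply iSup_le
  intro k
  rw [Submodule.map_iSup]
  apply iSup_le
  intro hk
  rw [hσ k]
  exact le_iSup₂_of_le (σ k) (fun h => hk (σ.injective h)) le_rfl

theorem pow_mem_co (f : Module.End F (ι → F))
    (σ : Equiv.Perm (Fin t)) (hσ : ∀ j, (D j).map f = D (σ j)) (l : ℕ) (i : Fin t)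
    (v : ι → F) (hv : v ∈ co D i) :
    (f ^ l) v ∈ co D ((σ ^ l) i) := by
  induction l with
  | zero => exact hv
  | succ l ih =>
    have h2 : f ((f ^ l) v) ∈ co D (σ ((σ ^ l) i)) :=
      map_co_le f σ hσ _ (Submodule.mem_map_of_mem ih)
    rw [pow_succ', pow_succ']
    exact h2

/-- If some block is moved, the fixed space is small. -/
theorem fix_le_of_moved (hD : IsMDecomposition a D) (f : Module.End F (ι → F))
    (σ : Equiv.Perm (Fin t)) (hσ : ∀ j, (D j).map f = D (σ j)) {r : ℕ} (hr : r.Prime)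
    (hf : f ^ r = 1) (j₀ : Fin t) (hj : σ j₀ ≠ j₀) :
    finrank F (fixS f) + (r - 1) * a ≤ Fintype.card ι := by
  classical
  have hσr := sigma_pow_eq_one hD f σ hσ r hf
  obtain ⟨b, hb⟩ := exists_basis a D hD
  obtain ⟨T, hT⟩ : ∃ T : Finset (Fin t),
      T = (Finset.Ico 1 r).image (fun l => (σ ^ l) j₀) := ⟨_, rfl⟩
  have hinj : Set.InjOn (fun l => (σ ^ l) j₀) (Finset.Ico 1 r : Set ℕ) := by
    intro l hl l' hl' h
    rw [Finset.coe_Ico, Set.mem_Ico] at hl hl'
    rcases Nat.le_total l l' with hll | hll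
    · exact Decomp.pow_inj_of_moved σ hr hσr j₀ hj l l' hll hl'.2 h
    · exact (Decomp.pow_inj_of_moved σ hr hσr j₀ hj l' l hll hl.2 h.symm).symm
  have hTcard : T.card = r - 1 := by
    rw [hT, Finset.card_image_of_injOn hinj, Nat.card_Ico]
  have hW : finrank F (⨆ j ∈ T, D j : Submodule F (ι → F)) = (r - 1) * a := by
    rw [finrank_biSup D hD.indep T, Finset.sum_congr rfl (fun j _ => hD.finrank_eq j),
      Finset.sum_const, hTcard, smul_eq_mul]
  have hle0 : (⨆ j ∈ T, D j) ≤ co D j₀ := by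
    apply iSup₂_le
    intro k hk
    have hk0 : k ≠ j₀ := by
      rintro rfl
      rw [hT, Finset.mem_image] at hk
      obtain ⟨l', hl', h'⟩ := hk
      rw [Finset.mem_Ico] at hl'
      exact Decomp.pow_ne_of_moved σ hr hσr k hj l' (by omega) hl'.2 h'
    exact le_iSup₂_of_le k hk0 le_rfl
  have hdisj : Disjoint (fixS f) (⨆ j ∈ T, D j) := by
    rw [Submodule.disjoint_def]
    intro v hv1 hv2
    rw [mem_fixS] at hv1
    have h0 : ∀ i s, b.repr v ⟨i, s⟩ = 0 := by
      intro i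
      rw [← mem_co_iff b hb i v]
      by_cases hi : i ∈ T
      · rw [hT, Finset.mem_image] at hi
        obtain ⟨l, hl, rfl⟩ := hi
        have h2 := pow_mem_co f σ hσ l j₀ v (hle0 hv2)
        rw [pow_fix f v hv1 l] at h2
        exact h2
      · have hle : (⨆ j ∈ T, D j) ≤ co D i := by
          apply iSup₂_le
          intro k hk
          exact le_iSup₂_of_le k (fun h => hi (h ▸ hk)) le_rfl
        exact hle hv2
    apply b.repr.injective
    ext ⟨i, s⟩
    rw [h0 i s, map_zero]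
    rfl
  have h := Submodule.finrank_add_finrank_le_of_disjoint hdisj
  rw [hW, Module.finrank_fintype_fun_eq_card] at h
  exact h

/-- If some block is moved, the fixed space is large. -/
theorem fix_ge_of_moved (hD : IsMDecomposition a D) (f : Module.End F (ι → F))
    (σ : Equiv.Perm (Fin t)) (hσ : ∀ j, (D j).map f = D (σ j)) {r : ℕ} (hr : r.Prime)
    (hf : f ^ r = 1) (j₀ : Fin t) (hj : σ j₀ ≠ j₀) : a ≤ finrank F (fixS f) := by
  classical
  have hσr := sigma_pow_eq_one hD f σ hσ r hf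
  obtain ⟨N, hN⟩ : ∃ N : Module.End F (ι → F), N = ∑ l ∈ Finset.range r, f ^ l :=
    ⟨_, rfl⟩
  have hfN : (f - 1) * N = 0 := by rw [hN, mul_geom_sum, hf, sub_self]
  have hle : (D j₀).map N ≤ fixS f := by
    rintro _ ⟨v, -, rfl⟩
    unfold fixS
    rw [LinearMap.mem_ker, ← Module.End.mul_apply, hfN, LinearMap.zero_apply]
  have hinj : Function.Injective (N.domRestrict (D j₀)) := by
    rw [← LinearMap.ker_eq_bot, LinearMap.ker_eq_bot']
    rintro ⟨v, hv⟩ h0
    have h1 : N v = 0 := h0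
    have h2 : N v = v + ∑ l ∈ Finset.Ico 1 r, (f ^ l) v := by
      rw [hN, LinearMap.sum_apply, Finset.range_eq_Ico, Finset.sum_eq_sum_Ico_succ_bot hr.pos]
      rfl
    have h3 : ∑ l ∈ Finset.Ico 1 r, (f ^ l) v ∈ ⨆ (k) (_ : k ≠ j₀), D k := by
      apply Submodule.sum_mem
      intro l hl
      rw [Finset.mem_Ico] at hl
      have h4 := pow_mem f σ hσ l j₀ v hv
      exact Submodule.mem_iSup_of_mem _ (Submodule.mem_iSup_of_mem
        (Decomp.pow_ne_of_moved σ hr hσr j₀ hj l (by omega) hl.2) h4)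
    have h5 : v ∈ ⨆ (k) (_ : k ≠ j₀), D k := by
      have h6 : v = -∑ l ∈ Finset.Ico 1 r, (f ^ l) v := by
        rw [h1] at h2
        exact eq_neg_of_add_eq_zero_left h2.symm
      rw [h6]
      exact Submodule.neg_mem _ h3
    have h7 := (Submodule.disjoint_def.1 (hD.indep j₀)) v hv h5
    exact Subtype.ext h7
  have h8 := LinearMap.finrank_range_of_inj hinj
  rw [LinearMap.range_domRestrict, hD.finrank_eq] at h8
  rw [← h8]
  exact Submodule.finrank_mono hle

/-- The codimension of the fixed space in an invariant subspace is divisible by `c`. -/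
theorem dvd_sub_fix {S : Finset F[X]} {r c : ℕ} (hS : PrimeOrderGL.Factors S r c)
    (hrF : (r : F) ≠ 0) (f : Module.End F (ι → F)) (hf : f ^ r = 1)
    (W : Submodule F (ι → F)) (hW : W.map f ≤ W) :
    c ∣ finrank F W - finrank F (W ⊓ fixS f : Submodule F (ι → F)) := by
  classical
  obtain ⟨U, hU⟩ : ∃ U : Submodule F (ι → F), U = W.map (f - 1) := ⟨_, rfl⟩
  have hrn : finrank F U + finrank F (W ⊓ fixS f : Submodule F (ι → F)) = finrank F W := by
    have h1 := LinearMap.finrank_range_add_finrank_ker ((f - 1).domRestrict W)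
    rw [LinearMap.range_domRestrict] at h1
    have h3 : LinearMap.ker ((f - 1).domRestrict W) = Submodule.comap W.subtype (fixS f) := by
      ext w
      rw [LinearMap.mem_ker, Submodule.mem_comap]
      unfold fixS
      rw [LinearMap.mem_ker]
      rfl
    rw [h3, ← Submodule.finrank_map_subtype_eq W, Submodule.map_comap_subtype, ← hU] at h1
    exact h1
  have hUinv : U ∈ f.invtSubmodule := by
    rw [Module.End.mem_invtSubmodule_iff_forall_mem_of_mem]
    intro u hu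
    rw [hU] at hu ⊢
    obtain ⟨w, hw, rfl⟩ := hu
    refine ⟨f w, hW (Submodule.mem_map_of_mem hw), ?_⟩
    rw [LinearMap.sub_apply, LinearMap.sub_apply, Module.End.one_apply, Module.End.one_apply,
      map_sub]
  have hUfix : ∀ u ∈ U, f u = u → u = 0 := by
    intro u hu hfu
    rw [hU] at hu
    obtain ⟨w, -, rfl⟩ := hu
    have h1 : (∑ l ∈ Finset.range r, f ^ l) ((f - 1) w) = 0 := by
      rw [← Module.End.mul_apply, geom_sum_mul, hf, sub_self, LinearMap.zero_apply]
    have h2 : (∑ l ∈ Finset.range r, f ^ l) ((f - 1) w) = (r : F) • (f - 1) w := by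
      rw [LinearMap.sum_apply, Finset.sum_congr rfl (fun l _ => pow_fix f _ hfu l),
        Finset.sum_const, Finset.card_range, Nat.cast_smul_eq_nsmul]
    rw [h2] at h1
    exact (smul_eq_zero.1 h1).resolve_left hrF
  obtain ⟨g, hg⟩ : ∃ g : Module.End F U, g = f.restrict (p := U) (q := U) hUinv := ⟨_, rfl⟩
  have hgr : g ^ r = 1 := by
    apply LinearMap.ext
    intro u
    apply Subtype.ext
    rw [hg, Elusive.pow_restrict_apply, hf]
    rfl
  obtain ⟨M, hM⟩ : ∃ M : Matrix (Fin (finrank F U)) (Fin (finrank F U)) F,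
      M = LinearMap.toMatrix (Module.finBasis F U) (Module.finBasis F U) g := ⟨_, rfl⟩
  have hMr : M ^ r = 1 := by
    have h1 : M = LinearMap.toMatrixAlgEquiv (Module.finBasis F U) g := hM
    rw [h1, ← map_pow, hgr, map_one]
  obtain ⟨m, hm, hχ⟩ := PrimeOrderGL.charpoly_eq_chi hS M hMr
  have hk0 : finrank F U - c * ∑ π, m π = 0 := by
    by_contra hne
    have h1 : (X - C 1 : F[X]) ∣ M.charpoly := by
      rw [hχ]
      unfold PrimeOrderGL.chi
      exact Dvd.dvd.mul_right (dvd_pow_self _ hne) _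
    rw [hM, LinearMap.charpoly_toMatrix] at h1
    have h2 : g.charpoly.IsRoot 1 := dvd_iff_isRoot.1 h1
    rw [← Module.End.hasEigenvalue_iff_isRoot_charpoly] at h2
    obtain ⟨u, hu⟩ := h2.exists_hasEigenvector
    have h3 := hu.apply_eq_smul
    rw [one_smul] at h3
    have h4 : f (u : ι → F) = u := by
      have h5 := congrArg Subtype.val h3
      rw [hg] at h5
      exact h5
    have h5 := hUfix u u.2 h4
    exact hu.2 (Subtype.ext h5)
  exact ⟨∑ π, m π, by omega⟩

end gen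

section sptools

open Cfsg.Agent.Lib.Helper40.PrimeOrderGL Cfsg.Agent.Lib.Helper40.DualPoly
  Cfsg.Agent.Lib.Helper40.SpExist Cfsg.Agent.Lib.Helper40.SympWall
  Cfsg.Agent.Lib.Helper40.GUPrimeOrder

variable {F : Type u} [Field F] [Fintype F]

/-- The irreducible factors of `X ^ r - 1` together with the duality on them. -/
theorem exists_data {p q : ℕ} [Fact p.Prime] [CharP F p] (hF : Fintype.card F = q) (r : ℕ)
    [Fact r.Prime] (hr2 : r ≠ 2) (hrp : r ≠ p) (i : ℕ) (hi : i = orderOf (q : ZMod r)) :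
    ∃ (S : Finset F[X]) (dg : S → S), Factors S r i ∧ S.Nonempty ∧
      (∀ π : S, (dg π : F[X]) = dual (RingHom.id F) π.1) ∧ (∀ π, dg (dg π) = π) ∧
      (Even i → ∀ π, dg π = π) ∧ (Odd i → ∀ π, dg π ≠ π) := by
  classical
  have hr : r.Prime := Fact.out
  have hp : p.Prime := Fact.out
  obtain ⟨f, -, hf⟩ := FiniteField.card F p
  have hrq : ¬ r ∣ q := by
    rw [← hF, hf]
    intro h
    exact hrp ((Nat.prime_dvd_prime_iff_eq hr hp).1 (hr.dvd_of_dvd_pow h))
  obtain ⟨S, hS, hSne⟩ := Elusive.exists_factors hF r hrp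
  rw [← hi] at hS
  have hσ2 : ∀ a : F, (RingHom.id F) ((RingHom.id F) a) = a := fun _ => rfl
  have hmemS : ∀ π : S, dual (RingHom.id F) π.1 ∈ S := by
    intro π
    have h0 := Factors.coeff_zero_ne hS hr.pos π π.2
    have hmon := monic_dual (RingHom.id F) π.1 h0
    have hirr := irreducible_dual (RingHom.id F) hσ2 π.1 (hS.monic π π.2) h0 (hS.irred π π.2)
    have hdvd : dual (RingHom.id F) π.1 ∣ X ^ r - 1 := by
      obtain ⟨c, hc⟩ := hS.dvd π π.2
      have h1 := congrArg (dual (RingHom.id F)) hc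
      rw [dual_X_pow_sub_one (RingHom.id F) r hr.pos, dual_mul] at h1
      exact ⟨_, h1⟩
    rcases hS.cover _ hmon hirr hdvd with h | h
    · exfalso
      have h2 := dual_dual (RingHom.id F) hσ2 π.1 (hS.monic π π.2) h0
      rw [h, dual_X_sub_one] at h2
      exact hS.notMem (h2 ▸ π.2)
    · exact h
  obtain ⟨dg, hdg⟩ : ∃ dg : S → S, ∀ π : S, (dg π : F[X]) = dual (RingHom.id F) π.1 :=
    ⟨fun π => ⟨dual (RingHom.id F) π.1, hmemS π⟩, fun π => rfl⟩
  have hdd : ∀ π, dg (dg π) = π := by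
    intro π
    apply Subtype.ext
    rw [hdg, hdg, dual_dual (RingHom.id F) hσ2 π.1 (hS.monic π π.2)
      (Factors.coeff_zero_ne hS hr.pos π π.2)]
  have hcrit : ∀ π : S, dual (RingHom.id F) π.1 = π.1 ↔ Even i := by
    intro π
    rw [dual_eq_self_iff_exists (RingHom.id F) p hσ2 1 0 (pow_zero p).symm
      (fun x => (pow_one x).symm) r hr π.1 (hS.monic π π.2) (hS.irred π π.2) (hS.dvd π π.2)
      (fun h => hS.notMem (h ▸ π.2)), hF, hi]
    exact exists_dvd_one_add_pow_iff r hr hr2 q hrq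
  refine ⟨S, dg, hS, hSne, hdg, hdd, ?_, ?_⟩
  · intro heven π
    exact Subtype.ext (by rw [hdg]; exact (hcrit π).mpr heven)
  · intro hodd π h
    exact (Nat.not_even_iff_odd.mpr hodd) ((hcrit π).mp (by rw [← hdg, h]))

/-- Symplectic matrices with prescribed duality-invariant multiplicities. -/
theorem exists_sp_chi (p : ℕ) [Fact p.Prime] [CharP F p] {S : Finset F[X]} {r i : ℕ}
    (hS : Factors S r i) (hr : r.Prime) (hr2 : r ≠ 2) (dg : S → S)
    (hdg : ∀ π : S, (dg π : F[X]) = dual (RingHom.id F) π.1) (m : ℕ) (a : S → ℕ)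
    (ha : ∀ π, a (dg π) = a π) (hle : i * ∑ π, a π ≤ 2 * m) :
    ∃ g : ↥(Matrix.symplecticGroup (Fin m) F), g.1 ^ r = 1 ∧
      g.1.charpoly = chi S a (2 * m - i * ∑ π, a π) := by
  classical
  have hG := good_chi p hS hr hr2 dg hdg a ha (2 * m - i * ∑ π, a π) m (by omega)
  obtain ⟨m', hdeg, g, hgc, N, hN, hco, hgN⟩ := sp_of_good hG
  rw [natDegree_chi hS] at hdeg
  have hm' : m' = m := by omega
  subst hm'
  refine ⟨g, ?_, hgc⟩
  have hgN' : g.1 ^ N = 1 := by
    have := congrArg Subtype.val hgN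
    simpa using this
  have hdvd := chi_dvd hS a (2 * m' - i * ∑ π, a π)
  exact pow_eq_one_of_charpoly_dvd' g.1 N
    (Cfsg.Agent.Lib.Helper40.natCast_ne_zero_of_coprime p N hco) hgN' r _ (hgc ▸ hdvd)

/-- The multiplicities of a symplectic matrix of order `r` are duality-invariant. -/
theorem symm_of_sp {S : Finset F[X]} {r i : ℕ} (hS : Factors S r i) (dg : S → S)
    (hdg : ∀ π : S, (dg π : F[X]) = dual (RingHom.id F) π.1) (hdd : ∀ π, dg (dg π) = π)
    (m : ℕ) (g : Matrix (Fin m ⊕ Fin m) (Fin m ⊕ Fin m) F)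
    (hg : g ∈ Matrix.symplecticGroup (Fin m) F) (hgr : g ^ r = 1) :
    ∃ a : S → ℕ, i * ∑ π, a π ≤ 2 * m ∧ g.charpoly = chi S a (2 * m - i * ∑ π, a π) ∧
      ∀ π, a (dg π) = a π := by
  classical
  have hcard : Fintype.card (Fin m ⊕ Fin m) = 2 * m := by
    rw [Fintype.card_sum, Fintype.card_fin]
    omega
  obtain ⟨a, ha, hχ⟩ := charpoly_eq_chi' hS g hgr (2 * m) hcard
  refine ⟨a, ha, hχ, ?_⟩
  have h1 := dual_charpoly_sp (⟨g, hg⟩ : ↥(Matrix.symplecticGroup (Fin m) F))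
  have h1' : dual (RingHom.id F) g.charpoly = g.charpoly := h1
  rw [hχ, dual_chi (RingHom.id F) dg hdd hdg] at h1'
  have h2 := chi_inj hS _ _ _ _ h1'
  intro π
  exact congrFun h2 π

omit [Fintype F] in
theorem toLin_pow {ι : Type} [Fintype ι] [DecidableEq ι] (x : Matrix ι ι F) (l : ℕ) :
    (Matrix.toLin' x : Module.End F (ι → F)) ^ l = Matrix.toLin' (x ^ l) := by
  change Matrix.toLinAlgEquiv' x ^ l = Matrix.toLinAlgEquiv' (x ^ l)
  rw [map_pow]

/-- The dimension of the fixed space, read off the characteristic polynomial. -/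
theorem finrank_fix_of_chi {ι : Type} [Fintype ι] [DecidableEq ι] {S : Finset F[X]} {r i : ℕ}
    (hS : Factors S r i) (hrF : (r : F) ≠ 0) (M : Matrix ι ι F) (hM : M ^ r = 1)
    (m : S → ℕ) (k : ℕ) (hχ : M.charpoly = chi S m k) :
    finrank F (fixS (Matrix.toLin' M)) = k := by
  classical
  have hss : Module.End.IsSemisimple (Matrix.toLin' M) :=
    isSemisimple_of_pow_eq_one' M r hrF hM
  have h1 : fixS (Matrix.toLin' M) = Module.End.maxGenEigenspace (Matrix.toLin' M) 1 := by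
    rw [hss.isFinitelySemisimple.maxGenEigenspace_eq_eigenspace, Module.End.eigenspace_def,
      one_smul]
    rfl
  rw [h1, LinearMap.finrank_maxGenEigenspace_eq, Matrix.charpoly_toLin', hχ]
  have h2 := (monic_chi hS m k).ne_zero
  unfold chi at h2 ⊢
  rw [rootMultiplicity_mul h2, rootMultiplicity_X_sub_C_pow, rootMultiplicity_eq_zero, add_zero]
  rw [IsRoot.def, eval_prod]
  apply Finset.prod_ne_zero_iff.2
  intro π _
  rw [eval_pow]
  exact pow_ne_zero _ (eval_one_ne hS π.1 π.2)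

omit [Fintype F] in
/-- The fixed vectors in an invariant non-degenerate subspace form a space of even dimension. -/
theorem even_fix_inf {d : ℕ} (x : Matrix (Fin d ⊕ Fin d) (Fin d ⊕ Fin d) F)
    (hx : x ∈ Matrix.symplecticGroup (Fin d) F) {r : ℕ} (hxr : x ^ r = 1) (hrF : (r : F) ≠ 0)
    (W : Submodule F (Fin d ⊕ Fin d → F)) (hW : W.map (Matrix.toLin' x) ≤ W)
    (hnd : ∀ u ∈ W, u ≠ 0 → ∃ v ∈ W, sympForm d F u v ≠ 0) :
    Even (finrank F (W ⊓ fixS (Matrix.toLin' x) : Submodule F (Fin d ⊕ Fin d → F))) := by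
  have hnd' : IsNondegenerateOn (sympForm d F) (W ⊓ fixS (Matrix.toLin' x)) := by
    intro w hw hw0
    obtain ⟨v, hv, hv0⟩ := hnd w hw.1 hw0
    have hwfix := (mem_fixS _ w).1 hw.2
    obtain ⟨N, hN⟩ : ∃ N : Module.End F (Fin d ⊕ Fin d → F),
        N = ∑ l ∈ Finset.range r, (Matrix.toLin' x) ^ l := ⟨_, rfl⟩
    have hpowW : ∀ l : ℕ, ((Matrix.toLin' x) ^ l) v ∈ W := by
      intro l
      induction l with
      | zero => exact hv
      | succ l ih =>
        rw [pow_succ', Module.End.mul_apply]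
        exact hW (Submodule.mem_map_of_mem ih)
    have hNW : N v ∈ W := by
      rw [hN, LinearMap.sum_apply]
      exact Submodule.sum_mem _ (fun l _ => hpowW l)
    have hNfix : N v ∈ fixS (Matrix.toLin' x) := by
      unfold fixS
      rw [LinearMap.mem_ker, hN, ← Module.End.mul_apply, mul_geom_sum, toLin_pow, hxr,
        Matrix.toLin'_one]
      show (LinearMap.id - 1 : Module.End F (Fin d ⊕ Fin d → F)) v = 0
      rw [LinearMap.sub_apply]
      exact sub_self _
    have hval : sympForm d F w (N v) = (r : F) * sympForm d F w v := by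
      rw [hN, LinearMap.sum_apply, Helper94.sf_sum_right]
      have h1 : ∀ l ∈ Finset.range r,
          sympForm d F w (((Matrix.toLin' x) ^ l) v) = sympForm d F w v := by
        intro l _
        have h2 : ((Matrix.toLin' x) ^ l) w = w := pow_fix _ w hwfix l
        rw [toLin_pow, Matrix.toLin'_apply] at h2
        rw [toLin_pow, Matrix.toLin'_apply]
        conv_lhs => rw [← h2]
        exact Helper13.sympForm_mulVec_of_mem _ (_root_.pow_mem hx l) w v
      rw [Finset.sum_congr rfl h1, Finset.sum_const, Finset.card_range, nsmul_eq_mul]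
    have hne : sympForm d F w (N v) ≠ 0 := by
      rw [hval]
      exact mul_ne_zero hrF hv0
    refine ⟨⟨N v, ⟨hNW, hNfix⟩, ?_⟩, ⟨N v, ⟨hNW, hNfix⟩, hne⟩⟩
    rw [Helper13.sympForm_swap]
    exact neg_ne_zero.2 hne
  obtain ⟨k, hk⟩ := Helper94.exists_even_finrank _ hnd'
  exact ⟨k, by rw [hk]; ring⟩

end sptools

section std

variable {F : Type u} [Field F] {d t a : ℕ} (ε : Fin d ⊕ Fin d ≃ Σ _ : Fin t, Fin a)

/-- The standard basis, indexed by blocks. -/
noncomputable def stdB : Module.Basis (Σ _ : Fin t, Fin a) F (Fin d ⊕ Fin d → F) :=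
  (Pi.basisFun F (Fin d ⊕ Fin d)).reindex ε

theorem stdB_apply (k : Σ _ : Fin t, Fin a) :
    stdB (F := F) ε k = Pi.single (ε.symm k) (1 : F) := by
  unfold stdB
  rw [Module.Basis.reindex_apply, Pi.basisFun_apply]

theorem mem_blk_std (j : Fin t) (v : Fin d ⊕ Fin d → F) :
    v ∈ blk (stdB (F := F) ε) j ↔ ∀ x, (ε x).1 ≠ j → v x = 0 := by
  constructor
  · intro hv
    unfold blk at hv
    induction hv using Submodule.span_induction with
    | mem v hv =>
      obtain ⟨s, rfl⟩ := hv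
      intro x hx
      beta_reduce
      rw [stdB_apply, Pi.single_apply, if_neg]
      rintro rfl
      apply hx
      rw [Equiv.apply_symm_apply]
    | zero =>
      intro x _
      rfl
    | add u w _ _ hu hw =>
      intro x hx
      rw [Pi.add_apply, hu x hx, hw x hx, add_zero]
    | smul c u _ hu =>
      intro x hx
      rw [Pi.smul_apply, hu x hx, smul_zero]
  · intro hv
    have h1 : v = ∑ x, v x • (Pi.single x (1 : F) : Fin d ⊕ Fin d → F) := by
      funext y
      rw [Finset.sum_apply, Finset.sum_eq_single y]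
      · simp
      · intro x _ hx
        simp [Ne.symm hx]
      · intro h
        exact absurd (Finset.mem_univ _) h
    rw [h1]
    apply Submodule.sum_mem
    intro x _
    by_cases hx : (ε x).1 = j
    · apply Submodule.smul_mem
      have h2 : (Pi.single x (1 : F) : Fin d ⊕ Fin d → F) = stdB ε ⟨j, (ε x).2⟩ := by
        rw [stdB_apply]
        congr 1
        rw [Equiv.eq_symm_apply]
        exact Sigma.ext hx HEq.rfl
      rw [h2]
      exact Submodule.subset_span ⟨(ε x).2, rfl⟩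
    · rw [hv x hx, zero_smul]
      exact Submodule.zero_mem _

theorem std_orth (hβ : ∀ i : Fin d, (ε (Sum.inl i)).1 = (ε (Sum.inr i)).1) (j j' : Fin t)
    (hjj : j ≠ j') (u v : Fin d ⊕ Fin d → F) (hu : u ∈ blk (stdB (F := F) ε) j)
    (hv : v ∈ blk (stdB (F := F) ε) j') : sympForm d F u v = 0 := by
  rw [mem_blk_std] at hu hv
  rw [Helper13.sympForm_eq]
  apply Finset.sum_eq_zero
  intro k _
  by_cases hk : (ε (Sum.inl k)).1 = j
  · have h1 : v (Sum.inl k) = 0 := hv _ (by rw [hk]; exact hjj)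
    have h2 : v (Sum.inr k) = 0 := hv _ (by rw [← hβ k, hk]; exact hjj)
    rw [h1, h2, mul_zero, mul_zero, sub_zero]
  · have h1 : u (Sum.inl k) = 0 := hu _ hk
    have h2 : u (Sum.inr k) = 0 := hu _ (by rw [← hβ k]; exact hk)
    rw [h1, h2, zero_mul, zero_mul, sub_zero]

theorem std_nondeg (hβ : ∀ i : Fin d, (ε (Sum.inl i)).1 = (ε (Sum.inr i)).1) (j : Fin t)
    (u : Fin d ⊕ Fin d → F) (hu : u ∈ blk (stdB (F := F) ε) j) (hu0 : u ≠ 0) :
    ∃ v ∈ blk (stdB (F := F) ε) j, sympForm d F u v ≠ 0 := by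
  classical
  have hu' := (mem_blk_std ε j u).1 hu
  obtain ⟨x, hx⟩ : ∃ x, u x ≠ 0 := by
    by_contra hcon
    push Not at hcon
    exact hu0 (funext hcon)
  have hxj : (ε x).1 = j := by
    by_contra hne
    exact hx (hu' x hne)
  rcases x with k | k
  · refine ⟨Pi.single (Sum.inr k) 1, ?_, ?_⟩
    · rw [mem_blk_std]
      intro y hy
      rw [Pi.single_apply, if_neg]
      rintro rfl
      apply hy
      rw [← hβ k]
      exact hxj
    · rw [Helper13.sympForm_eq, Finset.sum_eq_single k]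
      · simp only [Pi.single_apply, reduceCtorEq, if_false, mul_zero, zero_sub, if_true, mul_one]
        exact neg_ne_zero.2 hx
      · intro k' _ hk'
        simp [hk']
      · intro h
        exact absurd (Finset.mem_univ _) h
  · refine ⟨Pi.single (Sum.inl k) 1, ?_, ?_⟩
    · rw [mem_blk_std]
      intro y hy
      rw [Pi.single_apply, if_neg]
      rintro rfl
      apply hy
      rw [hβ k]
      exact hxj
    · rw [Helper13.sympForm_eq, Finset.sum_eq_single k]
      · simp only [Pi.single_apply, reduceCtorEq, if_false, mul_zero, sub_zero, if_true, mul_one]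
        exact hx
      · intro k' _ hk'
        simp [hk']
      · intro h
        exact absurd (Finset.mem_univ _) h

theorem std_inv (Y : Matrix (Fin d ⊕ Fin d) (Fin d ⊕ Fin d) F)
    (hY : ∀ x' x, Y x' x ≠ 0 → (ε x').1 = (ε x).1) (j : Fin t) (s : Fin a) :
    Matrix.toLin' Y (stdB (F := F) ε ⟨j, s⟩) ∈ blk (stdB (F := F) ε) j := by
  rw [mem_blk_std, stdB_apply, Matrix.toLin'_apply, Matrix.mulVec_single_one]
  intro x hx
  by_contra hne
  apply hx
  have h1 := hY x (ε.symm ⟨j, s⟩) hne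
  rw [h1, Equiv.apply_symm_apply]

/-- A symplectic conjugate of a block matrix stabilises an orthogonal decomposition. -/
theorem exists_dec_of_model (ht : 2 ≤ t) (ha : 0 < a)
    (hβ : ∀ i : Fin d, (ε (Sum.inl i)).1 = (ε (Sum.inr i)).1)
    (y Y : Matrix (Fin d ⊕ Fin d) (Fin d ⊕ Fin d) F)
    (hY : ∀ x' x, Y x' x ≠ 0 → (ε x').1 = (ε x).1) (hYdet : Y.det ≠ 0)
    (P : ↥(Matrix.symplecticGroup (Fin d) F)) (hPy : P.1 * y = Y * P.1) :
    ∃ D : Fin t → Submodule F (Fin d ⊕ Fin d → F),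
      (IsMDecomposition a D ∧
        (∀ j, ∀ u ∈ D j, u ≠ 0 → ∃ v ∈ D j, sympForm d F u v ≠ 0) ∧
        (∀ j j', j ≠ j' → ∀ u ∈ D j, ∀ v ∈ D j', sympForm d F u v = 0)) ∧
      ∀ j, (D j).map (Matrix.toLin' y) = D j := by
  classical
  obtain ⟨Q, hQ⟩ : ∃ Q : Matrix (Fin d ⊕ Fin d) (Fin d ⊕ Fin d) F, Q = (P⁻¹).1 := ⟨_, rfl⟩
  have hQmem : Q ∈ Matrix.symplecticGroup (Fin d) F := by
    rw [hQ]
    exact (P⁻¹).2
  have hQP : Q * P.1 = 1 := by
    rw [hQ]
    exact congrArg Subtype.val (inv_mul_cancel P)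
  have hPQ : P.1 * Q = 1 := by
    rw [hQ]
    exact congrArg Subtype.val (mul_inv_cancel P)
  have hyQ : y * Q = Q * Y := by
    calc y * Q = Q * (P.1 * y) * Q := by rw [← mul_assoc, hQP, one_mul]
      _ = Q * Y := by rw [hPy, mul_assoc, mul_assoc, hPQ, mul_one]
  let L : (Fin d ⊕ Fin d → F) ≃ₗ[F] (Fin d ⊕ Fin d → F) :=
    LinearEquiv.ofLinearMap (Matrix.toLin' Q) (Matrix.toLin' P.1)
      (by rw [← Matrix.toLin'_mul, hQP, Matrix.toLin'_one])
      (by rw [← Matrix.toLin'_mul, hPQ, Matrix.toLin'_one])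
  have hLmap : ∀ j, (blk (stdB (F := F) ε) j).map (Matrix.toLin' Q) =
      blk ((stdB (F := F) ε).map L) j := fun j => blk_map (stdB ε) L j
  have hform : ∀ u v : Fin d ⊕ Fin d → F,
      sympForm d F (Matrix.toLin' Q u) (Matrix.toLin' Q v) = sympForm d F u v := by
    intro u v
    rw [Matrix.toLin'_apply, Matrix.toLin'_apply]
    exact Helper13.sympForm_mulVec_of_mem _ hQmem u v
  have hinjQ : Function.Injective (Matrix.toLin' Q) := L.injective
  have hinjY : Function.Injective (Matrix.toLin' Y) := by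
    rw [← LinearMap.ker_eq_bot, LinearMap.ker_eq_bot']
    intro v hv
    rw [Matrix.toLin'_apply] at hv
    exact Matrix.eq_zero_of_mulVec_eq_zero hYdet hv
  refine ⟨fun j => (blk (stdB (F := F) ε) j).map (Matrix.toLin' Q), ⟨?_, ?_, ?_⟩, ?_⟩
  · have h1 : (fun j => (blk (stdB (F := F) ε) j).map (Matrix.toLin' Q)) =
        blk ((stdB (F := F) ε).map L) := funext hLmap
    rw [h1]
    exact decomp_of_basis _ ht ha
  · rintro j _ ⟨u₀, hu₀, rfl⟩ hne
    have hu₀0 : u₀ ≠ 0 := by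
      rintro rfl
      exact hne (map_zero _)
    obtain ⟨v₀, hv₀, hv₀ne⟩ := std_nondeg ε hβ j u₀ hu₀ hu₀0
    exact ⟨Matrix.toLin' Q v₀, Submodule.mem_map_of_mem hv₀, by rw [hform]; exact hv₀ne⟩
  · rintro j j' hjj _ ⟨u₀, hu₀, rfl⟩ _ ⟨v₀, hv₀, rfl⟩
    rw [hform]
    exact std_orth ε hβ j j' hjj u₀ v₀ hu₀ hv₀
  · intro j
    show ((blk (stdB (F := F) ε) j).map (Matrix.toLin' Q)).map (Matrix.toLin' y) =
      (blk (stdB (F := F) ε) j).map (Matrix.toLin' Q)
    rw [← Submodule.map_comp, ← Matrix.toLin'_mul, hyQ, Matrix.toLin'_mul, Submodule.map_comp,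
      blk_map_eq (stdB ε) ht ha (Matrix.toLin' Y) hinjY (std_inv ε Y hY) j]

end std

section blockmodel

variable {F : Type u} [Field F] {d a₂ t : ℕ}

/-- The index equivalence for blocks. -/
def blockIdx (e' : Fin a₂ × Fin t ≃ Fin d) : (Fin a₂ ⊕ Fin a₂) × Fin t ≃ Fin d ⊕ Fin d :=
  (Equiv.sumProdDistrib (Fin a₂) (Fin a₂) (Fin t)).trans (Equiv.sumCongr e' e')

theorem J_submatrix_blockIdx (e' : Fin a₂ × Fin t ≃ Fin d) :
    (Matrix.J (Fin d) F).submatrix (blockIdx e') (blockIdx e') =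
      Matrix.blockDiagonal (fun _ : Fin t => Matrix.J (Fin a₂) F) := by
  ext ⟨(s | s), j⟩ ⟨(s' | s'), j'⟩ <;>
    simp [blockIdx, Matrix.J, Matrix.one_apply, Matrix.blockDiagonal_apply] <;>
    (by_cases h1 : j = j' <;> by_cases h2 : s = s' <;> simp [h1, h2])

theorem J_eq_reindex (e' : Fin a₂ × Fin t ≃ Fin d) :
    Matrix.J (Fin d) F = Matrix.reindex (blockIdx e') (blockIdx e')
      (Matrix.blockDiagonal (fun _ : Fin t => Matrix.J (Fin a₂) F)) := by
  rw [← J_submatrix_blockIdx (F := F) e', Matrix.reindex_apply, Matrix.submatrix_submatrix]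
  simp

theorem model_mem (e' : Fin a₂ × Fin t ≃ Fin d)
    (g : Fin t → Matrix (Fin a₂ ⊕ Fin a₂) (Fin a₂ ⊕ Fin a₂) F)
    (hg : ∀ j, g j ∈ Matrix.symplecticGroup (Fin a₂) F) :
    Matrix.reindex (blockIdx e') (blockIdx e') (Matrix.blockDiagonal g) ∈
      Matrix.symplecticGroup (Fin d) F := by
  rw [SymplecticGroup.mem_iff, Matrix.transpose_reindex]
  conv_lhs => rw [J_eq_reindex (F := F) e']
  conv_rhs => rw [J_eq_reindex (F := F) e']
  rw [Matrix.reindex_apply, Matrix.reindex_apply, Matrix.reindex_apply,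
    Matrix.submatrix_mul_equiv, Matrix.submatrix_mul_equiv, Matrix.blockDiagonal_transpose,
    ← Matrix.blockDiagonal_mul, ← Matrix.blockDiagonal_mul]
  congr 2
  funext j
  exact SymplecticGroup.mem_iff.1 (hg j)

end blockmodel

section slots

theorem exists_symm_slots {T : Type*} [Fintype T] [DecidableEq T] (τ : T → T)
    (hτ2 : ∀ x, τ (τ x) = x) (i c n t A : ℕ) (hi0 : 0 < i)
    (hpar : ((∀ x, τ x = x) ∧ c = i) ∨ ((∀ x, τ x ≠ x) ∧ c = 2 * i))
    (m : T → ℕ) (hm : ∀ x, m (τ x) = m x) (hle : i * ∑ x, m x ≤ n) (hn : n / c = t * A) :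
    ∃ μ : Fin t → T → ℕ, (∀ j x, μ j (τ x) = μ j x) ∧ (∀ j, i * ∑ x, μ j x ≤ c * A) ∧
      ∀ x, ∑ j, μ j x = m x := by
  classical
  rcases hpar with ⟨hid, hc⟩ | ⟨hne, hc⟩
  · have h1 : ∑ x, m x ≤ t * A := by
      rw [← hn, hc, Nat.le_div_iff_mul_le hi0, mul_comm]
      exact hle
    obtain ⟨μ, hμ1, hμ2⟩ := Decomp.exists_slots A t m h1
    refine ⟨μ, fun j x => by rw [hid x], fun j => ?_, hμ2⟩
    rw [hc]
    exact Nat.mul_le_mul_left i (hμ1 j)
  · obtain ⟨P, hP⟩ : ∃ P : T → Prop, ∀ x, P (τ x) ↔ ¬ P x := by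
      refine ⟨fun x => Fintype.equivFin T x < Fintype.equivFin T (τ x), ?_⟩
      intro x
      have h1 : Fintype.equivFin T (τ x) ≠ Fintype.equivFin T x :=
        fun h => hne x ((Fintype.equivFin T).injective h)
      show Fintype.equivFin T (τ x) < Fintype.equivFin T (τ (τ x)) ↔
        ¬ Fintype.equivFin T x < Fintype.equivFin T (τ x)
      rw [hτ2 x, not_lt]
      exact ⟨le_of_lt, fun h => lt_of_le_of_ne h h1⟩
    obtain ⟨mp, hmp⟩ : ∃ mp : T → ℕ, mp = fun x => if P x then m x else 0 := ⟨_, rfl⟩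
    have hpt : ∀ x, mp x + mp (τ x) = m x := by
      intro x
      rw [hmp]
      by_cases hx : P x
      · have hx' : ¬ P (τ x) := fun h => (hP x).1 h hx
        show (if P x then m x else 0) + (if P (τ x) then m (τ x) else 0) = m x
        rw [if_pos hx, if_neg hx', add_zero]
      · have hx' : P (τ x) := (hP x).2 hx
        show (if P x then m x else 0) + (if P (τ x) then m (τ x) else 0) = m x
        rw [if_neg hx, if_pos hx', zero_add, hm x]
    obtain ⟨e, he⟩ : ∃ e : T ≃ T, ∀ x, e x = τ x := ⟨⟨τ, τ, hτ2, hτ2⟩, fun _ => rfl⟩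
    have hsumτ : ∀ f : T → ℕ, ∑ x, f (τ x) = ∑ x, f x := by
      intro f
      rw [← Equiv.sum_comp e f]
      exact Finset.sum_congr rfl (fun x _ => by rw [he x])
    have h2 : 2 * ∑ x, mp x = ∑ x, m x := by
      have h3 : ∑ x, m x = ∑ x, mp x + ∑ x, mp (τ x) := by
        rw [← Finset.sum_add_distrib]
        exact Finset.sum_congr rfl (fun x _ => (hpt x).symm)
      rw [h3, hsumτ mp, two_mul]
    have h1 : ∑ x, mp x ≤ t * A := by
      rw [← hn, hc, Nat.le_div_iff_mul_le (by omega)]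
      calc (∑ x, mp x) * (2 * i) = i * (2 * ∑ x, mp x) := by ring
        _ = i * ∑ x, m x := by rw [h2]
        _ ≤ n := hle
    obtain ⟨ν, hν1, hν2⟩ := Decomp.exists_slots A t mp h1
    refine ⟨fun j x => ν j x + ν j (τ x), ?_, ?_, ?_⟩
    · intro j x
      show ν j (τ x) + ν j (τ (τ x)) = ν j x + ν j (τ x)
      rw [hτ2 x, add_comm]
    · intro j
      have h3 : ∑ x, (ν j x + ν j (τ x)) = 2 * ∑ x, ν j x := by
        rw [Finset.sum_add_distrib, hsumτ (ν j), two_mul]
      rw [h3, hc]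
      calc i * (2 * ∑ x, ν j x) = 2 * i * ∑ x, ν j x := by ring
        _ ≤ 2 * i * A := Nat.mul_le_mul_left _ (hν1 j)
    · intro x
      rw [Finset.sum_add_distrib, hν2 x, hν2 (τ x)]
      exact hpt x

end slots

section backward

open Cfsg.Agent.Lib.Helper40.PrimeOrderGL Cfsg.Agent.Lib.Helper40.DualPoly
  Cfsg.Agent.Lib.Helper40.SpExist Cfsg.Agent.Lib.Helper40.SympWall
  Cfsg.Agent.Lib.Helper40.GUPrimeOrder

variable {F : Type u} [Field F] [Fintype F]

/-- Under the arithmetic condition every symplectic element of order `r` stabilises an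
orthogonal decomposition blockwise. -/
theorem backward_sp (p : ℕ) [Fact p.Prime] [CharP F p] {S : Finset F[X]} {r i c : ℕ}
    (hS : Factors S r i) (hr : r.Prime) (hr2 : r ≠ 2) (hrF : (r : F) ≠ 0)
    (dg : S → S) (hdg : ∀ π : S, (dg π : F[X]) = dual (RingHom.id F) π.1)
    (hdd : ∀ π, dg (dg π) = π)
    (hpar : ((∀ π, dg π = π) ∧ c = i) ∨ ((∀ π, dg π ≠ π) ∧ c = 2 * i)) (hi0 : 0 < i)
    {d a₂ t : ℕ} (hat : d = a₂ * t) (ht : 2 ≤ t) (ha : 0 < a₂)
    (hk : t * ((a₂ + a₂) % c) ≤ (2 * d) % c)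
    (y : Matrix (Fin d ⊕ Fin d) (Fin d ⊕ Fin d) F)
    (hy : y ∈ Matrix.symplecticGroup (Fin d) F) (hyr : y ^ r = 1) :
    ∃ D : Fin t → Submodule F (Fin d ⊕ Fin d → F),
      (IsMDecomposition (a₂ + a₂) D ∧
        (∀ j, ∀ u ∈ D j, u ≠ 0 → ∃ v ∈ D j, sympForm d F u v ≠ 0) ∧
        (∀ j j', j ≠ j' → ∀ u ∈ D j, ∀ v ∈ D j', sympForm d F u v = 0)) ∧
      ∀ j, (D j).map (Matrix.toLin' y) = D j := by
  classical
  have hc0 : 0 < c := by
    rcases hpar with ⟨-, h⟩ | ⟨-, h⟩ <;> omega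
  obtain ⟨m, hm, hχ, hsym⟩ := symm_of_sp hS dg hdg hdd d y hy hyr
  have h3 : (2 * d) / c = t * ((a₂ + a₂) / c) := by
    have h4 : t * ((a₂ + a₂) % c) < c := lt_of_le_of_lt hk (Nat.mod_lt _ hc0)
    have h5 : 2 * d = t * ((a₂ + a₂) % c) + c * (t * ((a₂ + a₂) / c)) := by
      have h6 := Nat.div_add_mod (a₂ + a₂) c
      calc 2 * d = (a₂ + a₂) * t := by rw [hat]; ring
        _ = (c * ((a₂ + a₂) / c) + (a₂ + a₂) % c) * t := by rw [h6]
        _ = t * ((a₂ + a₂) % c) + c * (t * ((a₂ + a₂) / c)) := by ring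
    rw [h5, Nat.add_mul_div_left _ _ hc0, Nat.div_eq_of_lt h4, zero_add]
  obtain ⟨μ, hμs, hμ1, hμ2⟩ := exists_symm_slots dg hdd i c (2 * d) t ((a₂ + a₂) / c) hi0 hpar
    m hsym hm h3
  have hμa : ∀ j, i * ∑ π, μ j π ≤ 2 * a₂ := fun j =>
    le_trans (hμ1 j) (by have := Nat.mul_div_le (a₂ + a₂) c; omega)
  choose g hg1 hg2 using fun j => exists_sp_chi p hS hr hr2 dg hdg a₂ (μ j) (hμs j) (hμa j)
  have hcard : Fintype.card (Fin a₂ × Fin t) = Fintype.card (Fin d) := by
    rw [Fintype.card_prod, Fintype.card_fin, Fintype.card_fin, Fintype.card_fin, hat]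
  obtain ⟨e', -⟩ : ∃ e' : Fin a₂ × Fin t ≃ Fin d, True :=
    ⟨Fintype.equivOfCardEq hcard, trivial⟩
  obtain ⟨Y₀, hY₀⟩ : ∃ Y₀ : Matrix ((Fin a₂ ⊕ Fin a₂) × Fin t) ((Fin a₂ ⊕ Fin a₂) × Fin t) F,
      Y₀ = Matrix.blockDiagonal (fun j => (g j).1) := ⟨_, rfl⟩
  obtain ⟨Ψ, hΨ⟩ : ∃ Ψ : Matrix ((Fin a₂ ⊕ Fin a₂) × Fin t) ((Fin a₂ ⊕ Fin a₂) × Fin t) F
      ≃ₐ[F] Matrix (Fin d ⊕ Fin d) (Fin d ⊕ Fin d) F,
      Ψ = Matrix.reindexAlgEquiv F F (blockIdx e') := ⟨_, rfl⟩
  have hΨapp : ∀ A, Ψ A = Matrix.reindex (blockIdx e') (blockIdx e') A := by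
    intro A
    rw [hΨ, Matrix.coe_reindexAlgEquiv]
  have hYmem : Ψ Y₀ ∈ Matrix.symplecticGroup (Fin d) F := by
    rw [hΨapp, hY₀]
    exact model_mem e' _ (fun j => (g j).2)
  have hYr : (Ψ Y₀) ^ r = 1 := by
    rw [← map_pow, hY₀, ← Matrix.blockDiagonal_pow]
    have h7 : (fun j => (g j).1) ^ r = 1 := by
      funext j
      rw [Pi.pow_apply, hg1 j]
      rfl
    rw [h7, Matrix.blockDiagonal_one, map_one]
  have hYχ : (Ψ Y₀).charpoly = y.charpoly := by
    rw [hΨapp, Matrix.charpoly_reindex, hY₀, Decomp.charpoly_blockDiagonal, hχ]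
    rw [Finset.prod_congr rfl (fun j _ => hg2 j)]
    unfold chi
    rw [Finset.prod_mul_distrib, Finset.prod_pow_eq_pow_sum, Finset.prod_comm]
    congr 1
    · congr 1
      have h9 : ∑ j, (2 * a₂ - i * ∑ π, μ j π) + i * ∑ π, m π = 2 * d := by
        have h10 : ∑ π, m π = ∑ j, ∑ π, μ j π := by
          rw [Finset.sum_comm]
          exact Finset.sum_congr rfl (fun π _ => (hμ2 π).symm)
        rw [h10, Finset.mul_sum, ← Finset.sum_add_distrib]
        rw [Finset.sum_congr rfl (fun j _ => Nat.sub_add_cancel (hμa j))]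
        rw [Finset.sum_const, Finset.card_univ, Fintype.card_fin, smul_eq_mul, hat]
        ring
      omega
    · apply Finset.prod_congr rfl
      intro π _
      rw [Finset.prod_pow_eq_pow_sum, hμ2 π]
  obtain ⟨yg, hyg⟩ : ∃ yg : ↥(Matrix.symplecticGroup (Fin d) F), yg.1 = y := ⟨⟨y, hy⟩, rfl⟩
  obtain ⟨Yg, hYg⟩ : ∃ Yg : ↥(Matrix.symplecticGroup (Fin d) F), Yg.1 = Ψ Y₀ :=
    ⟨⟨Ψ Y₀, hYmem⟩, rfl⟩
  have hygr : yg ^ r = 1 := by
    apply Subtype.ext
    rw [SubmonoidClass.coe_pow, hyg, hyr]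
    rfl
  have hYgr : Yg ^ r = 1 := by
    apply Subtype.ext
    rw [SubmonoidClass.coe_pow, hYg, hYr]
    rfl
  have hconj := sp_conj_of_charpoly yg Yg r r hrF hrF hygr hYgr (by rw [hyg, hYg, hYχ])
  obtain ⟨P, hP⟩ := isConj_iff.1 hconj
  have hPy : P.1 * y = Ψ Y₀ * P.1 := by
    have h1 : P * yg = Yg * P := by
      rw [← hP, inv_mul_cancel_right]
    have h2 := congrArg Subtype.val h1
    rw [← hyg, ← hYg]
    exact h2
  have hYdet : (Ψ Y₀).det ≠ 0 := by
    intro h
    have h1 := congrArg Matrix.det hYr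
    rw [Matrix.det_pow, h, zero_pow hr.ne_zero, Matrix.det_one] at h1
    exact zero_ne_one h1
  obtain ⟨ε, hε⟩ : ∃ ε : Fin d ⊕ Fin d ≃ Σ _ : Fin t, Fin (a₂ + a₂),
      ∀ x, (ε x).1 = ((blockIdx e').symm x).2 :=
    ⟨(blockIdx e').symm.trans ((Equiv.prodComm _ _).trans
      ((Equiv.prodCongr (Equiv.refl (Fin t)) finSumFinEquiv).trans
        (Equiv.sigmaEquivProd (Fin t) (Fin (a₂ + a₂))).symm)), fun x => rfl⟩
  have hβ : ∀ k : Fin d, (ε (Sum.inl k)).1 = (ε (Sum.inr k)).1 := by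
    intro k
    rw [hε, hε]
    rfl
  refine exists_dec_of_model ε ht (by omega) hβ y (Ψ Y₀) ?_ hYdet P hPy
  intro x' x hne
  rw [hε, hε]
  by_contra hcon
  apply hne
  rw [hΨapp, hY₀, Matrix.reindex_apply, Matrix.submatrix_apply, Matrix.blockDiagonal_apply,
    if_neg hcon]

end backward

section count

variable {F : Type u} [Field F] {d a₂ t : ℕ}

/-- Orthogonal decompositions into non-degenerate subspaces. -/
def Dec (d a : ℕ) (F : Type u) [Field F] {t : ℕ}
    (D : Fin t → Submodule F (Fin d ⊕ Fin d → F)) : Prop :=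
  IsMDecomposition a D ∧ (∀ j, ∀ u ∈ D j, u ≠ 0 → ∃ v ∈ D j, sympForm d F u v ≠ 0) ∧
    (∀ j j', j ≠ j' → ∀ u ∈ D j, ∀ v ∈ D j', sympForm d F u v = 0)

variable {D D' : Fin t → Submodule F (Fin d ⊕ Fin d → F)}

theorem dec_span (aj bj : Fin t → Fin a₂ → (Fin d ⊕ Fin d → F))
    (hsb : ∀ j, Helper94.IsSympBasis (D j) (aj j) (bj j)) (j : Fin t) :
    D j = Submodule.span F (Set.range (fun k : Fin a₂ ⊕ Fin a₂ => Sum.elim (aj j) (bj j) k)) := by
  apply le_antisymm
  · intro v hv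
    rw [(hsb j).expand v hv]
    apply Submodule.sum_mem
    intro l _
    apply Submodule.sub_mem
    · exact Submodule.smul_mem _ _ (Submodule.subset_span ⟨Sum.inl l, rfl⟩)
    · exact Submodule.smul_mem _ _ (Submodule.subset_span ⟨Sum.inr l, rfl⟩)
  · apply Submodule.span_le.2
    rintro _ ⟨k, rfl⟩
    rcases k with l | l
    · exact (hsb j).mem_a l
    · exact (hsb j).mem_b l

theorem dec_family (hD : Dec d (a₂ + a₂) F D) (aj bj : Fin t → Fin a₂ → (Fin d ⊕ Fin d → F))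
    (hsb : ∀ j, Helper94.IsSympBasis (D j) (aj j) (bj j)) :
    LinearIndependent F
      (fun k : Fin t × (Fin a₂ ⊕ Fin a₂) => Sum.elim (aj k.1) (bj k.1) k.2) := by
  classical
  rw [Fintype.linearIndependent_iff]
  intro c hc k
  obtain ⟨j, u⟩ := k
  rcases u with s | s
  · have h1 : sympForm d F (∑ k : Fin t × (Fin a₂ ⊕ Fin a₂),
        c k • Sum.elim (aj k.1) (bj k.1) k.2) (bj j s) = sympForm d F 0 (bj j s) := by
      rw [hc]
    rw [Helper94.sf_sum_left, Helper13.sympForm_zero_left,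
      Finset.sum_eq_single (j, Sum.inl s)] at h1
    · rw [Helper13.sympForm_smul_left] at h1
      have h2 : sympForm d F (Sum.elim (aj j) (bj j) (Sum.inl s)) (bj j s) = 1 := by
        rw [Sum.elim_inl, (hsb j).ab, if_pos rfl]
      rw [h2, mul_one] at h1
      exact h1
    · rintro ⟨j', u'⟩ _ hne
      rw [Helper13.sympForm_smul_left]
      by_cases hj : j' = j
      · subst hj
        rcases u' with s' | s'
        · have hs : s' ≠ s := fun h => hne (by rw [h])
          rw [Sum.elim_inl, (hsb j').ab, if_neg hs, mul_zero]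
        · rw [Sum.elim_inr, (hsb j').bb, mul_zero]
      · have hmem : Sum.elim (aj j') (bj j') u' ∈ D j' := by
          rcases u' with s' | s'
          · exact (hsb j').mem_a s'
          · exact (hsb j').mem_b s'
        rw [hD.2.2 j' j hj _ hmem _ ((hsb j).mem_b s), mul_zero]
    · intro h
      exact absurd (Finset.mem_univ _) h
  · have h1 : sympForm d F (∑ k : Fin t × (Fin a₂ ⊕ Fin a₂),
        c k • Sum.elim (aj k.1) (bj k.1) k.2) (aj j s) = sympForm d F 0 (aj j s) := by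
      rw [hc]
    rw [Helper94.sf_sum_left, Helper13.sympForm_zero_left,
      Finset.sum_eq_single (j, Sum.inr s)] at h1
    · rw [Helper13.sympForm_smul_left] at h1
      have h2 : sympForm d F (Sum.elim (aj j) (bj j) (Sum.inr s)) (aj j s) = -1 := by
        rw [Sum.elim_inr, (hsb j).ba, if_pos rfl]
      rw [h2, mul_neg, mul_one, neg_eq_zero] at h1
      exact h1
    · rintro ⟨j', u'⟩ _ hne
      rw [Helper13.sympForm_smul_left]
      by_cases hj : j' = j
      · subst hj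
        rcases u' with s' | s'
        · rw [Sum.elim_inl, (hsb j').aa, mul_zero]
        · have hs : s' ≠ s := fun h => hne (by rw [h])
          rw [Sum.elim_inr, (hsb j').ba, if_neg hs, mul_zero]
      · have hmem : Sum.elim (aj j') (bj j') u' ∈ D j' := by
          rcases u' with s' | s'
          · exact (hsb j').mem_a s'
          · exact (hsb j').mem_b s'
        rw [hD.2.2 j' j hj _ hmem _ ((hsb j).mem_a s), mul_zero]
    · intro h
      exact absurd (Finset.mem_univ _) h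

theorem dec_gram (hD : Dec d (a₂ + a₂) F D) (aj bj : Fin t → Fin a₂ → (Fin d ⊕ Fin d → F))
    (hsb : ∀ j, Helper94.IsSympBasis (D j) (aj j) (bj j))
    (hD' : Dec d (a₂ + a₂) F D') (aj' bj' : Fin t → Fin a₂ → (Fin d ⊕ Fin d → F))
    (hsb' : ∀ j, Helper94.IsSympBasis (D' j) (aj' j) (bj' j))
    (k k' : Fin t × (Fin a₂ ⊕ Fin a₂)) :
    sympForm d F (Sum.elim (aj k.1) (bj k.1) k.2) (Sum.elim (aj k'.1) (bj k'.1) k'.2) =
      sympForm d F (Sum.elim (aj' k.1) (bj' k.1) k.2) (Sum.elim (aj' k'.1) (bj' k'.1) k'.2) := by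
  obtain ⟨j, u⟩ := k
  obtain ⟨j', u'⟩ := k'
  have hmem : ∀ (j : Fin t) (u : Fin a₂ ⊕ Fin a₂), Sum.elim (aj j) (bj j) u ∈ D j := by
    intro j u
    rcases u with s | s
    · exact (hsb j).mem_a s
    · exact (hsb j).mem_b s
  have hmem' : ∀ (j : Fin t) (u : Fin a₂ ⊕ Fin a₂), Sum.elim (aj' j) (bj' j) u ∈ D' j := by
    intro j u
    rcases u with s | s
    · exact (hsb' j).mem_a s
    · exact (hsb' j).mem_b s
  by_cases hj : j = j'
  · subst hj
    rcases u with s | s <;> rcases u' with s' | s'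
    · simp only [Sum.elim_inl]
      rw [(hsb j).aa, (hsb' j).aa]
    · simp only [Sum.elim_inl, Sum.elim_inr]
      rw [(hsb j).ab, (hsb' j).ab]
    · simp only [Sum.elim_inl, Sum.elim_inr]
      rw [(hsb j).ba, (hsb' j).ba]
    · simp only [Sum.elim_inr]
      rw [(hsb j).bb, (hsb' j).bb]
  · rw [hD.2.2 j j' hj _ (hmem j u) _ (hmem j' u'),
      hD'.2.2 j j' hj _ (hmem' j u) _ (hmem' j' u')]

theorem nondegOn_of_dec (hD : Dec d (a₂ + a₂) F D) (j : Fin t) :
    IsNondegenerateOn (sympForm d F) (D j) := by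
  intro w hw hw0
  obtain ⟨v, hv, hne⟩ := hD.2.1 j w hw hw0
  refine ⟨⟨v, hv, ?_⟩, ⟨v, hv, hne⟩⟩
  rw [Helper13.sympForm_swap]
  exact neg_ne_zero.2 hne

/-- The symplectic group is transitive on orthogonal decompositions. -/
theorem dec_trans (hD : Dec d (a₂ + a₂) F D) (hD' : Dec d (a₂ + a₂) F D') :
    ∃ A : ↥(Matrix.symplecticGroup (Fin d) F), ∀ j, (D j).map (Matrix.toLin' A.1) = D' j := by
  have hfr : ∀ j, finrank F (D j) = 2 * a₂ := fun j => by rw [hD.1.finrank_eq, two_mul]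
  have hfr' : ∀ j, finrank F (D' j) = 2 * a₂ := fun j => by rw [hD'.1.finrank_eq, two_mul]
  choose aj bj hsb using fun j => Helper94.exists_sympBasis (D j) a₂ (hfr j)
    (nondegOn_of_dec hD j)
  choose aj' bj' hsb' using fun j => Helper94.exists_sympBasis (D' j) a₂ (hfr' j)
    (nondegOn_of_dec hD' j)
  obtain ⟨A, hA⟩ := Helper13.witt_gram_tuples _ _ (dec_family hD aj bj hsb)
    (dec_family hD' aj' bj' hsb') (dec_gram hD aj bj hsb hD' aj' bj' hsb')
  refine ⟨A, fun j => ?_⟩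
  rw [dec_span aj bj hsb j, dec_span aj' bj' hsb' j, Submodule.map_span, ← Set.range_comp]
  congr 2
  funext k
  have h1 := hA (j, k)
  rw [Function.comp_apply, Matrix.toLin'_apply]
  exact h1

/-- The action of the symplectic group on families of subspaces. -/
noncomputable def spFamAct (d t : ℕ) (F : Type u) [Field F] :
    MulAction (↥(Matrix.symplecticGroup (Fin d) F))
      (Fin t → Submodule F (Fin d ⊕ Fin d → F)) where
  smul g D := fun j => (D j).map (Matrix.toLin' g.1)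
  one_smul D := by
    funext j
    show (D j).map (Matrix.toLin' ((1 : ↥(Matrix.symplecticGroup (Fin d) F)) :
      Matrix (Fin d ⊕ Fin d) (Fin d ⊕ Fin d) F)) = D j
    rw [Submonoid.coe_one, Matrix.toLin'_one, Submodule.map_id]
  mul_smul g h D := by
    funext j
    show (D j).map (Matrix.toLin' ((g * h : ↥(Matrix.symplecticGroup (Fin d) F)) :
      Matrix (Fin d ⊕ Fin d) (Fin d ⊕ Fin d) F)) =
      ((D j).map (Matrix.toLin' (h : Matrix (Fin d ⊕ Fin d) (Fin d ⊕ Fin d) F))).map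
        (Matrix.toLin' (g : Matrix (Fin d ⊕ Fin d) (Fin d ⊕ Fin d) F))
    rw [Submonoid.coe_mul, Matrix.toLin'_mul, Submodule.map_comp]

theorem dec_smul {a : ℕ} (hD : Dec d a F D) (g : ↥(Matrix.symplecticGroup (Fin d) F)) :
    Dec d a F (fun j => (D j).map (Matrix.toLin' g.1)) := by
  classical
  obtain ⟨b, hb⟩ := exists_basis a D hD.1
  have hDb : D = blk b := funext hb
  have hgg : g.1 * (g⁻¹).1 = 1 := congrArg Subtype.val (mul_inv_cancel g)
  have hgg' : (g⁻¹).1 * g.1 = 1 := congrArg Subtype.val (inv_mul_cancel g)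
  let L : (Fin d ⊕ Fin d → F) ≃ₗ[F] (Fin d ⊕ Fin d → F) :=
    LinearEquiv.ofLinearMap (Matrix.toLin' g.1) (Matrix.toLin' (g⁻¹).1)
      (by rw [← Matrix.toLin'_mul, hgg, Matrix.toLin'_one])
      (by rw [← Matrix.toLin'_mul, hgg', Matrix.toLin'_one])
  have hform : ∀ u v : Fin d ⊕ Fin d → F,
      sympForm d F (Matrix.toLin' g.1 u) (Matrix.toLin' g.1 v) = sympForm d F u v := by
    intro u v
    rw [Matrix.toLin'_apply, Matrix.toLin'_apply]
    exact Helper13.sympForm_mulVec_of_mem _ g.2 u v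
  refine ⟨?_, ?_, ?_⟩
  · have h1 : (fun j => (D j).map (Matrix.toLin' g.1)) = blk (b.map L) := by
      funext j
      rw [hDb]
      exact blk_map b L j
    rw [h1]
    exact decomp_of_basis _ hD.1.two_le hD.1.pos
  · rintro j _ ⟨u₀, hu₀, rfl⟩ hne
    have hu₀0 : u₀ ≠ 0 := by
      rintro rfl
      exact hne (map_zero _)
    obtain ⟨v₀, hv₀, hv₀ne⟩ := hD.2.1 j u₀ hu₀ hu₀0
    exact ⟨Matrix.toLin' g.1 v₀, Submodule.mem_map_of_mem hv₀, by rw [hform]; exact hv₀ne⟩
  · rintro j j' hjj _ ⟨u₀, hu₀, rfl⟩ _ ⟨v₀, hv₀, rfl⟩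
    rw [hform]
    exact hD.2.2 j j' hjj u₀ hu₀ v₀ hv₀

theorem card_dec_dvd [Fintype F] (D₀ : Fin t → Submodule F (Fin d ⊕ Fin d → F))
    (hD₀ : Dec d (a₂ + a₂) F D₀) :
    Nat.card {D : Fin t → Submodule F (Fin d ⊕ Fin d → F) // Dec d (a₂ + a₂) F D} ∣
      Nat.card ↥(Matrix.symplecticGroup (Fin d) F) := by
  classical
  letI := spFamAct d t F
  have hmem : ∀ g : ↥(Matrix.symplecticGroup (Fin d) F),
      g • D₀ ∈ {D | Dec d (a₂ + a₂) F D} := fun g => dec_smul hD₀ g
  have h1 := Helper13.card_preimage_orbit (G := ↥(Matrix.symplecticGroup (Fin d) F)) D₀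
    {D | Dec d (a₂ + a₂) F D} (by
    intro D hD
    obtain ⟨A, hA⟩ := dec_trans hD₀ hD
    exact ⟨A, funext hA⟩)
  have h2 : Nat.card {g : ↥(Matrix.symplecticGroup (Fin d) F) //
      g • D₀ ∈ {D | Dec d (a₂ + a₂) F D}} = Nat.card ↥(Matrix.symplecticGroup (Fin d) F) :=
    Nat.card_congr (Equiv.subtypeUnivEquiv hmem)
  rw [h2] at h1
  exact Dvd.intro _ h1.symm

/-- The action of the symmetric group on ordered decompositions. -/
noncomputable def permAct {ι : Type} [Fintype ι] [DecidableEq ι] {t : ℕ}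
    (Pr : (Fin t → Submodule F (ι → F)) → Prop)
    (h2 : ∀ D (σ : Equiv.Perm (Fin t)), Pr D → Pr (fun j => D (σ j))) :
    MulAction (Equiv.Perm (Fin t)) {D : Fin t → Submodule F (ι → F) // Pr D} where
  smul σ D := ⟨fun j => D.1 (σ.symm j), h2 D.1 σ.symm D.2⟩
  one_smul D := Subtype.ext rfl
  mul_smul σ τ D := Subtype.ext rfl

theorem factorial_dvd_card [Fintype F] {ι : Type} [Fintype ι] [DecidableEq ι] {t a : ℕ}
    (Pr : (Fin t → Submodule F (ι → F)) → Prop)
    (h1 : ∀ D, Pr D → IsMDecomposition a D)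
    (h2 : ∀ D (σ : Equiv.Perm (Fin t)), Pr D → Pr (fun j => D (σ j))) :
    t.factorial ∣ Nat.card {D : Fin t → Submodule F (ι → F) // Pr D} := by
  classical
  letI := permAct Pr h2
  haveI : Fintype (MulAction.orbitRel.Quotient (Equiv.Perm (Fin t))
      {D : Fin t → Submodule F (ι → F) // Pr D}) := Fintype.ofFinite _
  rw [Nat.card_congr (MulAction.selfEquivSigmaOrbits (Equiv.Perm (Fin t)) _), Nat.card_sigma]
  apply Finset.dvd_sum
  intro ω _
  have hstab : MulAction.stabilizer (Equiv.Perm (Fin t)) (Quotient.out ω) = ⊥ := by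
    rw [eq_bot_iff]
    intro σ hσ
    rw [MulAction.mem_stabilizer_iff] at hσ
    rw [Subgroup.mem_bot]
    have hD := h1 _ (Quotient.out ω).2
    apply Equiv.ext
    intro j
    have h3 : (Quotient.out ω).1 (σ.symm (σ j)) = (Quotient.out ω).1 (σ j) :=
      congrFun (congrArg Subtype.val hσ) (σ j)
    have h4 := hD.indep.injective (D_ne_bot hD) h3
    rw [Equiv.symm_apply_apply] at h4
    exact h4.symm
  rw [Nat.card_congr (MulAction.orbitEquivQuotientStabilizer (Equiv.Perm (Fin t))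
    (Quotient.out ω)), hstab,
    Nat.card_congr (QuotientGroup.quotientBot (G := Equiv.Perm (Fin t))).toEquiv,
    Nat.card_eq_fintype_card, Fintype.card_perm, Fintype.card_fin]

theorem dec_perm {a : ℕ} (hD : Dec d a F D) (σ : Equiv.Perm (Fin t)) :
    Dec d a F (fun j => D (σ j)) := by
  refine ⟨⟨hD.1.two_le, hD.1.pos, fun j => hD.1.finrank_eq _, hD.1.indep.comp σ.injective, ?_⟩,
    fun j => hD.2.1 (σ j), fun j j' hjj => hD.2.2 (σ j) (σ j') (fun h => hjj (σ.injective h))⟩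
  rw [← hD.1.iSup_eq_top]
  exact σ.iSup_comp (g := D)

end count

section final

open Cfsg.Agent.Lib.Helper40.PrimeOrderGL Cfsg.Agent.Lib.Helper40.DualPoly
  Cfsg.Agent.Lib.Helper40.SpExist Cfsg.Agent.Lib.Helper40.SympWall
  Cfsg.Agent.Lib.Helper40.GUPrimeOrder

variable {F : Type u} [Field F] [Fintype F]

omit [Fintype F] in
/-- A standard orthogonal decomposition exists. -/
theorem exists_std_dec {d a₂ t : ℕ} (hat : d = a₂ * t) (ht : 2 ≤ t) (ha : 0 < a₂) :
    ∃ D₀ : Fin t → Submodule F (Fin d ⊕ Fin d → F), Dec d (a₂ + a₂) F D₀ := by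
  classical
  have hcard : Fintype.card (Fin a₂ × Fin t) = Fintype.card (Fin d) := by
    rw [Fintype.card_prod, Fintype.card_fin, Fintype.card_fin, Fintype.card_fin, hat]
  obtain ⟨e', -⟩ : ∃ e' : Fin a₂ × Fin t ≃ Fin d, True :=
    ⟨Fintype.equivOfCardEq hcard, trivial⟩
  obtain ⟨ε, hε⟩ : ∃ ε : Fin d ⊕ Fin d ≃ Σ _ : Fin t, Fin (a₂ + a₂),
      ∀ x, (ε x).1 = ((blockIdx e').symm x).2 :=
    ⟨(blockIdx e').symm.trans ((Equiv.prodComm _ _).trans
      ((Equiv.prodCongr (Equiv.refl (Fin t)) finSumFinEquiv).trans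
        (Equiv.sigmaEquivProd (Fin t) (Fin (a₂ + a₂))).symm)), fun x => rfl⟩
  have hβ : ∀ k : Fin d, (ε (Sum.inl k)).1 = (ε (Sum.inr k)).1 := by
    intro k
    rw [hε, hε]
    rfl
  obtain ⟨D, hD, -⟩ := exists_dec_of_model (F := F) ε ht (by omega) hβ 1 1 (by
    intro x' x hne
    by_contra hcon
    apply hne
    rw [Matrix.one_apply, if_neg]
    rintro rfl
    exact hcon rfl) (by rw [Matrix.det_one]; exact one_ne_zero) 1 (by rw [mul_one, one_mul])
  exact ⟨D, hD⟩

/-- If `r` divides the number of decompositions then `c ≤ 2 d`. -/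
theorem c_le_of_dvd_sp {p : ℕ} [Fact p.Prime] [CharP F p] {q : ℕ}
    (hq : Fintype.card F = q) {d a₂ t : ℕ} (hat : d = a₂ * t) (ht : 2 ≤ t) (ha : 0 < a₂)
    (r : ℕ) [Fact r.Prime] (hrp : r ≠ p)
    (hΩ : r ∣ Nat.card {D : Fin t → Submodule F (Fin d ⊕ Fin d → F) // Dec d (a₂ + a₂) F D} /
      Nat.factorial t)
    (i c : ℕ) (hi : i = orderOf (q : ZMod r)) (hc : c = if Even i then i else 2 * i) :
    c ≤ 2 * d := by
  classical
  have hr : r.Prime := Fact.out
  obtain ⟨D₀, hD₀⟩ := exists_std_dec (F := F) hat ht ha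
  have h1 := card_dec_dvd D₀ hD₀
  have h2 := Nat.div_dvd_of_dvd (factorial_dvd_card (F := F) (t := t) (a := a₂ + a₂)
    (fun D => Dec d (a₂ + a₂) F D) (fun D hD => hD.1) (fun D σ hD => dec_perm hD σ))
  have h3 := hΩ.trans (h2.trans h1)
  rw [Cfsg.Agent.Lib.Helper40.card_symplecticGroup, hq] at h3
  have hqr := Subf5.natCast_card_ne_zero hq r hrp
  have hrq : ¬ r ∣ q := by
    intro h
    exact hqr ((ZMod.natCast_eq_zero_iff _ _).2 h)
  have hq1 : 1 ≤ q := by
    rw [← hq]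
    exact Fintype.card_pos
  rcases (Nat.Prime.dvd_mul hr).1 h3 with h4 | h4
  · exact absurd (hr.dvd_of_dvd_pow h4) hrq
  · obtain ⟨k, hk, hk'⟩ := (Prime.dvd_finsetProd_iff (Nat.Prime.prime hr) _).1 h4
    rw [Finset.mem_range] at hk
    have h5 := (Elusive.dvd_pow_sub_one_iff q r hq1 _).1 hk'
    rw [← hi] at h5
    by_cases hev : Even i
    · rw [if_pos hev] at hc
      have := Nat.le_of_dvd (by omega) h5
      omega
    · rw [if_neg hev] at hc
      have hodd : Odd i := Nat.not_even_iff_odd.1 hev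
      have h6 : i ∣ k + 1 := Nat.Coprime.dvd_of_dvd_mul_left (Nat.coprime_two_right.2 hodd) h5
      have := Nat.le_of_dvd (by omega) h6
      have h7 : 2 * i ≤ 2 * (k + 1) := Nat.mul_le_mul_left 2 this
      omega

omit [Fintype F] in
theorem scalar_sq {d : ℕ} (hd : 0 < d) (z : F)
    (h : z • (1 : Matrix (Fin d ⊕ Fin d) (Fin d ⊕ Fin d) F) ∈ Matrix.symplecticGroup (Fin d) F) :
    z * z = 1 := by
  rw [SymplecticGroup.mem_iff, Matrix.transpose_smul, Matrix.transpose_one, Matrix.smul_mul,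
    Matrix.one_mul, Matrix.mul_smul, Matrix.mul_one, smul_smul] at h
  have h1 : ((z * z) • Matrix.J (Fin d) F) (Sum.inl ⟨0, hd⟩) (Sum.inr ⟨0, hd⟩) =
      Matrix.J (Fin d) F (Sum.inl ⟨0, hd⟩) (Sum.inr ⟨0, hd⟩) := by rw [h]
  rw [Matrix.smul_apply, Matrix.J, Matrix.fromBlocks_apply₁₂, Matrix.neg_apply,
    Matrix.one_apply_eq, smul_eq_mul, mul_neg, mul_one, neg_inj] at h1
  exact h1

omit [Fintype F] in
theorem scalar_pow {d : ℕ} (hd : 0 < d) (z : F) (r : ℕ)
    (h : (z • (1 : Matrix (Fin d ⊕ Fin d) (Fin d ⊕ Fin d) F)) ^ r = 1) : z ^ r = 1 := by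
  rw [_root_.smul_pow, one_pow] at h
  have h1 : (z ^ r • (1 : Matrix (Fin d ⊕ Fin d) (Fin d ⊕ Fin d) F)) (Sum.inl ⟨0, hd⟩)
      (Sum.inl ⟨0, hd⟩) = (1 : Matrix (Fin d ⊕ Fin d) (Fin d ⊕ Fin d) F) (Sum.inl ⟨0, hd⟩)
      (Sum.inl ⟨0, hd⟩) := by rw [h]
  rw [Matrix.smul_apply, Matrix.one_apply_eq, smul_eq_mul, mul_one] at h1
  exact h1

/-- Test elements: symplectic matrices of order `r` with a prescribed fixed space dimension. -/
theorem exists_test (p : ℕ) [Fact p.Prime] [CharP F p] {S : Finset F[X]} {r i c : ℕ}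
    (hS : Factors S r i) (hr : r.Prime) (hr2 : r ≠ 2) (hrF : (r : F) ≠ 0)
    (dg : S → S) (hdg : ∀ π : S, (dg π : F[X]) = dual (RingHom.id F) π.1)
    (hdd : ∀ π, dg (dg π) = π)
    (hpar : ((∀ π, dg π = π) ∧ c = i) ∨ ((∀ π, dg π ≠ π) ∧ c = 2 * i))
    (hne : S.Nonempty) (d N : ℕ) (hN : c * N ≤ 2 * d) (hN0 : 0 < N) (hc0 : 0 < c) :
    ∃ x : ↥(Matrix.symplecticGroup (Fin d) F), x.1 ^ r = 1 ∧
      finrank F (fixS (Matrix.toLin' x.1)) = 2 * d - c * N ∧
      ∀ z : F, x.1 ≠ z • (1 : Matrix (Fin d ⊕ Fin d) (Fin d ⊕ Fin d) F) := by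
  classical
  obtain ⟨π₀, hπ₀⟩ := hne
  obtain ⟨P₀, -⟩ : ∃ P₀ : S, P₀ = ⟨π₀, hπ₀⟩ := ⟨_, rfl⟩
  obtain ⟨m, hmsym, hmsum⟩ : ∃ m : S → ℕ, (∀ π, m (dg π) = m π) ∧ i * ∑ π, m π = c * N := by
    rcases hpar with ⟨hid, hci⟩ | ⟨hfpf, hci⟩
    · refine ⟨fun π => if π = P₀ then N else 0, fun π => by rw [hid π], ?_⟩
      rw [Finset.sum_ite_eq' Finset.univ P₀, if_pos (Finset.mem_univ _), hci]
    · refine ⟨fun π => (if π = P₀ then N else 0) + (if π = dg P₀ then N else 0), ?_, ?_⟩
      · intro π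
        beta_reduce
        have h1 : (dg π = P₀) ↔ (π = dg P₀) :=
          ⟨fun h => by rw [← h, hdd], fun h => by rw [h, hdd]⟩
        have h2 : (dg π = dg P₀) ↔ (π = P₀) :=
          ⟨fun h => by rw [← hdd π, h, hdd], fun h => by rw [h]⟩
        rw [if_congr h1 rfl rfl, if_congr h2 rfl rfl, add_comm]
      · rw [Finset.sum_add_distrib, Finset.sum_ite_eq' Finset.univ P₀,
          Finset.sum_ite_eq' Finset.univ (dg P₀), if_pos (Finset.mem_univ _),
          if_pos (Finset.mem_univ _), hci]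
        ring
  obtain ⟨x, hxr, hχ⟩ := exists_sp_chi p hS hr hr2 dg hdg d m hmsym (by rw [hmsum]; exact hN)
  rw [hmsum] at hχ
  have hfix := finrank_fix_of_chi hS hrF x.1 hxr m _ hχ
  refine ⟨x, hxr, hfix, ?_⟩
  intro z hz
  have hcN := Nat.mul_pos hc0 hN0
  have hd0 : 0 < d := by omega
  have h1 : z * z = 1 := scalar_sq hd0 z (hz ▸ x.2)
  have h2 : z ^ r = 1 := scalar_pow hd0 z r (hz ▸ hxr)
  have h3 : z = 1 := by
    have h4 : z ^ 2 = 1 := by rw [pow_two, h1]
    have h5 := pow_gcd_eq_one.2 ⟨h2, h4⟩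
    have h6 : Nat.gcd r 2 = 1 := by
      have h7 : Nat.Coprime r 2 := (Nat.Prime.coprime_iff_not_dvd hr).2 (fun h8 =>
        hr2 ((Nat.prime_dvd_prime_iff_eq hr Nat.prime_two).1 h8))
      exact h7
    rwa [h6, pow_one] at h5
  rw [h3, one_smul] at hz
  have h7 : fixS (Matrix.toLin' x.1) = ⊤ := by
    rw [eq_top_iff]
    intro v _
    rw [mem_fixS, hz, Matrix.toLin'_one]
    rfl
  rw [h7, finrank_top, Module.finrank_pi, Fintype.card_sum, Fintype.card_fin] at hfix
  omega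

theorem main {p : ℕ} [Fact p.Prime] [CharP F p] {q : ℕ} (hq : Fintype.card F = q)
    (d : ℕ) (a t : ℕ) (hat : 2 * d = a * t) (ha : 2 ≤ a) (hae : Even a) (ht : 2 ≤ t)
    (r : ℕ) [Fact r.Prime] (hr2 : r ≠ 2) (hrp : r ≠ p)
    (hΩ : r ∣ Nat.card {D : Fin t → Submodule F (Fin d ⊕ Fin d → F) //
      (IsMDecomposition a D ∧ (∀ j, ∀ u ∈ D j, u ≠ 0 → ∃ v ∈ D j, sympForm d F u v ≠ 0) ∧
          (∀ j j', j ≠ j' → ∀ u ∈ D j, ∀ v ∈ D j', sympForm d F u v = 0))} / Nat.factorial t)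
    (i c : ℕ) (hi : i = orderOf (q : ZMod r)) (hc : c = if Even i then i else 2 * i) :
    (∀ x : ↥(Matrix.symplecticGroup (Fin d) F),
      (∃ z : F, ((x ^ r : ↥(Matrix.symplecticGroup (Fin d) F)) :
        Matrix (Fin d ⊕ Fin d) (Fin d ⊕ Fin d) F) =
          z • (1 : Matrix (Fin d ⊕ Fin d) (Fin d ⊕ Fin d) F)) →
      (∀ z : F, (x : Matrix (Fin d ⊕ Fin d) (Fin d ⊕ Fin d) F) ≠
        z • (1 : Matrix (Fin d ⊕ Fin d) (Fin d ⊕ Fin d) F)) →
      ∃ D : Fin t → Submodule F (Fin d ⊕ Fin d → F),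
        (IsMDecomposition a D ∧ (∀ j, ∀ u ∈ D j, u ≠ 0 → ∃ v ∈ D j, sympForm d F u v ≠ 0) ∧
          (∀ j j', j ≠ j' → ∀ u ∈ D j, ∀ v ∈ D j', sympForm d F u v = 0)) ∧
        ∃ σ : Equiv.Perm (Fin t), ∀ j, (D j).map (Matrix.toLin'
          (x : Matrix (Fin d ⊕ Fin d) (Fin d ⊕ Fin d) F)) = D (σ j)) ↔
    (c ≤ a ∧ (2 * d) % c = t * (a % c)) := by
  classical
  have hr : r.Prime := Fact.out
  obtain ⟨a₂, rfl⟩ := hae
  have hd : d = a₂ * t := by
    have h1 : 2 * d = 2 * (a₂ * t) := by rw [hat]; ring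
    omega
  have ha₂ : 0 < a₂ := by omega
  obtain ⟨S, dg, hS, hne, hdg, hdd, hdev, hdodd⟩ := exists_data hq r hr2 hrp i hi
  have hrF : (r : F) ≠ 0 := Elusive.natCast_ne_zero_of_ne r hrp
  have hi0 : 0 < i := by
    rw [hi]
    exact Elusive.orderOf_pos_of_ne hq r hrp
  have hpar : ((∀ π, dg π = π) ∧ c = i) ∨ ((∀ π, dg π ≠ π) ∧ c = 2 * i) := by
    by_cases hev : Even i
    · left
      exact ⟨hdev hev, by rw [hc, if_pos hev]⟩
    · right
      exact ⟨hdodd (Nat.not_even_iff_odd.1 hev), by rw [hc, if_neg hev]⟩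
  have hc0 : 0 < c := by
    rcases hpar with ⟨-, h⟩ | ⟨-, h⟩ <;> omega
  have hcdvd : ∀ N : ℕ, Even N → i ∣ N → c ∣ N := by
    intro N hN hiN
    rcases hpar with ⟨-, h⟩ | ⟨hfpf, h⟩
    · rw [h]
      exact hiN
    · rw [h]
      have hodd : Odd i := by
        by_contra hev
        rw [Nat.not_odd_iff_even] at hev
        obtain ⟨π₀, hπ₀⟩ := hne
        exact hfpf ⟨π₀, hπ₀⟩ (hdev hev _)
      exact Nat.Coprime.mul_dvd_of_dvd_of_dvd (Nat.coprime_two_left.2 hodd) hN.two_dvd hiN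
  have hcr : c ≤ r - 1 := by
    have hq0 : (q : ZMod r) ≠ 0 := Subf5.natCast_card_ne_zero hq r hrp
    have h1 := orderOf_dvd_of_pow_eq_one (ZMod.pow_card_sub_one_eq_one hq0)
    rw [← hi] at h1
    have h2 : Even (r - 1) := Nat.Odd.sub_odd (hr.odd_of_ne_two hr2) odd_one
    have h3 := hcdvd (r - 1) h2 h1
    exact Nat.le_of_dvd (by have := hr.two_le; omega) h3
  constructor
  · intro h
    have hΩ' : r ∣ Nat.card {D : Fin t → Submodule F (Fin d ⊕ Fin d → F) //
        Dec d (a₂ + a₂) F D} / Nat.factorial t := hΩ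
    have hcn : c ≤ 2 * d := c_le_of_dvd_sp hq hd ht ha₂ r hrp hΩ' i c hi hc
    have hmodlt := Nat.mod_lt (2 * d) hc0
    obtain ⟨x₂, hx₂r, hx₂fix, hx₂ns⟩ := exists_test p hS hr hr2 hrF dg hdg hdd hpar hne d
      ((2 * d) / c) (Nat.mul_div_le _ _) (Nat.div_pos hcn hc0) hc0
    obtain ⟨f₂, hf₂⟩ : ∃ f₂ : Module.End F (Fin d ⊕ Fin d → F), f₂ = Matrix.toLin' x₂.1 :=
      ⟨_, rfl⟩
    rw [← hf₂] at hx₂fix
    have hk₀' : finrank F (fixS f₂) = (2 * d) % c := by
      rw [hx₂fix]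
      have := Nat.div_add_mod (2 * d) c
      omega
    have hf₂r : f₂ ^ r = 1 := by
      rw [hf₂, toLin_pow, hx₂r, Matrix.toLin'_one]
      rfl
    have hx₂pow : ∃ z : F, ((x₂ ^ r : ↥(Matrix.symplecticGroup (Fin d) F)) :
        Matrix (Fin d ⊕ Fin d) (Fin d ⊕ Fin d) F) =
          z • (1 : Matrix (Fin d ⊕ Fin d) (Fin d ⊕ Fin d) F) :=
      ⟨1, by rw [SubmonoidClass.coe_pow, hx₂r, one_smul]⟩
    obtain ⟨D, hD, σ₂, hσ₂⟩ := h x₂ hx₂pow hx₂ns
    rw [← hf₂] at hσ₂
    by_cases hid : ∀ j, σ₂ j = j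
    · have hkj : ∀ j, finrank F (D j ⊓ fixS f₂ : Submodule F (Fin d ⊕ Fin d → F)) =
          (a₂ + a₂) % c := by
        intro j
        have hinv : (D j).map f₂ ≤ D j := by rw [hσ₂ j, hid j]
        have h1 := dvd_sub_fix hS hrF f₂ hf₂r (D j) hinv
        have hev := even_fix_inf x₂.1 x₂.2 hx₂r hrF (D j) (by rw [← hf₂]; exact hinv) (hD.2.1 j)
        rw [← hf₂] at hev
        rw [hD.1.finrank_eq] at h1
        have h3 : finrank F (D j ⊓ fixS f₂ : Submodule F (Fin d ⊕ Fin d → F)) ≤ a₂ + a₂ := by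
          have h4 := Submodule.finrank_mono (inf_le_left : D j ⊓ fixS f₂ ≤ D j)
          rw [hD.1.finrank_eq] at h4
          exact h4
        have h2 : finrank F (D j ⊓ fixS f₂ : Submodule F (Fin d ⊕ Fin d → F)) ≤
            finrank F (fixS f₂) := Submodule.finrank_mono inf_le_right
        have hev' : Even (a₂ + a₂ -
            finrank F (D j ⊓ fixS f₂ : Submodule F (Fin d ⊕ Fin d → F))) :=
          Even.tsub (⟨a₂, rfl⟩ : Even (a₂ + a₂)) hev
        obtain ⟨u, hu⟩ := hcdvd _ hev' h1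
        have h5 : a₂ + a₂ =
            finrank F (D j ⊓ fixS f₂ : Submodule F (Fin d ⊕ Fin d → F)) + c * u := by
          omega
        have h6 : (a₂ + a₂) % c =
            finrank F (D j ⊓ fixS f₂ : Submodule F (Fin d ⊕ Fin d → F)) % c := by
          conv_lhs => rw [h5]
          exact Nat.add_mul_mod_self_left _ _ _
        have h7 : finrank F (D j ⊓ fixS f₂ : Submodule F (Fin d ⊕ Fin d → F)) % c =
            finrank F (D j ⊓ fixS f₂ : Submodule F (Fin d ⊕ Fin d → F)) :=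
          Nat.mod_eq_of_lt (by omega)
        rw [h7] at h6
        exact h6.symm
      have hsum : t * ((a₂ + a₂) % c) ≤ (2 * d) % c := by
        have hind : iSupIndep (fun j => D j ⊓ fixS f₂) :=
          hD.1.indep.mono (fun j => inf_le_left)
        have h1 := finrank_biSup (fun j => D j ⊓ fixS f₂) hind Finset.univ
        rw [Finset.sum_congr rfl (fun j _ => hkj j), Finset.sum_const, Finset.card_univ,
          Fintype.card_fin, smul_eq_mul] at h1
        rw [← h1, ← hk₀']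
        apply Submodule.finrank_mono
        apply iSup₂_le
        intro j _
        exact inf_le_right
      have h9 : (2 * d) % c = (t * ((a₂ + a₂) % c)) % c := by
        rw [hat, Nat.mul_comm (a₂ + a₂) t, Nat.mul_mod t (a₂ + a₂) c,
          Nat.mul_mod t ((a₂ + a₂) % c) c, Nat.mod_mod]
      have h9' : (t * ((a₂ + a₂) % c)) % c = t * ((a₂ + a₂) % c) :=
        Nat.mod_eq_of_lt (by omega)
      rw [h9'] at h9
      refine ⟨?_, h9⟩
      by_contra hca
      have h10 : (a₂ + a₂) % c = a₂ + a₂ := Nat.mod_eq_of_lt (by omega)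
      rw [h10, mul_comm, ← hat] at hsum
      omega
    · push Not at hid
      obtain ⟨j₀, hj₀⟩ := hid
      have ha_lt : a₂ + a₂ < c := by
        have h1 := fix_ge_of_moved hD.1 f₂ σ₂ hσ₂ hr hf₂r j₀ hj₀
        omega
      exfalso
      obtain ⟨x₁, hx₁r, hx₁fix, hx₁ns⟩ := exists_test p hS hr hr2 hrF dg hdg hdd hpar hne d 1
        (by omega) one_pos hc0
      obtain ⟨f₁, hf₁⟩ : ∃ f₁ : Module.End F (Fin d ⊕ Fin d → F), f₁ = Matrix.toLin' x₁.1 :=
        ⟨_, rfl⟩
      rw [← hf₁] at hx₁fix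
      have hf₁r : f₁ ^ r = 1 := by
        rw [hf₁, toLin_pow, hx₁r, Matrix.toLin'_one]
        rfl
      have hx₁pow : ∃ z : F, ((x₁ ^ r : ↥(Matrix.symplecticGroup (Fin d) F)) :
          Matrix (Fin d ⊕ Fin d) (Fin d ⊕ Fin d) F) =
            z • (1 : Matrix (Fin d ⊕ Fin d) (Fin d ⊕ Fin d) F) :=
        ⟨1, by rw [SubmonoidClass.coe_pow, hx₁r, one_smul]⟩
      obtain ⟨D', hD', σ₁, hσ₁⟩ := h x₁ hx₁pow hx₁ns
      rw [← hf₁] at hσ₁
      have hmoved : ∃ j, σ₁ j ≠ j := by
        by_contra hall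
        push Not at hall
        have hle : ∀ j, D' j ≤ fixS f₁ := by
          intro j
          have hinv : (D' j).map f₁ ≤ D' j := by rw [hσ₁ j, hall j]
          have h1 := dvd_sub_fix hS hrF f₁ hf₁r (D' j) hinv
          have hev := even_fix_inf x₁.1 x₁.2 hx₁r hrF (D' j) (by rw [← hf₁]; exact hinv)
            (hD'.2.1 j)
          rw [← hf₁] at hev
          rw [hD'.1.finrank_eq] at h1
          have hev' : Even (a₂ + a₂ -
              finrank F (D' j ⊓ fixS f₁ : Submodule F (Fin d ⊕ Fin d → F))) :=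
            Even.tsub (⟨a₂, rfl⟩ : Even (a₂ + a₂)) hev
          have h2 := hcdvd _ hev' h1
          have h4 : a₂ + a₂ -
              finrank F (D' j ⊓ fixS f₁ : Submodule F (Fin d ⊕ Fin d → F)) = 0 := by
            by_contra hne'
            have := Nat.le_of_dvd (Nat.pos_of_ne_zero hne') h2
            omega
          have h5 : D' j ⊓ fixS f₁ = D' j := by
            apply Submodule.eq_of_le_of_finrank_le inf_le_left
            rw [hD'.1.finrank_eq]
            omega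
          rw [← h5]
          exact inf_le_right
        have htop : fixS f₁ = ⊤ := by
          rw [eq_top_iff, ← hD'.1.iSup_eq_top]
          exact iSup_le hle
        rw [htop, finrank_top, Module.finrank_pi, Fintype.card_sum, Fintype.card_fin] at hx₁fix
        omega
      obtain ⟨j₁, hj₁⟩ := hmoved
      have hP2 := fix_le_of_moved hD'.1 f₁ σ₁ hσ₁ hr hf₁r j₁ hj₁
      rw [Fintype.card_sum, Fintype.card_fin, hx₁fix] at hP2
      have h12 : (r - 1) * 2 ≤ (r - 1) * (a₂ + a₂) := Nat.mul_le_mul_left _ (by omega)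
      have := hr.two_le
      omega
  · rintro ⟨hca, hk⟩ x ⟨z, hz⟩ hns
    have hd0 : 0 < d := by
      rw [hd]
      exact Nat.mul_pos ha₂ (by omega)
    have hzmem : z • (1 : Matrix (Fin d ⊕ Fin d) (Fin d ⊕ Fin d) F) ∈
        Matrix.symplecticGroup (Fin d) F := by
      rw [← hz]
      exact (x ^ r).2
    rw [SubmonoidClass.coe_pow] at hz
    have hzz : z * z = 1 := scalar_sq hd0 z hzmem
    have hz0 : z ≠ 0 := by
      rintro rfl
      rw [mul_zero] at hzz
      exact zero_ne_one hzz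
    have hzr : z ^ r = z := by
      obtain ⟨k, hk'⟩ := hr.odd_of_ne_two hr2
      rw [hk', pow_succ, pow_mul, pow_two, hzz, one_pow, one_mul]
    obtain ⟨y, hy⟩ : ∃ y : Matrix (Fin d ⊕ Fin d) (Fin d ⊕ Fin d) F, y = z • x.1 := ⟨_, rfl⟩
    have hyr : y ^ r = 1 := by
      rw [hy, _root_.smul_pow, hz, smul_smul, hzr, hzz, one_smul]
    have hymem : y ∈ Matrix.symplecticGroup (Fin d) F := by
      have h1 : y = (z • (1 : Matrix (Fin d ⊕ Fin d) (Fin d ⊕ Fin d) F)) * x.1 := by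
        rw [hy, Matrix.smul_mul, Matrix.one_mul]
      rw [h1]
      exact mul_mem hzmem x.2
    have htrans : ∀ D : Fin t → Submodule F (Fin d ⊕ Fin d → F), ∀ j,
        (D j).map (Matrix.toLin' x.1) = (D j).map (Matrix.toLin' y) := by
      intro D j
      rw [hy, map_smul]
      exact (Submodule.map_smul _ _ z hz0).symm
    obtain ⟨D, hD, hρ⟩ := backward_sp p hS hr hr2 hrF dg hdg hdd hpar hi0 hd ht ha₂
      (by rw [hk]) y hymem hyr
    exact ⟨D, hD, 1, fun j => by rw [htrans D j, hρ j]; rfl⟩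

end final

end Cfsg.Agent.Lib.Helper40.SpImprim
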