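import Cfsg.Agent.Lib.Helper5.SLGen

/-!
# Two-element generation of `SL_{n+1}`: the Coxeter-type monomial matrix and a root subgroup
-/

namespace Cfsg.Agent.Lib.Helper40.SLTwoGen

open Matrix

variable {K : Type*} [Field K] {n : ℕ}

/-- The monomial matrix with entries `1` in positions `(i, i+1)` and `(-1)^n` in position
`(n, 0)`. -/
def cox (n : ℕ) (K : Type*) [Field K] : Matrix (Fin (n + 1)) (Fin (n + 1)) K :=
  Matrix.of (fun i j => if j.val = i.val + 1 then 1 else if i.val = n ∧ j.val = 0 then (-1) ^ n
    else 0)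

/-- The nonzero entry of row `i` of `cox`. -/
def eta (n : ℕ) (K : Type*) [Field K] (i : Fin (n + 1)) : K := if i.val = n then (-1) ^ n else 1

theorem eta_ne_zero (i : Fin (n + 1)) : eta n K i ≠ 0 := by
  unfold eta
  split_ifs
  · exact pow_ne_zero _ (neg_ne_zero.2 one_ne_zero)
  · exact one_ne_zero

theorem cox_apply (i j : Fin (n + 1)) :
    cox n K i j = if j = i + 1 then eta n K i else 0 := by
  unfold cox eta
  simp only [Matrix.of_apply]
  by_cases hi : i = Fin.last n
  · subst hi
    have h1 : (Fin.last n + 1 : Fin (n + 1)) = 0 := Fin.last_add_one n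
    have h2 : ¬ (j.val = (Fin.last n).val + 1) := by
      have := j.2
      simp only [Fin.val_last]
      omega
    rw [if_neg h2, h1]
    simp only [Fin.val_last, true_and, if_true]
    by_cases hj : j = 0
    · subst hj
      simp
    · have hj' : j.val ≠ 0 := fun h => hj (Fin.ext h)
      rw [if_neg hj', if_neg hj]
  · have hin : i.val ≠ n := fun h => hi (Fin.ext (by simpa using h))
    have hv : (i + 1 : Fin (n + 1)).val = i.val + 1 := by
      rw [Fin.val_add_one, if_neg hi]
    rw [if_neg hin]
    by_cases hj : j = i + 1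
    · rw [if_pos hj, if_pos (by rw [hj, hv])]
    · have hj' : ¬ j.val = i.val + 1 := fun h => hj (Fin.ext (by rw [hv, h]))
      rw [if_neg hj, if_neg hj', if_neg (fun h => hin h.1)]

theorem single_mul_cox (a b : Fin (n + 1)) (c : K) :
    Matrix.single a b (eta n K a * c) * cox n K =
      cox n K * Matrix.single (a + 1) (b + 1) (eta n K b * c) := by
  ext i j
  by_cases hi : i = a
  · subst hi
    rw [Matrix.single_mul_apply_same]
    by_cases hj : j = b + 1
    · subst hj
      rw [Matrix.mul_single_apply_same, cox_apply, cox_apply, if_pos rfl, if_pos rfl]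
      ring
    · rw [Matrix.mul_single_apply_of_ne _ _ _ _ _ hj, cox_apply, if_neg hj, mul_zero]
  · rw [Matrix.single_mul_apply_of_ne _ _ _ _ _ hi]
    by_cases hj : j = b + 1
    · subst hj
      rw [Matrix.mul_single_apply_same, cox_apply, if_neg (fun h => hi (add_right_cancel h).symm),
        zero_mul]
    · rw [Matrix.mul_single_apply_of_ne _ _ _ _ _ hj]

open Matrix.SpecialLinearGroup in
theorem conj_transvection (w : SpecialLinearGroup (Fin (n + 1)) K)
    (hw : (w : Matrix (Fin (n + 1)) (Fin (n + 1)) K) = cox n K)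
    {a b : Fin (n + 1)} (hab : a ≠ b) (c : K) :
    transvection hab (eta n K a * c) * w =
      w * transvection ((add_left_injective 1).ne hab) (eta n K b * c) := by
  apply Subtype.ext
  show (transvection hab (eta n K a * c)).1 * w.1 =
    w.1 * (transvection ((add_left_injective 1).ne hab) (eta n K b * c)).1
  have e1 : (transvection hab (eta n K a * c)).1 = 1 + Matrix.single a b (eta n K a * c) := rfl
  have e2 : (transvection ((add_left_injective 1).ne hab) (eta n K b * c)).1 =
      1 + Matrix.single (a + 1) (b + 1) (eta n K b * c) := rfl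
  have e3 : w.1 = cox n K := hw
  rw [e1, e2, add_mul, mul_add, one_mul, mul_one, e3, single_mul_cox]

/-- The root subgroup `X_{ab}` lies in `H`. -/
def RootIn (H : Subgroup (SpecialLinearGroup (Fin (n + 1)) K)) (a b : Fin (n + 1)) : Prop :=
  ∀ (hab : a ≠ b) (c : K), SpecialLinearGroup.transvection hab c ∈ H

theorem RootIn.shift {H : Subgroup (SpecialLinearGroup (Fin (n + 1)) K)}
    (w : SpecialLinearGroup (Fin (n + 1)) K)
    (hw : (w : Matrix (Fin (n + 1)) (Fin (n + 1)) K) = cox n K) (hwH : w ∈ H)
    {a b : Fin (n + 1)} (h : RootIn H a b) : RootIn H (a + 1) (b + 1) := by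
  intro hab' c
  have hab : a ≠ b := fun e => hab' (by rw [e])
  have h1 := conj_transvection w hw hab (c / eta n K b)
  have h2 : SpecialLinearGroup.transvection hab' (eta n K b * (c / eta n K b)) =
      w⁻¹ * (SpecialLinearGroup.transvection hab (eta n K a * (c / eta n K b)) * w) := by
    rw [h1, inv_mul_cancel_left]
  rw [mul_div_cancel₀ _ (eta_ne_zero b)] at h2
  rw [h2]
  exact H.mul_mem (H.inv_mem hwH) (H.mul_mem (h _ _) hwH)

theorem RootIn.adj {H : Subgroup (SpecialLinearGroup (Fin (n + 1)) K)}
    (w : SpecialLinearGroup (Fin (n + 1)) K)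
    (hw : (w : Matrix (Fin (n + 1)) (Fin (n + 1)) K) = cox n K) (hwH : w ∈ H)
    (h : RootIn H 0 1) : ∀ a : Fin (n + 1), RootIn H a (a + 1) := by
  intro a
  induction a using Fin.induction with
  | zero =>
    rw [zero_add]
    exact h
  | succ i ih =>
    have h1 := ih.shift w hw hwH
    rwa [Fin.coeSucc_eq_succ] at h1

theorem RootIn.comm {H : Subgroup (SpecialLinearGroup (Fin (n + 1)) K)} {a b c : Fin (n + 1)}
    (hab : a ≠ b) (hbc : b ≠ c) (h1 : RootIn H a b) (h2 : RootIn H b c) : RootIn H a c := by
  intro hac t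
  have h3 := Cfsg.Agent.Lib.Helper5.transvection_commutator hac hab hbc t 1
  rw [mul_one] at h3
  rw [← h3]
  exact Subgroup.commutator_mem_commutator (H₁ := H) (H₂ := H) (h1 hab t) (h2 hbc 1) |>
    (Subgroup.commutator_le_self H) |> id

theorem one_ne_zero_fin (hn : 1 ≤ n) : (1 : Fin (n + 1)) ≠ 0 := by
  intro h
  have h1 := congrArg Fin.val h
  rw [Fin.val_one', Fin.val_zero] at h1
  have h2 : 1 % (n + 1) = 1 := Nat.mod_eq_of_lt (by omega)
  omega

theorem RootIn.all {H : Subgroup (SpecialLinearGroup (Fin (n + 1)) K)} (hn : 1 ≤ n)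
    (w : SpecialLinearGroup (Fin (n + 1)) K)
    (hw : (w : Matrix (Fin (n + 1)) (Fin (n + 1)) K) = cox n K) (hwH : w ∈ H)
    (h : RootIn H 0 1) : ∀ d : Fin (n + 1), d ≠ 0 → ∀ a : Fin (n + 1), RootIn H a (a + d) := by
  intro d
  induction d using Fin.induction with
  | zero =>
    intro h0
    exact absurd rfl h0
  | succ i ih =>
    intro _ a
    by_cases h0 : i.castSucc = 0
    · have h1 := RootIn.adj w hw hwH h a
      have h2 : i.succ = 1 := by
        rw [← Fin.coeSucc_eq_succ, h0, zero_add]
      rw [h2]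
      exact h1
    · have h1 := ih h0 a
      have h2 := RootIn.adj w hw hwH h (a + i.castSucc)
      have h3 : a + i.castSucc + 1 = a + i.succ := by
        rw [add_assoc, Fin.coeSucc_eq_succ]
      rw [h3] at h2
      refine RootIn.comm ?_ ?_ h1 h2
      · intro e
        exact h0 (by simpa using e)
      · intro e
        have e2 : i.succ = i.castSucc + 1 := Fin.coeSucc_eq_succ.symm
        rw [e2, ← add_assoc] at e
        exact one_ne_zero_fin hn (by simpa using e)

/-- A subgroup of `SL_{n+1}(K)` containing the monomial matrix `cox` and the root subgroup `X_{01}`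
is everything. -/
theorem eq_top_of_cox_of_root (hn : 1 ≤ n) (H : Subgroup (SpecialLinearGroup (Fin (n + 1)) K))
    (w : SpecialLinearGroup (Fin (n + 1)) K)
    (hw : (w : Matrix (Fin (n + 1)) (Fin (n + 1)) K) = cox n K) (hwH : w ∈ H)
    (h : ∀ (h01 : (0 : Fin (n + 1)) ≠ 1) (c : K), SpecialLinearGroup.transvection h01 c ∈ H) :
    H = ⊤ := by
  have : Nontrivial (Fin (n + 1)) := ⟨⟨1, 0, one_ne_zero_fin hn⟩⟩
  apply Cfsg.Agent.Lib.Helper5.eq_top_of_transvection_mem
  intro i j hij c
  have h1 := RootIn.all hn w hw hwH h (j - i) (fun e => hij (sub_eq_zero.1 e).symm) i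
  rw [add_sub_cancel] at h1
  exact h1 hij c

/-- In a field with at most three elements every element is a natural number. -/
theorem exists_natCast_of_card_le_three [Fintype K] (hK : Fintype.card K ≤ 3) (c : K) :
    ∃ m : ℕ, c = (m : K) := by
  obtain ⟨p, hp⟩ := CharP.exists K
  obtain ⟨k, hpp, hcard⟩ := FiniteField.card K p
  have : Fact p.Prime := ⟨hpp⟩
  have hk : (k : ℕ) = 1 := by
    by_contra hk
    have hk2 : 2 ≤ (k : ℕ) := by
      have := k.pos
      omega
    have h4 : p ^ 2 ≤ p ^ (k : ℕ) := Nat.pow_le_pow_right hpp.pos hk2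
    have h5 : 2 ^ 2 ≤ p ^ 2 := Nat.pow_le_pow_left hpp.two_le 2
    omega
  rw [hk, pow_one] at hcard
  have hinj : Function.Injective (ZMod.castHom (dvd_refl p) K) := RingHom.injective _
  have hbij : Function.Bijective (ZMod.castHom (dvd_refl p) K) := by
    rw [Fintype.bijective_iff_injective_and_card]
    exact ⟨hinj, by rw [ZMod.card, hcard]⟩
  obtain ⟨z, rfl⟩ := hbij.2 c
  refine ⟨z.val, ?_⟩
  conv_lhs => rw [← ZMod.natCast_zmod_val z]
  rw [map_natCast]

theorem transvection_natCast_eq_pow {ι : Type*} [DecidableEq ι] [Fintype ι] {i j : ι} (hij : i ≠ j)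
    (m : ℕ) : SpecialLinearGroup.transvection hij (m : K) =
      (SpecialLinearGroup.transvection hij (1 : K)) ^ m := by
  induction m with
  | zero => simp
  | succ m ih => rw [Nat.cast_succ, SpecialLinearGroup.transvection_add, ih, pow_succ]

end Cfsg.Agent.Lib.Helper40.SLTwoGen
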