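import Cfsg.Agent.Lib.Helper40.SLTwoGen

/-!
# Two-element generation of `SL_{n+1}(K)` for `|K| > 3`: a torus element and `x * w`
-/

namespace Cfsg.Agent.Lib.Helper40.SLTwoGen

open Matrix Polynomial

variable {K : Type*} [Field K] {n : ℕ}

/-- In a finite field every element is a sum of two squares. -/
theorem exists_sq_add_sq [Fintype K] (x : K) : ∃ a b : K, a ^ 2 + b ^ 2 = x := by
  rcases Nat.even_or_odd (Fintype.card K) with he | ho
  · have h2 : ringChar K = 2 := FiniteField.even_card_iff_char_two.2 (Nat.even_iff.1 he)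
    obtain ⟨a, ha⟩ := FiniteField.isSquare_of_char_two h2 x
    exact ⟨a, 0, by rw [ha]; ring⟩
  · obtain ⟨a, b, hab⟩ := FiniteField.exists_root_sum_quadratic (R := K) (f := X ^ 2)
      (g := X ^ 2 - C x) (degree_X_pow 2) (degree_X_pow_sub_C (by decide) _) (Nat.odd_iff.1 ho)
    refine ⟨a, b, ?_⟩
    simp only [eval_pow, eval_X, eval_sub, eval_C] at hab
    linear_combination hab

theorem diag_conj_transvection {ι : Type*} [Fintype ι] [DecidableEq ι]
    (g : SpecialLinearGroup ι K) (d : ι → K) (hg : (g : Matrix ι ι K) = Matrix.diagonal d)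
    {a b : ι} (hab : a ≠ b) (hb : d b ≠ 0) (c : K) :
    g * SpecialLinearGroup.transvection hab c * g⁻¹ =
      SpecialLinearGroup.transvection hab (d a * c / d b) := by
  rw [mul_inv_eq_iff_eq_mul]
  apply Subtype.ext
  show g.1 * (SpecialLinearGroup.transvection hab c).1 =
    (SpecialLinearGroup.transvection hab (d a * c / d b)).1 * g.1
  have e1 : (SpecialLinearGroup.transvection hab c).1 = 1 + Matrix.single a b c := rfl
  have e2 : (SpecialLinearGroup.transvection hab (d a * c / d b)).1 =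
      1 + Matrix.single a b (d a * c / d b) := rfl
  have e3 : g.1 = Matrix.diagonal d := hg
  rw [e1, e2, e3, mul_add, add_mul, mul_one, one_mul]
  congr 1
  ext i j
  rw [Matrix.diagonal_mul, Matrix.mul_diagonal, Matrix.single_apply, Matrix.single_apply]
  by_cases h : a = i ∧ b = j
  · rw [if_pos h, if_pos h, ← h.1, ← h.2]
    field_simp
  · rw [if_neg h, if_neg h, mul_zero, zero_mul]

theorem cox_mul_diagonal (d : Fin (n + 1) → K) :
    cox n K * Matrix.diagonal d = Matrix.diagonal (fun i => d (i + 1)) * cox n K := by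
  ext i j
  rw [Matrix.mul_diagonal, Matrix.diagonal_mul, cox_apply]
  split_ifs with h
  · rw [h]
    ring
  · simp

/-- If `H` contains a diagonal element `h` and `x * w`, then it contains a specific element of the
root subgroup `X_{01}`. -/
theorem root_mem_of_torus (H : Subgroup (SpecialLinearGroup (Fin (n + 1)) K))
    (h w : SpecialLinearGroup (Fin (n + 1)) K) (d : Fin (n + 1) → K)
    (hh : (h : Matrix (Fin (n + 1)) (Fin (n + 1)) K) = Matrix.diagonal d)
    (hw : (w : Matrix (Fin (n + 1)) (Fin (n + 1)) K) = cox n K) (hd : ∀ i, d i ≠ 0)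
    (h01 : (0 : Fin (n + 1)) ≠ 1) (hhH : h ∈ H) (hyH : SpecialLinearGroup.transvection h01 1 * w ∈ H) :
    SpecialLinearGroup.transvection h01 ((d 0 / d 1 - 1) * (1 - d 1 / d (1 + 1))) ∈ H := by
  obtain ⟨h', hh'def⟩ : ∃ h' : SpecialLinearGroup (Fin (n + 1)) K, h' = w * h * w⁻¹ := ⟨_, rfl⟩
  have hh' : (h' : Matrix (Fin (n + 1)) (Fin (n + 1)) K) =
      Matrix.diagonal (fun i => d (i + 1)) := by
    have e1 : h' * w = w * h := by
      rw [hh'def]
      group
    have e2 : h'.1 * w.1 = w.1 * h.1 := congrArg Subtype.val e1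
    have e3 : w.1 * (w⁻¹).1 = 1 := congrArg Subtype.val (mul_inv_cancel w)
    have e4 : h.1 = Matrix.diagonal d := hh
    have e5 : w.1 = cox n K := hw
    calc h'.1 = h'.1 * (w.1 * (w⁻¹).1) := by rw [e3, mul_one]
      _ = (h'.1 * w.1) * (w⁻¹).1 := by rw [mul_assoc]
      _ = (Matrix.diagonal (fun i => d (i + 1)) * w.1) * (w⁻¹).1 := by
        rw [e2, e4, e5, cox_mul_diagonal]
      _ = Matrix.diagonal (fun i => d (i + 1)) := by rw [mul_assoc, e3, mul_one]
  have hcomm : h * h' * h⁻¹ = h' := by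
    rw [mul_inv_eq_iff_eq_mul]
    apply Subtype.ext
    show h.1 * h'.1 = h'.1 * h.1
    have e4 : h.1 = Matrix.diagonal d := hh
    have e6 : h'.1 = Matrix.diagonal (fun i => d (i + 1)) := hh'
    rw [e4, e6, Matrix.diagonal_mul_diagonal, Matrix.diagonal_mul_diagonal]
    congr 1
    funext i
    ring
  have hx1 : h * SpecialLinearGroup.transvection h01 1 * h⁻¹ = SpecialLinearGroup.transvection h01 (d 0 / d 1) := by
    have e7 := diag_conj_transvection h d hh h01 (hd 1) 1
    rw [mul_one] at e7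
    exact e7
  have hx2 : ∀ c, h' * SpecialLinearGroup.transvection h01 c * h'⁻¹ = SpecialLinearGroup.transvection h01 (d 1 * c / d (1 + 1)) := by
    intro c
    have e8 := diag_conj_transvection h' _ hh' h01 (hd (1 + 1)) c
    simpa only [zero_add] using e8
  have hmem : h * ((SpecialLinearGroup.transvection h01 1 * w) * h * (SpecialLinearGroup.transvection h01 1 * w)⁻¹) * h⁻¹ *
      ((SpecialLinearGroup.transvection h01 1 * w) * h * (SpecialLinearGroup.transvection h01 1 * w)⁻¹)⁻¹ ∈ H :=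
    H.mul_mem (H.mul_mem (H.mul_mem hhH (H.mul_mem (H.mul_mem hyH hhH) (H.inv_mem hyH)))
      (H.inv_mem hhH)) (H.inv_mem (H.mul_mem (H.mul_mem hyH hhH) (H.inv_mem hyH)))
  have e : h * ((SpecialLinearGroup.transvection h01 1 * w) * h * (SpecialLinearGroup.transvection h01 1 * w)⁻¹) * h⁻¹ *
      ((SpecialLinearGroup.transvection h01 1 * w) * h * (SpecialLinearGroup.transvection h01 1 * w)⁻¹)⁻¹ =
      (h * SpecialLinearGroup.transvection h01 1 * h⁻¹) * ((h * h' * h⁻¹) *
        ((h * SpecialLinearGroup.transvection h01 1 * h⁻¹)⁻¹ * SpecialLinearGroup.transvection h01 1) * h'⁻¹) *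
        (SpecialLinearGroup.transvection h01 (1 : K))⁻¹ := by
    rw [hh'def]
    group
  rw [e, hx1, hcomm, SpecialLinearGroup.transvection_inv, ← SpecialLinearGroup.transvection_add,
    hx2, SpecialLinearGroup.transvection_inv, ← SpecialLinearGroup.transvection_add,
    ← SpecialLinearGroup.transvection_add] at hmem
  have e9 : d 0 / d 1 + d 1 * (-(d 0 / d 1) + 1) / d (1 + 1) + -1 =
      (d 0 / d 1 - 1) * (1 - d 1 / d (1 + 1)) := by
    ring
  rwa [e9] at hmem

/-- Steinberg's generators: a torus element and `x * w` generate `SL_{n+1}(K)` when `|K| > 3`. -/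
theorem closure_eq_top_of_torus [Fintype K] (hK : 3 < Fintype.card K) (hn : 1 ≤ n) (k : Kˣ)
    (hk : ∀ u : Kˣ, u ∈ Subgroup.zpowers k)
    (h x w : SpecialLinearGroup (Fin (n + 1)) K)
    (hh : (h : Matrix (Fin (n + 1)) (Fin (n + 1)) K) =
      Matrix.diagonal (fun i => if i.val = 0 then (k : K) else if i.val = 1 then ((k⁻¹ : Kˣ) : K)
        else 1))
    (hx : (x : Matrix (Fin (n + 1)) (Fin (n + 1)) K) =
      Matrix.transvection (0 : Fin (n + 1)) (1 : Fin (n + 1)) 1)
    (hw : (w : Matrix (Fin (n + 1)) (Fin (n + 1)) K) = cox n K) :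
    Subgroup.closure ({h, x * w} : Set (SpecialLinearGroup (Fin (n + 1)) K)) = ⊤ := by
  classical
  have h01 : (0 : Fin (n + 1)) ≠ 1 := (one_ne_zero_fin hn).symm
  obtain ⟨H, hH⟩ : ∃ H : Subgroup (SpecialLinearGroup (Fin (n + 1)) K),
      H = Subgroup.closure ({h, x * w} : Set (SpecialLinearGroup (Fin (n + 1)) K)) := ⟨_, rfl⟩
  rw [← hH]
  have hhH : h ∈ H := by
    rw [hH]
    exact Subgroup.subset_closure (by simp)
  have hyH : x * w ∈ H := by
    rw [hH]
    exact Subgroup.subset_closure (by simp)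
  have hx1 : x = SpecialLinearGroup.transvection h01 1 := Subtype.ext hx
  obtain ⟨d, hddef⟩ : ∃ d : Fin (n + 1) → K, d = fun i : Fin (n + 1) => if i.val = 0 then (k : K)
      else if i.val = 1 then ((k⁻¹ : Kˣ) : K) else 1 := ⟨_, rfl⟩
  rw [← hddef] at hh
  have hd : ∀ i, d i ≠ 0 := by
    intro i
    rw [hddef]
    simp only
    split_ifs
    · exact k.ne_zero
    · exact (k⁻¹).ne_zero
    · exact one_ne_zero
  have hv1 : (1 : Fin (n + 1)).val = 1 := by
    rw [Fin.val_one']
    exact Nat.mod_eq_of_lt (by omega)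
  have hd0 : d 0 = k := by
    rw [hddef]
    simp
  have hd1 : d 1 = (k : K)⁻¹ := by
    rw [hddef]
    simp only
    rw [if_neg (by rw [hv1]; exact one_ne_zero), if_pos hv1, Units.val_inv_eq_inv_val]
  have hord : orderOf k = Fintype.card K - 1 := by
    rw [orderOf_eq_card_of_forall_mem_zpowers hk, Nat.card_units, Nat.card_eq_fintype_card]
  have hk2 : (k : K) ^ 2 ≠ 1 := by
    intro h2
    have h3 : k ^ 2 = 1 := Units.ext (by simpa using h2)
    have h4 := Nat.le_of_dvd (by norm_num) (orderOf_dvd_of_pow_eq_one h3)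
    omega
  have hk1 : (k : K) ≠ 1 := by
    intro h1
    apply hk2
    rw [h1, one_pow]
  have hk0 : (k : K) ≠ 0 := k.ne_zero
  have hc0 := root_mem_of_torus H h w d hh hw hd h01 hhH (hx1 ▸ hyH)
  obtain ⟨c₀, hc₀⟩ : ∃ c₀ : K, c₀ = (d 0 / d 1 - 1) * (1 - d 1 / d (1 + 1)) := ⟨_, rfl⟩
  rw [← hc₀] at hc0
  have hc₀ne : c₀ ≠ 0 := by
    rw [hc₀, hd0, hd1]
    apply mul_ne_zero
    · rw [div_inv_eq_mul, ← pow_two]
      exact sub_ne_zero.2 hk2
    · by_cases h0 : (1 + 1 : Fin (n + 1)).val = 0
      · have e1 : d (1 + 1) = k := by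
          rw [hddef]
          simp [h0]
        rw [e1]
        intro h5
        have h6 : (k : K)⁻¹ / k = 1 := (sub_eq_zero.1 h5).symm
        have h7 : (k : K)⁻¹ = k := (div_eq_one_iff_eq hk0).1 h6
        apply hk2
        rw [pow_two]
        nth_rewrite 1 [← h7]
        exact inv_mul_cancel₀ hk0
      · have h1 : (1 + 1 : Fin (n + 1)).val ≠ 1 := by
          intro h6
          have h7 : (1 + 1 : Fin (n + 1)) = 1 := Fin.ext (h6.trans hv1.symm)
          exact one_ne_zero_fin hn (by simpa using h7)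
        have e1 : d (1 + 1) = 1 := by
          rw [hddef]
          simp [h0, h1]
        rw [e1, div_one]
        intro h5
        apply hk1
        rw [sub_eq_zero] at h5
        exact (inv_eq_one.1 h5.symm)
  have hpow : ∀ m : ℕ, SpecialLinearGroup.transvection h01 (c₀ * ((k : K) ^ m) ^ 2) ∈ H := by
    intro m
    induction m with
    | zero => simpa using hc0
    | succ m ih =>
      have h3 := diag_conj_transvection h d hh h01 (hd 1) (c₀ * ((k : K) ^ m) ^ 2)
      have h4 : d 0 * (c₀ * ((k : K) ^ m) ^ 2) / d 1 = c₀ * ((k : K) ^ (m + 1)) ^ 2 := by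
        rw [hd0, hd1]
        field_simp
        ring
      rw [h4] at h3
      rw [← h3]
      exact H.mul_mem (H.mul_mem hhH ih) (H.inv_mem hhH)
  have hsq : ∀ a : K, SpecialLinearGroup.transvection h01 (c₀ * a ^ 2) ∈ H := by
    intro a
    by_cases ha : a = 0
    · rw [ha]
      simp only [ne_eq, OfNat.ofNat_ne_zero, not_false_eq_true, zero_pow, mul_zero,
        SpecialLinearGroup.transvection_coeff_zero]
      exact H.one_mem
    · obtain ⟨m, hm⟩ := (mem_powers_iff_mem_zpowers).2 (hk (Units.mk0 a ha))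
      have h5 : a = (k : K) ^ m := by
        have h6 := congrArg Units.val hm
        simpa using h6.symm
      rw [h5]
      exact hpow m
  have hall : ∀ c : K, SpecialLinearGroup.transvection h01 c ∈ H := by
    intro c
    obtain ⟨a, b, hab⟩ := exists_sq_add_sq (c / c₀)
    have h7 : c = c₀ * a ^ 2 + c₀ * b ^ 2 := by
      rw [← mul_add, hab, mul_div_cancel₀ _ hc₀ne]
    rw [h7, SpecialLinearGroup.transvection_add]
    exact H.mul_mem (hsq a) (hsq b)
  have hxH : x ∈ H := hx1 ▸ hall 1
  have hwH : w ∈ H := by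
    have h8 : w = x⁻¹ * (x * w) := by group
    rw [h8]
    exact H.mul_mem (H.inv_mem hxH) hyH
  exact eq_top_of_cox_of_root hn H w hw hwH (fun _ c => hall c)

end Cfsg.Agent.Lib.Helper40.SLTwoGen
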