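-- helper40: similitudes of alternating forms: rank symmetry, parity, the symplectic group inside.
import Mathlib
import Cfsg.Prelude.Def_GeometricClasses
import Cfsg.Agent.Lib.Helper40.Alt2
import Cfsg.Agent.Lib.Helper40.SympOrder
import Cfsg.Agent.Lib.Helper40.SLSylow
import Cfsg.Agent.Lib.Helper13.Symp

set_option autoImplicit false

namespace Cfsg.Agent.Lib.Helper40.Alt

open Matrix Polynomial

section Rank

variable {F : Type*} [Field F] {n : ℕ}

theorem gram_apply (f : (Fin n → F) → (Fin n → F) → F) (hf : Cfsg.Geo.IsSymplecticForm f)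
    (u v : Fin n → F) :
    f u v = u ⬝ᵥ (LinearMap.BilinForm.toMatrix' (bil f hf) *ᵥ v) := by
  rw [← Matrix.toBilin'_apply', Matrix.toBilin'_toMatrix', bil_apply]

theorem gram_det (f : (Fin n → F) → (Fin n → F) → F) (hf : Cfsg.Geo.IsSymplecticForm f) :
    (LinearMap.BilinForm.toMatrix' (bil f hf)).det ≠ 0 := by
  intro h
  obtain ⟨v, hv, hv0⟩ := Matrix.exists_mulVec_eq_zero_iff.2 h
  obtain ⟨⟨x, hx⟩, -⟩ := hf.nondegenerate v hv
  apply hx
  rw [gram_apply f hf, hv0, dotProduct_zero]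

theorem gram_sim (f : (Fin n → F) → (Fin n → F) → F) (hf : Cfsg.Geo.IsSymplecticForm f)
    (y : Matrix (Fin n) (Fin n) F) (τ : F)
    (hy : ∀ u v, f (y *ᵥ u) (y *ᵥ v) = τ * f u v) :
    yᵀ * LinearMap.BilinForm.toMatrix' (bil f hf) * y =
      τ • LinearMap.BilinForm.toMatrix' (bil f hf) := by
  classical
  ext i j
  have h := hy (Pi.single i 1) (Pi.single j 1)
  rw [gram_apply f hf, gram_apply f hf] at h
  rw [Matrix.mulVec_mulVec, ← Matrix.vecMul_transpose y (Pi.single i 1), ← Matrix.dotProduct_mulVec,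
    Matrix.mulVec_mulVec, ← Matrix.mul_assoc] at h
  simpa [Matrix.mulVec_single_one] using h

/-- rank symmetry for similitudes. -/
theorem sim_rank (f : (Fin n → F) → (Fin n → F) → F) (hf : Cfsg.Geo.IsSymplecticForm f)
    (y : Matrix (Fin n) (Fin n) F) (hdet : y.det ≠ 0) (τ : F)
    (hy : ∀ u v, f (y *ᵥ u) (y *ᵥ v) = τ * f u v) (c : F) (hc : c ≠ 0) :
    (y - c • (1 : Matrix (Fin n) (Fin n) F)).rank =
      (y - (τ / c) • (1 : Matrix (Fin n) (Fin n) F)).rank := by
  classical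
  obtain ⟨G, hG⟩ : ∃ G : Matrix (Fin n) (Fin n) F, G = LinearMap.BilinForm.toMatrix' (bil f hf) :=
    ⟨_, rfl⟩
  have hGdet : G.det ≠ 0 := by
    rw [hG]
    exact gram_det f hf
  have hsim : yᵀ * G * y = τ • G := by
    rw [hG]
    exact gram_sim f hf y τ hy
  have key : yᵀ * G * (y - c • (1 : Matrix (Fin n) (Fin n) F)) =
      (y - (τ / c) • (1 : Matrix (Fin n) (Fin n) F))ᵀ * ((-c) • G) := by
    rw [Matrix.mul_sub, hsim, Matrix.transpose_sub, Matrix.sub_mul, Matrix.transpose_smul,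
      Matrix.transpose_one, Matrix.mul_smul, Matrix.mul_one, Matrix.smul_mul, Matrix.one_mul,
      Matrix.mul_smul, smul_smul]
    have h1 : τ / c * -c = -τ := by
      field_simp
    rw [h1]
    simp only [neg_smul]
    abel
  have h1 : (yᵀ * G * (y - c • (1 : Matrix (Fin n) (Fin n) F))).rank =
      (y - c • (1 : Matrix (Fin n) (Fin n) F)).rank := by
    apply Matrix.rank_mul_eq_right_of_isUnit_det
    rw [Matrix.det_mul, Matrix.det_transpose]
    exact (mul_ne_zero hdet hGdet).isUnit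
  have h2 : ((y - (τ / c) • (1 : Matrix (Fin n) (Fin n) F))ᵀ * ((-c) • G)).rank =
      (y - (τ / c) • (1 : Matrix (Fin n) (Fin n) F))ᵀ.rank := by
    apply Matrix.rank_mul_eq_left_of_isUnit_det
    rw [Matrix.det_smul]
    exact (mul_ne_zero (pow_ne_zero _ (neg_ne_zero.2 hc)) hGdet).isUnit
  rw [← h1, key, h2, Matrix.rank_transpose]

/-- a nondegenerate alternating form lives in even dimension. -/
theorem even_of_symplectic (f : (Fin n → F) → (Fin n → F) → F)
    (hf : Cfsg.Geo.IsSymplecticForm f) : Even n := by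
  classical
  have hAlt : (bil f hf).IsAlt := fun v => hf.alternating v
  obtain ⟨m, k, b, h1, h2, h3, h4⟩ := Cfsg.Agent.Lib.Helper99.alt_basis (bil f hf) hAlt
  have hk : k = 0 := by
    by_contra hk
    have j : Fin k := ⟨0, Nat.pos_of_ne_zero hk⟩
    obtain ⟨-, ⟨x, hx⟩⟩ := hf.nondegenerate _ (b.ne_zero (Sum.inr j))
    exact hx (h4 j x)
  have hnm : n = 2 * m := by
    have h5 := Module.finrank_eq_card_basis b
    rw [Module.finrank_fin_fun] at h5
    simp only [Fintype.card_sum, Fintype.card_fin] at h5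
    omega
  exact ⟨m, by omega⟩

end Rank

section Embed

variable {F : Type*} [Field F] {m : ℕ}

/-- the index equivalence matching `sympForm` with the standard form. -/
def eS (m : ℕ) : Fin m ⊕ Fin m ≃ Fin (2 * m) :=
  (Equiv.sumCongr (Equiv.refl _) Fin.revPerm).trans
    (finSumFinEquiv.trans (finCongr (two_mul m).symm))

theorem eS_inl (i : Fin m) : ((eS m (Sum.inl i) : Fin (2 * m)) : ℕ) = i := by
  simp [eS]

theorem eS_inr (i : Fin m) : ((eS m (Sum.inr i) : Fin (2 * m)) : ℕ) = 2 * m - 1 - i := by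
  have := i.2
  simp [eS]
  omega

theorem f₀_eS (u v : Fin (2 * m) → F) :
    f₀ F (2 * m) u v = - Cfsg.sympForm m F (u ∘ eS m) (v ∘ eS m) := by
  unfold f₀
  rw [Cfsg.Agent.Lib.Helper13.sympForm_eq, ← Equiv.sum_comp (eS m), Fintype.sum_sum_type,
    ← Finset.sum_add_distrib, ← Finset.sum_neg_distrib]
  apply Finset.sum_congr rfl
  intro i _
  have hi := i.2
  have h1 : Fin.rev (eS m (Sum.inl i)) = eS m (Sum.inr i) := by
    apply Fin.ext
    rw [Fin.val_rev, eS_inl, eS_inr]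
    omega
  have h2 : Fin.rev (eS m (Sum.inr i)) = eS m (Sum.inl i) := by
    apply Fin.ext
    rw [Fin.val_rev, eS_inl, eS_inr]
    omega
  have h3 : eps F (2 * m) (eS m (Sum.inl i)) = 1 := by
    unfold eps
    rw [if_pos]
    rw [eS_inl]
    omega
  have h4 : eps F (2 * m) (eS m (Sum.inr i)) = -1 := by
    unfold eps
    rw [if_neg]
    rw [eS_inr]
    omega
  rw [h1, h2, h3, h4]
  simp only [Function.comp_apply]
  ring

/-- the symplectic group sits inside the determinant-one similitudes of any symplectic form. -/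
theorem sp_card_dvd (f : (Fin (2 * m) → F) → (Fin (2 * m) → F) → F)
    (hf : Cfsg.Geo.IsSymplecticForm f) :
    Nat.card (Matrix.symplecticGroup (Fin m) F) ∣
      Nat.card ((Cfsg.Geo.similarityGroup f).comap (Matrix.SpecialLinearGroup.toGL :
          Matrix.SpecialLinearGroup (Fin (2 * m)) F →* GL (Fin (2 * m)) F)) := by
  classical
  obtain ⟨B, hB⟩ := exists_std f hf
  have hdet : ∀ A : Matrix.symplecticGroup (Fin m) F,
      ((B : Matrix (Fin (2 * m)) (Fin (2 * m)) F) * (A.1.submatrix (eS m).symm (eS m).symm) *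
        ((B⁻¹ : GL (Fin (2 * m)) F) : Matrix (Fin (2 * m)) (Fin (2 * m)) F)).det = 1 := by
    intro A
    rw [Matrix.coe_units_inv, Matrix.det_conj (B.isUnit), Matrix.det_submatrix_equiv_self,
      SymplecticGroup.det_eq_one A.2]
  have hBB : ((B⁻¹ : GL (Fin (2 * m)) F) : Matrix (Fin (2 * m)) (Fin (2 * m)) F) *
      (B : Matrix (Fin (2 * m)) (Fin (2 * m)) F) = 1 := by
    rw [← Units.val_mul, inv_mul_cancel, Units.val_one]
  have hBB' : (B : Matrix (Fin (2 * m)) (Fin (2 * m)) F) *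
      ((B⁻¹ : GL (Fin (2 * m)) F) : Matrix (Fin (2 * m)) (Fin (2 * m)) F) = 1 := by
    rw [← Units.val_mul, mul_inv_cancel, Units.val_one]
  obtain ⟨ψ₀, hψ₀⟩ : ∃ ψ₀ : Matrix.symplecticGroup (Fin m) F →
      Matrix.SpecialLinearGroup (Fin (2 * m)) F, ∀ A,
      ((ψ₀ A : Matrix.SpecialLinearGroup (Fin (2 * m)) F) :
        Matrix (Fin (2 * m)) (Fin (2 * m)) F) =
      (B : Matrix (Fin (2 * m)) (Fin (2 * m)) F) * (A.1.submatrix (eS m).symm (eS m).symm) *
        ((B⁻¹ : GL (Fin (2 * m)) F) : Matrix (Fin (2 * m)) (Fin (2 * m)) F) :=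
    ⟨fun A => ⟨_, hdet A⟩, fun A => rfl⟩
  let ψ : Matrix.symplecticGroup (Fin m) F →* Matrix.SpecialLinearGroup (Fin (2 * m)) F :=
    MonoidHom.mk' ψ₀ (by
      intro A A'
      apply Subtype.ext
      rw [Matrix.SpecialLinearGroup.coe_mul, hψ₀, hψ₀, hψ₀]
      have h1 : ((A * A' : Matrix.symplecticGroup (Fin m) F) :
          Matrix (Fin m ⊕ Fin m) (Fin m ⊕ Fin m) F) = A.1 * A'.1 := rfl
      rw [h1, ← Matrix.submatrix_mul_equiv _ _ _ (eS m).symm]
      calc (B : Matrix (Fin (2 * m)) (Fin (2 * m)) F) *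
            (A.1.submatrix (eS m).symm (eS m).symm * A'.1.submatrix (eS m).symm (eS m).symm) *
            ((B⁻¹ : GL (Fin (2 * m)) F) : Matrix (Fin (2 * m)) (Fin (2 * m)) F)
          = (B : Matrix (Fin (2 * m)) (Fin (2 * m)) F) * A.1.submatrix (eS m).symm (eS m).symm * 1 *
            A'.1.submatrix (eS m).symm (eS m).symm *
            ((B⁻¹ : GL (Fin (2 * m)) F) : Matrix (Fin (2 * m)) (Fin (2 * m)) F) := by
            simp only [Matrix.mul_one, Matrix.mul_assoc]
        _ = _ := by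
            rw [← hBB]
            simp only [Matrix.mul_assoc])
  have hψ : ∀ A, ((ψ A : Matrix.SpecialLinearGroup (Fin (2 * m)) F) :
      Matrix (Fin (2 * m)) (Fin (2 * m)) F) =
      (B : Matrix (Fin (2 * m)) (Fin (2 * m)) F) * (A.1.submatrix (eS m).symm (eS m).symm) *
        ((B⁻¹ : GL (Fin (2 * m)) F) : Matrix (Fin (2 * m)) (Fin (2 * m)) F) := fun A => hψ₀ A
  have hmem : ∀ A, ψ A ∈ (Cfsg.Geo.similarityGroup f).comap (Matrix.SpecialLinearGroup.toGL :
          Matrix.SpecialLinearGroup (Fin (2 * m)) F →* GL (Fin (2 * m)) F) := by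
    intro A
    rw [Subgroup.mem_comap]
    refine ⟨1, fun u v => ?_⟩
    rw [Matrix.SpecialLinearGroup.coe_GL_coe_matrix, hψ, Units.val_one, one_mul]
    have h1 : ∀ u : Fin (2 * m) → F,
        ((B : Matrix (Fin (2 * m)) (Fin (2 * m)) F) * (A.1.submatrix (eS m).symm (eS m).symm) *
        ((B⁻¹ : GL (Fin (2 * m)) F) : Matrix (Fin (2 * m)) (Fin (2 * m)) F)) *ᵥ u =
        (B : Matrix (Fin (2 * m)) (Fin (2 * m)) F) *ᵥ ((A.1.submatrix (eS m).symm (eS m).symm) *ᵥ
          (((B⁻¹ : GL (Fin (2 * m)) F) : Matrix (Fin (2 * m)) (Fin (2 * m)) F) *ᵥ u)) := by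
      intro u
      rw [Matrix.mulVec_mulVec, Matrix.mulVec_mulVec, Matrix.mul_assoc]
    have h2 : ∀ u : Fin (2 * m) → F, ((A.1.submatrix (eS m).symm (eS m).symm) *ᵥ u) ∘ eS m =
        A.1 *ᵥ (u ∘ eS m) := by
      intro u
      rw [Matrix.submatrix_mulVec_equiv]
      funext x
      simp
    have h3 : ∀ u : Fin (2 * m) → F, (B : Matrix (Fin (2 * m)) (Fin (2 * m)) F) *ᵥ
        (((B⁻¹ : GL (Fin (2 * m)) F) : Matrix (Fin (2 * m)) (Fin (2 * m)) F) *ᵥ u) = u := by
      intro u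
      rw [Matrix.mulVec_mulVec, hBB', Matrix.one_mulVec]
    rw [h1, h1, hB, f₀_eS, h2, h2, Cfsg.Agent.Lib.Helper13.sympForm_mulVec_of_mem m A.2, ← f₀_eS,
      ← hB, h3, h3]
  have hinj : Function.Injective (ψ.codRestrict _ hmem) := by
    intro A A' h
    have h1 : ψ A = ψ A' := congrArg Subtype.val h
    have h2 := congrArg (fun M : Matrix.SpecialLinearGroup (Fin (2 * m)) F =>
      (M : Matrix (Fin (2 * m)) (Fin (2 * m)) F)) h1
    simp only [hψ] at h2
    have h3 := congrArg (fun M => ((B⁻¹ : GL (Fin (2 * m)) F) :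
      Matrix (Fin (2 * m)) (Fin (2 * m)) F) * M * (B : Matrix (Fin (2 * m)) (Fin (2 * m)) F)) h2
    simp only [Matrix.mul_assoc, hBB, Matrix.mul_one] at h3
    simp only [← Matrix.mul_assoc, hBB, Matrix.one_mul] at h3
    apply Subtype.ext
    ext i j
    have h4 := congrFun (congrFun h3 (eS m i)) (eS m j)
    simpa using h4
  exact Subgroup.card_dvd_of_injective _ hinj

end Embed

section Index

variable {F : Type*} [Field F] [Fintype F]

theorem prod_GL (q n : ℕ) (hq : 1 ≤ q) :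
    ∏ i : Fin n, (q ^ n - q ^ (i : ℕ)) =
      q ^ (∑ i ∈ Finset.range n, i) * ∏ j ∈ Finset.range n, (q ^ (j + 1) - 1) := by
  rw [Fin.prod_univ_eq_prod_range (fun i => q ^ n - q ^ i) n,
    ← Finset.prod_range_reflect (fun j => q ^ (j + 1) - 1) n, ← Finset.prod_pow_eq_pow_sum,
    ← Finset.prod_mul_distrib]
  apply Finset.prod_congr rfl
  intro i hi
  rw [Finset.mem_range] at hi
  have h1 : n - 1 - i + 1 = n - i := by omega
  rw [h1, Nat.mul_sub, mul_one, ← pow_add]
  congr 2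
  omega

theorem prod_split (q m : ℕ) :
    ∏ j ∈ Finset.range (2 * m), (q ^ (j + 1) - 1) =
      (∏ l ∈ Finset.range m, (q ^ (2 * l + 1) - 1)) *
        ∏ l ∈ Finset.range m, (q ^ (2 * (l + 1)) - 1) := by
  induction m with
  | zero => simp
  | succ k ih =>
    have h1 : 2 * (k + 1) = 2 * k + 1 + 1 := by ring
    rw [h1, Finset.prod_range_succ, Finset.prod_range_succ, ih, Finset.prod_range_succ,
      Finset.prod_range_succ]
    have h2 : 2 * k + 1 + 1 = 2 * (k + 1) := by ring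
    rw [h2]
    ring

/-- an odd prime-to-`p` divisor of the index of the symplectic-type subgroup divides some
`q^j - 1` with `j` odd, `j < 2m`. -/
theorem index_odd {p q : ℕ} [Fact p.Prime] [CharP F p] (hq : Fintype.card F = q) (m : ℕ)
    (hm : 1 ≤ m)
    (f : (Fin (2 * m) → F) → (Fin (2 * m) → F) → F) (hf : Cfsg.Geo.IsSymplecticForm f)
    (r : ℕ) [Fact r.Prime] (hrp : r ≠ p)
    (hΩ : r ∣ ((Cfsg.Geo.similarityGroup f).comap (Matrix.SpecialLinearGroup.toGL :
          Matrix.SpecialLinearGroup (Fin (2 * m)) F →* GL (Fin (2 * m)) F)).index) :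
    ∃ j, Odd j ∧ j ≤ 2 * m - 1 ∧ r ∣ q ^ j - 1 := by
  classical
  have hp : p.Prime := Fact.out
  have hr : r.Prime := Fact.out
  have hq1 : 1 < q := by
    rw [← hq]
    exact Fintype.one_lt_card
  have h1 := sp_card_dvd f hf
  have h2 := Subgroup.index_mul_card ((Cfsg.Geo.similarityGroup f).comap
    (Matrix.SpecialLinearGroup.toGL :
          Matrix.SpecialLinearGroup (Fin (2 * m)) F →* GL (Fin (2 * m)) F))
  have h3 := Cfsg.Agent.Lib.Helper40.card_GL_eq_card_SL_mul (F := F) (2 * m) (by omega)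
  have h4 := Matrix.card_GL_field (𝔽 := F) (2 * m)
  rw [hq] at h3 h4
  rw [h4, prod_GL q (2 * m) hq1.le, prod_split] at h3
  have h5 := Cfsg.Agent.Lib.Helper40.card_symplecticGroup (F := F) m
  rw [hq] at h5
  rw [h5] at h1
  have h6 : r * (q ^ m ^ 2 * ∏ i ∈ Finset.range m, (q ^ (2 * (i + 1)) - 1)) ∣
      Nat.card (Matrix.SpecialLinearGroup (Fin (2 * m)) F) := by
    rw [← h2]
    exact mul_dvd_mul hΩ h1
  have h7 : r * (∏ i ∈ Finset.range m, (q ^ (2 * (i + 1)) - 1)) ∣
      (q ^ (∑ i ∈ Finset.range (2 * m), i) * ∏ l ∈ Finset.range m, (q ^ (2 * l + 1) - 1)) *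
        ∏ i ∈ Finset.range m, (q ^ (2 * (i + 1)) - 1) := by
    have h8 : r * (∏ i ∈ Finset.range m, (q ^ (2 * (i + 1)) - 1)) ∣
        r * (q ^ m ^ 2 * ∏ i ∈ Finset.range m, (q ^ (2 * (i + 1)) - 1)) :=
      mul_dvd_mul_left r (Dvd.intro_left _ rfl)
    have h9 := (h8.trans h6).trans (Dvd.intro _ h3.symm)
    rw [← mul_assoc] at h9
    exact h9
  have hE : 0 < ∏ i ∈ Finset.range m, (q ^ (2 * (i + 1)) - 1) := by
    apply Finset.prod_pos
    intro i _
    have : 1 < q ^ (2 * (i + 1)) := Nat.one_lt_pow (by omega) hq1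
    omega
  have h10 := Nat.dvd_of_mul_dvd_mul_right hE h7
  have hrq : ¬ r ∣ q ^ (∑ i ∈ Finset.range (2 * m), i) := by
    intro h
    have h11 := hr.dvd_of_dvd_pow h
    obtain ⟨k, -, hk⟩ := FiniteField.card F p
    rw [hq] at hk
    rw [hk] at h11
    have h12 := hr.dvd_of_dvd_pow h11
    exact hrp ((Nat.prime_dvd_prime_iff_eq hr hp).1 h12)
  rcases (Nat.Prime.dvd_mul hr).1 h10 with h | h
  · exact absurd h hrq
  · obtain ⟨l, hl, hl2⟩ := (Prime.dvd_finsetProd_iff hr.prime _).1 h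
    rw [Finset.mem_range] at hl
    exact ⟨2 * l + 1, ⟨l, rfl⟩, by omega, hl2⟩

end Index

end Cfsg.Agent.Lib.Helper40.Alt
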