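-- helper40: complementary Lagrangian pairs of the standard symplectic space: transitivity, count.
import Mathlib
import Cfsg.Prelude.Def_ClassicalGeometry
import Cfsg.Agent.Lib.Helper94.SpLagr
import Cfsg.Agent.Lib.Helper13.SpParab
import Cfsg.Agent.Lib.Helper40.SympOrder
import Cfsg.Agent.Lib.Helper40.Alt3

set_option autoImplicit false

namespace Cfsg.Agent.Lib.Helper40.Lagr

open Matrix Cfsg Cfsg.Agent.Lib.Helper94

universe u

section Basic

variable {F : Type u} [Field F] {d : ℕ}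

theorem finrank_space : Module.finrank F (Fin d ⊕ Fin d → F) = 2 * d := by
  rw [Module.finrank_fintype_fun_eq_card, Fintype.card_sum, Fintype.card_fin]
  ring

theorem finrank_le_of_ti (U : Submodule F (Fin d ⊕ Fin d → F))
    (hU : ∀ u ∈ U, ∀ v ∈ U, sympForm d F u v = 0) : Module.finrank F U ≤ d := by
  have h1 := LinearMap.BilinForm.finrank_orthogonal
    (Cfsg.Agent.Lib.Helper13.sympBilin_nondegenerate (m := d) (F := F)) U
  have h2 : U ≤ (Cfsg.Agent.Lib.Helper13.sympBilin d F).orthogonal U := by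
    intro u hu
    rw [LinearMap.BilinForm.mem_orthogonal_iff]
    intro v hv
    show Cfsg.Agent.Lib.Helper13.sympBilin d F v u = 0
    rw [Cfsg.Agent.Lib.Helper13.sympBilin_apply]
    exact hU v hv u hu
  have h3 := Submodule.finrank_mono h2
  have h4 := finrank_space (F := F) (d := d)
  have h5 := Submodule.finrank_le U
  omega

theorem isLagrPair_of (U W : Submodule F (Fin d ⊕ Fin d → F)) (hc : IsCompl U W)
    (hU : ∀ u ∈ U, ∀ v ∈ U, sympForm d F u v = 0)
    (hW : ∀ u ∈ W, ∀ v ∈ W, sympForm d F u v = 0) : IsLagrPair U W := by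
  have h1 := Submodule.finrank_add_eq_of_isCompl hc
  have h2 := finrank_le_of_ti U hU
  have h3 := finrank_le_of_ti W hW
  have h4 := finrank_space (F := F) (d := d)
  refine ⟨hU, hW, ?_, by omega, by omega⟩
  intro x
  have h5 : x ∈ U ⊔ W := by
    rw [hc.sup_eq_top]
    trivial
  obtain ⟨a, ha, b, hb, rfl⟩ := Submodule.mem_sup.1 h5
  exact ⟨a, ha, b, hb, rfl⟩

/-- the standard Lagrangian `{v | v ∘ inl = 0}`. -/
def U₀ (d : ℕ) (F : Type u) [Field F] : Submodule F (Fin d ⊕ Fin d → F) :=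
  LinearMap.ker (LinearMap.funLeft F F (Sum.inl : Fin d → Fin d ⊕ Fin d))

/-- the standard Lagrangian `{v | v ∘ inr = 0}`. -/
def W₀ (d : ℕ) (F : Type u) [Field F] : Submodule F (Fin d ⊕ Fin d → F) :=
  LinearMap.ker (LinearMap.funLeft F F (Sum.inr : Fin d → Fin d ⊕ Fin d))

theorem mem_U₀ (v : Fin d ⊕ Fin d → F) : v ∈ U₀ d F ↔ ∀ l, v (Sum.inl l) = 0 := by
  unfold U₀
  rw [LinearMap.mem_ker]
  constructor
  · intro h l
    exact congrFun h l
  · intro h
    funext l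
    exact h l

theorem mem_W₀ (v : Fin d ⊕ Fin d → F) : v ∈ W₀ d F ↔ ∀ l, v (Sum.inr l) = 0 := by
  unfold W₀
  rw [LinearMap.mem_ker]
  constructor
  · intro h l
    exact congrFun h l
  · intro h
    funext l
    exact h l

/-- the symplectic group is transitive on complementary Lagrangian pairs. -/
theorem exists_sp_of_pair (U W : Submodule F (Fin d ⊕ Fin d → F)) (h : IsLagrPair U W) :
    ∃ g : Matrix.symplecticGroup (Fin d) F,
      (U₀ d F).map (Matrix.toLin' (g : Matrix (Fin d ⊕ Fin d) (Fin d ⊕ Fin d) F)) = U ∧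
      (W₀ d F).map (Matrix.toLin' (g : Matrix (Fin d ⊕ Fin d) (Fin d ⊕ Fin d) F)) = W := by
  classical
  obtain ⟨α, β, hα, hβ, hS⟩ := h.exists_dual_basis
  obtain ⟨M, hM⟩ : ∃ M : Matrix (Fin d ⊕ Fin d) (Fin d ⊕ Fin d) F,
      M = Matrix.of (fun i j => Sum.elim β α j i) := ⟨_, rfl⟩
  have hMv : ∀ v : Fin d ⊕ Fin d → F,
      M *ᵥ v = ∑ l, v (Sum.inl l) • β l + ∑ l, v (Sum.inr l) • α l := by
    intro v
    funext i
    rw [hM]
    simp [Matrix.mulVec, dotProduct, Fintype.sum_sum_type, mul_comm]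
  have hform : ∀ u v, sympForm d F (M *ᵥ u) (M *ᵥ v) = sympForm d F u v := by
    intro u v
    rw [hMv, hMv, sf_eq d u v]
    simp only [sf_add_left, sf_add_right, sf_sum_left, sf_sum_right, sf_smul_left, sf_smul_right,
      hS.aa, hS.bb, hS.ab, hS.ba, mul_zero, Finset.sum_const_zero, zero_add, add_zero, mul_ite,
      mul_one, mul_neg, Finset.sum_ite_eq', Finset.mem_univ, if_true]
    rw [Finset.sum_sub_distrib, Finset.sum_neg_distrib]
    have e1 : ∑ x, v (Sum.inl x) * u (Sum.inr x) = ∑ x, u (Sum.inr x) * v (Sum.inl x) :=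
      Finset.sum_congr rfl fun x _ => mul_comm _ _
    have e2 : ∑ x, v (Sum.inr x) * u (Sum.inl x) = ∑ x, u (Sum.inl x) * v (Sum.inr x) :=
      Finset.sum_congr rfl fun x _ => mul_comm _ _
    rw [e1, e2]
    ring
  have hmem : M ∈ Matrix.symplecticGroup (Fin d) F :=
    Cfsg.Agent.Lib.Helper13.mem_symplecticGroup_of_sympForm d hform
  refine ⟨⟨M, hmem⟩, ?_, ?_⟩
  · apply le_antisymm
    · rintro _ ⟨v, hv, rfl⟩
      rw [Matrix.toLin'_apply, hMv]
      have hv' := (mem_U₀ v).1 hv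
      simp only [hv', zero_smul, Finset.sum_const_zero, zero_add]
      exact U.sum_mem fun l _ => U.smul_mem _ (hα l)
    · intro u hu
      have h1 := hS.expand u Submodule.mem_top
      have h2 : ∀ l, sympForm d F u (α l) = 0 := fun l => h.tiA u hu (α l) (hα l)
      simp only [h2, zero_smul, sub_zero] at h1
      refine ⟨Sum.elim 0 (fun l => sympForm d F u (β l)), ?_, ?_⟩
      · rw [SetLike.mem_coe, mem_U₀]
        intro l
        rfl
      · rw [Matrix.toLin'_apply, hMv]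
        simp only [Sum.elim_inl, Sum.elim_inr, Pi.zero_apply, zero_smul, Finset.sum_const_zero,
          zero_add]
        exact h1.symm
  · apply le_antisymm
    · rintro _ ⟨v, hv, rfl⟩
      rw [Matrix.toLin'_apply, hMv]
      have hv' := (mem_W₀ v).1 hv
      simp only [hv', zero_smul, Finset.sum_const_zero, add_zero]
      exact W.sum_mem fun l _ => W.smul_mem _ (hβ l)
    · intro w hw
      have h1 := hS.expand w Submodule.mem_top
      have h2 : ∀ l, sympForm d F w (β l) = 0 := fun l => h.tiB w hw (β l) (hβ l)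
      simp only [h2, zero_smul, zero_sub] at h1
      refine ⟨Sum.elim (fun l => - sympForm d F w (α l)) 0, ?_, ?_⟩
      · rw [SetLike.mem_coe, mem_W₀]
        intro l
        rfl
      · rw [Matrix.toLin'_apply, hMv]
        simp only [Sum.elim_inl, Sum.elim_inr, Pi.zero_apply, zero_smul, Finset.sum_const_zero,
          add_zero, neg_smul]
        exact h1.symm

/-- the action of the symplectic group on subspaces. -/
noncomputable def spAct (d : ℕ) (F : Type u) [Field F] :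
    MulAction (Matrix.symplecticGroup (Fin d) F) (Submodule F (Fin d ⊕ Fin d → F)) where
  smul g U := U.map (Matrix.toLin' (g : Matrix (Fin d ⊕ Fin d) (Fin d ⊕ Fin d) F))
  one_smul U := by
    show U.map (Matrix.toLin' ((1 : Matrix.symplecticGroup (Fin d) F) :
      Matrix (Fin d ⊕ Fin d) (Fin d ⊕ Fin d) F)) = U
    rw [Submonoid.coe_one, Matrix.toLin'_one, Submodule.map_id]
  mul_smul g h U := by
    show U.map (Matrix.toLin' ((g * h : Matrix.symplecticGroup (Fin d) F) :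
      Matrix (Fin d ⊕ Fin d) (Fin d ⊕ Fin d) F)) =
      (U.map (Matrix.toLin' (h : Matrix (Fin d ⊕ Fin d) (Fin d ⊕ Fin d) F))).map
        (Matrix.toLin' (g : Matrix (Fin d ⊕ Fin d) (Fin d ⊕ Fin d) F))
    rw [Submonoid.coe_mul, Matrix.toLin'_mul, Submodule.map_comp]

attribute [local instance] spAct

theorem smul_def (g : Matrix.symplecticGroup (Fin d) F) (U : Submodule F (Fin d ⊕ Fin d → F)) :
    g • U = U.map (Matrix.toLin' (g : Matrix (Fin d ⊕ Fin d) (Fin d ⊕ Fin d) F)) := rfl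

/-- the set of ordered pairs of complementary totally isotropic subspaces. -/
def pairs (d : ℕ) (F : Type u) [Field F] :
    Set (Submodule F (Fin d ⊕ Fin d → F) × Submodule F (Fin d ⊕ Fin d → F)) :=
  {P | IsCompl P.1 P.2 ∧ (∀ u ∈ P.1, ∀ v ∈ P.1, sympForm d F u v = 0) ∧
    (∀ u ∈ P.2, ∀ v ∈ P.2, sympForm d F u v = 0)}

theorem std_mem_pairs : ((U₀ d F, W₀ d F) : Submodule F (Fin d ⊕ Fin d → F) ×
    Submodule F (Fin d ⊕ Fin d → F)) ∈ pairs d F := by
  refine ⟨IsCompl.of_eq ?_ ?_, ?_, ?_⟩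
  · rw [eq_bot_iff]
    rintro v ⟨hv1, hv2⟩
    rw [SetLike.mem_coe, mem_U₀] at hv1
    rw [SetLike.mem_coe, mem_W₀] at hv2
    rw [Submodule.mem_bot]
    funext i
    rcases i with l | l
    · exact hv1 l
    · exact hv2 l
  · rw [eq_top_iff]
    intro v _
    rw [Submodule.mem_sup]
    refine ⟨Sum.elim 0 (v ∘ Sum.inr), ?_, Sum.elim (v ∘ Sum.inl) 0, ?_, ?_⟩
    · rw [mem_U₀]
      intro l
      rfl
    · rw [mem_W₀]
      intro l
      rfl
    · funext i
      rcases i with l | l <;> simp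
  · intro u hu v hv
    rw [sf_eq]
    apply Finset.sum_eq_zero
    intro i _
    rw [(mem_U₀ u).1 hu i, (mem_U₀ v).1 hv i]
    ring
  · intro u hu v hv
    rw [sf_eq]
    apply Finset.sum_eq_zero
    intro i _
    rw [(mem_W₀ u).1 hu i, (mem_W₀ v).1 hv i]
    ring

theorem smul_mem_pairs (g : Matrix.symplecticGroup (Fin d) F)
    (P : Submodule F (Fin d ⊕ Fin d → F) × Submodule F (Fin d ⊕ Fin d → F))
    (hP : P ∈ pairs d F) : g • P ∈ pairs d F := by
  obtain ⟨hc, hU, hW⟩ := hP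
  have hinj := Cfsg.Agent.Lib.Helper13.symp_mulVec_injective g
  refine ⟨IsCompl.of_eq ?_ ?_, ?_, ?_⟩
  · rw [eq_bot_iff]
    rintro x ⟨⟨u, hu, hux⟩, ⟨w, hw, hwx⟩⟩
    rw [Matrix.toLin'_apply] at hux hwx
    have h1 : u = w := hinj (hux.trans hwx.symm)
    have h2 : u ∈ P.1 ⊓ P.2 := ⟨hu, h1 ▸ hw⟩
    rw [hc.inf_eq_bot, Submodule.mem_bot] at h2
    rw [Submodule.mem_bot, ← hux, h2, Matrix.mulVec_zero]
  · rw [eq_top_iff]
    intro y _
    have h1 : ((g⁻¹ : Matrix.symplecticGroup (Fin d) F) :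
        Matrix (Fin d ⊕ Fin d) (Fin d ⊕ Fin d) F) *ᵥ y ∈ P.1 ⊔ P.2 := by
      rw [hc.sup_eq_top]
      trivial
    obtain ⟨u, hu, w, hw, huw⟩ := Submodule.mem_sup.1 h1
    rw [Submodule.mem_sup]
    refine ⟨_, ⟨u, hu, rfl⟩, _, ⟨w, hw, rfl⟩, ?_⟩
    rw [Matrix.toLin'_apply, Matrix.toLin'_apply, ← Matrix.mulVec_add, huw, Matrix.mulVec_mulVec,
      ← Submonoid.coe_mul, mul_inv_cancel, Submonoid.coe_one, Matrix.one_mulVec]
  · rintro _ ⟨u, hu, rfl⟩ _ ⟨v, hv, rfl⟩
    rw [Matrix.toLin'_apply, Matrix.toLin'_apply,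
      Cfsg.Agent.Lib.Helper13.sympForm_mulVec_of_mem d g.2]
    exact hU u hu v hv
  · rintro _ ⟨u, hu, rfl⟩ _ ⟨v, hv, rfl⟩
    rw [Matrix.toLin'_apply, Matrix.toLin'_apply,
      Cfsg.Agent.Lib.Helper13.sympForm_mulVec_of_mem d g.2]
    exact hW u hu v hv

/-- orbit-stabilizer for the pairs. -/
theorem card_pairs_mul :
    Nat.card ↥(pairs d F) * Nat.card (MulAction.stabilizer (Matrix.symplecticGroup (Fin d) F)
      ((U₀ d F, W₀ d F) : Submodule F (Fin d ⊕ Fin d → F) × Submodule F (Fin d ⊕ Fin d → F))) =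
    Nat.card (Matrix.symplecticGroup (Fin d) F) := by
  have hT : ∀ t ∈ pairs d F, ∃ g : Matrix.symplecticGroup (Fin d) F,
      g • ((U₀ d F, W₀ d F) : Submodule F (Fin d ⊕ Fin d → F) ×
        Submodule F (Fin d ⊕ Fin d → F)) = t := by
    rintro ⟨U, W⟩ ⟨hc, hU, hW⟩
    obtain ⟨g, hg1, hg2⟩ := exists_sp_of_pair U W (isLagrPair_of U W hc hU hW)
    refine ⟨g, ?_⟩
    rw [Prod.smul_mk, smul_def, smul_def, hg1, hg2]
  have h1 := Cfsg.Agent.Lib.Helper13.card_preimage_orbit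
    (G := Matrix.symplecticGroup (Fin d) F)
    ((U₀ d F, W₀ d F) : Submodule F (Fin d ⊕ Fin d → F) × Submodule F (Fin d ⊕ Fin d → F))
    (pairs d F) hT
  rw [← h1]
  exact Nat.card_congr (Equiv.subtypeUnivEquiv (fun g => smul_mem_pairs g _ std_mem_pairs))

/-- the Levi subgroup `GL_d` inside the stabilizer of the standard pair. -/
theorem gl_card_dvd_stab :
    Nat.card (GL (Fin d) F) ∣ Nat.card (MulAction.stabilizer (Matrix.symplecticGroup (Fin d) F)
      ((U₀ d F, W₀ d F) : Submodule F (Fin d ⊕ Fin d → F) × Submodule F (Fin d ⊕ Fin d → F))) := by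
  classical
  have hmem : ∀ A : GL (Fin d) F, Matrix.fromBlocks (A : Matrix (Fin d) (Fin d) F) 0 0
      ((A⁻¹ : GL (Fin d) F) : Matrix (Fin d) (Fin d) F)ᵀ ∈ Matrix.symplecticGroup (Fin d) F := by
    intro A
    rw [SymplecticGroup.mem_iff, Matrix.J, Matrix.fromBlocks_transpose, Matrix.fromBlocks_multiply,
      Matrix.fromBlocks_multiply]
    have h1 : (A : Matrix (Fin d) (Fin d) F) * ((A⁻¹ : GL (Fin d) F) : Matrix (Fin d) (Fin d) F)
        = 1 := by
      rw [← Units.val_mul, mul_inv_cancel, Units.val_one]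
    have h2 : ((A⁻¹ : GL (Fin d) F) : Matrix (Fin d) (Fin d) F)ᵀ *
        (A : Matrix (Fin d) (Fin d) F)ᵀ = 1 := by
      rw [← Matrix.transpose_mul, h1, Matrix.transpose_one]
    simp only [Matrix.mul_zero, Matrix.zero_mul, Matrix.mul_one, Matrix.mul_neg, Matrix.neg_mul,
      zero_add, add_zero, Matrix.transpose_zero, Matrix.transpose_transpose, h1, h2, neg_zero]
  obtain ⟨ψ₀, hψ₀⟩ : ∃ ψ₀ : GL (Fin d) F → Matrix.symplecticGroup (Fin d) F, ∀ A,
      ((ψ₀ A : Matrix.symplecticGroup (Fin d) F) : Matrix (Fin d ⊕ Fin d) (Fin d ⊕ Fin d) F) =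
      Matrix.fromBlocks (A : Matrix (Fin d) (Fin d) F) 0 0
        ((A⁻¹ : GL (Fin d) F) : Matrix (Fin d) (Fin d) F)ᵀ :=
    ⟨fun A => ⟨_, hmem A⟩, fun A => rfl⟩
  let ψ : GL (Fin d) F →* Matrix.symplecticGroup (Fin d) F :=
    MonoidHom.mk' ψ₀ (by
      intro A B
      apply Subtype.ext
      rw [Submonoid.coe_mul, hψ₀, hψ₀, hψ₀, Matrix.fromBlocks_multiply]
      simp only [Matrix.mul_zero, Matrix.zero_mul, zero_add, add_zero]
      rw [_root_.mul_inv_rev, Units.val_mul, Units.val_mul, Matrix.transpose_mul])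
  have hψ : ∀ A, ((ψ A : Matrix.symplecticGroup (Fin d) F) :
      Matrix (Fin d ⊕ Fin d) (Fin d ⊕ Fin d) F) =
      Matrix.fromBlocks (A : Matrix (Fin d) (Fin d) F) 0 0
        ((A⁻¹ : GL (Fin d) F) : Matrix (Fin d) (Fin d) F)ᵀ := fun A => hψ₀ A
  have hl : ∀ (A : GL (Fin d) F) (v : Fin d ⊕ Fin d → F) (l : Fin d),
      (((ψ A : Matrix.symplecticGroup (Fin d) F) :
      Matrix (Fin d ⊕ Fin d) (Fin d ⊕ Fin d) F) *ᵥ v) (Sum.inl l) =
      ((A : Matrix (Fin d) (Fin d) F) *ᵥ (v ∘ Sum.inl)) l := by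
    intro A v l
    rw [hψ, Matrix.fromBlocks_mulVec]
    simp
  have hr : ∀ (A : GL (Fin d) F) (v : Fin d ⊕ Fin d → F) (l : Fin d),
      (((ψ A : Matrix.symplecticGroup (Fin d) F) :
      Matrix (Fin d ⊕ Fin d) (Fin d ⊕ Fin d) F) *ᵥ v) (Sum.inr l) =
      (((A⁻¹ : GL (Fin d) F) : Matrix (Fin d) (Fin d) F)ᵀ *ᵥ (v ∘ Sum.inr)) l := by
    intro A v l
    rw [hψ, Matrix.fromBlocks_mulVec]
    simp
  have hU1 : ∀ A : GL (Fin d) F, ψ A • U₀ d F ≤ U₀ d F := by
    rintro A _ ⟨v, hv, rfl⟩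
    rw [Matrix.toLin'_apply, mem_U₀]
    intro l
    have h1 : v ∘ Sum.inl = 0 := by
      funext l'
      exact (mem_U₀ v).1 hv l'
    rw [hl, h1, Matrix.mulVec_zero]
    rfl
  have hW1 : ∀ A : GL (Fin d) F, ψ A • W₀ d F ≤ W₀ d F := by
    rintro A _ ⟨v, hv, rfl⟩
    rw [Matrix.toLin'_apply, mem_W₀]
    intro l
    have h1 : v ∘ Sum.inr = 0 := by
      funext l'
      exact (mem_W₀ v).1 hv l'
    rw [hr, h1, Matrix.mulVec_zero]
    rfl
  have hU2 : ∀ A : GL (Fin d) F, ψ A • U₀ d F = U₀ d F := by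
    intro A
    apply le_antisymm (hU1 A)
    have h1 := hU1 A⁻¹
    have h2 : ψ A • (ψ A⁻¹ • U₀ d F) ≤ ψ A • U₀ d F := by
      rw [smul_def, smul_def (ψ A) (U₀ d F)]
      exact Submodule.map_mono h1
    rw [← mul_smul, ← map_mul, mul_inv_cancel, map_one, one_smul] at h2
    exact h2
  have hW2 : ∀ A : GL (Fin d) F, ψ A • W₀ d F = W₀ d F := by
    intro A
    apply le_antisymm (hW1 A)
    have h1 := hW1 A⁻¹
    have h2 : ψ A • (ψ A⁻¹ • W₀ d F) ≤ ψ A • W₀ d F := by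
      rw [smul_def, smul_def (ψ A) (W₀ d F)]
      exact Submodule.map_mono h1
    rw [← mul_smul, ← map_mul, mul_inv_cancel, map_one, one_smul] at h2
    exact h2
  have hstab : ∀ A, ψ A ∈ MulAction.stabilizer (Matrix.symplecticGroup (Fin d) F)
      ((U₀ d F, W₀ d F) : Submodule F (Fin d ⊕ Fin d → F) × Submodule F (Fin d ⊕ Fin d → F)) := by
    intro A
    rw [MulAction.mem_stabilizer_iff, Prod.smul_mk, hU2, hW2]
  have hinj : Function.Injective (ψ.codRestrict _ hstab) := by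
    intro A B h
    have h1 : ψ A = ψ B := congrArg Subtype.val h
    have h2 := congrArg (fun M : Matrix.symplecticGroup (Fin d) F =>
      (M : Matrix (Fin d ⊕ Fin d) (Fin d ⊕ Fin d) F)) h1
    simp only [hψ] at h2
    apply Units.ext
    exact (Matrix.fromBlocks_inj.1 h2).1
  exact Subgroup.card_dvd_of_injective _ hinj

end Basic

section Count

variable {F : Type u} [Field F] [Fintype F] {d : ℕ}

attribute [local instance] spAct

theorem even_card_pairs (hd : 1 ≤ d) : 2 ∣ Nat.card ↥(pairs d F) := by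
  classical
  haveI : Fintype ↥(pairs d F) := Fintype.ofFinite _
  let σ : Equiv.Perm ↥(pairs d F) :=
    { toFun := fun P => ⟨(P.1.2, P.1.1), ⟨P.2.1.symm, P.2.2.2, P.2.2.1⟩⟩
      invFun := fun P => ⟨(P.1.2, P.1.1), ⟨P.2.1.symm, P.2.2.2, P.2.2.1⟩⟩
      left_inv := fun P => rfl
      right_inv := fun P => rfl }
  have hσ : σ ^ 2 = 1 := by
    apply Equiv.ext
    intro P
    rw [pow_two, Equiv.Perm.mul_apply, Equiv.Perm.one_apply]
    exact Subtype.ext rfl
  have h1 := Equiv.Perm.two_dvd_card_support hσ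
  have h2 : σ.support = Finset.univ := by
    rw [Finset.eq_univ_iff_forall]
    intro P
    rw [Equiv.Perm.mem_support]
    intro h
    have h3 : P.1.2 = P.1.1 := congrArg (fun Q : ↥(pairs d F) => Q.1.1) h
    have hc := P.2.1
    rw [h3] at hc
    have h4 : P.1.1 = ⊥ := by
      have := hc.inf_eq_bot
      rwa [inf_idem] at this
    have h5 : P.1.1 = ⊤ := by
      have := hc.sup_eq_top
      rwa [sup_idem] at this
    have h6 : (⊥ : Submodule F (Fin d ⊕ Fin d → F)) = ⊤ := h4.symm.trans h5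
    have h7 : (Pi.single (Sum.inl ⟨0, by omega⟩) 1 : Fin d ⊕ Fin d → F) ∈
        (⊥ : Submodule F (Fin d ⊕ Fin d → F)) := by
      rw [h6]
      trivial
    rw [Submodule.mem_bot] at h7
    have h8 := congrFun h7 (Sum.inl ⟨0, by omega⟩)
    simp at h8
  rw [h2, Finset.card_univ, ← Nat.card_eq_fintype_card] at h1
  exact h1

theorem prod_sq_sub (q d : ℕ) (hq : 1 ≤ q) :
    ∏ j ∈ Finset.range d, (q ^ (2 * (j + 1)) - 1) =
      (∏ j ∈ Finset.range d, (q ^ (j + 1) - 1)) * ∏ j ∈ Finset.range d, (q ^ (j + 1) + 1) := by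
  rw [← Finset.prod_mul_distrib]
  apply Finset.prod_congr rfl
  intro j _
  obtain ⟨k, hk⟩ : ∃ k, q ^ (j + 1) = k + 1 :=
    ⟨q ^ (j + 1) - 1, by have := Nat.one_le_pow (j + 1) q hq; omega⟩
  rw [mul_comm 2, pow_mul, hk]
  have h1 : (k + 1) ^ 2 = k * (k + 1 + 1) + 1 := by ring
  rw [h1]
  simp

/-- a prime `r ≠ 2, p` dividing the number of unordered pairs divides some `q^j + 1`, `j ≤ d`. -/
theorem exists_dvd {p q : ℕ} [Fact p.Prime] [CharP F p] (hq : Fintype.card F = q) (hd : 1 ≤ d)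
    (r : ℕ) [Fact r.Prime] (hrp : r ≠ p)
    (hΩ : r ∣ Nat.card ↥(pairs d F) / 2) : ∃ j, 1 ≤ j ∧ j ≤ d ∧ r ∣ q ^ j + 1 := by
  classical
  have hp : p.Prime := Fact.out
  have hr : r.Prime := Fact.out
  have hq1 : 1 < q := by
    rw [← hq]
    exact Fintype.one_lt_card
  have hrN : r ∣ Nat.card ↥(pairs d F) := by
    rw [← Nat.div_mul_cancel (even_card_pairs (F := F) hd)]
    exact Dvd.dvd.mul_right hΩ 2
  have h1 := card_pairs_mul (F := F) (d := d)
  have h2 := gl_card_dvd_stab (F := F) (d := d)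
  have h3 : r * Nat.card (GL (Fin d) F) ∣ Nat.card (Matrix.symplecticGroup (Fin d) F) := by
    rw [← h1]
    exact mul_dvd_mul hrN h2
  rw [Matrix.card_GL_field, hq, Cfsg.Agent.Lib.Helper40.Alt.prod_GL q d hq1.le,
    Cfsg.Agent.Lib.Helper40.card_symplecticGroup, hq, prod_sq_sub q d hq1.le] at h3
  have hP : 0 < ∏ j ∈ Finset.range d, (q ^ (j + 1) - 1) := by
    apply Finset.prod_pos
    intro j _
    have : 1 < q ^ (j + 1) := Nat.one_lt_pow (by omega) hq1
    omega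
  have h4 : r * (∏ j ∈ Finset.range d, (q ^ (j + 1) - 1)) ∣
      (q ^ d ^ 2 * ∏ j ∈ Finset.range d, (q ^ (j + 1) + 1)) *
        ∏ j ∈ Finset.range d, (q ^ (j + 1) - 1) := by
    have h5 : r * (∏ j ∈ Finset.range d, (q ^ (j + 1) - 1)) ∣
        r * (q ^ (∑ i ∈ Finset.range d, i) * ∏ j ∈ Finset.range d, (q ^ (j + 1) - 1)) :=
      mul_dvd_mul_left r (Dvd.intro_left _ rfl)
    have h6 := h5.trans h3
    have h7 : q ^ d ^ 2 * ((∏ j ∈ Finset.range d, (q ^ (j + 1) - 1)) *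
        ∏ j ∈ Finset.range d, (q ^ (j + 1) + 1)) =
        (q ^ d ^ 2 * ∏ j ∈ Finset.range d, (q ^ (j + 1) + 1)) *
        ∏ j ∈ Finset.range d, (q ^ (j + 1) - 1) := by ring
    rw [h7] at h6
    exact h6
  have h8 := Nat.dvd_of_mul_dvd_mul_right hP h4
  have hrq : ¬ r ∣ q ^ d ^ 2 := by
    intro h
    have h11 := hr.dvd_of_dvd_pow h
    obtain ⟨k, -, hk⟩ := FiniteField.card F p
    rw [hq] at hk
    rw [hk] at h11
    have h12 := hr.dvd_of_dvd_pow h11
    exact hrp ((Nat.prime_dvd_prime_iff_eq hr hp).1 h12)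
  rcases (Nat.Prime.dvd_mul hr).1 h8 with h | h
  · exact absurd h hrq
  · obtain ⟨l, hl, hl2⟩ := (Prime.dvd_finsetProd_iff hr.prime _).1 h
    rw [Finset.mem_range] at hl
    exact ⟨l + 1, by omega, by omega, hl2⟩

end Count

end Cfsg.Agent.Lib.Helper40.Lagr
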