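-- Elements of prime order of symplectic groups and totally isotropic subspaces (helper40).
import Mathlib
import Cfsg.Prelude.Def_GeometricClasses
import Cfsg.Agent.Lib.Helper40.SpImprim
import Cfsg.Agent.Lib.Helper40.Lagr
import Cfsg.Agent.Lib.Helper40.Elusive2
import Cfsg.Agent.Lib.Helper13.SpParab

set_option autoImplicit false
set_option linter.unusedSectionVars false

namespace Cfsg.Agent.Lib.Helper40.SpIso

open Cfsg Cfsg.Geo Polynomial Module Matrix

universe u

section count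

variable {F : Type u} [Field F] [Fintype F] {d : ℕ}

/-- Counting totally isotropic subspaces through their ordered bases. -/
theorem card_ti_mul (m : ℕ) :
    Nat.card {W : Submodule F (Fin d ⊕ Fin d → F) //
        finrank F W = m ∧ ∀ u ∈ W, ∀ v ∈ W, sympForm d F u v = 0} *
      ∏ j : Fin m, (Fintype.card F ^ m - Fintype.card F ^ j.val) =
    ∏ i ∈ Finset.range m, (Fintype.card F ^ (2 * d - i) - Fintype.card F ^ i) := by
  classical
  rw [← Helper13.card_isoTuples (m := d) (F := F) m]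
  let φ : ↥(Helper13.isoTuples d F m) → {W : Submodule F (Fin d ⊕ Fin d → F) //
      finrank F W = m ∧ ∀ u ∈ W, ∀ v ∈ W, sympForm d F u v = 0} :=
    fun s => ⟨Submodule.span F (Set.range s.1), by
      rw [finrank_span_eq_card s.2.1, Fintype.card_fin],
      fun u hu v hv => Helper13.sympForm_span_zero s.1 s.2.2 u v hu hv⟩
  rw [← Nat.card_congr (Equiv.sigmaFiberEquiv φ), Nat.card_sigma]
  have h3 : ∀ W : {W : Submodule F (Fin d ⊕ Fin d → F) //
      finrank F W = m ∧ ∀ u ∈ W, ∀ v ∈ W, sympForm d F u v = 0},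
      Nat.card {s : ↥(Helper13.isoTuples d F m) // φ s = W} =
        ∏ j : Fin m, (Fintype.card F ^ m - Fintype.card F ^ j.val) := by
    intro W
    rw [← Elusive.card_fib m W.1 W.2.1]
    apply Nat.card_congr
    exact
      { toFun := fun s => ⟨⟨s.1.1, s.1.2.1⟩, congrArg Subtype.val s.2⟩
        invFun := fun s => ⟨⟨s.1.1, s.1.2, fun i j => W.2.2 _
            (s.2.le (Submodule.subset_span ⟨i, rfl⟩)) _
            (s.2.le (Submodule.subset_span ⟨j, rfl⟩))⟩,
          Subtype.ext s.2⟩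
        left_inv := fun s => rfl
        right_inv := fun s => rfl }
  rw [Finset.sum_congr rfl (fun W _ => h3 W), Finset.sum_const, Finset.card_univ,
    smul_eq_mul, Nat.card_eq_fintype_card]

theorem card_ti_mul' (m : ℕ) (hm : m ≤ d) :
    Nat.card {W : Submodule F (Fin d ⊕ Fin d → F) //
        finrank F W = m ∧ ∀ u ∈ W, ∀ v ∈ W, sympForm d F u v = 0} *
      Elusive.Q (Fintype.card F) m m =
    ∏ j ∈ Finset.range m, (Fintype.card F ^ (2 * (d - j)) - 1) := by
  have hq : 2 ≤ Fintype.card F := Fintype.one_lt_card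
  have h1 := card_ti_mul (F := F) (d := d) m
  rw [Elusive.prod_li _ _ _ le_rfl] at h1
  have h2 : ∏ i ∈ Finset.range m, (Fintype.card F ^ (2 * d - i) - Fintype.card F ^ i) =
      (∏ j ∈ Finset.range m, Fintype.card F ^ j) *
        ∏ j ∈ Finset.range m, (Fintype.card F ^ (2 * (d - j)) - 1) := by
    rw [← Finset.prod_mul_distrib]
    apply Finset.prod_congr rfl
    intro j hj
    have hj' := Finset.mem_range.1 hj
    rw [Nat.mul_sub, mul_one, ← pow_add]
    congr 2
    omega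
  rw [h2, ← mul_assoc, mul_comm (Nat.card _), mul_assoc] at h1
  have h4 : 0 < ∏ j ∈ Finset.range m, Fintype.card F ^ j :=
    Finset.prod_pos (fun j _ => Nat.pow_pos (by omega))
  exact Nat.eq_of_mul_eq_mul_left h4 h1

/-- The characteristic does not divide the number of totally isotropic `m`-spaces. -/
theorem not_char_dvd_ti (p : ℕ) [Fact p.Prime] [CharP F p] (m : ℕ) (hm : m ≤ d) :
    ¬ p ∣ Nat.card {W : Submodule F (Fin d ⊕ Fin d → F) //
        finrank F W = m ∧ ∀ u ∈ W, ∀ v ∈ W, sympForm d F u v = 0} := by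
  intro h
  have hp : p.Prime := Fact.out
  have hq : 2 ≤ Fintype.card F := Fintype.one_lt_card
  have h1 : p ∣ ∏ j ∈ Finset.range m, (Fintype.card F ^ (2 * (d - j)) - 1) := by
    rw [← card_ti_mul' m hm]
    exact Dvd.dvd.mul_right h _
  obtain ⟨j, hj, hj2⟩ := (Prime.dvd_finsetProd_iff hp.prime _).1 h1
  have hj' := Finset.mem_range.1 hj
  have h2 : p ∣ Fintype.card F ^ (2 * (d - j)) :=
    dvd_pow (Elusive.char_dvd_card p) (by omega)
  have h3 : 1 ≤ Fintype.card F ^ (2 * (d - j)) := Nat.one_le_pow _ _ (by omega)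
  have h4 : p ∣ 1 := by
    have := Nat.dvd_sub h2 hj2
    rwa [Nat.sub_sub_self h3] at this
  exact hp.one_lt.ne' (Nat.dvd_one.1 h4)

/-- A prime dividing the number of totally isotropic `m`-spaces. -/
theorem exists_of_dvd_ti (r : ℕ) [Fact r.Prime] (m : ℕ) (hm : m ≤ d)
    (h : r ∣ Nat.card {W : Submodule F (Fin d ⊕ Fin d → F) //
        finrank F W = m ∧ ∀ u ∈ W, ∀ v ∈ W, sympForm d F u v = 0}) :
    ∃ j, j < m ∧ orderOf ((Fintype.card F : ℕ) : ZMod r) ∣ 2 * (d - j) := by
  have hr : r.Prime := Fact.out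
  have hq : 2 ≤ Fintype.card F := Fintype.one_lt_card
  have h1 : r ∣ ∏ j ∈ Finset.range m, (Fintype.card F ^ (2 * (d - j)) - 1) := by
    rw [← card_ti_mul' m hm]
    exact Dvd.dvd.mul_right h _
  obtain ⟨j, hj, hj2⟩ := (Prime.dvd_finsetProd_iff hr.prime _).1 h1
  exact ⟨j, Finset.mem_range.1 hj, (Elusive.dvd_pow_sub_one_iff _ r (by omega) _).1 hj2⟩

end count

section inv2

variable {F : Type u} [Field F] {d : ℕ}

/-- The orthogonal complement with respect to the symplectic form. -/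
noncomputable def perp (U : Submodule F (Fin d ⊕ Fin d → F)) :
    Submodule F (Fin d ⊕ Fin d → F) :=
  (Helper13.sympBilin d F).orthogonal U

theorem mem_perp (U : Submodule F (Fin d ⊕ Fin d → F)) (v : Fin d ⊕ Fin d → F) :
    v ∈ perp U ↔ ∀ u ∈ U, sympForm d F u v = 0 := by
  unfold perp
  rw [LinearMap.BilinForm.mem_orthogonal_iff]
  constructor
  · intro h u hu
    rw [← Helper13.sympBilin_apply]
    exact h u hu
  · intro h u hu
    show Helper13.sympBilin d F u v = 0
    rw [Helper13.sympBilin_apply]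
    exact h u hu

theorem finrank_perp (U : Submodule F (Fin d ⊕ Fin d → F)) :
    finrank F (perp U) = 2 * d - finrank F U := by
  unfold perp
  rw [LinearMap.BilinForm.finrank_orthogonal Helper13.sympBilin_nondegenerate, Lagr.finrank_space]

theorem perp_anti {U U' : Submodule F (Fin d ⊕ Fin d → F)} (h : U ≤ U') : perp U' ≤ perp U :=
  LinearMap.BilinForm.orthogonal_le h

theorem map_eq_of_le {V : Type*} [AddCommGroup V] [Module F V] [FiniteDimensional F V]
    (f : V →ₗ[F] V) (hf : Function.Injective f) (U : Submodule F V) (h : U.map f ≤ U) :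
    U.map f = U := by
  apply Submodule.eq_of_le_of_finrank_le h
  have h1 := LinearMap.finrank_range_of_inj (f := f.domRestrict U)
    (fun a b hab => Subtype.ext (hf hab))
  rw [LinearMap.range_domRestrict] at h1
  rw [h1]

theorem toLin_injective (x : Matrix (Fin d ⊕ Fin d) (Fin d ⊕ Fin d) F)
    (hx : x ∈ Matrix.symplecticGroup (Fin d) F) : Function.Injective (Matrix.toLin' x) := by
  intro u v h
  rw [Matrix.toLin'_apply, Matrix.toLin'_apply] at h
  exact Helper13.symp_mulVec_injective ⟨x, hx⟩ h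

theorem form_toLin (x : Matrix (Fin d ⊕ Fin d) (Fin d ⊕ Fin d) F)
    (hx : x ∈ Matrix.symplecticGroup (Fin d) F) (u v : Fin d ⊕ Fin d → F) :
    sympForm d F (Matrix.toLin' x u) (Matrix.toLin' x v) = sympForm d F u v := by
  rw [Matrix.toLin'_apply, Matrix.toLin'_apply, Helper13.sympForm_mulVec_of_mem d hx]

theorem perp_invariant (x : Matrix (Fin d ⊕ Fin d) (Fin d ⊕ Fin d) F)
    (hx : x ∈ Matrix.symplecticGroup (Fin d) F) (U : Submodule F (Fin d ⊕ Fin d → F))
    (hU : U.map (Matrix.toLin' x) ≤ U) : (perp U).map (Matrix.toLin' x) ≤ perp U := by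
  have hU' := map_eq_of_le (Matrix.toLin' x) (toLin_injective x hx) U hU
  rintro _ ⟨v, hv, rfl⟩
  rw [mem_perp]
  intro u hu
  rw [← hU'] at hu
  obtain ⟨u', hu', rfl⟩ := hu
  rw [form_toLin x hx]
  exact (mem_perp U v).1 hv u' hu'

theorem ti_sup_singleton (U : Submodule F (Fin d ⊕ Fin d → F))
    (hU : ∀ u ∈ U, ∀ v ∈ U, sympForm d F u v = 0) (w : Fin d ⊕ Fin d → F) (hw : w ∈ perp U) :
    ∀ u ∈ U ⊔ Submodule.span F {w}, ∀ v ∈ U ⊔ Submodule.span F {w}, sympForm d F u v = 0 := by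
  intro a ha b hb
  obtain ⟨u, hu, s, hs, rfl⟩ := Submodule.mem_sup.1 ha
  obtain ⟨u', hu', s', hs', rfl⟩ := Submodule.mem_sup.1 hb
  obtain ⟨c, rfl⟩ := Submodule.mem_span_singleton.1 hs
  obtain ⟨c', rfl⟩ := Submodule.mem_span_singleton.1 hs'
  have h1 := (mem_perp U w).1 hw u hu
  have h2 := (mem_perp U w).1 hw u' hu'
  have h3 : sympForm d F w u' = 0 := by rw [Helper13.sympForm_swap, h2, neg_zero]
  simp only [Helper13.sympForm_add_left, Helper13.sympForm_add_right, Helper13.sympForm_smul_left,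
    Helper13.sympForm_smul_right, Helper13.sympForm_self, hU u hu u' hu', h1, h3]
  ring

theorem finrank_sup_singleton {V : Type*} [AddCommGroup V] [Module F V] [FiniteDimensional F V]
    (U : Submodule F V) (w : V) (hw : w ∉ U) :
    finrank F ↥(U ⊔ Submodule.span F {w}) = finrank F U + 1 := by
  have hw0 : w ≠ 0 := fun h => hw (h ▸ U.zero_mem)
  have h1 := Submodule.finrank_sup_add_finrank_inf_eq U (Submodule.span F {w})
  have h2 : U ⊓ Submodule.span F {w} = ⊥ :=
    disjoint_iff.1 ((Submodule.disjoint_span_singleton' hw0).2 hw)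
  rw [h2, finrank_bot, add_zero, finrank_span_singleton hw0] at h1
  exact h1

theorem finrank_span_singleton_le {V : Type*} [AddCommGroup V] [Module F V] (w : V) :
    finrank F ↥(Submodule.span F {w}) ≤ 1 := by
  by_cases hw : w = 0
  · rw [hw, Submodule.span_zero_singleton, finrank_bot]
    omega
  · rw [finrank_span_singleton hw]

theorem map_span_singleton_le {V : Type*} [AddCommGroup V] [Module F V] (f : V →ₗ[F] V) (w : V)
    (U' : Submodule F V) (h : f w ∈ U') : (Submodule.span F {w}).map f ≤ U' := by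
  rw [Submodule.map_span, Set.image_singleton, Submodule.span_singleton_le_iff_mem]
  exact h

/-- Invariant totally isotropic subspaces for a symplectic matrix whose square is a scalar
square. -/
theorem exists_ti_diag (x : Matrix (Fin d ⊕ Fin d) (Fin d ⊕ Fin d) F)
    (hx : x ∈ Matrix.symplecticGroup (Fin d) F) (ι : F) (h2 : (2 : F) ≠ 0) (hι : ι ≠ 0)
    (hxx : x * x = (ι * ι) • (1 : Matrix (Fin d ⊕ Fin d) (Fin d ⊕ Fin d) F)) :
    ∀ j, j ≤ d → ∃ U : Submodule F (Fin d ⊕ Fin d → F), finrank F U = j ∧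
      (∀ u ∈ U, ∀ v ∈ U, sympForm d F u v = 0) ∧ U.map (Matrix.toLin' x) ≤ U := by
  intro j
  induction j with
  | zero =>
    intro _
    refine ⟨⊥, finrank_bot F _, ?_, ?_⟩
    · intro u hu v hv
      rw [(Submodule.mem_bot F).1 hu, Helper13.sympForm_zero_left]
    · rw [Submodule.map_bot]
  | succ j ih =>
    intro hj
    obtain ⟨U, hUj, hUti, hUinv⟩ := ih (by omega)
    have hperp := finrank_perp U
    obtain ⟨v, hv, hvU⟩ : ∃ v ∈ perp U, v ∉ U := by
      by_contra hcon
      push Not at hcon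
      have h1 := Submodule.finrank_mono (show perp U ≤ U from hcon)
      omega
    have hxv : Matrix.toLin' x v ∈ perp U :=
      perp_invariant x hx U hUinv (Submodule.mem_map_of_mem hv)
    have hxxv : Matrix.toLin' x (Matrix.toLin' x v) = (ι * ι) • v := by
      rw [← Matrix.toLin'_mul_apply, hxx, Matrix.toLin'_apply, Matrix.smul_mulVec,
        Matrix.one_mulVec]
    obtain ⟨w, c, hwperp, hwU, hxw⟩ : ∃ (w : Fin d ⊕ Fin d → F) (c : F),
        w ∈ perp U ∧ w ∉ U ∧ Matrix.toLin' x w = c • w := by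
      by_cases hp : Matrix.toLin' x v + ι • v ∈ U
      · refine ⟨Matrix.toLin' x v - ι • v, -ι,
          Submodule.sub_mem _ hxv (Submodule.smul_mem _ _ hv), ?_, ?_⟩
        · intro hm
          apply hvU
          have h3 : (2 * ι) • v ∈ U := by
            have h4 : (2 * ι) • v = (Matrix.toLin' x v + ι • v) - (Matrix.toLin' x v - ι • v) := by
              rw [mul_smul, two_smul]
              abel
            rw [h4]
            exact Submodule.sub_mem _ hp hm
          have h5 := Submodule.smul_mem U (2 * ι)⁻¹ h3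
          rwa [smul_smul, inv_mul_cancel₀ (mul_ne_zero h2 hι), one_smul] at h5
        · rw [map_sub, map_smul, hxxv]
          module
      · refine ⟨Matrix.toLin' x v + ι • v, ι,
          Submodule.add_mem _ hxv (Submodule.smul_mem _ _ hv), hp, ?_⟩
        rw [map_add, map_smul, hxxv, smul_add, smul_smul, add_comm]
    refine ⟨U ⊔ Submodule.span F {w}, by rw [finrank_sup_singleton U w hwU, hUj],
      ti_sup_singleton U hUti w hwperp, ?_⟩
    rw [Submodule.map_sup]
    refine sup_le (hUinv.trans le_sup_left) (map_span_singleton_le _ _ _ ?_)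
    rw [hxw]
    exact Submodule.smul_mem _ _ (Submodule.mem_sup_right (Submodule.mem_span_singleton_self w))

theorem sq_add_sq' [Fintype F] (hodd : Fintype.card F % 2 = 1) (c : F) :
    ∃ a b : F, a ^ 2 + b ^ 2 = c := by
  obtain ⟨a, b, hab⟩ := FiniteField.exists_root_sum_quadratic (R := F) (f := X ^ 2)
    (g := X ^ 2 - C c) (degree_X_pow 2) (degree_X_pow_sub_C (by norm_num) c) hodd
  refine ⟨a, b, ?_⟩
  simp only [eval_pow, eval_X, eval_sub, eval_C] at hab
  linear_combination hab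

/-- Invariant totally isotropic subspaces of even dimension for a symplectic matrix of square
`-1`. -/
theorem exists_ti_quat [Fintype F] (hodd : Fintype.card F % 2 = 1)
    (x : Matrix (Fin d ⊕ Fin d) (Fin d ⊕ Fin d) F)
    (hx : x ∈ Matrix.symplecticGroup (Fin d) F) (hxx : x * x = -1)
    (hns : ¬ IsSquare (-1 : F)) :
    ∀ j, 2 * j ≤ d → ∃ U : Submodule F (Fin d ⊕ Fin d → F), finrank F U = 2 * j ∧
      (∀ u ∈ U, ∀ v ∈ U, sympForm d F u v = 0) ∧ U.map (Matrix.toLin' x) ≤ U := by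
  classical
  have hx2 : ∀ v, Matrix.toLin' x (Matrix.toLin' x v) = -v := by
    intro v
    rw [← Matrix.toLin'_mul_apply, hxx, Matrix.toLin'_apply, Matrix.neg_mulVec, Matrix.one_mulVec]
  intro j
  induction j with
  | zero =>
    intro _
    refine ⟨⊥, finrank_bot F _, ?_, ?_⟩
    · intro u hu v hv
      rw [(Submodule.mem_bot F).1 hu, Helper13.sympForm_zero_left]
    · rw [Submodule.map_bot]
  | succ j ih =>
    intro hj
    obtain ⟨U, hUj, hUti, hUinv⟩ := ih (by omega)
    have hperp := finrank_perp U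
    have hpinv := perp_invariant x hx U hUinv
    obtain ⟨w, hwperp, hwU, hwq⟩ : ∃ w, w ∈ perp U ∧ w ∉ U ∧
        sympForm d F w (Matrix.toLin' x w) = 0 := by
      obtain ⟨v₁, hv₁, hv₁U⟩ : ∃ v ∈ perp U, v ∉ U := by
        by_contra hcon
        push Not at hcon
        have h1 := Submodule.finrank_mono (show perp U ≤ U from hcon)
        omega
      by_cases hα : sympForm d F v₁ (Matrix.toLin' x v₁) = 0
      · exact ⟨v₁, hv₁, hv₁U, hα⟩
      obtain ⟨P₁, hP₁⟩ : ∃ P₁ : Submodule F (Fin d ⊕ Fin d → F),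
          P₁ = U ⊔ Submodule.span F {v₁} ⊔ Submodule.span F {Matrix.toLin' x v₁} := ⟨_, rfl⟩
      have hUP : U ≤ P₁ := by
        rw [hP₁]
        exact le_sup_left.trans le_sup_left
      have hv₁P : v₁ ∈ P₁ := by
        rw [hP₁]
        exact Submodule.mem_sup_left (Submodule.mem_sup_right (Submodule.mem_span_singleton_self _))
      have hxv₁P : Matrix.toLin' x v₁ ∈ P₁ := by
        rw [hP₁]
        exact Submodule.mem_sup_right (Submodule.mem_span_singleton_self _)
      have hP₁inv : P₁.map (Matrix.toLin' x) ≤ P₁ := by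
        have h1 : P₁.map (Matrix.toLin' x) = U.map (Matrix.toLin' x) ⊔
            (Submodule.span F {v₁}).map (Matrix.toLin' x) ⊔
            (Submodule.span F {Matrix.toLin' x v₁}).map (Matrix.toLin' x) := by
          rw [hP₁, Submodule.map_sup, Submodule.map_sup]
        rw [h1]
        refine sup_le (sup_le (hUinv.trans hUP) (map_span_singleton_le _ _ _ hxv₁P))
          (map_span_singleton_le _ _ _ ?_)
        rw [hx2]
        exact Submodule.neg_mem _ hv₁P
      have hP₁dim : finrank F P₁ ≤ 2 * j + 2 := by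
        rw [hP₁]
        have h1 := Submodule.finrank_add_le_finrank_add_finrank
          (U ⊔ Submodule.span F {v₁}) (Submodule.span F {Matrix.toLin' x v₁})
        have h2 := Submodule.finrank_add_le_finrank_add_finrank U (Submodule.span F {v₁})
        have h3 := finrank_span_singleton_le (F := F) v₁
        have h4 := finrank_span_singleton_le (F := F) (Matrix.toLin' x v₁)
        omega
      have hperp₁ := finrank_perp P₁
      obtain ⟨v₂, hv₂, hv₂P⟩ : ∃ v ∈ perp P₁, v ∉ P₁ := by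
        by_contra hcon
        push Not at hcon
        have hle : perp P₁ ≤ P₁ := hcon
        have heq : perp P₁ = P₁ := Submodule.eq_of_le_of_finrank_le hle (by omega)
        have h1 : v₁ ∈ perp P₁ := by
          rw [heq]
          exact hv₁P
        have h2 := (mem_perp P₁ v₁).1 h1 _ hxv₁P
        apply hα
        rw [Helper13.sympForm_swap, h2, neg_zero]
      by_cases hβ : sympForm d F v₂ (Matrix.toLin' x v₂) = 0
      · exact ⟨v₂, perp_anti hUP hv₂, fun h => hv₂P (hUP h), hβ⟩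
      obtain ⟨a, b, hab⟩ := sq_add_sq' hodd
        (-(sympForm d F v₂ (Matrix.toLin' x v₂) / sympForm d F v₁ (Matrix.toLin' x v₁)))
      have hab' : (a ^ 2 + b ^ 2) * sympForm d F v₁ (Matrix.toLin' x v₁) =
          -sympForm d F v₂ (Matrix.toLin' x v₂) := by
        rw [hab]
        field_simp
      have hxv₂ : Matrix.toLin' x v₂ ∈ perp P₁ :=
        perp_invariant x hx P₁ hP₁inv (Submodule.mem_map_of_mem hv₂)
      refine ⟨a • v₁ + b • Matrix.toLin' x v₁ + v₂, ?_, ?_, ?_⟩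
      · exact Submodule.add_mem _ (Submodule.add_mem _ (Submodule.smul_mem _ _ hv₁)
          (Submodule.smul_mem _ _ (hpinv (Submodule.mem_map_of_mem hv₁)))) (perp_anti hUP hv₂)
      · intro h
        apply hv₂P
        have h1 : v₂ = (a • v₁ + b • Matrix.toLin' x v₁ + v₂) - a • v₁ -
            b • Matrix.toLin' x v₁ := by abel
        rw [h1]
        exact Submodule.sub_mem _ (Submodule.sub_mem _ (hUP h) (Submodule.smul_mem _ _ hv₁P))
          (Submodule.smul_mem _ _ hxv₁P)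
      · have e1 : sympForm d F v₁ (Matrix.toLin' x v₂) = 0 := (mem_perp P₁ _).1 hxv₂ v₁ hv₁P
        have e2 : sympForm d F (Matrix.toLin' x v₁) (Matrix.toLin' x v₂) = 0 :=
          (mem_perp P₁ _).1 hxv₂ _ hxv₁P
        have e3 : sympForm d F v₂ (Matrix.toLin' x v₁) = 0 := by
          rw [Helper13.sympForm_swap, (mem_perp P₁ _).1 hv₂ _ hxv₁P, neg_zero]
        have e4 : sympForm d F v₂ v₁ = 0 := by
          rw [Helper13.sympForm_swap, (mem_perp P₁ _).1 hv₂ _ hv₁P, neg_zero]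
        have e5 : sympForm d F (Matrix.toLin' x v₁) v₁ =
            -sympForm d F v₁ (Matrix.toLin' x v₁) := Helper13.sympForm_swap d _ _
        rw [map_add, map_add, map_smul, map_smul, hx2, smul_neg, ← neg_smul]
        simp only [Helper13.sympForm_add_left, Helper13.sympForm_add_right,
          Helper13.sympForm_smul_left, Helper13.sympForm_smul_right, Helper13.sympForm_self,
          e1, e2, e3, e4, e5]
        linear_combination hab'
    have hC : ∀ a b : F, a • w + b • Matrix.toLin' x w ∈ U → a = 0 ∧ b = 0 := by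
      intro a b hab
      have h1 : Matrix.toLin' x (a • w + b • Matrix.toLin' x w) ∈ U :=
        hUinv (Submodule.mem_map_of_mem hab)
      rw [map_add, map_smul, map_smul, hx2] at h1
      have h2 : (a * a + b * b) • w ∈ U := by
        have h3 : (a * a + b * b) • w = a • (a • w + b • Matrix.toLin' x w) -
            b • (a • Matrix.toLin' x w + b • -w) := by
          module
        rw [h3]
        exact Submodule.sub_mem _ (Submodule.smul_mem _ _ hab) (Submodule.smul_mem _ _ h1)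
      have h4 : a * a + b * b = 0 := by
        by_contra hne
        apply hwU
        have := Submodule.smul_mem U (a * a + b * b)⁻¹ h2
        rwa [smul_smul, inv_mul_cancel₀ hne, one_smul] at this
      have hb : b = 0 := by
        by_contra hb
        apply hns
        refine ⟨a / b, ?_⟩
        field_simp
        linear_combination -h4
      subst hb
      rw [mul_zero, add_zero] at h4
      exact ⟨mul_self_eq_zero.1 h4, rfl⟩
    have hxwperp : Matrix.toLin' x w ∈ perp U := hpinv (Submodule.mem_map_of_mem hwperp)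
    obtain ⟨U₁, hU₁⟩ : ∃ U₁ : Submodule F (Fin d ⊕ Fin d → F),
        U₁ = U ⊔ Submodule.span F {w} := ⟨_, rfl⟩
    have hU₁dim : finrank F U₁ = 2 * j + 1 := by
      rw [hU₁, finrank_sup_singleton U w hwU, hUj]
    have hU₁ti : ∀ u ∈ U₁, ∀ v ∈ U₁, sympForm d F u v = 0 := by
      rw [hU₁]
      exact ti_sup_singleton U hUti w hwperp
    have hUU₁ : U ≤ U₁ := by
      rw [hU₁]
      exact le_sup_left
    have hwU₁ : w ∈ U₁ := by
      rw [hU₁]
      exact Submodule.mem_sup_right (Submodule.mem_span_singleton_self w)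
    have hxwU₁ : Matrix.toLin' x w ∉ U₁ := by
      rw [hU₁]
      intro h
      obtain ⟨u, hu, s, hs, hus⟩ := Submodule.mem_sup.1 h
      obtain ⟨c, rfl⟩ := Submodule.mem_span_singleton.1 hs
      have h5 : (-c) • w + (1 : F) • Matrix.toLin' x w ∈ U := by
        have h6 : (-c) • w + (1 : F) • Matrix.toLin' x w = u := by
          rw [← hus, one_smul, neg_smul]
          abel
        rw [h6]
        exact hu
      exact one_ne_zero (hC _ _ h5).2
    have hxwperp₁ : Matrix.toLin' x w ∈ perp U₁ := by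
      rw [mem_perp, hU₁]
      intro a ha
      obtain ⟨u, hu, s, hs, rfl⟩ := Submodule.mem_sup.1 ha
      obtain ⟨c, rfl⟩ := Submodule.mem_span_singleton.1 hs
      rw [Helper13.sympForm_add_left, Helper13.sympForm_smul_left, hwq, mul_zero, add_zero]
      exact (mem_perp U _).1 hxwperp u hu
    refine ⟨U₁ ⊔ Submodule.span F {Matrix.toLin' x w}, ?_,
      ti_sup_singleton U₁ hU₁ti _ hxwperp₁, ?_⟩
    · rw [finrank_sup_singleton U₁ _ hxwU₁, hU₁dim]
      omega
    · rw [Submodule.map_sup]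
      refine sup_le ?_ (map_span_singleton_le _ _ _ ?_)
      · have h1 : U₁.map (Matrix.toLin' x) = U.map (Matrix.toLin' x) ⊔
            (Submodule.span F {w}).map (Matrix.toLin' x) := by
          rw [hU₁, Submodule.map_sup]
        rw [h1]
        exact sup_le (hUinv.trans (hUU₁.trans le_sup_left)) (map_span_singleton_le _ _ _
          (Submodule.mem_sup_right (Submodule.mem_span_singleton_self _)))
      · rw [hx2]
        exact Submodule.neg_mem _ (Submodule.mem_sup_left hwU₁)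

end inv2

section inv2main

variable {F : Type u} [Field F] [Fintype F] {d : ℕ}

/-- Involutions and totally isotropic subspaces. -/
theorem inv2_iff {p : ℕ} [Fact p.Prime] [CharP F p] (hp2 : p ≠ 2) {q : ℕ}
    (hq : Fintype.card F = q) (m : ℕ) (hd : 1 ≤ d) (hmd : m ≤ d) :
    (∀ x : ↥(Matrix.symplecticGroup (Fin d) F),
      (∃ z : F, ((x ^ 2 : ↥(Matrix.symplecticGroup (Fin d) F)) :
        Matrix (Fin d ⊕ Fin d) (Fin d ⊕ Fin d) F) =
          z • (1 : Matrix (Fin d ⊕ Fin d) (Fin d ⊕ Fin d) F)) →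
      (∀ z : F, (x : Matrix (Fin d ⊕ Fin d) (Fin d ⊕ Fin d) F) ≠
        z • (1 : Matrix (Fin d ⊕ Fin d) (Fin d ⊕ Fin d) F)) →
      ∃ W : Submodule F (Fin d ⊕ Fin d → F), finrank F W = m ∧
        (∀ u ∈ W, ∀ v ∈ W, sympForm d F u v = 0) ∧
        W.map (Matrix.toLin' (x : Matrix (Fin d ⊕ Fin d) (Fin d ⊕ Fin d) F)) ≤ W) ↔
    (Even m ∨ q % 4 = 1) := by
  classical
  have hpp : p.Prime := Fact.out
  have hodd : Fintype.card F % 2 = 1 :=
    FiniteField.odd_card_of_char_ne_two (by rw [ringChar.eq F p]; exact hp2)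
  have h2 : (2 : F) ≠ 0 := by
    intro h
    have h3 : ((2 : ℕ) : F) = 0 := by exact_mod_cast h
    rw [CharP.cast_eq_zero_iff F p 2] at h3
    exact hp2 ((Nat.prime_dvd_prime_iff_eq hpp Nat.prime_two).1 h3)
  constructor
  · intro h
    by_contra hcon
    push Not at hcon
    obtain ⟨hmodd, hq4⟩ := hcon
    have hq3 : Fintype.card F % 4 = 3 := by
      rw [hq] at hodd ⊢
      omega
    have hns : ¬ IsSquare (-1 : F) := by
      rw [FiniteField.isSquare_neg_one_iff]
      exact fun h' => h' hq3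
    obtain ⟨W, hWm, -, hWinv⟩ := h ⟨Matrix.J (Fin d) F, SymplecticGroup.J_mem (Fin d) F⟩
      ⟨-1, by rw [SubmonoidClass.coe_pow, pow_two, Matrix.J_squared, neg_smul, one_smul]⟩ (by
        intro z hz
        have h1 := congrFun (congrFun hz (Sum.inl ⟨0, hd⟩)) (Sum.inr ⟨0, hd⟩)
        simp [Matrix.J] at h1)
    have hinv : ∀ w ∈ W, Matrix.toLin' (Matrix.J (Fin d) F) w ∈ W :=
      fun w hw => hWinv (Submodule.mem_map_of_mem hw)
    obtain ⟨T, hT⟩ : ∃ T : W →ₗ[F] W,
        T = (Matrix.toLin' (Matrix.J (Fin d) F)).restrict hinv := ⟨_, rfl⟩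
    have hTT : T * T = (-1 : F) • (1 : W →ₗ[F] W) := by
      apply LinearMap.ext
      intro w
      apply Subtype.ext
      rw [hT, Module.End.mul_apply, LinearMap.coe_restrict_apply, LinearMap.coe_restrict_apply,
        ← Matrix.toLin'_mul_apply, Matrix.J_squared, Matrix.toLin'_apply, Matrix.neg_mulVec,
        Matrix.one_mulVec, LinearMap.smul_apply, Module.End.one_apply, neg_smul, one_smul]
      rfl
    have hdet := congrArg LinearMap.det hTT
    rw [map_mul, LinearMap.det_smul, map_one, mul_one, hWm,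
      Odd.neg_one_pow (Nat.not_even_iff_odd.1 hmodd)] at hdet
    exact hns ⟨LinearMap.det T, hdet.symm⟩
  · intro hcond x ⟨z, hz⟩ hns
    have hzmem : z • (1 : Matrix (Fin d ⊕ Fin d) (Fin d ⊕ Fin d) F) ∈
        Matrix.symplecticGroup (Fin d) F := by
      rw [← hz]
      exact (x ^ 2).2
    rw [SubmonoidClass.coe_pow, pow_two] at hz
    have hzz : z * z = 1 := SpImprim.scalar_sq hd z hzmem
    rcases mul_self_eq_one_iff.1 hzz with rfl | rfl
    · exact exists_ti_diag x.1 x.2 1 h2 one_ne_zero (by rw [hz, mul_one]) m hmd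
    · by_cases hsq : IsSquare (-1 : F)
      · obtain ⟨ι, hι⟩ := hsq
        refine exists_ti_diag x.1 x.2 ι h2 ?_ (by rw [hz, ← hι]) m hmd
        rintro rfl
        rw [mul_zero] at hι
        exact one_ne_zero (neg_eq_zero.1 hι)
      · have hq3 : ¬ (Fintype.card F % 4 ≠ 3) := by
          rw [← FiniteField.isSquare_neg_one_iff]
          exact hsq
        have hev : Even m := by
          rcases hcond with h | h
          · exact h
          · exfalso
            rw [hq] at hq3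
            omega
        obtain ⟨j, hj⟩ := hev
        obtain ⟨U, hU, hti, hinv⟩ := exists_ti_quat hodd x.1 x.2
          (by rw [hz, neg_smul, one_smul]) hsq j (by omega)
        exact ⟨U, by rw [hU, hj]; ring, hti, hinv⟩

end inv2main

section flag

open Cfsg.Agent.Lib.Helper40.PrimeOrderGL Cfsg.Agent.Lib.Helper40.DualPoly
  Cfsg.Agent.Lib.Helper40.SpExist Cfsg.Agent.Lib.Helper40.SympWall
  Cfsg.Agent.Lib.Helper40.GUPrimeOrder

theorem charpoly_restrict_mul {K : Type u} [Field K] {V : Type*} [AddCommGroup V] [Module K V]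
    [FiniteDimensional K V] (f : Module.End K V) (P A B : Submodule K V)
    (hP : P ∈ f.invtSubmodule) (hA : A ∈ f.invtSubmodule) (hB : B ∈ f.invtSubmodule)
    (hd : Disjoint A B) (hs : A ⊔ B = P) :
    (f.restrict (p := P) (q := P) hP).charpoly =
      (f.restrict (p := A) (q := A) hA).charpoly * (f.restrict (p := B) (q := B) hB).charpoly := by
  have hAP : A ≤ P := hs ▸ le_sup_left
  have hBP : B ≤ P := hs ▸ le_sup_right
  let φ : (A × B) →ₗ[K] P := LinearMap.coprod (Submodule.inclusion hAP) (Submodule.inclusion hBP)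
  have hφ : ∀ (a : A) (b : B), ((φ (a, b) : P) : V) = (a : V) + (b : V) := by
    intro a b
    simp [φ]
  have hinj : Function.Injective φ := by
    rw [← LinearMap.ker_eq_bot, LinearMap.ker_eq_bot']
    rintro ⟨a, b⟩ h
    have h1 : (a : V) + (b : V) = 0 := by
      rw [← hφ, h]
      rfl
    have h2 : (a : V) ∈ B := by
      have h3 : (a : V) = -(b : V) := eq_neg_of_add_eq_zero_left h1
      rw [h3]
      exact B.neg_mem b.2
    have h3 : (a : V) = 0 := (Submodule.disjoint_def.1 hd) a a.2 h2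
    have h4 : (b : V) = 0 := by
      rw [h3, zero_add] at h1
      exact h1
    exact Prod.ext (Subtype.ext h3) (Subtype.ext h4)
  have hsurj : Function.Surjective φ := by
    rintro ⟨v, hv⟩
    have hv' : v ∈ A ⊔ B := by
      rw [hs]
      exact hv
    obtain ⟨a, ha, b, hb, hab⟩ := Submodule.mem_sup.1 hv'
    refine ⟨(⟨a, ha⟩, ⟨b, hb⟩), Subtype.ext ?_⟩
    rw [hφ]
    exact hab
  let e : (A × B) ≃ₗ[K] P := LinearEquiv.ofBijective φ ⟨hinj, hsurj⟩
  have h1 : e.conj ((f.restrict (p := A) (q := A) hA).prodMap (f.restrict (p := B) (q := B) hB)) =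
      f.restrict (p := P) (q := P) hP := by
    apply LinearMap.ext
    intro v
    obtain ⟨⟨a, b⟩, rfl⟩ := e.surjective v
    rw [LinearEquiv.conj_apply_apply, LinearEquiv.symm_apply_apply]
    apply Subtype.ext
    have h2 : ∀ z : A × B, ((e z : P) : V) = (z.1 : V) + (z.2 : V) := fun z => hφ z.1 z.2
    rw [h2]
    show f (a : V) + f (b : V) = f ((e (a, b) : P) : V)
    rw [h2, map_add]
  rw [← LinearMap.charpoly_prodMap, ← LinearEquiv.charpoly_conj e, h1]

variable {F : Type u} [Field F] [Fintype F] {d : ℕ}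

theorem count_ms_one [DecidableEq F[X]] {S : Finset F[X]} {r i : ℕ} (hS : Factors S r i)
    (a : S → ℕ) (k : ℕ) : Multiset.count (X - C 1 : F[X]) (ms S a k) = k := by
  unfold ms
  rw [Multiset.count_add, Multiset.count_replicate_self, Multiset.count_sum',
    Finset.sum_eq_zero, add_zero]
  intro π _
  rw [Multiset.count_replicate, if_neg]
  intro h
  exact hS.notMem (by rw [← h]; exact π.2)

/-- The necessary condition for an invariant totally isotropic subspace. -/
theorem flag {S : Finset F[X]} {r i : ℕ} (hS : Factors S r i) (hrF : (r : F) ≠ 0)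
    (dg : S → S) (hdg : ∀ π : S, (dg π : F[X]) = dual (RingHom.id F) π.1)
    (hdd : ∀ π, dg (dg π) = π)
    (x : Matrix (Fin d ⊕ Fin d) (Fin d ⊕ Fin d) F)
    (hx : x ∈ Matrix.symplecticGroup (Fin d) F) (hxr : x ^ r = 1)
    (a : S → ℕ) (k₀ : ℕ) (hχ : x.charpoly = chi S a k₀)
    (W : Submodule F (Fin d ⊕ Fin d → F)) (m : ℕ) (hWm : finrank F W = m)
    (hWti : ∀ u ∈ W, ∀ v ∈ W, sympForm d F u v = 0) (hWinv : W.map (Matrix.toLin' x) ≤ W) :
    ∃ a₁ : S → ℕ, i * ∑ π, a₁ π ≤ m ∧ (∀ π, a₁ π + a₁ (dg π) ≤ a π) ∧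
      2 * (m - i * ∑ π, a₁ π) ≤ k₀ := by
  classical
  obtain ⟨f, hf⟩ : ∃ f : Module.End F (Fin d ⊕ Fin d → F), f = Matrix.toLin' x := ⟨_, rfl⟩
  have hss : f.IsSemisimple := by
    rw [hf]
    exact isSemisimple_of_pow_eq_one' x r hrF hxr
  have hfr : f ^ r = 1 := by
    rw [hf, SpImprim.toLin_pow, hxr, Matrix.toLin'_one]
    rfl
  have hWi : W ∈ f.invtSubmodule := by
    rw [Module.End.mem_invtSubmodule_iff_map_le, hf]
    exact hWinv
  have hWP : W ≤ perp W := fun w hw => (mem_perp W w).2 (fun u hu => hWti u hu w hw)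
  have hPi : perp W ∈ f.invtSubmodule := by
    rw [Module.End.mem_invtSubmodule_iff_map_le, hf]
    exact perp_invariant x hx W hWinv
  obtain ⟨D, hDi, hWD⟩ := (Module.End.isSemisimple_iff.1 hss) W hWi
  obtain ⟨W₂, hW₂i, hPW₂⟩ := (Module.End.isSemisimple_iff.1 hss) (perp W) hPi
  have hCi : perp W ⊓ D ∈ f.invtSubmodule := Module.End.invtSubmodule.inf_mem hPi hDi
  have hdisj : Disjoint W (perp W ⊓ D) := hWD.disjoint.mono_right inf_le_right
  have hsup : W ⊔ (perp W ⊓ D) = perp W := by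
    rw [inf_comm, ← sup_inf_assoc_of_le D hWP, hWD.sup_eq_top, top_inf_eq]
  have h1 := charpoly_eq_mul_of_isCompl f (perp W) W₂ hPi hW₂i hPW₂
  have h2 := charpoly_restrict_mul f (perp W) W (perp W ⊓ D) hPi hWi hCi hdisj hsup
  have hW₂dim : finrank F W₂ = m := by
    have h3 := Submodule.finrank_add_eq_of_isCompl hPW₂
    have h4 := finrank_perp W
    have h5 := Lagr.finrank_space (F := F) (d := d)
    have h6 := Lagr.finrank_le_of_ti W hWti
    omega
  obtain ⟨b, -⟩ : ∃ b : Module.Basis (Fin m) F W, True :=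
    ⟨Module.finBasisOfFinrankEq F W hWm, trivial⟩
  obtain ⟨Φ, hΦ⟩ : ∃ Φ : W₂ →ₗ[F] (Fin m → F), ∀ (w : W₂) (j : Fin m),
      Φ w j = sympForm d F (b j : Fin d ⊕ Fin d → F) (w : Fin d ⊕ Fin d → F) := by
    refine ⟨LinearMap.pi (fun j => (Helper13.sympBilin d F (b j : Fin d ⊕ Fin d → F)).comp
      W₂.subtype), fun w j => ?_⟩
    rw [LinearMap.pi_apply, LinearMap.comp_apply, Submodule.subtype_apply,
      Helper13.sympBilin_apply]
  have hΦinj : Function.Injective Φ := by
    rw [← LinearMap.ker_eq_bot, LinearMap.ker_eq_bot']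
    intro w hw
    have h3 : (w : Fin d ⊕ Fin d → F) ∈ perp W := by
      rw [mem_perp]
      intro u hu
      have h4 : (⟨u, hu⟩ : W) ∈ Submodule.span F (Set.range b) := by
        rw [b.span_eq]
        exact Submodule.mem_top
      have h5 : ∀ y : W, y ∈ Submodule.span F (Set.range b) →
          sympForm d F (y : Fin d ⊕ Fin d → F) (w : Fin d ⊕ Fin d → F) = 0 := by
        intro y hy
        induction hy using Submodule.span_induction with
        | mem y hy =>
          obtain ⟨j, rfl⟩ := hy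
          rw [← hΦ, hw]
          rfl
        | zero => exact Helper13.sympForm_zero_left d _
        | add y z _ _ hy hz =>
          rw [Submodule.coe_add, Helper13.sympForm_add_left, hy, hz, add_zero]
        | smul c y _ hy =>
          rw [Submodule.coe_smul, Helper13.sympForm_smul_left, hy, mul_zero]
      exact h5 _ h4
    have h5 : (w : Fin d ⊕ Fin d → F) ∈ perp W ⊓ W₂ := ⟨h3, w.2⟩
    rw [hPW₂.inf_eq_bot] at h5
    exact Subtype.ext ((Submodule.mem_bot F).1 h5)
  obtain ⟨Φe, hΦe⟩ : ∃ Φe : W₂ ≃ₗ[F] (Fin m → F), ∀ w, Φe w = Φ w :=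
    ⟨LinearMap.linearEquivOfInjective Φ hΦinj (by rw [hW₂dim, Module.finrank_fin_fun]),
      fun w => rfl⟩
  obtain ⟨b₂, hb₂⟩ : ∃ b₂ : Module.Basis (Fin m) F W₂, b₂ = Module.Basis.ofEquivFun Φe :=
    ⟨_, rfl⟩
  have hdual : ∀ j l, sympForm d F (b j : Fin d ⊕ Fin d → F) (b₂ l : Fin d ⊕ Fin d → F) =
      if j = l then 1 else 0 := by
    intro j l
    rw [← hΦ, ← hΦe, hb₂, Module.Basis.coe_ofEquivFun, LinearEquiv.apply_symm_apply,
      Pi.single_apply]
  obtain ⟨g, hg⟩ : ∃ g : Module.End F W, g = f.restrict (p := W) (q := W) hWi := ⟨_, rfl⟩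
  obtain ⟨g₂, hg₂⟩ : ∃ g₂ : Module.End F W₂, g₂ = f.restrict (p := W₂) (q := W₂) hW₂i :=
    ⟨_, rfl⟩
  obtain ⟨M, hM⟩ : ∃ M : Matrix (Fin m) (Fin m) F, M = LinearMap.toMatrix b b g := ⟨_, rfl⟩
  obtain ⟨M₂, hM₂⟩ : ∃ M₂ : Matrix (Fin m) (Fin m) F, M₂ = LinearMap.toMatrix b₂ b₂ g₂ :=
    ⟨_, rfl⟩
  have hgb : ∀ j, ((g (b j) : W) : Fin d ⊕ Fin d → F) =
      ∑ a', M a' j • (b a' : Fin d ⊕ Fin d → F) := by
    intro j
    have h3 : g (b j) = ∑ a', M a' j • b a' := by
      conv_lhs => rw [← Matrix.toLin_toMatrix b b g]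
      rw [hM]
      exact Matrix.toLin_self b b _ j
    rw [h3, Submodule.coe_sum]
    rfl
  have hgb₂ : ∀ l, ((g₂ (b₂ l) : W₂) : Fin d ⊕ Fin d → F) =
      ∑ c', M₂ c' l • (b₂ c' : Fin d ⊕ Fin d → F) := by
    intro l
    have h3 : g₂ (b₂ l) = ∑ c', M₂ c' l • b₂ c' := by
      conv_lhs => rw [← Matrix.toLin_toMatrix b₂ b₂ g₂]
      rw [hM₂]
      exact Matrix.toLin_self b₂ b₂ _ l
    rw [h3, Submodule.coe_sum]
    rfl
  have hMM : Mᵀ * M₂ = 1 := by
    ext j l
    have h3 : sympForm d F ((g (b j) : W) : Fin d ⊕ Fin d → F)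
        ((g₂ (b₂ l) : W₂) : Fin d ⊕ Fin d → F) =
        sympForm d F (b j : Fin d ⊕ Fin d → F) (b₂ l : Fin d ⊕ Fin d → F) := by
      rw [hg, hg₂]
      show sympForm d F (f (b j : Fin d ⊕ Fin d → F)) (f (b₂ l : Fin d ⊕ Fin d → F)) = _
      rw [hf]
      exact form_toLin x hx _ _
    rw [hgb, hgb₂, hdual, ← Helper13.sympBilin_apply] at h3
    simp only [map_sum, map_smul, LinearMap.sum_apply, LinearMap.smul_apply,
      Helper13.sympBilin_apply, hdual, smul_eq_mul] at h3
    rw [Matrix.mul_apply, Matrix.one_apply, ← h3]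
    apply Finset.sum_congr rfl
    intro a' _
    rw [Matrix.transpose_apply]
    simp [mul_comm]
  have hMr : M ^ r = 1 := by
    rw [hM, LinearMap.toMatrix_pow]
    have h3 : g ^ r = 1 := by
      apply LinearMap.ext
      intro w
      apply Subtype.ext
      rw [hg, Elusive.pow_restrict_apply, hfr]
      rfl
    rw [h3, LinearMap.toMatrix_one]
  obtain ⟨a₁, ha₁, hχ₁⟩ := charpoly_eq_chi hS M hMr
  have hχM : M.charpoly = (f.restrict (p := W) (q := W) hWi).charpoly := by
    rw [hM, LinearMap.charpoly_toMatrix, hg]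
  have hχM₂ : M₂.charpoly = (f.restrict (p := W₂) (q := W₂) hW₂i).charpoly := by
    rw [hM₂, LinearMap.charpoly_toMatrix, hg₂]
  have hχ₂ : M₂.charpoly = chi S (fun π => a₁ (dg π)) (m - i * ∑ π, a₁ π) := by
    have h3 := charpoly_inv_eq Mᵀ M₂ hMM
    rw [Matrix.charpoly_transpose, hχ₁] at h3
    rw [h3, ← dual_chi (RingHom.id F) dg hdd hdg]
    unfold dual
    rw [Polynomial.map_id, RingHom.id_apply]
  have hdvd : chi S a₁ (m - i * ∑ π, a₁ π) * chi S (fun π => a₁ (dg π)) (m - i * ∑ π, a₁ π) ∣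
      chi S a k₀ := by
    have h4 : chi S a k₀ = chi S a₁ (m - i * ∑ π, a₁ π) *
        (f.restrict (p := perp W ⊓ D) (q := perp W ⊓ D) hCi).charpoly *
        chi S (fun π => a₁ (dg π)) (m - i * ∑ π, a₁ π) := by
      rw [← hχ, ← Matrix.charpoly_toLin', ← hf, h1, h2, ← hχM, ← hχM₂, hχ₁, hχ₂]
    rw [h4]
    exact ⟨(f.restrict (p := perp W ⊓ D) (q := perp W ⊓ D) hCi).charpoly, by ring⟩
  have hle : ms S a₁ (m - i * ∑ π, a₁ π) + ms S (fun π => a₁ (dg π)) (m - i * ∑ π, a₁ π) ≤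
      ms S a k₀ := by
    rw [← nf_chi hS, ← nf_chi hS, ← nf_chi hS,
      ← UniqueFactorizationMonoid.normalizedFactors_mul (monic_chi hS _ _).ne_zero
        (monic_chi hS _ _).ne_zero]
    exact (UniqueFactorizationMonoid.dvd_iff_normalizedFactors_le_normalizedFactors
      (mul_ne_zero (monic_chi hS _ _).ne_zero (monic_chi hS _ _).ne_zero)
      (monic_chi hS _ _).ne_zero).1 hdvd
  refine ⟨a₁, ha₁, fun π => ?_, ?_⟩
  · have h3 := Multiset.count_le_of_le π.1 hle
    rw [Multiset.count_add, count_ms hS, count_ms hS, count_ms hS] at h3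
    exact h3
  · have h3 := Multiset.count_le_of_le (X - C 1 : F[X]) hle
    rw [Multiset.count_add, count_ms_one hS, count_ms_one hS, count_ms_one hS] at h3
    omega

end flag

section model

open Cfsg.Agent.Lib.Helper40.PrimeOrderGL Cfsg.Agent.Lib.Helper40.DualPoly
  Cfsg.Agent.Lib.Helper40.SpExist Cfsg.Agent.Lib.Helper40.SympWall
  Cfsg.Agent.Lib.Helper40.GUPrimeOrder

variable {F : Type u} [Field F] [Fintype F]

theorem hyp_mem {m : ℕ} (A A' : Matrix (Fin m) (Fin m) F) (h : A * A' = 1) :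
    Matrix.fromBlocks A 0 0 A'ᵀ ∈ Matrix.symplecticGroup (Fin m) F := by
  have h' : A'ᵀ * Aᵀ = 1 := by rw [← Matrix.transpose_mul, h, Matrix.transpose_one]
  rw [SymplecticGroup.mem_iff, Matrix.J, Matrix.fromBlocks_transpose, Matrix.fromBlocks_multiply,
    Matrix.fromBlocks_multiply]
  simp only [Matrix.mul_zero, Matrix.zero_mul, add_zero, zero_add, Matrix.mul_one,
    Matrix.mul_neg, Matrix.neg_mul, Matrix.transpose_zero, Matrix.transpose_transpose, neg_zero,
    h, h']

/-- A symplectic element of order `r` whose multiplicities split off a hyperbolic part fixes a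
totally isotropic subspace. -/
theorem exists_ti_of_split (p : ℕ) [Fact p.Prime] [CharP F p] {S : Finset F[X]} {r i : ℕ}
    (hS : Factors S r i) (hr : r.Prime) (hr2 : r ≠ 2) (hrF : (r : F) ≠ 0)
    (dg : S → S) (hdg : ∀ π : S, (dg π : F[X]) = dual (RingHom.id F) π.1)
    (hdd : ∀ π, dg (dg π) = π) {d m : ℕ} (hmd : m ≤ d)
    (y : Matrix (Fin d ⊕ Fin d) (Fin d ⊕ Fin d) F)
    (hy : y ∈ Matrix.symplecticGroup (Fin d) F) (hyr : y ^ r = 1)
    (a : S → ℕ) (hsym : ∀ π, a (dg π) = a π) (hle : i * ∑ π, a π ≤ 2 * d)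
    (hχ : y.charpoly = chi S a (2 * d - i * ∑ π, a π))
    (a₁ : S → ℕ) (h1 : i * ∑ π, a₁ π ≤ m) (h2 : ∀ π, a₁ π + a₁ (dg π) ≤ a π)
    (h3 : 2 * (m - i * ∑ π, a₁ π) + i * ∑ π, a π ≤ 2 * d) :
    ∃ W : Submodule F (Fin d ⊕ Fin d → F), finrank F W = m ∧
      (∀ u ∈ W, ∀ v ∈ W, sympForm d F u v = 0) ∧ W.map (Matrix.toLin' y) ≤ W := by
  classical
  obtain ⟨g, hgr, hgχ⟩ := exists_GL_chi (n := m) p hS hr.pos a₁ h1
  obtain ⟨A, hA⟩ : ∃ A : Matrix (Fin m) (Fin m) F, A = (g : Matrix (Fin m) (Fin m) F) :=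
    ⟨_, rfl⟩
  obtain ⟨A', hA'⟩ : ∃ A' : Matrix (Fin m) (Fin m) F,
      A' = ((g⁻¹ : GL (Fin m) F) : Matrix (Fin m) (Fin m) F) := ⟨_, rfl⟩
  have hAA' : A * A' = 1 := by
    rw [hA, hA', ← Units.val_mul, mul_inv_cancel, Units.val_one]
  have hAr : A ^ r = 1 := by
    rw [hA, ← Units.val_pow_eq_pow_val, hgr, Units.val_one]
  have hA'r : A' ^ r = 1 := by
    rw [hA', ← Units.val_pow_eq_pow_val, inv_pow, hgr, inv_one, Units.val_one]
  obtain ⟨e, he⟩ : ∃ e : S ≃ S, ∀ π, e π = dg π := ⟨⟨dg, dg, hdd, hdd⟩, fun _ => rfl⟩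
  have hsumdg : ∑ π, a₁ (dg π) = ∑ π, a₁ π := by
    rw [← Equiv.sum_comp e a₁]
    exact Finset.sum_congr rfl (fun π _ => by rw [he π])
  obtain ⟨a₂, ha₂⟩ : ∃ a₂ : S → ℕ, a₂ = fun π => a π - a₁ π - a₁ (dg π) := ⟨_, rfl⟩
  have ha₂pt : ∀ π, a₁ π + a₁ (dg π) + a₂ π = a π := by
    intro π
    have h4 := h2 π
    rw [ha₂]
    show a₁ π + a₁ (dg π) + (a π - a₁ π - a₁ (dg π)) = a π
    omega
  have ha₂sym : ∀ π, a₂ (dg π) = a₂ π := by
    intro π
    have h4 := ha₂pt π
    have h5 := ha₂pt (dg π)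
    rw [hdd, hsym] at h5
    omega
  have hsum : ∑ π, a π = ∑ π, a₁ π + ∑ π, a₁ π + ∑ π, a₂ π := by
    have h4 : ∑ π, a π = ∑ π, (a₁ π + a₁ (dg π) + a₂ π) :=
      Finset.sum_congr rfl (fun π _ => (ha₂pt π).symm)
    rw [h4, Finset.sum_add_distrib, Finset.sum_add_distrib, hsumdg]
  have h6 : i * ∑ π, a π = i * ∑ π, a₁ π + i * ∑ π, a₁ π + i * ∑ π, a₂ π := by
    rw [hsum]
    ring
  have hle₂ : i * ∑ π, a₂ π ≤ 2 * (d - m) := by omega
  obtain ⟨g₂, hg₂r, hg₂χ⟩ := SpImprim.exists_sp_chi p hS hr hr2 dg hdg (d - m) a₂ ha₂sym hle₂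
  obtain ⟨ε, -⟩ : ∃ ε : Fin m ⊕ Fin (d - m) ≃ Fin d, True :=
    ⟨finSumFinEquiv.trans (finCongr (by omega)), trivial⟩
  obtain ⟨E, hE⟩ : ∃ E : (Fin m ⊕ Fin m) ⊕ (Fin (d - m) ⊕ Fin (d - m)) ≃ Fin d ⊕ Fin d,
      E = Helper13.splitIdx ε := ⟨_, rfl⟩
  obtain ⟨H, hH⟩ : ∃ H : Matrix (Fin m ⊕ Fin m) (Fin m ⊕ Fin m) F,
      H = Matrix.fromBlocks A 0 0 A'ᵀ := ⟨_, rfl⟩
  have hHmem : H ∈ Matrix.symplecticGroup (Fin m) F := by
    rw [hH]
    exact hyp_mem A A' hAA'
  obtain ⟨Y₀, hY₀⟩ : ∃ Y₀ : Matrix ((Fin m ⊕ Fin m) ⊕ (Fin (d - m) ⊕ Fin (d - m)))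
      ((Fin m ⊕ Fin m) ⊕ (Fin (d - m) ⊕ Fin (d - m))) F,
      Y₀ = Matrix.fromBlocks H 0 0 g₂.1 := ⟨_, rfl⟩
  obtain ⟨Y, hY⟩ : ∃ Y : Matrix (Fin d ⊕ Fin d) (Fin d ⊕ Fin d) F,
      Y = Matrix.reindexAlgEquiv F F E Y₀ := ⟨_, rfl⟩
  have hYre : Y = Matrix.reindex E E Y₀ := by
    rw [hY, Matrix.coe_reindexAlgEquiv]
  have hYsub : Y = Y₀.submatrix E.symm E.symm := by
    rw [hYre]
    rfl
  have hJ : Matrix.J (Fin d) F = (Matrix.fromBlocks (Matrix.J (Fin m) F) 0 0
      (Matrix.J (Fin (d - m)) F)).submatrix E.symm E.symm := by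
    rw [← Helper13.J_submatrix_splitIdx (F := F) ε, hE, Matrix.submatrix_submatrix]
    simp
  have hYmem : Y ∈ Matrix.symplecticGroup (Fin d) F := by
    rw [SymplecticGroup.mem_iff, hYsub, Matrix.transpose_submatrix]
    conv_lhs => rw [hJ]
    conv_rhs => rw [hJ]
    rw [Matrix.submatrix_mul_equiv, Matrix.submatrix_mul_equiv, hY₀, Matrix.fromBlocks_transpose,
      Matrix.fromBlocks_multiply, Matrix.fromBlocks_multiply]
    simp only [Matrix.mul_zero, Matrix.zero_mul, add_zero, zero_add, Matrix.transpose_zero]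
    rw [SymplecticGroup.mem_iff.1 hHmem, SymplecticGroup.mem_iff.1 g₂.2]
  have hYr : Y ^ r = 1 := by
    rw [hY, ← map_pow, hY₀, Matrix.fromBlocks_diagonal_pow, hg₂r, hH,
      Matrix.fromBlocks_diagonal_pow, hAr, ← Matrix.transpose_pow, hA'r, Matrix.transpose_one,
      Matrix.fromBlocks_one, Matrix.fromBlocks_one, map_one]
  have hχA : A.charpoly = chi S a₁ (m - i * ∑ π, a₁ π) := by
    rw [hA]
    exact hgχ
  have hχA' : A'.charpoly = chi S (fun π => a₁ (dg π)) (m - i * ∑ π, a₁ π) := by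
    have h7 := charpoly_inv_eq A A' hAA'
    rw [hχA] at h7
    rw [h7, ← dual_chi (RingHom.id F) dg hdd hdg]
    unfold dual
    rw [Polynomial.map_id, RingHom.id_apply]
  have hYχ : Y.charpoly = y.charpoly := by
    rw [hYre, Matrix.charpoly_reindex, hY₀, Matrix.charpoly_fromBlocks_zero₁₂, hH,
      Matrix.charpoly_fromBlocks_zero₁₂, Matrix.charpoly_transpose, hg₂χ, hχ, hχA, hχA']
    unfold chi
    have hk : 2 * d - i * ∑ π, a π = (m - i * ∑ π, a₁ π) + (m - i * ∑ π, a₁ π) +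
        (2 * (d - m) - i * ∑ π, a₂ π) := by omega
    rw [hk, pow_add, pow_add]
    have hp : ∀ π : S, π.1 ^ a π = π.1 ^ a₁ π * π.1 ^ a₁ (dg π) * π.1 ^ a₂ π := by
      intro π
      rw [← pow_add, ← pow_add, ha₂pt]
    rw [Finset.prod_congr rfl (fun π _ => hp π), Finset.prod_mul_distrib,
      Finset.prod_mul_distrib]
    ring
  obtain ⟨yg, hyg⟩ : ∃ yg : ↥(Matrix.symplecticGroup (Fin d) F), yg.1 = y := ⟨⟨y, hy⟩, rfl⟩
  obtain ⟨Yg, hYg⟩ : ∃ Yg : ↥(Matrix.symplecticGroup (Fin d) F), Yg.1 = Y :=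
    ⟨⟨Y, hYmem⟩, rfl⟩
  have hygr : yg ^ r = 1 := by
    apply Subtype.ext
    rw [SubmonoidClass.coe_pow, hyg, hyr]
    rfl
  have hYgr : Yg ^ r = 1 := by
    apply Subtype.ext
    rw [SubmonoidClass.coe_pow, hYg, hYr]
    rfl
  have hconj := sp_conj_of_charpoly yg Yg r r hrF hrF hygr hYgr (by rw [hyg, hYg, hYχ])
  obtain ⟨P, hP⟩ := isConj_iff.1 hconj
  obtain ⟨Q, hQ⟩ : ∃ Q : Matrix (Fin d ⊕ Fin d) (Fin d ⊕ Fin d) F, Q = (P⁻¹).1 := ⟨_, rfl⟩
  have hQmem : Q ∈ Matrix.symplecticGroup (Fin d) F := by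
    rw [hQ]
    exact (P⁻¹).2
  have hyQ : y * Q = Q * Y := by
    have h7 : yg * P⁻¹ = P⁻¹ * Yg := by
      rw [← hP]
      group
    have h8 := congrArg Subtype.val h7
    rw [← hyg, ← hYg, hQ]
    exact h8
  obtain ⟨φ, hφ⟩ : ∃ φ : (Fin m → F) →ₗ[F] (Fin d ⊕ Fin d → F), ∀ a',
      φ a' = (Sum.elim (Sum.elim a' (0 : Fin m → F))
        (0 : Fin (d - m) ⊕ Fin (d - m) → F)) ∘ E.symm := by
    refine ⟨{ toFun := fun a' => (Sum.elim (Sum.elim a' (0 : Fin m → F))
        (0 : Fin (d - m) ⊕ Fin (d - m) → F)) ∘ E.symm, map_add' := ?_, map_smul' := ?_ },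
      fun _ => rfl⟩
    · intro u v
      funext k
      rcases hk : E.symm k with (s | s) | s <;> simp [hk]
    · intro c u
      funext k
      rcases hk : E.symm k with (s | s) | s <;> simp [hk]
  have hφE : ∀ a', φ a' ∘ E = Sum.elim (Sum.elim a' (0 : Fin m → F))
      (0 : Fin (d - m) ⊕ Fin (d - m) → F) := by
    intro a'
    rw [hφ]
    funext s
    simp
  have hφinj : Function.Injective φ := by
    intro u v huv
    funext j
    have h7 : (φ u ∘ E) (Sum.inl (Sum.inl j)) = (φ v ∘ E) (Sum.inl (Sum.inl j)) := by rw [huv]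
    rw [hφE, hφE] at h7
    exact h7
  have hYmul : ∀ v : Fin d ⊕ Fin d → F, (Y *ᵥ v) ∘ E = Y₀ *ᵥ (v ∘ E) := by
    intro v
    rw [hYsub, Matrix.submatrix_mulVec_equiv]
    funext s
    simp
  have hYφ : ∀ a', Y *ᵥ φ a' = φ (A *ᵥ a') := by
    intro a'
    have h9 : (Y *ᵥ φ a') ∘ E = φ (A *ᵥ a') ∘ E := by
      rw [hYmul, hφE, hφE, hY₀, Matrix.fromBlocks_mulVec, hH]
      simp [Matrix.fromBlocks_mulVec]
    funext k
    obtain ⟨s, rfl⟩ := E.surjective k
    exact congrFun h9 s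
  have hφinr : ∀ a' (k : Fin d), φ a' (Sum.inr k) = 0 := by
    intro a' k
    rw [hφ]
    obtain ⟨s, hs⟩ := E.surjective (Sum.inr k)
    rw [← hs]
    rcases s with (j | j) | (j | j)
    · exfalso
      rw [hE] at hs
      simp [Helper13.splitIdx] at hs
    · simp
    · exfalso
      rw [hE] at hs
      simp [Helper13.splitIdx] at hs
    · simp
  have hφti : ∀ u v, sympForm d F (φ u) (φ v) = 0 := by
    intro u v
    rw [Helper13.sympForm_eq]
    apply Finset.sum_eq_zero
    intro k _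
    rw [hφinr u k, hφinr v k, zero_mul, mul_zero, sub_zero]
  refine ⟨LinearMap.range ((Matrix.toLin' Q).comp φ), ?_, ?_, ?_⟩
  · rw [LinearMap.finrank_range_of_inj (f := (Matrix.toLin' Q).comp φ)
      (fun u v h => hφinj (toLin_injective Q hQmem h)), Module.finrank_fin_fun]
  · rintro _ ⟨u, rfl⟩ _ ⟨v, rfl⟩
    rw [LinearMap.comp_apply, LinearMap.comp_apply, form_toLin Q hQmem]
    exact hφti u v
  · rintro _ ⟨_, ⟨u, rfl⟩, rfl⟩
    refine ⟨A *ᵥ u, ?_⟩
    rw [LinearMap.comp_apply, LinearMap.comp_apply, ← hYφ, ← Matrix.toLin'_apply Y,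
      ← Matrix.toLin'_mul_apply, ← Matrix.toLin'_mul_apply, hyQ]

end model

section final

open Cfsg.Agent.Lib.Helper40.PrimeOrderGL Cfsg.Agent.Lib.Helper40.DualPoly
  Cfsg.Agent.Lib.Helper40.SpExist Cfsg.Agent.Lib.Helper40.SympWall
  Cfsg.Agent.Lib.Helper40.GUPrimeOrder

variable {F : Type u} [Field F] [Fintype F]

theorem factors_unique {S S' : Finset F[X]} {r i i' : ℕ} (hS : Factors S r i)
    (hS' : Factors S' r i') : S = S' := by
  ext π
  constructor
  · intro h
    rcases hS'.cover π (hS.monic π h) (hS.irred π h) (hS.dvd π h) with h1 | h1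
    · exact absurd (h1 ▸ h) hS.notMem
    · exact h1
  · intro h
    rcases hS.cover π (hS'.monic π h) (hS'.irred π h) (hS'.dvd π h) with h1 | h1
    · exact absurd (h1 ▸ h) hS'.notMem
    · exact h1

theorem card_factors {p q : ℕ} [Fact p.Prime] [CharP F p] (hq : Fintype.card F = q)
    {S : Finset F[X]} {r i : ℕ} [Fact r.Prime] (hrp : r ≠ p) (hi : i = orderOf (q : ZMod r))
    (hS : Factors S r i) : S.card * i = r - 1 := by
  classical
  have hr : r.Prime := Fact.out
  have hq0 : (q : ZMod r) ≠ 0 := Subf5.natCast_card_ne_zero hq r hrp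
  have h1 := orderOf_dvd_of_pow_eq_one (ZMod.pow_card_sub_one_eq_one hq0)
  rw [← hi] at h1
  obtain ⟨S', hS', hcard, -⟩ := GUPrimeOrder.exists_factors hq r i ((r - 1) / i) hr hrp hi
    (Nat.div_mul_cancel h1)
  rw [factors_unique hS hS', hcard]
  exact Nat.div_mul_cancel h1

theorem exists_half {T : Type*} [Fintype T] [DecidableEq T] (τ : T → T)
    (hτ2 : ∀ x, τ (τ x) = x) (a : T → ℕ) (ha : ∀ x, a (τ x) = a x) :
    ((∀ x, τ x = x) → ∃ h : T → ℕ, (∀ x, h x + h (τ x) ≤ a x) ∧ ∀ x, h x = a x / 2) ∧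
    ((∀ x, τ x ≠ x) → ∃ h : T → ℕ, (∀ x, h x + h (τ x) ≤ a x) ∧ 2 * ∑ x, h x = ∑ x, a x) := by
  classical
  constructor
  · intro hid
    refine ⟨fun x => a x / 2, fun x => ?_, fun x => rfl⟩
    show a x / 2 + a (τ x) / 2 ≤ a x
    rw [hid x]
    omega
  · intro hne
    obtain ⟨P, hP⟩ : ∃ P : T → Prop, ∀ x, P (τ x) ↔ ¬ P x := by
      refine ⟨fun x => Fintype.equivFin T x < Fintype.equivFin T (τ x), ?_⟩
      intro x
      have h1 : Fintype.equivFin T (τ x) ≠ Fintype.equivFin T x :=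
        fun h => hne x ((Fintype.equivFin T).injective h)
      show Fintype.equivFin T (τ x) < Fintype.equivFin T (τ (τ x)) ↔
        ¬ Fintype.equivFin T x < Fintype.equivFin T (τ x)
      rw [hτ2 x, not_lt]
      exact ⟨le_of_lt, fun h => lt_of_le_of_ne h h1⟩
    obtain ⟨mp, hmp⟩ : ∃ mp : T → ℕ, mp = fun x => if P x then a x else 0 := ⟨_, rfl⟩
    have hpt : ∀ x, mp x + mp (τ x) = a x := by
      intro x
      rw [hmp]
      by_cases hx : P x
      · have hx' : ¬ P (τ x) := fun h => (hP x).1 h hx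
        show (if P x then a x else 0) + (if P (τ x) then a (τ x) else 0) = a x
        rw [if_pos hx, if_neg hx', add_zero]
      · have hx' : P (τ x) := (hP x).2 hx
        show (if P x then a x else 0) + (if P (τ x) then a (τ x) else 0) = a x
        rw [if_neg hx, if_pos hx', zero_add, ha x]
    obtain ⟨e, he⟩ : ∃ e : T ≃ T, ∀ x, e x = τ x := ⟨⟨τ, τ, hτ2, hτ2⟩, fun _ => rfl⟩
    have hsumτ : ∑ x, mp (τ x) = ∑ x, mp x := by
      rw [← Equiv.sum_comp e mp]
      exact Finset.sum_congr rfl (fun x _ => by rw [he x])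
    refine ⟨mp, fun x => (hpt x).le, ?_⟩
    have h3 : ∑ x, a x = ∑ x, mp x + ∑ x, mp (τ x) := by
      rw [← Finset.sum_add_distrib]
      exact Finset.sum_congr rfl (fun x _ => (hpt x).symm)
    rw [h3, hsumτ, two_mul]

/-- Symplectic elements of order `r` with prescribed characteristic polynomial. -/
theorem exists_sp_test (p : ℕ) [Fact p.Prime] [CharP F p] {S : Finset F[X]} {r i : ℕ}
    (hS : Factors S r i) (hr : r.Prime) (hr2 : r ≠ 2) (hrF : (r : F) ≠ 0)
    (dg : S → S) (hdg : ∀ π : S, (dg π : F[X]) = dual (RingHom.id F) π.1) (d : ℕ)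
    (a : S → ℕ) (ha : ∀ π, a (dg π) = a π) (hle : i * ∑ π, a π ≤ 2 * d)
    (hpos : 0 < i * ∑ π, a π) :
    ∃ x : ↥(Matrix.symplecticGroup (Fin d) F), x.1 ^ r = 1 ∧
      x.1.charpoly = chi S a (2 * d - i * ∑ π, a π) ∧
      ∀ z : F, x.1 ≠ z • (1 : Matrix (Fin d ⊕ Fin d) (Fin d ⊕ Fin d) F) := by
  classical
  obtain ⟨x, hxr, hχ⟩ := SpImprim.exists_sp_chi p hS hr hr2 dg hdg d a ha hle
  have hfix := SpImprim.finrank_fix_of_chi hS hrF x.1 hxr a _ hχ
  refine ⟨x, hxr, hχ, ?_⟩
  intro z hz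
  have hd0 : 0 < d := by omega
  have h1 : z * z = 1 := SpImprim.scalar_sq hd0 z (hz ▸ x.2)
  have h2 : z ^ r = 1 := SpImprim.scalar_pow hd0 z r (hz ▸ hxr)
  have h3 : z = 1 := by
    have h4 : z ^ 2 = 1 := by rw [pow_two, h1]
    have h5 := pow_gcd_eq_one.2 ⟨h2, h4⟩
    have h6 : Nat.gcd r 2 = 1 := by
      have h7 : Nat.Coprime r 2 := (Nat.Prime.coprime_iff_not_dvd hr).2 (fun h8 =>
        hr2 ((Nat.prime_dvd_prime_iff_eq hr Nat.prime_two).1 h8))
      exact h7
    rwa [h6, pow_one] at h5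
  rw [h3, one_smul] at hz
  have h7 : SpImprim.fixS (Matrix.toLin' x.1) = ⊤ := by
    rw [eq_top_iff]
    intro v _
    rw [SpImprim.mem_fixS, hz, Matrix.toLin'_one]
    rfl
  rw [h7, finrank_top, Module.finrank_pi, Fintype.card_sum, Fintype.card_fin] at hfix
  omega

/-- The case of odd primes different from the characteristic. -/
theorem main_odd {p q : ℕ} [Fact p.Prime] [CharP F p] (hq : Fintype.card F = q) (d m : ℕ)
    (hm : 1 ≤ m) (hmd : m ≤ d) (r : ℕ) [Fact r.Prime] (hr2 : r ≠ 2) (hrp : r ≠ p)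
    (hrΩ : r ∣ Nat.card {W : Submodule F (Fin d ⊕ Fin d → F) //
      finrank F W = m ∧ ∀ u ∈ W, ∀ v ∈ W, sympForm d F u v = 0})
    (i c : ℕ) (hi : i = orderOf (q : ZMod r)) (hc : c = if Even i then i else 2 * i) :
    (∀ x : ↥(Matrix.symplecticGroup (Fin d) F),
      (∃ z : F, ((x ^ r : ↥(Matrix.symplecticGroup (Fin d) F)) :
        Matrix (Fin d ⊕ Fin d) (Fin d ⊕ Fin d) F) =
          z • (1 : Matrix (Fin d ⊕ Fin d) (Fin d ⊕ Fin d) F)) →
      (∀ z : F, (x : Matrix (Fin d ⊕ Fin d) (Fin d ⊕ Fin d) F) ≠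
        z • (1 : Matrix (Fin d ⊕ Fin d) (Fin d ⊕ Fin d) F)) →
      ∃ W : Submodule F (Fin d ⊕ Fin d → F), finrank F W = m ∧
        (∀ u ∈ W, ∀ v ∈ W, sympForm d F u v = 0) ∧
        W.map (Matrix.toLin' (x : Matrix (Fin d ⊕ Fin d) (Fin d ⊕ Fin d) F)) ≤ W) ↔
    (i ≤ m ∧ 2 * (m % i) ≤ (2 * d) % c ∧
      (Odd i ∨ (r - 1) / i + 2 * (m / i) ≤ (2 * d) / i)) := by
  classical
  have hr : r.Prime := Fact.out
  obtain ⟨S, dg, hS, hne, hdg, hdd, hdev, hdodd⟩ := SpImprim.exists_data hq r hr2 hrp i hi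
  have hrF : (r : F) ≠ 0 := Elusive.natCast_ne_zero_of_ne r hrp
  have hi0 : 0 < i := by
    rw [hi]
    exact Elusive.orderOf_pos_of_ne hq r hrp
  have hcard := card_factors hq hrp hi hS
  have ht : (r - 1) / i = Fintype.card S := by
    rw [← hcard, Nat.mul_div_cancel _ hi0, Fintype.card_coe]
  have hd0 : 0 < d := by omega
  obtain ⟨π₀, hπ₀⟩ := hne
  obtain ⟨P₀, -⟩ : ∃ P₀ : S, P₀ = ⟨π₀, hπ₀⟩ := ⟨_, rfl⟩
  have hpar : ((∀ π, dg π = π) ∧ c = i) ∨ ((∀ π, dg π ≠ π) ∧ c = 2 * i) := by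
    by_cases hev : Even i
    · left
      exact ⟨hdev hev, by rw [hc, if_pos hev]⟩
    · right
      exact ⟨hdodd (Nat.not_even_iff_odd.1 hev), by rw [hc, if_neg hev]⟩
  have hc0 : 0 < c := by
    rcases hpar with ⟨-, h⟩ | ⟨-, h⟩ <;> omega
  have hci : c ≤ 2 * i := by
    rcases hpar with ⟨-, h⟩ | ⟨-, h⟩ <;> omega
  have hcdvd : ∀ N : ℕ, Even N → i ∣ N → c ∣ N := by
    intro N hN hiN
    rcases hpar with ⟨-, h⟩ | ⟨hfpf, h⟩
    · rw [h]
      exact hiN
    · rw [h]
      have hodd : Odd i := by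
        by_contra hev
        rw [Nat.not_odd_iff_even] at hev
        exact hfpf P₀ (hdev hev _)
      exact Nat.Coprime.mul_dvd_of_dvd_of_dvd (Nat.coprime_two_left.2 hodd) hN.two_dvd hiN
  obtain ⟨j, hjm, hj⟩ := exists_of_dvd_ti r m hmd hrΩ
  rw [hq, ← hi] at hj
  have hcj : c ∣ 2 * (d - j) := hcdvd _ (even_two_mul _) hj
  have hk2 : (2 * d) % c + 2 ≤ 2 * m := by
    obtain ⟨u, hu⟩ := hcj
    have h1 : 2 * d = 2 * j + c * u := by omega
    have h2 : (2 * d) % c = (2 * j) % c := by rw [h1, Nat.add_mul_mod_self_left]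
    have h3 := Nat.mod_le (2 * j) c
    omega
  have hc2d : c ≤ 2 * d := by
    have h1 := Nat.le_of_dvd (by omega) hcj
    omega
  have hmodlt := Nat.mod_lt (2 * d) hc0
  constructor
  · intro h
    obtain ⟨a, hasym, hasum⟩ : ∃ a : S → ℕ, (∀ π, a (dg π) = a π) ∧
        i * ∑ π, a π = c * ((2 * d) / c) := by
      rcases hpar with ⟨hid, hci'⟩ | ⟨hfpf, hci'⟩
      · refine ⟨fun π => if π = P₀ then (2 * d) / c else 0, fun π => by rw [hid π], ?_⟩
        rw [Finset.sum_ite_eq' Finset.univ P₀, if_pos (Finset.mem_univ _), hci']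
      · refine ⟨fun π => (if π = P₀ then (2 * d) / c else 0) +
          (if π = dg P₀ then (2 * d) / c else 0), ?_, ?_⟩
        · intro π
          beta_reduce
          have h1 : (dg π = P₀) ↔ (π = dg P₀) :=
            ⟨fun h => by rw [← h, hdd], fun h => by rw [h, hdd]⟩
          have h2 : (dg π = dg P₀) ↔ (π = P₀) :=
            ⟨fun h => by rw [← hdd π, h, hdd], fun h => by rw [h]⟩
          rw [if_congr h1 rfl rfl, if_congr h2 rfl rfl, add_comm]
        · rw [Finset.sum_add_distrib, Finset.sum_ite_eq' Finset.univ P₀,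
            Finset.sum_ite_eq' Finset.univ (dg P₀), if_pos (Finset.mem_univ _),
            if_pos (Finset.mem_univ _), hci']
          ring
    have hle : i * ∑ π, a π ≤ 2 * d := by
      rw [hasum]
      exact Nat.mul_div_le _ _
    have hpos : 0 < i * ∑ π, a π := by
      rw [hasum]
      exact Nat.mul_pos hc0 (Nat.div_pos hc2d hc0)
    obtain ⟨x₁, hx₁r, hx₁χ, hx₁ns⟩ := exists_sp_test p hS hr hr2 hrF dg hdg d a hasym hle hpos
    obtain ⟨W, hWm, hWti, hWinv⟩ := h x₁
      ⟨1, by rw [SubmonoidClass.coe_pow, hx₁r, one_smul]⟩ hx₁ns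
    obtain ⟨a₁, h1, -, h3⟩ := flag hS hrF dg hdg hdd x₁.1 x₁.2 hx₁r a _ hx₁χ W m hWm hWti hWinv
    have hk₀ : 2 * d - i * ∑ π, a π = (2 * d) % c := by
      rw [hasum]
      have := Nat.div_add_mod (2 * d) c
      omega
    rw [hk₀] at h3
    have hmod : m % i = m - i * ∑ π, a₁ π := by
      have h4 : m = (m - i * ∑ π, a₁ π) + i * ∑ π, a₁ π := by omega
      have h5 : m - i * ∑ π, a₁ π < i := by omega
      conv_lhs => rw [h4]
      rw [Nat.add_mul_mod_self_left, Nat.mod_eq_of_lt h5]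
    have hk : 2 * (m % i) ≤ (2 * d) % c := by
      rw [hmod]
      exact h3
    have him : i ≤ m := by
      by_contra hlt
      have h4 : m % i = m := Nat.mod_eq_of_lt (by omega)
      omega
    refine ⟨him, hk, ?_⟩
    by_contra hcon
    push Not at hcon
    obtain ⟨hnodd, hlt⟩ := hcon
    have hev : Even i := Nat.not_odd_iff_even.1 hnodd
    have hid := hdev hev
    have hci' : c = i := by rw [hc, if_pos hev]
    have hm'1 : 1 ≤ m / i := Nat.div_pos him hi0
    have hMi := Nat.mul_div_le m i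
    have hNi := Nat.div_add_mod (2 * d) i
    have hn' : 2 * (m / i) ≤ (2 * d) / i := by
      rw [Nat.le_div_iff_mul_le hi0]
      calc 2 * (m / i) * i = 2 * (i * (m / i)) := by ring
        _ ≤ 2 * d := by omega
    obtain ⟨O, hOsub, hOcard⟩ := Finset.exists_subset_card_eq
      (s := (Finset.univ : Finset S).erase P₀) (n := (2 * d) / i - 2 * (m / i)) (by
        rw [Finset.card_erase_of_mem (Finset.mem_univ _), Finset.card_univ, ← ht]
        omega)
    have hP₀O : P₀ ∉ O := fun h => (Finset.mem_erase.1 (hOsub h)).1 rfl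
    obtain ⟨b, hb⟩ : ∃ b : S → ℕ, b = fun π => (if π = P₀ then 2 * (m / i) - 1 else 0) +
        (if π ∈ O then 1 else 0) := ⟨_, rfl⟩
    have hbsum : ∑ π, b π = (2 * d) / i - 1 := by
      rw [hb, Finset.sum_add_distrib, Finset.sum_ite_eq' Finset.univ P₀,
        if_pos (Finset.mem_univ _), Finset.sum_boole, Finset.filter_mem_eq_inter,
        Finset.univ_inter, hOcard]
      simp only [Nat.cast_id]
      omega
    have hbsym : ∀ π, b (dg π) = b π := fun π => by rw [hid π]
    have hble : i * ∑ π, b π ≤ 2 * d := by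
      rw [hbsum]
      exact (Nat.mul_le_mul_left i (Nat.sub_le _ _)).trans (Nat.mul_div_le _ _)
    have hbpos : 0 < i * ∑ π, b π := by
      rw [hbsum]
      exact Nat.mul_pos hi0 (by omega)
    obtain ⟨x₂, hx₂r, hx₂χ, hx₂ns⟩ :=
      exists_sp_test p hS hr hr2 hrF dg hdg d b hbsym hble hbpos
    obtain ⟨W₂, hW₂m, hW₂ti, hW₂inv⟩ := h x₂
      ⟨1, by rw [SubmonoidClass.coe_pow, hx₂r, one_smul]⟩ hx₂ns
    obtain ⟨b₁, g1, g2, g3⟩ :=
      flag hS hrF dg hdg hdd x₂.1 x₂.2 hx₂r b _ hx₂χ W₂ m hW₂m hW₂ti hW₂inv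
    have hb₁0 : ∀ π, π ≠ P₀ → b₁ π = 0 := by
      intro π hπ
      have h4 := g2 π
      rw [hid π, hb] at h4
      beta_reduce at h4
      have h5 : (if π = P₀ then 2 * (m / i) - 1 else 0) + (if π ∈ O then 1 else 0) ≤ 1 := by
        rw [if_neg hπ]
        split_ifs <;> omega
      have h6 : b₁ π + b₁ π ≤ 1 := h4.trans h5
      omega
    have hb₁P : b₁ P₀ ≤ m / i - 1 := by
      have h4 := g2 P₀
      rw [hid P₀, hb] at h4
      beta_reduce at h4
      have h5 : (if P₀ = P₀ then 2 * (m / i) - 1 else 0) + (if P₀ ∈ O then 1 else 0) =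
          2 * (m / i) - 1 := by
        rw [if_pos rfl, if_neg hP₀O, add_zero]
      have h6 : b₁ P₀ + b₁ P₀ ≤ 2 * (m / i) - 1 := h4.trans h5.le
      omega
    have hb₁sum : ∑ π, b₁ π = b₁ P₀ :=
      Finset.sum_eq_single P₀ (fun π _ hπ => hb₁0 π hπ)
        (fun h => absurd (Finset.mem_univ _) h)
    rw [hb₁sum] at g1 g3
    rw [hbsum] at g3
    have h7 : i * b₁ P₀ ≤ i * (m / i - 1) := Nat.mul_le_mul_left i hb₁P
    have h8 : i * (m / i - 1) = i * (m / i) - i := by
      rw [Nat.mul_sub, mul_one]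
    have h9 : i * ((2 * d) / i - 1) = i * ((2 * d) / i) - i := by
      rw [Nat.mul_sub, mul_one]
    have h10 : i ≤ i * (m / i) := Nat.le_mul_of_pos_right i (by omega)
    have h11 : i ≤ i * ((2 * d) / i) := Nat.le_mul_of_pos_right i (by omega)
    have h12 := Nat.mod_lt (2 * d) hi0
    rw [h9] at g3
    omega
  · rintro ⟨him, hk, hodd⟩ x ⟨z, hz⟩ hns
    have hzmem : z • (1 : Matrix (Fin d ⊕ Fin d) (Fin d ⊕ Fin d) F) ∈
        Matrix.symplecticGroup (Fin d) F := by
      rw [← hz]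
      exact (x ^ r).2
    rw [SubmonoidClass.coe_pow] at hz
    have hzz : z * z = 1 := SpImprim.scalar_sq hd0 z hzmem
    have hz0 : z ≠ 0 := by
      rintro rfl
      rw [mul_zero] at hzz
      exact zero_ne_one hzz
    have hzr : z ^ r = z := by
      obtain ⟨k, hk'⟩ := hr.odd_of_ne_two hr2
      rw [hk', pow_succ, pow_mul, pow_two, hzz, one_pow, one_mul]
    obtain ⟨y, hy⟩ : ∃ y : Matrix (Fin d ⊕ Fin d) (Fin d ⊕ Fin d) F, y = z • x.1 := ⟨_, rfl⟩
    have hyr : y ^ r = 1 := by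
      rw [hy, _root_.smul_pow, hz, smul_smul, hzr, hzz, one_smul]
    have hymem : y ∈ Matrix.symplecticGroup (Fin d) F := by
      have h1 : y = (z • (1 : Matrix (Fin d ⊕ Fin d) (Fin d ⊕ Fin d) F)) * x.1 := by
        rw [hy, Matrix.smul_mul, Matrix.one_mul]
      rw [h1]
      exact mul_mem hzmem x.2
    have htrans : ∀ W : Submodule F (Fin d ⊕ Fin d → F),
        W.map (Matrix.toLin' x.1) = W.map (Matrix.toLin' y) := by
      intro W
      rw [hy, map_smul]
      exact (Submodule.map_smul _ _ z hz0).symm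
    suffices hsuff : ∃ W : Submodule F (Fin d ⊕ Fin d → F), finrank F W = m ∧
        (∀ u ∈ W, ∀ v ∈ W, sympForm d F u v = 0) ∧ W.map (Matrix.toLin' y) ≤ W by
      obtain ⟨W, h1, h2, h3⟩ := hsuff
      exact ⟨W, h1, h2, by rw [htrans W]; exact h3⟩
    obtain ⟨a, hale, hχ, hasym⟩ := SpImprim.symm_of_sp hS dg hdg hdd d y hymem hyr
    have hMi := Nat.mul_div_le m i
    have hMm := Nat.div_add_mod m i
    rcases hpar with ⟨hid, hci'⟩ | ⟨hfpf, hci'⟩
    · have hEv : ¬ Odd i := fun ho => hdodd ho P₀ (hid _)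
      have hT : Fintype.card S + 2 * (m / i) ≤ (2 * d) / i := by
        rw [← ht]
        exact hodd.resolve_left hEv
      obtain ⟨h, hh1, hh2⟩ := (exists_half dg hdd a hasym).1 hid
      obtain ⟨a₁, ha₁le, ha₁sum⟩ := Decomp.exists_sub h (min (∑ π, h π) (m / i))
        (min_le_left _ _)
      have hNi := Nat.div_add_mod (2 * d) i
      have hsa : ∑ π, a π ≤ (2 * d) / i := by
        rw [Nat.le_div_iff_mul_le hi0, mul_comm]
        exact hale
      have hsa' : i * ∑ π, a π ≤ i * ((2 * d) / i) := Nat.mul_le_mul_left i hsa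
      refine exists_ti_of_split p hS hr hr2 hrF dg hdg hdd hmd y hymem hyr a hasym hale hχ a₁
        ?_ ?_ ?_
      · rw [ha₁sum]
        exact (Nat.mul_le_mul_left i (min_le_right _ _)).trans hMi
      · intro π
        exact (Nat.add_le_add (ha₁le π) (ha₁le (dg π))).trans (hh1 π)
      · rw [ha₁sum]
        rw [hci'] at hk
        by_cases hβ : m / i ≤ ∑ π, h π
        · rw [min_eq_right hβ]
          omega
        · rw [min_eq_left (by omega)]
          have h4 : ∑ π, a π ≤ 2 * ∑ π, h π + Fintype.card S := by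
            rw [Finset.mul_sum, ← Finset.card_univ, Finset.card_eq_sum_ones,
              ← Finset.sum_add_distrib]
            apply Finset.sum_le_sum
            intro π _
            rw [hh2 π]
            omega
          have h5 : i * ∑ π, a π ≤ 2 * (i * ∑ π, h π) + i * Fintype.card S := by
            calc i * ∑ π, a π ≤ i * (2 * ∑ π, h π + Fintype.card S) :=
                  Nat.mul_le_mul_left i h4
              _ = 2 * (i * ∑ π, h π) + i * Fintype.card S := by ring
          have h6 : i * Fintype.card S + 2 * (i * (m / i)) ≤ i * ((2 * d) / i) := by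
            calc i * Fintype.card S + 2 * (i * (m / i)) = i * (Fintype.card S + 2 * (m / i)) := by
                  ring
              _ ≤ i * ((2 * d) / i) := Nat.mul_le_mul_left i hT
          have h7 : i * ∑ π, h π ≤ i * (m / i) := Nat.mul_le_mul_left i (by omega)
          omega
    · obtain ⟨h, hh1, hh2⟩ := (exists_half dg hdd a hasym).2 hfpf
      obtain ⟨a₁, ha₁le, ha₁sum⟩ := Decomp.exists_sub h (min (∑ π, h π) (m / i))
        (min_le_left _ _)
      have hNc := Nat.div_add_mod (2 * d) c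
      have hia : i * ∑ π, a π = c * ∑ π, h π := by
        rw [← hh2, hci']
        ring
      have hsh : ∑ π, h π ≤ (2 * d) / c := by
        rw [Nat.le_div_iff_mul_le hc0, mul_comm, ← hia]
        exact hale
      have hsh' : c * ∑ π, h π ≤ c * ((2 * d) / c) := Nat.mul_le_mul_left c hsh
      refine exists_ti_of_split p hS hr hr2 hrF dg hdg hdd hmd y hymem hyr a hasym hale hχ a₁
        ?_ ?_ ?_
      · rw [ha₁sum]
        exact (Nat.mul_le_mul_left i (min_le_right _ _)).trans hMi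
      · intro π
        exact (Nat.add_le_add (ha₁le π) (ha₁le (dg π))).trans (hh1 π)
      · rw [ha₁sum, hia]
        by_cases hβ : m / i ≤ ∑ π, h π
        · rw [min_eq_right hβ]
          omega
        · rw [min_eq_left (by omega)]
          have h7 : i * ∑ π, h π ≤ i * (m / i) := Nat.mul_le_mul_left i (by omega)
          have h8 : c * ∑ π, h π = 2 * (i * ∑ π, h π) := by
            rw [hci']
            ring
          omega

/-- Elements of prime order of `PSp` and totally isotropic subspaces. -/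
theorem main {p q : ℕ} [Fact p.Prime] [CharP F p] (hq : Fintype.card F = q) (d m : ℕ)
    (hd : 2 ≤ d) (hm : 1 ≤ m) (hmd : m ≤ d) (r : ℕ) [Fact r.Prime]
    (hrΩ : r ∣ Nat.card {W : Submodule F (Fin d ⊕ Fin d → F) //
      finrank F W = m ∧ ∀ u ∈ W, ∀ v ∈ W, sympForm d F u v = 0})
    (i c : ℕ) (hi : i = orderOf (q : ZMod r)) (hc : c = if Even i then i else 2 * i) :
    (∀ x : ↥(Matrix.symplecticGroup (Fin d) F),
      (∃ z : F, ((x ^ r : ↥(Matrix.symplecticGroup (Fin d) F)) :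
        Matrix (Fin d ⊕ Fin d) (Fin d ⊕ Fin d) F) =
          z • (1 : Matrix (Fin d ⊕ Fin d) (Fin d ⊕ Fin d) F)) →
      (∀ z : F, (x : Matrix (Fin d ⊕ Fin d) (Fin d ⊕ Fin d) F) ≠
        z • (1 : Matrix (Fin d ⊕ Fin d) (Fin d ⊕ Fin d) F)) →
      ∃ W : Submodule F (Fin d ⊕ Fin d → F), finrank F W = m ∧
        (∀ u ∈ W, ∀ v ∈ W, sympForm d F u v = 0) ∧
        W.map (Matrix.toLin' (x : Matrix (Fin d ⊕ Fin d) (Fin d ⊕ Fin d) F)) ≤ W) ↔
    ((r = 2 ∧ p ≠ 2 ∧ (Even m ∨ q % 4 = 1)) ∨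
     (r ≠ p ∧ 2 < r ∧ i ≤ m ∧ 2 * (m % i) ≤ (2 * d) % c ∧
       (Odd i ∨ (r - 1) / i + 2 * (m / i) ≤ (2 * d) / i))) := by
  have hr : r.Prime := Fact.out
  have hrp : r ≠ p := by
    rintro rfl
    exact not_char_dvd_ti r m hmd hrΩ
  by_cases hr2 : r = 2
  · subst hr2
    rw [inv2_iff (Ne.symm hrp) hq m (by omega) hmd]
    constructor
    · intro h
      exact Or.inl ⟨rfl, Ne.symm hrp, h⟩
    · rintro (⟨-, -, h⟩ | ⟨-, h, -⟩)
      · exact h
      · omega
  · rw [main_odd hq d m hm hmd r hr2 hrp hrΩ i c hi hc]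
    have h2r : 2 < r := by
      have := hr.two_le
      omega
    constructor
    · rintro ⟨h1, h2, h3⟩
      exact Or.inr ⟨hrp, h2r, h1, h2, h3⟩
    · rintro (⟨h, -, -⟩ | ⟨-, -, h1, h2, h3⟩)
      · exact absurd h hr2
      · exact ⟨h1, h2, h3⟩

end final

end Cfsg.Agent.Lib.Helper40.SpIso
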