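-- helper40: derangements of odd prime order on the alternating forms (PSL_n on Sp-type cosets).
import Mathlib
import Cfsg.Prelude.Def_GeometricClasses
import Cfsg.Agent.Lib.Helper40.Alt3
import Cfsg.Agent.Lib.Helper40.Elusive
import Cfsg.Agent.Lib.Helper40.Diag

set_option autoImplicit false

namespace Cfsg.Agent.Lib.Helper40.Alt

open Matrix Polynomial

section General

variable {F : Type*} [Field F] {n : ℕ}

theorem exists_of_mem (f : (Fin n → F) → (Fin n → F) → F)
    (x P : Matrix.SpecialLinearGroup (Fin n) F)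
    (hP : P⁻¹ * x * P ∈ (Cfsg.Geo.similarityGroup f).comap (Matrix.SpecialLinearGroup.toGL :
          Matrix.SpecialLinearGroup (Fin n) F →* GL (Fin n) F)) :
    ∃ (Pv Pm : Matrix (Fin n) (Fin n) F) (c : Fˣ), Pv * Pm = 1 ∧ Pm * Pv = 1 ∧
      ∀ u v, f ((Pv * (x : Matrix (Fin n) (Fin n) F) * Pm) *ᵥ u)
        ((Pv * (x : Matrix (Fin n) (Fin n) F) * Pm) *ᵥ v) = (c : F) * f u v := by
  rw [Subgroup.mem_comap] at hP
  obtain ⟨c, hc⟩ := hP
  rw [Matrix.SpecialLinearGroup.coe_GL_coe_matrix] at hc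
  refine ⟨((P⁻¹ : Matrix.SpecialLinearGroup (Fin n) F) : Matrix (Fin n) (Fin n) F),
    (P : Matrix (Fin n) (Fin n) F), c, ?_, ?_, ?_⟩
  · rw [← Matrix.SpecialLinearGroup.coe_mul, inv_mul_cancel, Matrix.SpecialLinearGroup.coe_one]
  · rw [← Matrix.SpecialLinearGroup.coe_mul, mul_inv_cancel, Matrix.SpecialLinearGroup.coe_one]
  · intro u v
    have h := hc u v
    rw [Matrix.SpecialLinearGroup.coe_mul, Matrix.SpecialLinearGroup.coe_mul] at h
    exact h

/-- an element with no conjugate in the similitude group is not scalar. -/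
theorem nonscalar_of_derange (hn : 1 ≤ n) (f : (Fin n → F) → (Fin n → F) → F)
    (hf : Cfsg.Geo.IsSymplecticForm f) (x : Matrix.SpecialLinearGroup (Fin n) F)
    (h : ∀ P : Matrix.SpecialLinearGroup (Fin n) F, P⁻¹ * x * P ∉
      (Cfsg.Geo.similarityGroup f).comap (Matrix.SpecialLinearGroup.toGL :
          Matrix.SpecialLinearGroup (Fin n) F →* GL (Fin n) F)) (z : F) :
    (x : Matrix (Fin n) (Fin n) F) ≠ z • (1 : Matrix (Fin n) (Fin n) F) := by
  intro hz
  have hz0 : z ≠ 0 := by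
    rintro rfl
    have h1 := x.2
    haveI : Nonempty (Fin n) := ⟨⟨0, by omega⟩⟩
    rw [hz, zero_smul, Matrix.det_zero] at h1
    exact zero_ne_one h1
  apply h 1
  rw [inv_one, one_mul, mul_one, Subgroup.mem_comap]
  refine ⟨Units.mk0 (z * z) (mul_ne_zero hz0 hz0), fun u v => ?_⟩
  rw [Matrix.SpecialLinearGroup.coe_GL_coe_matrix, hz, Matrix.smul_mulVec, Matrix.one_mulVec,
    Matrix.smul_mulVec, Matrix.one_mulVec, hf.bilinear.smul_left, hf.bilinear.smul_right,
    Units.val_mk0]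
  ring

theorem count3 (i0 i1 i2 : Fin n) (h01 : i0 ≠ i1) (h02 : i0 ≠ i2) (h12 : i1 ≠ i2)
    (d : Fin n → F) (a b : F) (h0 : d i0 = a) (h1 : d i1 = a) (h2 : d i2 = b)
    (hd : ∀ j, j ≠ i0 → j ≠ i1 → j ≠ i2 → d j = 1) (c : F) [DecidableEq F] :
    Nat.card {j // d j = c} =
      (if a = c then 2 else 0) + (if b = c then 1 else 0) + (if 1 = c then n - 3 else 0) := by
  classical
  rw [Nat.card_eq_fintype_card, Fintype.card_subtype, Finset.card_filter]
  have hT : ({i0, i1, i2} : Finset (Fin n)).card = 3 := by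
    rw [Finset.card_insert_of_notMem, Finset.card_insert_of_notMem, Finset.card_singleton]
    · simpa using h12
    · simp [h01, h02]
  rw [← Finset.sum_add_sum_compl ({i0, i1, i2} : Finset (Fin n))]
  have hs1 : ∑ j ∈ ({i0, i1, i2} : Finset (Fin n)), (if d j = c then 1 else 0) =
      (if a = c then 2 else 0) + (if b = c then 1 else 0) := by
    rw [Finset.sum_insert (by simp [h01, h02]), Finset.sum_insert (by simpa using h12),
      Finset.sum_singleton, h0, h1, h2]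
    split_ifs <;> rfl
  have hs2 : ∑ j ∈ ({i0, i1, i2} : Finset (Fin n))ᶜ, (if d j = c then 1 else 0) =
      if 1 = c then n - 3 else 0 := by
    have h3 : ∀ j ∈ ({i0, i1, i2} : Finset (Fin n))ᶜ,
        (if d j = c then 1 else 0) = if 1 = c then 1 else 0 := by
      intro j hj
      simp only [Finset.mem_compl, Finset.mem_insert, Finset.mem_singleton, not_or] at hj
      rw [hd j hj.1 hj.2.1 hj.2.2]
    rw [Finset.sum_congr rfl h3, Finset.sum_const, Finset.card_compl, Fintype.card_fin, hT]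
    split_ifs <;> simp
  rw [hs1, hs2]

end General

section Unip

variable {F : Type*} [Field F] {n : ℕ}

/-- a unipotent element of Jordan type `(3, 1, …, 1)` is a derangement. -/
theorem derange_p {p : ℕ} [Fact p.Prime] [CharP F p] (hp2 : p ≠ 2) (hn : 3 ≤ n)
    (f : (Fin n → F) → (Fin n → F) → F) (hf : Cfsg.Geo.IsSymplecticForm f) :
    ∃ x : Matrix.SpecialLinearGroup (Fin n) F,
      (x : Matrix (Fin n) (Fin n) F) ^ p = 1 ∧
      ∀ P : Matrix.SpecialLinearGroup (Fin n) F, P⁻¹ * x * P ∉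
        (Cfsg.Geo.similarityGroup f).comap (Matrix.SpecialLinearGroup.toGL :
          Matrix.SpecialLinearGroup (Fin n) F →* GL (Fin n) F) := by
  classical
  have hp : p.Prime := Fact.out
  have hp3 : 3 ≤ p := by
    have := hp.two_le
    omega
  obtain ⟨i0, hi0⟩ : ∃ i0 : Fin n, (i0 : ℕ) = 0 := ⟨⟨0, by omega⟩, rfl⟩
  obtain ⟨i1, hi1⟩ : ∃ i1 : Fin n, (i1 : ℕ) = 1 := ⟨⟨1, by omega⟩, rfl⟩
  obtain ⟨i2, hi2⟩ : ∃ i2 : Fin n, (i2 : ℕ) = 2 := ⟨⟨2, by omega⟩, rfl⟩
  have h01 : i0 ≠ i1 := by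
    intro h
    rw [Fin.ext_iff] at h
    omega
  have h02 : i0 ≠ i2 := by
    intro h
    rw [Fin.ext_iff] at h
    omega
  have h12 : i1 ≠ i2 := by
    intro h
    rw [Fin.ext_iff] at h
    omega
  haveI : Nonempty (Fin n) := ⟨i0⟩
  obtain ⟨N, hN⟩ : ∃ N : Matrix (Fin n) (Fin n) F,
      N = Matrix.single i0 i1 1 + Matrix.single i1 i2 1 := ⟨_, rfl⟩
  have hN3 : N * N * N = 0 := by
    rw [hN]
    simp [Matrix.add_mul, Matrix.mul_add, Matrix.single_mul_single_of_ne,
      Ne.symm h01, Ne.symm h02, Ne.symm h12]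
  obtain ⟨X, hX⟩ : ∃ X : Matrix (Fin n) (Fin n) F, X = 1 + N := ⟨_, rfl⟩
  have hXdet : X.det = 1 := by
    have h1 : X = Matrix.transvection i1 i2 1 * Matrix.transvection i0 i1 1 := by
      rw [hX, hN, Matrix.transvection, Matrix.transvection]
      simp [Matrix.add_mul, Matrix.mul_add, Matrix.single_mul_single_of_ne, Ne.symm h02]
      abel
    rw [h1, Matrix.det_mul, Matrix.det_transvection_of_ne _ _ h12,
      Matrix.det_transvection_of_ne _ _ h01, one_mul]
  have hXp : X ^ p = 1 := by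
    rw [hX, add_pow_char_of_commute p (Commute.one_left N), one_pow]
    have h1 : N ^ p = 0 := by
      have h2 : p = 3 + (p - 3) := by omega
      rw [h2, pow_add, pow_succ, pow_two, hN3, zero_mul]
    rw [h1, add_zero]
  have hcol : ∀ j k, (X *ᵥ Pi.single j 1) k = (if k = j then 1 else 0) +
      ((if i0 = k ∧ i1 = j then 1 else 0) + (if i1 = k ∧ i2 = j then 1 else 0)) := by
    intro j k
    rw [Matrix.mulVec_single_one, hX, hN]
    simp [Matrix.add_apply, Matrix.one_apply, Matrix.single_apply]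
  have hXj : ∀ j, j ≠ i1 → j ≠ i2 → X *ᵥ Pi.single j 1 = Pi.single j 1 := by
    intro j hj1 hj2
    funext k
    have e1 : ¬ (i0 = k ∧ i1 = j) := fun h => hj1 h.2.symm
    have e2 : ¬ (i1 = k ∧ i2 = j) := fun h => hj2 h.2.symm
    rw [hcol, if_neg e1, if_neg e2]
    simp [Pi.single_apply]
  have hX1 : X *ᵥ Pi.single i1 1 = Pi.single i1 1 + Pi.single i0 1 := by
    funext k
    have e2 : ¬ (i1 = k ∧ i2 = i1) := fun h => h12 h.2.symm
    have e3 : (if i0 = k ∧ i1 = i1 then (1 : F) else 0) = if k = i0 then 1 else 0 := by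
      by_cases h : k = i0
      · rw [if_pos h, if_pos ⟨h.symm, rfl⟩]
      · rw [if_neg h, if_neg (fun h' => h h'.1.symm)]
    rw [hcol, if_neg e2, e3, add_zero]
    simp [Pi.single_apply]
  have hX2 : X *ᵥ Pi.single i2 1 = Pi.single i2 1 + Pi.single i1 1 := by
    funext k
    have e1 : ¬ (i0 = k ∧ i1 = i2) := fun h => h12 h.2
    have e3 : (if i1 = k ∧ i2 = i2 then (1 : F) else 0) = if k = i1 then 1 else 0 := by
      by_cases h : k = i1
      · rw [if_pos h, if_pos ⟨h.symm, rfl⟩]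
      · rw [if_neg h, if_neg (fun h' => h h'.1.symm)]
    rw [hcol, if_neg e1, e3, zero_add]
    simp [Pi.single_apply]
  obtain ⟨x, hx⟩ : ∃ x : Matrix.SpecialLinearGroup (Fin n) F,
      (x : Matrix (Fin n) (Fin n) F) = X := ⟨⟨X, hXdet⟩, rfl⟩
  refine ⟨x, by rw [hx, hXp], ?_⟩
  intro P hP
  obtain ⟨Pv, Pm, c, hPiPm, hPmPi, hc⟩ := exists_of_mem f x P hP
  rw [hx] at hc
  obtain ⟨w, hw⟩ : ∃ w : Fin n → (Fin n → F), w = fun j => Pv *ᵥ Pi.single j 1 := ⟨_, rfl⟩
  have hYw : ∀ j, (Pv * X * Pm) *ᵥ w j = Pv *ᵥ (X *ᵥ Pi.single j 1) := by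
    intro j
    rw [hw]
    simp only
    rw [Matrix.mulVec_mulVec, Matrix.mul_assoc, Matrix.mul_assoc, hPmPi, Matrix.mul_one,
      ← Matrix.mulVec_mulVec]
  have hwj : ∀ j, w j = Pv *ᵥ Pi.single j 1 := by
    intro j
    rw [hw]
  have hY0 : ∀ j, j ≠ i1 → j ≠ i2 → (Pv * X * Pm) *ᵥ w j = w j := by
    intro j hj1 hj2
    rw [hYw, hXj j hj1 hj2, hwj]
  have hY1 : (Pv * X * Pm) *ᵥ w i1 = w i1 + w i0 := by
    rw [hYw, hX1, Matrix.mulVec_add, hwj, hwj]
  have hY2 : (Pv * X * Pm) *ᵥ w i2 = w i2 + w i1 := by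
    rw [hYw, hX2, Matrix.mulVec_add, hwj, hwj]
  have hwne : ∀ j, w j ≠ 0 := by
    intro j h
    have h3 : Pm *ᵥ w j = Pi.single j 1 := by
      rw [hwj, Matrix.mulVec_mulVec, hPmPi, Matrix.one_mulVec]
    rw [h, Matrix.mulVec_zero] at h3
    have h4 := congrFun h3 j
    simp at h4
  have hperp : ∀ a : Fin n → F, (∀ j, f a (w j) = 0) → a = 0 := by
    intro a ha
    apply eq_zero_of_perp f hf Pv Pm hPiPm a
    intro j
    have := ha j
    rw [hwj] at this
    exact this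
  have key : ∀ j k, f ((Pv * X * Pm) *ᵥ w j) ((Pv * X * Pm) *ᵥ w k) = (c : F) * f (w j) (w k) :=
    fun j k => hc _ _
  apply hwne i0
  apply hperp
  by_cases hc1 : (c : F) = 1
  · have e1 : f (w i0) (w i1) = 0 := by
      have h3 := key i0 i2
      rw [hY0 i0 h01 h02, hY2, hf.bilinear.add_right, hc1, one_mul] at h3
      linear_combination h3
    have e2 : f (w i0) (w i2) = 0 := by
      have h3 := key i1 i2
      rw [hY1, hY2, hf.bilinear.add_left, hf.bilinear.add_right, hf.bilinear.add_right,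
        hf.alternating, e1, hc1, one_mul] at h3
      linear_combination h3
    intro k
    by_cases hk0 : k = i0
    · rw [hk0]
      exact hf.alternating _
    by_cases hk1 : k = i1
    · rw [hk1]
      exact e1
    by_cases hk2 : k = i2
    · rw [hk2]
      exact e2
    have h3 := key i1 k
    rw [hY1, hY0 k hk1 hk2, hf.bilinear.add_left, hc1, one_mul] at h3
    linear_combination h3
  · have hc1' : (1 : F) - (c : F) ≠ 0 := by
      intro h
      apply hc1
      linear_combination -h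
    have e1 : f (w i0) (w i1) = 0 := by
      have h3 := key i0 i1
      rw [hY0 i0 h01 h02, hY1, hf.bilinear.add_right, hf.alternating] at h3
      have h4 : ((1 : F) - (c : F)) * f (w i0) (w i1) = 0 := by linear_combination h3
      rcases mul_eq_zero.1 h4 with h5 | h5
      · exact absurd h5 hc1'
      · exact h5
    have e2 : f (w i0) (w i2) = 0 := by
      have h3 := key i0 i2
      rw [hY0 i0 h01 h02, hY2, hf.bilinear.add_right, e1] at h3
      have h4 : ((1 : F) - (c : F)) * f (w i0) (w i2) = 0 := by linear_combination h3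
      rcases mul_eq_zero.1 h4 with h5 | h5
      · exact absurd h5 hc1'
      · exact h5
    intro k
    by_cases hk1 : k = i1
    · rw [hk1]
      exact e1
    by_cases hk2 : k = i2
    · rw [hk2]
      exact e2
    have h3 := key i0 k
    rw [hY0 i0 h01 h02, hY0 k hk1 hk2] at h3
    have h4 : ((1 : F) - (c : F)) * f (w i0) (w k) = 0 := by linear_combination h3
    rcases mul_eq_zero.1 h4 with h5 | h5
    · exact absurd h5 hc1'
    · exact h5

end Unip

section Split

variable {F : Type*} [Field F] {n : ℕ}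

/-- a diagonal element `diag(ω, ω, ω⁻², 1, …, 1)` is a derangement, except for `(n, r) = (6, 3)`. -/
theorem derange_split (hn : 4 ≤ n) (he : Even n) (f : (Fin n → F) → (Fin n → F) → F)
    (hf : Cfsg.Geo.IsSymplecticForm f) (r : ℕ) (hr : r.Prime) (hr2 : r ≠ 2)
    (hgap : ¬ (n = 6 ∧ r = 3)) (ω : F) (hω : ω ^ r = 1) (hω1 : ω ≠ 1) :
    ∃ x : Matrix.SpecialLinearGroup (Fin n) F,
      (x : Matrix (Fin n) (Fin n) F) ^ r = 1 ∧
      ∀ P : Matrix.SpecialLinearGroup (Fin n) F, P⁻¹ * x * P ∉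
        (Cfsg.Geo.similarityGroup f).comap (Matrix.SpecialLinearGroup.toGL :
          Matrix.SpecialLinearGroup (Fin n) F →* GL (Fin n) F) := by
  classical
  have hr3 : 3 ≤ r := by
    have := hr.two_le
    omega
  haveI : Fact r.Prime := ⟨hr⟩
  have hord : orderOf ω = r := orderOf_eq_prime hω hω1
  have hdvd : ∀ k, ω ^ k = 1 → r ∣ k := by
    intro k hk
    rw [← hord]
    exact orderOf_dvd_of_pow_eq_one hk
  have hω0 : ω ≠ 0 := by
    rintro rfl
    rw [zero_pow (by omega)] at hω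
    exact zero_ne_one hω
  obtain ⟨β, hβ⟩ : ∃ β : F, β = ω ^ (r - 2) := ⟨_, rfl⟩
  have hωωβ : ω * ω * β = 1 := by
    rw [hβ, ← pow_two, ← pow_add, show 2 + (r - 2) = r by omega]
    exact hω
  have hβ1 : β ≠ 1 := by
    intro h
    rw [hβ] at h
    have := Nat.le_of_dvd (by omega) (hdvd _ h)
    omega
  have hβω : β = ω → r = 3 := by
    intro h
    have h1 : ω ^ (r - 3) = 1 := by
      have h2 : ω ^ (r - 3) * ω = 1 * ω := by
        rw [← pow_succ, show r - 3 + 1 = r - 2 by omega, ← hβ, h, one_mul]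
      exact mul_right_cancel₀ hω0 h2
    have h3 := hdvd _ h1
    by_contra h4
    have := Nat.le_of_dvd (by omega) h3
    omega
  have hωω1 : ω * ω ≠ 1 := by
    intro h
    have h1 := hdvd 2 (by rw [pow_two]; exact h)
    have := Nat.le_of_dvd (by omega) h1
    omega
  have hωωω : ω * ω ≠ ω := by
    intro h
    apply hω1
    exact mul_left_cancel₀ hω0 (by rw [h, mul_one])
  have hβωω : β ≠ ω * ω := by
    intro h
    have h1 : ω ^ 4 = 1 := by
      rw [← hωωβ, h]
      ring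
    have h2 := hdvd 4 h1
    have h3 : r ∣ 2 ^ 2 := by
      norm_num
      exact h2
    have h4 := hr.dvd_of_dvd_pow h3
    have := Nat.le_of_dvd (by omega) h4
    omega
  obtain ⟨i0, hi0⟩ : ∃ i0 : Fin n, (i0 : ℕ) = 0 := ⟨⟨0, by omega⟩, rfl⟩
  obtain ⟨i1, hi1⟩ : ∃ i1 : Fin n, (i1 : ℕ) = 1 := ⟨⟨1, by omega⟩, rfl⟩
  obtain ⟨i2, hi2⟩ : ∃ i2 : Fin n, (i2 : ℕ) = 2 := ⟨⟨2, by omega⟩, rfl⟩
  have h01 : i0 ≠ i1 := by
    intro h
    rw [Fin.ext_iff] at h
    omega
  have h02 : i0 ≠ i2 := by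
    intro h
    rw [Fin.ext_iff] at h
    omega
  have h12 : i1 ≠ i2 := by
    intro h
    rw [Fin.ext_iff] at h
    omega
  obtain ⟨d, hd⟩ : ∃ d : Fin n → F, d = fun j =>
      (if j = i0 then ω else 1) * (if j = i1 then ω else 1) * (if j = i2 then β else 1) :=
    ⟨_, rfl⟩
  have hd0 : d i0 = ω := by
    rw [hd]
    simp [h01, h02]
  have hd1 : d i1 = ω := by
    rw [hd]
    simp [Ne.symm h01, h12]
  have hd2 : d i2 = β := by
    rw [hd]
    simp [Ne.symm h02, Ne.symm h12]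
  have hdo : ∀ j, j ≠ i0 → j ≠ i1 → j ≠ i2 → d j = 1 := by
    intro j a b c
    rw [hd]
    simp [a, b, c]
  have hdet : (Matrix.diagonal d).det = 1 := by
    rw [Matrix.det_diagonal, hd]
    simp only
    rw [Finset.prod_mul_distrib, Finset.prod_mul_distrib, Finset.prod_ite_eq' Finset.univ i0,
      Finset.prod_ite_eq' Finset.univ i1, Finset.prod_ite_eq' Finset.univ i2]
    simp [hωωβ]
  have hβr : β ^ r = 1 := by
    rw [hβ, ← pow_mul, mul_comm, pow_mul, hω, one_pow]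
  have hXr : (Matrix.diagonal d) ^ r = 1 := by
    rw [Matrix.diagonal_pow, ← Matrix.diagonal_one]
    congr 1
    funext j
    show d j ^ r = 1
    by_cases hj0 : j = i0
    · rw [hj0, hd0, hω]
    by_cases hj1 : j = i1
    · rw [hj1, hd1, hω]
    by_cases hj2 : j = i2
    · rw [hj2, hd2, hβr]
    rw [hdo j hj0 hj1 hj2, one_pow]
  obtain ⟨x, hx⟩ : ∃ x : Matrix.SpecialLinearGroup (Fin n) F,
      (x : Matrix (Fin n) (Fin n) F) = Matrix.diagonal d := ⟨⟨_, hdet⟩, rfl⟩
  refine ⟨x, by rw [hx, hXr], ?_⟩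
  intro P hP
  obtain ⟨Pv, Pm, c, hPiPm, hPmPi, hc⟩ := exists_of_mem f x P hP
  rw [hx] at hc
  have hYdet : (Pv * Matrix.diagonal d * Pm).det ≠ 0 := by
    rw [Matrix.det_mul, Matrix.det_mul, hdet, mul_one, ← Matrix.det_mul, hPiPm, Matrix.det_one]
    exact one_ne_zero
  have hconj : ∀ z' : F, (Pv * Matrix.diagonal d * Pm - z' • (1 : Matrix (Fin n) (Fin n) F)).rank =
      (Matrix.diagonal d - z' • (1 : Matrix (Fin n) (Fin n) F)).rank := by
    intro z'
    have h1 : Pv * Matrix.diagonal d * Pm - z' • (1 : Matrix (Fin n) (Fin n) F) =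
        Pv * (Matrix.diagonal d - z' • (1 : Matrix (Fin n) (Fin n) F)) * Pm := by
      rw [Matrix.mul_sub, Matrix.sub_mul, Matrix.mul_smul, Matrix.mul_one, Matrix.smul_mul, hPiPm]
    rw [h1, Matrix.rank_mul_eq_left_of_isUnit_det _ _ (Matrix.isUnit_det_of_right_inverse hPmPi),
      Matrix.rank_mul_eq_right_of_isUnit_det _ _ (Matrix.isUnit_det_of_right_inverse hPiPm)]
  have hm : ∀ z : F, z ≠ 0 →
      Nat.card {j // d j = z} = Nat.card {j // d j = (c : F) / z} := by
    intro z hz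
    have h1 := sim_rank f hf (Pv * Matrix.diagonal d * Pm) hYdet c hc z hz
    rw [hconj, hconj] at h1
    have h2 := Cfsg.Agent.Lib.Helper40.Diag.rank_diagonal_sub d z
    have h3 := Cfsg.Agent.Lib.Helper40.Diag.rank_diagonal_sub d ((c : F) / z)
    rw [← Nat.card_eq_fintype_card] at h2 h3
    omega
  have hcount := count3 i0 i1 i2 h01 h02 h12 d ω β hd0 hd1 hd2 hdo
  obtain ⟨t, ht⟩ : ∃ t : F, t = (c : F) / ω := ⟨_, rfl⟩
  have htc : (c : F) = t * ω := by
    rw [ht, div_mul_cancel₀ _ hω0]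
  have hmω := hm ω hω0
  rw [← ht, hcount, hcount, if_pos rfl, if_neg (Ne.symm hω1)] at hmω
  by_cases ht1 : ω = t
  · have hm1 := hm 1 one_ne_zero
    rw [div_one, htc, ← ht1, hcount, hcount, if_neg hω1, if_neg hβ1, if_pos rfl,
      if_neg (Ne.symm hωωω), if_neg hβωω, if_neg (Ne.symm hωω1)] at hm1
    omega
  · by_cases ht2 : β = t
    · have h1 : (1 : F) ≠ t := by
        rw [← ht2]
        exact Ne.symm hβ1
      rw [if_neg ht1, if_pos ht2, if_neg h1] at hmω
      split_ifs at hmω <;> omega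
    · rw [if_neg ht1, if_neg ht2] at hmω
      by_cases ht3 : (1 : F) = t
      · rw [if_pos ht3] at hmω
        by_cases hb : β = ω
        · rw [if_pos hb] at hmω
          exact hgap ⟨by omega, hβω hb⟩
        · rw [if_neg hb] at hmω
          obtain ⟨k, hk⟩ := he
          omega
      · rw [if_neg ht3] at hmω
        split_ifs at hmω <;> omega

end Split

section Irr

variable {F : Type*} [Field F] [Fintype F] {n : ℕ}

/-- an element `A ⊕ 1` with `A` irreducible of odd degree `i ≥ 2` is a derangement. -/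
theorem derange_irr {p q : ℕ} [Fact p.Prime] [CharP F p] (hq : Fintype.card F = q)
    (f : (Fin n → F) → (Fin n → F) → F) (hf : Cfsg.Geo.IsSymplecticForm f)
    (r : ℕ) [Fact r.Prime] (hrp : r ≠ p) (hi : 2 ≤ orderOf (q : ZMod r))
    (hin : orderOf (q : ZMod r) < n) (hodd : Odd (orderOf (q : ZMod r))) :
    ∃ x : Matrix.SpecialLinearGroup (Fin n) F,
      (x : Matrix (Fin n) (Fin n) F) ^ r = 1 ∧
      ∀ P : Matrix.SpecialLinearGroup (Fin n) F, P⁻¹ * x * P ∉
        (Cfsg.Geo.similarityGroup f).comap (Matrix.SpecialLinearGroup.toGL :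
          Matrix.SpecialLinearGroup (Fin n) F →* GL (Fin n) F) := by
  classical
  obtain ⟨x₀, π, hx₀r, -, hπ, hπd, hπdvd⟩ :=
    Cfsg.Agent.Lib.Helper40.Elusive.exists_model hq (orderOf (q : ZMod r)) r hrp hi le_rfl
  rw [Nat.div_self (by omega), pow_one, Matrix.charpoly_toLin'] at hπdvd
  obtain ⟨A, hA⟩ : ∃ A : Matrix (Fin (orderOf (q : ZMod r))) (Fin (orderOf (q : ZMod r))) F,
      A = (x₀ : Matrix (Fin (orderOf (q : ZMod r))) (Fin (orderOf (q : ZMod r))) F) := ⟨_, rfl⟩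
  rw [← hA] at hx₀r hπdvd
  have hAdet : A.det = 1 := by
    rw [hA]
    exact x₀.2
  have hAτ : ∀ τ : F, (A - τ • (1 : Matrix (Fin (orderOf (q : ZMod r)))
      (Fin (orderOf (q : ZMod r))) F)).det ≠ 0 := by
    intro τ h
    have h1 : A.charpoly.eval τ = 0 := by
      rw [Matrix.eval_charpoly]
      have h2 : Matrix.scalar (Fin (orderOf (q : ZMod r))) τ - A =
          -(A - τ • (1 : Matrix (Fin (orderOf (q : ZMod r))) (Fin (orderOf (q : ZMod r))) F)) := by
        rw [neg_sub, Matrix.smul_one_eq_diagonal]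
        rfl
      rw [h2, Matrix.det_neg, h, mul_zero]
    obtain ⟨c, hc⟩ := hπdvd
    rw [hc, Polynomial.eval_mul] at h1
    have hc0 : c ≠ 0 := by
      rintro rfl
      rw [mul_zero] at hc
      exact (Matrix.charpoly_monic A).ne_zero hc
    have hdeg : c.natDegree = 0 := by
      have h3 := congrArg Polynomial.natDegree hc
      rw [Matrix.charpoly_natDegree_eq_dim, Fintype.card_fin,
        Polynomial.natDegree_mul hπ.ne_zero hc0, hπd] at h3
      omega
    rcases mul_eq_zero.1 h1 with h4 | h4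
    · have h5 := Polynomial.degree_eq_one_of_irreducible_of_root hπ h4
      have h6 : π.natDegree = 1 := by
        unfold Polynomial.natDegree
        rw [h5]
        rfl
      omega
    · rw [Polynomial.eq_C_of_natDegree_eq_zero hdeg, Polynomial.eval_C] at h4
      apply hc0
      rw [Polynomial.eq_C_of_natDegree_eq_zero hdeg, h4, map_zero]
  have hsum : orderOf (q : ZMod r) + (n - orderOf (q : ZMod r)) = n := by omega
  obtain ⟨e'⟩ : Nonempty (Fin (orderOf (q : ZMod r)) ⊕ Fin (n - orderOf (q : ZMod r)) ≃ Fin n) :=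
    ⟨finSumFinEquiv.trans (finCongr hsum)⟩
  obtain ⟨X, hX⟩ : ∃ X : Matrix (Fin n) (Fin n) F, X = Matrix.reindexAlgEquiv F F e'
      (Matrix.fromBlocks A 0 0 1) := ⟨_, rfl⟩
  have hXsub : X = (Matrix.fromBlocks A 0 0 1).submatrix e'.symm e'.symm := by
    rw [hX]
    rfl
  have hXdet : X.det = 1 := by
    rw [hXsub, Matrix.det_submatrix_equiv_self, Matrix.det_fromBlocks_zero₂₁, hAdet, Matrix.det_one,
      mul_one]
  have hpow : ∀ k : ℕ, (Matrix.fromBlocks A 0 0
      (1 : Matrix (Fin (n - orderOf (q : ZMod r))) (Fin (n - orderOf (q : ZMod r))) F)) ^ k =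
      Matrix.fromBlocks (A ^ k) 0 0 1 := by
    intro k
    induction k with
    | zero => rw [pow_zero, pow_zero, Matrix.fromBlocks_one]
    | succ k ih =>
      rw [pow_succ, ih, Matrix.fromBlocks_multiply]
      simp [pow_succ]
  have hXr : X ^ r = 1 := by
    rw [hX, ← map_pow, hpow, hx₀r, Matrix.fromBlocks_one, map_one]
  obtain ⟨ext₁, hext₁⟩ : ∃ ext₁ : (Fin (orderOf (q : ZMod r)) → F) → (Fin n → F),
      ∀ a, ext₁ a = (Sum.elim a (0 : Fin (n - orderOf (q : ZMod r)) → F)) ∘ e'.symm :=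
    ⟨_, fun _ => rfl⟩
  obtain ⟨ext₂, hext₂⟩ : ∃ ext₂ : (Fin (n - orderOf (q : ZMod r)) → F) → (Fin n → F),
      ∀ b, ext₂ b = (Sum.elim (0 : Fin (orderOf (q : ZMod r)) → F) b) ∘ e'.symm :=
    ⟨_, fun _ => rfl⟩
  have hext₁_l : ∀ a j, ext₁ a (e' (Sum.inl j)) = a j := by
    intro a j
    rw [hext₁]
    simp
  have hext₁_add : ∀ a a', ext₁ (a + a') = ext₁ a + ext₁ a' := by
    intro a a'
    funext k
    obtain ⟨s, rfl⟩ := e'.surjective k
    cases s <;> simp [hext₁]
  have hext₁_smul : ∀ (c : F) a, ext₁ (c • a) = c • ext₁ a := by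
    intro c a
    funext k
    obtain ⟨s, rfl⟩ := e'.surjective k
    cases s <;> simp [hext₁]
  have hdecomp : ∀ v : Fin n → F, v = ext₁ ((v ∘ e') ∘ Sum.inl) + ext₂ ((v ∘ e') ∘ Sum.inr) := by
    intro v
    funext k
    obtain ⟨s, rfl⟩ := e'.surjective k
    cases s <;> simp [hext₁, hext₂]
  have hX1 : ∀ a, X *ᵥ ext₁ a = ext₁ (A *ᵥ a) := by
    intro a
    rw [hXsub, Matrix.submatrix_mulVec_equiv, hext₁, hext₁]
    have h1 : (Sum.elim a (0 : Fin (n - orderOf (q : ZMod r)) → F) ∘ ⇑e'.symm) ∘ ⇑e'.symm.symm =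
        Sum.elim a 0 := by
      funext s
      simp
    rw [h1, Matrix.fromBlocks_mulVec]
    congr 1
    funext s
    cases s <;> simp
  have hX2 : ∀ b, X *ᵥ ext₂ b = ext₂ b := by
    intro b
    rw [hXsub, Matrix.submatrix_mulVec_equiv, hext₂]
    have h1 : (Sum.elim (0 : Fin (orderOf (q : ZMod r)) → F) b ∘ ⇑e'.symm) ∘ ⇑e'.symm.symm =
        Sum.elim (0 : Fin (orderOf (q : ZMod r)) → F) b := by
      funext s
      simp
    rw [h1, Matrix.fromBlocks_mulVec]
    congr 1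
    funext s
    cases s <;> simp
  obtain ⟨x, hx⟩ : ∃ x : Matrix.SpecialLinearGroup (Fin n) F,
      (x : Matrix (Fin n) (Fin n) F) = X := ⟨⟨X, hXdet⟩, rfl⟩
  refine ⟨x, by rw [hx, hXr], ?_⟩
  intro P hP
  obtain ⟨Pv, Pm, c, hPiPm, hPmPi, hc⟩ := exists_of_mem f x P hP
  rw [hx] at hc
  have hY1 : ∀ a, (Pv * X * Pm) *ᵥ (Pv *ᵥ ext₁ a) = Pv *ᵥ ext₁ (A *ᵥ a) := by
    intro a
    rw [Matrix.mulVec_mulVec, Matrix.mul_assoc, Matrix.mul_assoc, hPmPi, Matrix.mul_one,
      ← Matrix.mulVec_mulVec, hX1]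
  have hY2 : ∀ b, (Pv * X * Pm) *ᵥ (Pv *ᵥ ext₂ b) = Pv *ᵥ ext₂ b := by
    intro b
    rw [Matrix.mulVec_mulVec, Matrix.mul_assoc, Matrix.mul_assoc, hPmPi, Matrix.mul_one,
      ← Matrix.mulVec_mulVec, hX2]
  have horth : ∀ b a, f (Pv *ᵥ ext₂ b) (Pv *ᵥ ext₁ a) = 0 := by
    intro b a
    obtain ⟨a', rfl⟩ : ∃ a', a = (A - (c : F) • (1 : Matrix (Fin (orderOf (q : ZMod r)))
        (Fin (orderOf (q : ZMod r))) F)) *ᵥ a' :=
      ⟨(A - (c : F) • (1 : Matrix (Fin (orderOf (q : ZMod r)))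
        (Fin (orderOf (q : ZMod r))) F))⁻¹ *ᵥ a, by
        rw [Matrix.mulVec_mulVec, Matrix.mul_nonsing_inv _ (hAτ c).isUnit, Matrix.one_mulVec]⟩
    have h1 := hc (Pv *ᵥ ext₂ b) (Pv *ᵥ ext₁ a')
    rw [hY1, hY2] at h1
    have h2 : (A - (c : F) • (1 : Matrix (Fin (orderOf (q : ZMod r)))
        (Fin (orderOf (q : ZMod r))) F)) *ᵥ a' = A *ᵥ a' + (-(c : F)) • a' := by
      rw [Matrix.sub_mulVec, Matrix.smul_mulVec, Matrix.one_mulVec, neg_smul, sub_eq_add_neg]
    rw [h2, hext₁_add, hext₁_smul, Matrix.mulVec_add, Matrix.mulVec_smul, hf.bilinear.add_right,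
      hf.bilinear.smul_right, h1]
    ring
  obtain ⟨g, hg⟩ : ∃ g : (Fin (orderOf (q : ZMod r)) → F) → (Fin (orderOf (q : ZMod r)) → F) → F,
      ∀ a a', g a a' = f (Pv *ᵥ ext₁ a) (Pv *ᵥ ext₁ a') := ⟨_, fun _ _ => rfl⟩
  have hgs : Cfsg.Geo.IsSymplecticForm g := by
    refine ⟨⟨?_, ?_, ?_, ?_⟩, ?_, ?_, ?_⟩
    · intro a a' b
      rw [hg, hg, hg, hext₁_add, Matrix.mulVec_add, hf.bilinear.add_left]
    · intro c a b
      rw [hg, hg, hext₁_smul, Matrix.mulVec_smul, hf.bilinear.smul_left]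
    · intro b a a'
      rw [hg, hg, hg, hext₁_add, Matrix.mulVec_add, hf.bilinear.add_right]
    · intro c b a
      rw [hg, hg, hext₁_smul, Matrix.mulVec_smul, hf.bilinear.smul_right]
    · intro a b
      rw [hg, hg]
      exact hf.skew _ _
    · intro a
      rw [hg]
      exact hf.alternating _
    · intro a ha
      have hne : Pv *ᵥ ext₁ a ≠ 0 := by
        intro h
        have h1 : Pm *ᵥ (Pv *ᵥ ext₁ a) = ext₁ a := by
          rw [Matrix.mulVec_mulVec, hPmPi, Matrix.one_mulVec]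
        rw [h, Matrix.mulVec_zero] at h1
        apply ha
        funext j
        have h2 := congrFun h1 (e' (Sum.inl j))
        rw [hext₁_l] at h2
        simpa using h2.symm
      obtain ⟨-, ⟨u, hu⟩⟩ := hf.nondegenerate _ hne
      have hu' : u = Pv *ᵥ ext₁ (((Pm *ᵥ u) ∘ e') ∘ Sum.inl) +
          Pv *ᵥ ext₂ (((Pm *ᵥ u) ∘ e') ∘ Sum.inr) := by
        rw [← Matrix.mulVec_add, ← hdecomp, Matrix.mulVec_mulVec, hPiPm, Matrix.one_mulVec]
      have h2 : g a (((Pm *ᵥ u) ∘ e') ∘ Sum.inl) ≠ 0 := by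
        intro h
        apply hu
        rw [hu', hf.bilinear.add_right, hf.skew _ (Pv *ᵥ ext₂ _), horth, neg_zero, add_zero, ← hg]
        exact h
      refine ⟨⟨((Pm *ᵥ u) ∘ e') ∘ Sum.inl, ?_⟩, ⟨_, h2⟩⟩
      intro h
      apply h2
      rw [hg, hf.skew, ← hg, h, neg_zero]
  exact (Nat.not_even_iff_odd.2 hodd) (even_of_symplectic g hgs)

end Irr

end Cfsg.Agent.Lib.Helper40.Alt
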