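import Cfsg.Agent.Lib.Helper40.LSBound

/-!
# Isotypic projections for an elementary abelian subgroup parametrised by `F ^ m`
-/

namespace Cfsg.Agent.Lib.Helper40.CharIdem

open Matrix Cfsg.Agent.Lib.Helper40.LSBound

universe u v w

variable {F : Type u} [Field F] [Fintype F] [DecidableEq F] {L : Type v} [Field L] {m d : ℕ}
  {G : Type w} [Group G] (ρ : G →* GL (Fin d) L) (ψ : AddChar F L) (U : (Fin m → F) → G)

/-- The matrices representing the abelian subgroup. -/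
def Rm (u : Fin m → F) : Matrix (Fin d) (Fin d) L :=
  ((ρ (U u) : GL (Fin d) L) : Matrix (Fin d) (Fin d) L)

omit [Fintype F] [DecidableEq F] in
theorem Rm_add (hU : ∀ u u', U (u + u') = U u * U u') (u u' : Fin m → F) :
    Rm ρ U (u + u') = Rm ρ U u * Rm ρ U u' := by
  unfold Rm
  rw [hU, map_mul, Units.val_mul]

omit [Fintype F] [DecidableEq F] in
theorem Rm_zero (hU : ∀ u u', U (u + u') = U u * U u') : Rm ρ U (0 : Fin m → F) = 1 := by
  have h1 : U (0 : Fin m → F) = 1 := by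
    have h := hU 0 0
    rw [add_zero] at h
    exact (mul_eq_left.1 h.symm)
  unfold Rm
  rw [h1, map_one, Units.val_one]

/-- The isotypic projections. -/
noncomputable def Em (w : Fin m → F) : Matrix (Fin d) (Fin d) L :=
  ((Fintype.card F : L) ^ m)⁻¹ • ∑ u : Fin m → F, ψ (-(u ⬝ᵥ w)) • Rm ρ U u

omit [DecidableEq F] in
theorem Rm_mul_Em (hU : ∀ u u', U (u + u') = U u * U u') (u₀ w : Fin m → F) :
    Rm ρ U u₀ * Em ρ ψ U w = ψ (u₀ ⬝ᵥ w) • Em ρ ψ U w := by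
  have key : Rm ρ U u₀ * ∑ u : Fin m → F, ψ (-(u ⬝ᵥ w)) • Rm ρ U u =
      ψ (u₀ ⬝ᵥ w) • ∑ u : Fin m → F, ψ (-(u ⬝ᵥ w)) • Rm ρ U u := by
    rw [Finset.mul_sum, Finset.smul_sum]
    rw [← Equiv.sum_comp (Equiv.addLeft u₀)
      (fun u => ψ (u₀ ⬝ᵥ w) • (ψ (-(u ⬝ᵥ w)) • Rm ρ U u))]
    apply Finset.sum_congr rfl
    intro u _
    simp only [Equiv.coe_addLeft]
    rw [Matrix.mul_smul, ← Rm_add ρ U hU, smul_smul, ← AddChar.map_add_eq_mul, add_dotProduct]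
    congr 2
    ring
  unfold Em
  rw [Matrix.mul_smul, key, smul_comm]

theorem sum_Em (hU : ∀ u u', U (u + u') = U u * U u')
    (hψ : ∀ a : F, a ≠ 0 → ∃ c, ψ (a * c) ≠ 1) (hq : (Fintype.card F : L) ≠ 0) :
    ∑ w : Fin m → F, Em ρ ψ U w = 1 := by
  unfold Em
  rw [← Finset.smul_sum, Finset.sum_comm]
  have h1 : ∀ u : Fin m → F, ∑ w : Fin m → F, ψ (-(u ⬝ᵥ w)) • Rm ρ U u =
      if u = 0 then ((Fintype.card F : L) ^ m) • (1 : Matrix (Fin d) (Fin d) L) else 0 := by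
    intro u
    rw [← Finset.sum_smul, sum_char_neg ψ hψ u]
    split_ifs with hu
    · rw [hu, Rm_zero ρ U hU]
    · rw [zero_smul]
  rw [Finset.sum_congr rfl (fun u _ => h1 u), Finset.sum_ite_eq' Finset.univ (0 : Fin m → F),
    if_pos (Finset.mem_univ _), smul_smul, inv_mul_cancel₀ (pow_ne_zero m hq), one_smul]

theorem Em_mul_Em (hU : ∀ u u', U (u + u') = U u * U u')
    (hψ : ∀ a : F, a ≠ 0 → ∃ c, ψ (a * c) ≠ 1) (hq : (Fintype.card F : L) ≠ 0)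
    (w' w : Fin m → F) : Em ρ ψ U w' * Em ρ ψ U w = if w' = w then Em ρ ψ U w else 0 := by
  have h0 : Em ρ ψ U w' =
      ((Fintype.card F : L) ^ m)⁻¹ • ∑ u : Fin m → F, ψ (-(u ⬝ᵥ w')) • Rm ρ U u := rfl
  rw [h0, Matrix.smul_mul, Finset.sum_mul]
  have h1 : ∀ u : Fin m → F, ψ (-(u ⬝ᵥ w')) • Rm ρ U u * Em ρ ψ U w =
      ψ (u ⬝ᵥ (w - w')) • Em ρ ψ U w := by
    intro u
    rw [Matrix.smul_mul, Rm_mul_Em ρ ψ U hU, smul_smul, ← AddChar.map_add_eq_mul,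
      dotProduct_sub]
    congr 2
    ring
  rw [Finset.sum_congr rfl (fun u _ => h1 u), ← Finset.sum_smul, sum_char ψ hψ (w - w')]
  by_cases hw : w' = w
  · rw [if_pos hw, if_pos (by rw [hw, sub_self]), smul_smul,
      inv_mul_cancel₀ (pow_ne_zero m hq), one_smul]
  · rw [if_neg hw, if_neg (fun h => hw (sub_eq_zero.1 h).symm), zero_smul, smul_zero]

omit [DecidableEq F] in
theorem conj_Em (g : G) (e : (Fin m → F) ≃ (Fin m → F)) (he : ∀ u, g * U u = U (e u) * g)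
    (w w' : Fin m → F) (hadj : ∀ u, e.symm u ⬝ᵥ w = u ⬝ᵥ w') :
    ((ρ g : GL (Fin d) L) : Matrix (Fin d) (Fin d) L) * Em ρ ψ U w *
        ((ρ g⁻¹ : GL (Fin d) L) : Matrix (Fin d) (Fin d) L) = Em ρ ψ U w' := by
  have h1 : ∀ u : Fin m → F, ((ρ g : GL (Fin d) L) : Matrix (Fin d) (Fin d) L) * Rm ρ U u *
      ((ρ g⁻¹ : GL (Fin d) L) : Matrix (Fin d) (Fin d) L) = Rm ρ U (e u) := by
    intro u
    unfold Rm
    have h2 : U (e u) = g * U u * g⁻¹ := by rw [he, mul_inv_cancel_right]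
    rw [h2, map_mul, map_mul, Units.val_mul, Units.val_mul]
  unfold Em
  rw [Matrix.mul_smul, Matrix.smul_mul, Finset.mul_sum, Finset.sum_mul]
  congr 1
  rw [← Equiv.sum_comp e (fun u => ψ (-(u ⬝ᵥ w')) • Rm ρ U u)]
  apply Finset.sum_congr rfl
  intro u _
  rw [Matrix.mul_smul, Matrix.smul_mul, h1, ← hadj (e u), e.symm_apply_apply]

omit [DecidableEq F] in
theorem Em_ne_zero_of_conj (g : G) (e : (Fin m → F) ≃ (Fin m → F))
    (he : ∀ u, g * U u = U (e u) * g) (w w' : Fin m → F)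
    (hadj : ∀ u, e.symm u ⬝ᵥ w = u ⬝ᵥ w') (h : Em ρ ψ U w ≠ 0) : Em ρ ψ U w' ≠ 0 := by
  intro h0
  apply h
  have h1 := conj_Em ρ ψ U g e he w w' hadj
  rw [h0] at h1
  have h2 : ((ρ g⁻¹ : GL (Fin d) L) : Matrix (Fin d) (Fin d) L) *
      ((ρ g : GL (Fin d) L) : Matrix (Fin d) (Fin d) L) = 1 := by
    rw [← Units.val_mul, ← map_mul, inv_mul_cancel, map_one, Units.val_one]
  calc Em ρ ψ U w = (((ρ g⁻¹ : GL (Fin d) L) : Matrix (Fin d) (Fin d) L) *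
        ((ρ g : GL (Fin d) L) : Matrix (Fin d) (Fin d) L)) * Em ρ ψ U w *
        (((ρ g⁻¹ : GL (Fin d) L) : Matrix (Fin d) (Fin d) L) *
        ((ρ g : GL (Fin d) L) : Matrix (Fin d) (Fin d) L)) := by rw [h2, one_mul, mul_one]
    _ = ((ρ g⁻¹ : GL (Fin d) L) : Matrix (Fin d) (Fin d) L) *
        (((ρ g : GL (Fin d) L) : Matrix (Fin d) (Fin d) L) * Em ρ ψ U w *
        ((ρ g⁻¹ : GL (Fin d) L) : Matrix (Fin d) (Fin d) L)) *
        ((ρ g : GL (Fin d) L) : Matrix (Fin d) (Fin d) L) := by simp only [mul_assoc]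
    _ = 0 := by rw [h1, mul_zero, zero_mul]

/-- The degree is at least the number of weights that occur. -/
theorem card_le (hU : ∀ u u', U (u + u') = U u * U u')
    (hψ : ∀ a : F, a ≠ 0 → ∃ c, ψ (a * c) ≠ 1) (hq : (Fintype.card F : L) ≠ 0)
    {ι : Type*} [Fintype ι] [DecidableEq ι] (f : ι → Fin m → F) (hf : Function.Injective f)
    (hne : ∀ i, Em ρ ψ U (f i) ≠ 0) : Fintype.card ι ≤ d := by
  apply card_le_of_orth (fun i => Em ρ ψ U (f i)) hne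
  intro i j
  rw [Em_mul_Em ρ ψ U hU hψ hq]
  by_cases hij : i = j
  · rw [if_pos hij, if_pos (by rw [hij])]
  · rw [if_neg hij, if_neg (fun h' => hij (hf h'))]

end Cfsg.Agent.Lib.Helper40.CharIdem
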