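-- Elements of order `p` of `SL_n(q)` permuting a direct-sum decomposition (helper40).
import Mathlib
import Cfsg.Prelude.Def_GeometricClasses
import Cfsg.Agent.Lib.Helper40.Elusive3

set_option autoImplicit false

namespace Cfsg.Agent.Lib.Helper40.Elusive

open Polynomial Module

universe u v

section decomp_p

variable {F : Type u} [Field F]

theorem rk_pred_eq_count (μ : Multiset ℕ) (p : ℕ) (hp : 1 ≤ p) (hμ : ∀ b ∈ μ, b ≤ p) :
    Jordan.rk μ (p - 1) = Multiset.count p μ := by
  induction μ using Multiset.induction with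
  | empty => simp [Jordan.rk]
  | cons b μ ih =>
    rw [Jordan.rk_cons, Multiset.count_cons, ih (fun c hc => hμ c (Multiset.mem_cons_of_mem hc))]
    have h1 := hμ b (Multiset.mem_cons_self b μ)
    split_ifs <;> omega

/-- A unipotent element with prescribed Jordan type. -/
theorem exists_unip {p : ℕ} [Fact p.Prime] [CharP F p] (n : ℕ) (μ : Multiset ℕ)
    (hμ : ∀ b ∈ μ, 0 < b ∧ b ≤ p) (hsum : μ.sum = n) :
    ∃ (x : Matrix.SpecialLinearGroup (Fin n) F) (M : Matrix (Fin n) (Fin n) F),
      (x : Matrix (Fin n) (Fin n) F) = 1 + M ∧ (∀ j, (M ^ j).rank = Jordan.rk μ j) ∧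
      (x : Matrix (Fin n) (Fin n) F) ^ p = 1 ∧
      ((∃ c : F, (x : Matrix (Fin n) (Fin n) F) = c • (1 : Matrix (Fin n) (Fin n) F)) →
        μ = Multiset.replicate n 1) := by
  have hp : p.Prime := Fact.out
  obtain ⟨M, hM⟩ := Jordan.exists_matrix (F := F)
    (⟨μ, fun {i} hi => (hμ i hi).1, hsum⟩ : Nat.Partition n)
  change ∀ j, (M ^ j).rank = Jordan.rk μ j at hM
  have hMp : M ^ p = 0 := (Jordan.mat_pow_eq_zero_iff hM p).2 (fun a ha => (hμ a ha).2)
  have hxp : (1 + M) ^ p = 1 := by
    have h1 := Jordan.sub_one_pow_char_pow p (1 + M) 1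
    rw [pow_one, add_sub_cancel_left, hMp] at h1
    exact sub_eq_zero.1 h1.symm
  have hdet : (1 + M).det = 1 := by
    have h1 : (1 + M).det ^ p = 1 := by rw [← Matrix.det_pow, hxp, Matrix.det_one]
    have h2 : ((1 + M).det - 1) ^ p = 0 := by rw [sub_pow_char, h1, one_pow, sub_self]
    exact sub_eq_zero.1 ((pow_eq_zero_iff hp.ne_zero).1 h2)
  refine ⟨⟨1 + M, hdet⟩, M, rfl, hM, hxp, ?_⟩
  rintro ⟨c, hc⟩
  have hc' : (1 + M : Matrix (Fin n) (Fin n) F) = c • (1 : Matrix (Fin n) (Fin n) F) := hc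
  have hM0 : M = 0 := by
    rcases Nat.eq_zero_or_pos n with h | hn0
    · subst h
      exact Subsingleton.elim M 0
    · have h1 : M = (c - 1) • (1 : Matrix (Fin n) (Fin n) F) := by
        rw [sub_smul, one_smul, ← hc']
        abel
      have h2 : ((c - 1) ^ p) • (1 : Matrix (Fin n) (Fin n) F) =
          (0 : F) • (1 : Matrix (Fin n) (Fin n) F) := by
        rw [zero_smul, ← hMp, h1, _root_.smul_pow, one_pow]
      have h3 := PGLClasses.scalar_inj hn0 _ _ h2
      have h4 : c - 1 = 0 := (pow_eq_zero_iff hp.ne_zero).1 h3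
      rw [h1, h4, zero_smul]
  have h1 : ∀ a ∈ μ, a ≤ 1 := (Jordan.mat_pow_eq_zero_iff hM 1).1 (by rw [pow_one, hM0])
  have h1' : ∀ a ∈ μ, a = 1 := fun a ha => le_antisymm (h1 a ha) (hμ a ha).1
  have h3 := Multiset.eq_replicate_card.2 h1'
  have h4 : μ.sum = Multiset.card μ := by
    conv_lhs => rw [h3]
    simp
  rw [h3]
  congr 1
  omega

/-- Elements of order `p` permuting a decomposition: the Jordan type contains a partition of
the dimension of the summands, unless it has many parts equal to `p`. -/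
theorem fwd_decomp {p : ℕ} [Fact p.Prime] [CharP F p] (n a t : ℕ) (han : a ≤ n)
    (h : ∀ x : Matrix.SpecialLinearGroup (Fin n) F,
      (∃ z : F, ((x ^ p : Matrix.SpecialLinearGroup (Fin n) F) : Matrix (Fin n) (Fin n) F) =
        z • (1 : Matrix (Fin n) (Fin n) F)) →
      (∀ z : F, (x : Matrix (Fin n) (Fin n) F) ≠ z • (1 : Matrix (Fin n) (Fin n) F)) →
      ∃ D : Fin t → Submodule F (Fin n → F), Cfsg.Geo.IsMDecomposition a D ∧
        ∃ σ : Equiv.Perm (Fin t),
          ∀ j, (D j).map (Matrix.toLin' (x : Matrix (Fin n) (Fin n) F)) = D (σ j))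
    (μ : Multiset ℕ) (hμ : ∀ b ∈ μ, 0 < b ∧ b ≤ p) (hsum : μ.sum = n)
    (hcount : μ.count p < a) : ∃ ν : Multiset ℕ, ν ≤ μ ∧ ν.sum = a := by
  have hp : p.Prime := Fact.out
  obtain ⟨x, M, hxM, hM, hxp, hscal⟩ := exists_unip (F := F) n μ hμ hsum
  by_cases hsc : ∃ c : F, (x : Matrix (Fin n) (Fin n) F) = c • (1 : Matrix (Fin n) (Fin n) F)
  · refine ⟨Multiset.replicate a 1, ?_, by simp⟩
    rw [hscal hsc]
    exact (Multiset.replicate_le_replicate 1).2 han
  obtain ⟨D, hD, σ, hσ⟩ := h x
    ⟨1, by rw [Matrix.SpecialLinearGroup.coe_pow, one_smul]; exact hxp⟩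
    (fun z hz => hsc ⟨z, hz⟩)
  have hnil : IsNilpotent (Matrix.toLin' M) := by
    obtain ⟨k, hk⟩ := Jordan.isNilpotent_of_rank hM
    exact ⟨k, by rw [← Matrix.toLin'_pow, hk, map_zero]⟩
  have hXM : Matrix.toLin' (x : Matrix (Fin n) (Fin n) F) = 1 + Matrix.toLin' M := by
    rw [hxM, map_add, Matrix.toLin'_one]
    rfl
  -- invariance under `M` from invariance under `x`
  have key : ∀ U : Submodule F (Fin n → F),
      U.map (Matrix.toLin' (x : Matrix (Fin n) (Fin n) F)) ≤ U →
      U ∈ Module.End.invtSubmodule (Matrix.toLin' M) := by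
    intro U hU
    rw [Module.End.mem_invtSubmodule_iff_forall_mem_of_mem]
    intro u hu
    have h1 : Matrix.toLin' (x : Matrix (Fin n) (Fin n) F) u ∈ U := hU ⟨u, hu, rfl⟩
    rw [hXM, LinearMap.add_apply, Module.End.one_apply] at h1
    have h2 := U.sub_mem h1 hu
    rwa [add_sub_cancel_left] at h2
  by_cases hfix : ∃ j, σ j = j
  · obtain ⟨j, hj⟩ := hfix
    have hU : (D j).map (Matrix.toLin' (x : Matrix (Fin n) (Fin n) F)) ≤ D j := by
      rw [hσ j, hj]
    have hW : (⨆ (j') (_ : j' ≠ j), D j').map (Matrix.toLin' (x : Matrix (Fin n) (Fin n) F)) ≤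
        ⨆ (j') (_ : j' ≠ j), D j' := by
      rw [Submodule.map_iSup]
      apply iSup_le
      intro j'
      rw [Submodule.map_iSup]
      apply iSup_le
      intro hne
      rw [hσ j']
      exact le_iSup₂_of_le (σ j') (fun h' => hne (σ.injective (h'.trans hj.symm))) le_rfl
    have hc : IsCompl (D j) (⨆ (j') (_ : j' ≠ j), D j') := by
      refine ⟨hD.indep j, ?_⟩
      rw [codisjoint_iff, eq_top_iff, ← hD.iSup_eq_top]
      apply iSup_le
      intro j'
      by_cases hne : j' = j
      · rw [hne]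
        exact le_sup_left
      · exact le_sup_of_le_right (le_iSup₂_of_le j' hne le_rfl)
    obtain ⟨ν, hν, hνs⟩ := type_split (Matrix.toLin' M) hnil _ _ (key _ hU) (key _ hW) hc μ
      (fun b hb => (hμ b hb).1) (fun k => by rw [← Jordan.rank_pow_eq, hM])
    exact ⟨ν, hν, hνs.trans (hD.finrank_eq j)⟩
  · exfalso
    push Not at hfix
    have ht : 0 < t := by have := hD.two_le; omega
    have hapos : 0 < a := hD.pos
    obtain ⟨j₀⟩ : Nonempty (Fin t) := ⟨⟨0, ht⟩⟩
    have hXp' : (Matrix.toLin' (x : Matrix (Fin n) (Fin n) F)) ^ p = 1 := by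
      rw [← Matrix.toLin'_pow, hxp, Matrix.toLin'_one]
      rfl
    obtain ⟨X, hX⟩ : ∃ X : Module.End F (Fin n → F),
        X = Matrix.toLin' (x : Matrix (Fin n) (Fin n) F) := ⟨_, rfl⟩
    obtain ⟨N, hN⟩ : ∃ N : Module.End F (Fin n → F), N = Matrix.toLin' M := ⟨_, rfl⟩
    rw [← hX] at hσ hXp'
    rw [← hX, ← hN] at hXM
    -- powers of `x` permute the summands
    have hpow : ∀ (k : ℕ) (j : Fin t), (D j).map (X ^ k) = D ((σ ^ k) j) := by
      intro k
      induction k with
      | zero =>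
        intro j
        rw [pow_zero, pow_zero, Module.End.one_eq_id, Submodule.map_id]
        rfl
      | succ k ih =>
        intro j
        rw [pow_succ', Module.End.mul_eq_comp, Submodule.map_comp, ih, hσ, pow_succ',
          Equiv.Perm.mul_apply]
    -- the summands are distinct
    have hinj : ∀ j j' : Fin t, D j = D j' → j = j' := by
      intro j j' hjj
      by_contra hne
      have h1 : Disjoint (D j') (D j) :=
        (hD.indep j').mono_right (le_iSup₂_of_le j hne le_rfl)
      rw [hjj, disjoint_self] at h1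
      have h2 := hD.finrank_eq j'
      rw [h1, finrank_bot] at h2
      omega
    have hσp : (σ ^ p) j₀ = j₀ := by
      apply hinj
      rw [← hpow, hXp', Module.End.one_eq_id, Submodule.map_id]
    have hne : ∀ k, 0 < k → k < p → (σ ^ k) j₀ ≠ j₀ := by
      intro k hk0 hkp hk
      have hcop : Nat.Coprime k p :=
        ((Nat.Prime.coprime_iff_not_dvd hp).2 (Nat.not_dvd_of_pos_of_lt hk0 hkp)).symm
      apply hfix j₀
      have h1 : (σ ^ (Nat.gcd k p)) j₀ = j₀ := by
        have h2 := Nat.gcd_eq_gcd_ab k p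
        have h3 : (σ ^ ((Nat.gcd k p : ℕ) : ℤ)) j₀ = j₀ := by
          rw [h2, zpow_add, zpow_mul, zpow_mul, Equiv.Perm.mul_apply, zpow_natCast, zpow_natCast]
          rw [Equiv.Perm.zpow_apply_eq_self_of_apply_eq_self hσp,
            Equiv.Perm.zpow_apply_eq_self_of_apply_eq_self hk]
        rwa [zpow_natCast] at h3
      rwa [hcop, pow_one] at h1
    -- `M ^ (p - 1)` is injective on `D j₀`
    have hMpow : N ^ (p - 1) =
        ∑ k ∈ Finset.range (p - 1 + 1), X ^ k * (-1 : Module.End F (Fin n → F)) ^ (p - 1 - k) *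
          ((p - 1).choose k : Module.End F (Fin n → F)) := by
      have h1 : N = X + (-1 : Module.End F (Fin n → F)) := by
        rw [hXM]
        abel
      rw [h1]
      exact ((Commute.one_right X).neg_right).add_pow _
    have hmem : ∀ (e c : ℕ) (w : Fin n → F), w ∈ D j₀ →
        ((-1 : Module.End F (Fin n → F)) ^ e * (c : Module.End F (Fin n → F))) w ∈ D j₀ := by
      intro e c w hw
      rw [Module.End.mul_apply, Module.End.natCast_apply]
      have h1 : (c • w) ∈ D j₀ := (D j₀).smul_of_tower_mem c hw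
      rcases neg_one_pow_eq_or (Module.End F (Fin n → F)) e with h2 | h2
      · rw [h2]
        exact h1
      · rw [h2]
        exact (D j₀).neg_mem h1
    have hker : ∀ v ∈ D j₀, (N ^ (p - 1)) v = 0 → v = 0 := by
      intro v hv h0
      rw [hMpow, Finset.sum_range_succ', LinearMap.add_apply, LinearMap.sum_apply] at h0
      have h1 : (∑ k ∈ Finset.range (p - 1),
          (X ^ (k + 1) * (-1 : Module.End F (Fin n → F)) ^ (p - 1 - (k + 1)) *
            ((p - 1).choose (k + 1) : Module.End F (Fin n → F))) v) ∈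
          ⨆ (j') (_ : j' ≠ j₀), D j' := by
        apply Submodule.sum_mem
        intro k hk
        have hk' := Finset.mem_range.1 hk
        rw [mul_assoc, Module.End.mul_apply]
        have h2 : (X ^ (k + 1)) (((-1 : Module.End F (Fin n → F)) ^ (p - 1 - (k + 1)) *
              ((p - 1).choose (k + 1) : Module.End F (Fin n → F))) v) ∈ D ((σ ^ (k + 1)) j₀) := by
          rw [← hpow]
          exact ⟨_, hmem _ _ v hv, rfl⟩
        have h9 : D ((σ ^ (k + 1)) j₀) ≤ ⨆ (j') (_ : j' ≠ j₀), D j' :=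
          le_iSup₂_of_le ((σ ^ (k + 1)) j₀) (hne (k + 1) (by omega) (by omega)) le_rfl
        exact h9 h2
      have h3 : (X ^ 0 * (-1 : Module.End F (Fin n → F)) ^ (p - 1 - 0) *
          ((p - 1).choose 0 : Module.End F (Fin n → F))) v ∈ D j₀ := by
        rw [pow_zero, one_mul]
        exact hmem _ _ v hv
      have h4 : (X ^ 0 * (-1 : Module.End F (Fin n → F)) ^ (p - 1 - 0) *
          ((p - 1).choose 0 : Module.End F (Fin n → F))) v ∈ ⨆ (j') (_ : j' ≠ j₀), D j' := by
        have h5 := eq_neg_of_add_eq_zero_right h0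
        rw [h5]
        exact Submodule.neg_mem _ h1
      have h6 := (Submodule.disjoint_def.1 (hD.indep j₀)) _ h3 h4
      rw [pow_zero, one_mul, Nat.choose_zero_right, Nat.cast_one, mul_one, Nat.sub_zero] at h6
      rcases neg_one_pow_eq_or (Module.End F (Fin n → F)) (p - 1) with h7 | h7
      · rw [h7] at h6
        exact h6
      · rw [h7] at h6
        exact neg_eq_zero.1 h6
    -- hence `a ≤ rank (M ^ (p - 1))`
    have hrank : a ≤ (M ^ (p - 1)).rank := by
      rw [Jordan.rank_pow_eq, ← hD.finrank_eq j₀, ← hN]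
      have hinj' : Function.Injective ((N ^ (p - 1)).domRestrict (D j₀)) := by
        rw [injective_iff_map_eq_zero]
        intro w hw
        apply Subtype.ext
        exact hker w.1 w.2 hw
      rw [← LinearMap.finrank_range_of_inj hinj']
      apply Submodule.finrank_mono
      rintro _ ⟨w, rfl⟩
      exact ⟨w.1, rfl⟩
    rw [hM, rk_pred_eq_count μ p hp.pos (fun b hb => (hμ b hb).2)] at hrank
    omega

end decomp_p

end Cfsg.Agent.Lib.Helper40.Elusive
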