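-- Order of the centraliser in GL of a unipotent matrix of given Jordan type (helper40).
import Mathlib
import Cfsg.Prelude.Def_JordanBlocks
import Cfsg.Agent.Lib.Helper40.Parabolic

set_option autoImplicit false

namespace Cfsg.Agent.Lib.Helper40.GLUnipCent

open Finset

universe u

section comm

variable {F : Type u} [Field F] {t : ℕ} (d : Fin t → ℕ)

/-- The nilpotent part of the Jordan type matrix. -/
def Nm (F : Type u) [Field F] {t : ℕ} (d : Fin t → ℕ) :
    Matrix ((k : Fin t) × Fin (d k)) ((k : Fin t) × Fin (d k)) F :=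
  Matrix.of fun a b => if a.1 = b.1 ∧ (a.2 : ℕ) = (b.2 : ℕ) + 1 then 1 else 0

theorem jt_eq : Cfsg.jordanTypeMatrix d F = 1 + Nm F d := by
  ext ⟨k, i⟩ ⟨l, j⟩
  simp only [Cfsg.jordanTypeMatrix, Matrix.blockDiagonal'_apply, Matrix.add_apply, Nm,
    Matrix.of_apply, Matrix.one_apply]
  by_cases h : k = l
  · subst h
    rw [dif_pos rfl]
    simp only [Cfsg.jordanBlock, Matrix.of_apply, cast_eq, true_and]
    by_cases hij : i = j
    · subst hij
      simp
    · have h1 : (i : ℕ) ≠ (j : ℕ) := fun h' => hij (Fin.ext h')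
      have h2 : (⟨k, i⟩ : (k : Fin t) × Fin (d k)) ≠ ⟨k, j⟩ := by
        intro h'
        apply hij
        simpa using h'
      rw [if_neg h1, if_neg h2, zero_add]
  · rw [dif_neg h]
    have h2 : (⟨k, i⟩ : (k : Fin t) × Fin (d k)) ≠ ⟨l, j⟩ := by
      intro h'
      exact h (congrArg Sigma.fst h')
    rw [if_neg h2, if_neg (fun h' => h h'.1), zero_add]

theorem comm_iff (g : Matrix ((k : Fin t) × Fin (d k)) ((k : Fin t) × Fin (d k)) F) :
    g * Cfsg.jordanTypeMatrix d F = Cfsg.jordanTypeMatrix d F * g ↔ g * Nm F d = Nm F d * g := by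
  rw [jt_eq, mul_add, add_mul, mul_one, one_mul, add_right_inj]

theorem mul_Nm_apply (g : Matrix ((k : Fin t) × Fin (d k)) ((k : Fin t) × Fin (d k)) F)
    (a b : (k : Fin t) × Fin (d k)) :
    (g * Nm F d) a b = if h : (b.2 : ℕ) + 1 < d b.1 then g a ⟨b.1, ⟨b.2 + 1, h⟩⟩ else 0 := by
  rw [Matrix.mul_apply]
  simp only [Nm, Matrix.of_apply]
  by_cases h : (b.2 : ℕ) + 1 < d b.1
  · rw [dif_pos h, Finset.sum_eq_single ⟨b.1, ⟨b.2 + 1, h⟩⟩]
    · simp
    · intro c _ hc
      rw [if_neg, mul_zero]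
      rintro ⟨h1, h2⟩
      apply hc
      obtain ⟨k, i⟩ := c
      obtain ⟨l, j⟩ := b
      simp only at h1 h2
      subst h1
      congr 1
      exact Fin.ext h2
    · intro h'
      exact absurd (Finset.mem_univ _) h'
  · rw [dif_neg h]
    refine Finset.sum_eq_zero (fun c _ => ?_)
    rw [if_neg, mul_zero]
    rintro ⟨h1, h2⟩
    have h3 : (c.2 : ℕ) < d c.1 := c.2.2
    have h4 : d c.1 = d b.1 := congrArg d h1
    omega

theorem Nm_mul_apply (g : Matrix ((k : Fin t) × Fin (d k)) ((k : Fin t) × Fin (d k)) F)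
    (a b : (k : Fin t) × Fin (d k)) :
    (Nm F d * g) a b = if h : 0 < (a.2 : ℕ) then g ⟨a.1, ⟨a.2 - 1, by omega⟩⟩ b else 0 := by
  rw [Matrix.mul_apply]
  simp only [Nm, Matrix.of_apply]
  by_cases h : 0 < (a.2 : ℕ)
  · rw [dif_pos h, Finset.sum_eq_single ⟨a.1, ⟨a.2 - 1, by omega⟩⟩]
    · rw [if_pos, one_mul]
      refine ⟨rfl, ?_⟩
      simp only
      omega
    · intro c _ hc
      rw [if_neg, zero_mul]
      rintro ⟨h1, h2⟩
      apply hc
      obtain ⟨k, i⟩ := c
      obtain ⟨l, j⟩ := a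
      simp only at h1 h2
      subst h1
      congr 1
      apply Fin.ext
      simp only
      omega
    · intro h'
      exact absurd (Finset.mem_univ _) h'
  · rw [dif_neg h]
    refine Finset.sum_eq_zero (fun c _ => ?_)
    rw [if_neg, zero_mul]
    rintro ⟨h1, h2⟩
    omega

/-- The first columns of the blocks. -/
def col (hd : ∀ k, 1 ≤ d k) (g : Matrix ((k : Fin t) × Fin (d k)) ((k : Fin t) × Fin (d k)) F) :
    ((k : Fin t) × Fin (d k)) → Fin t → F := fun a l => g a ⟨l, ⟨0, hd l⟩⟩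

/-- The Toeplitz matrix with given first columns. -/
def toep (x : ((k : Fin t) × Fin (d k)) → Fin t → F) :
    Matrix ((k : Fin t) × Fin (d k)) ((k : Fin t) × Fin (d k)) F :=
  Matrix.of fun a b => if h : (b.2 : ℕ) ≤ a.2 then x ⟨a.1, ⟨a.2 - b.2, by omega⟩⟩ b.1 else 0

theorem col_toep (hd : ∀ k, 1 ≤ d k) (x : ((k : Fin t) × Fin (d k)) → Fin t → F) :
    col d hd (toep d x) = x := by
  funext a l
  simp only [col, toep, Matrix.of_apply]
  rw [dif_pos (Nat.zero_le _)]
  rfl

theorem entry_of_comm (hd : ∀ k, 1 ≤ d k)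
    (g : Matrix ((k : Fin t) × Fin (d k)) ((k : Fin t) × Fin (d k)) F)
    (hc : g * Nm F d = Nm F d * g) (k l : Fin t) :
    ∀ (j : ℕ) (hj : j < d l) (i : ℕ) (hi : i < d k),
      g ⟨k, ⟨i, hi⟩⟩ ⟨l, ⟨j, hj⟩⟩ =
        if h : j ≤ i then g ⟨k, ⟨i - j, by omega⟩⟩ ⟨l, ⟨0, hd l⟩⟩ else 0 := by
  intro j
  induction j with
  | zero =>
    intro hj i hi
    rw [dif_pos (Nat.zero_le _)]
    rfl
  | succ j ih =>
    intro hj i hi
    have h1 := congrFun (congrFun hc ⟨k, ⟨i, hi⟩⟩) ⟨l, ⟨j, by omega⟩⟩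
    rw [mul_Nm_apply, Nm_mul_apply] at h1
    simp only at h1
    rw [dif_pos hj] at h1
    rw [h1]
    by_cases hi0 : 0 < i
    · rw [dif_pos hi0, ih (by omega) (i - 1) (by omega)]
      by_cases hji : j + 1 ≤ i
      · rw [dif_pos hji, dif_pos (by omega)]
        have e : i - 1 - j = i - (j + 1) := by omega
        simp only [e]
      · rw [dif_neg hji, dif_neg (by omega)]
    · rw [dif_neg hi0, dif_neg (by omega)]

theorem eq_toep (hd : ∀ k, 1 ≤ d k)
    (g : Matrix ((k : Fin t) × Fin (d k)) ((k : Fin t) × Fin (d k)) F)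
    (hc : g * Nm F d = Nm F d * g) : toep d (col d hd g) = g := by
  ext ⟨k, ⟨i, hi⟩⟩ ⟨l, ⟨j, hj⟩⟩
  rw [entry_of_comm d hd g hc k l j hj i hi]
  simp only [toep, col, Matrix.of_apply]

theorem col_zero (hd : ∀ k, 1 ≤ d k)
    (g : Matrix ((k : Fin t) × Fin (d k)) ((k : Fin t) × Fin (d k)) F)
    (hc : g * Nm F d = Nm F d * g) (a : (k : Fin t) × Fin (d k)) (l : Fin t)
    (h : (a.2 : ℕ) + d l < d a.1) : col d hd g a l = 0 := by
  obtain ⟨k, ⟨m, hm⟩⟩ := a
  simp only at h
  have hl := hd l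
  have h1 := congrFun (congrFun hc ⟨k, ⟨m + d l, h⟩⟩) ⟨l, ⟨d l - 1, by omega⟩⟩
  rw [mul_Nm_apply, Nm_mul_apply] at h1
  simp only at h1
  rw [dif_neg (by omega), dif_pos (by omega),
    entry_of_comm d hd g hc k l (d l - 1) (by omega) (m + d l - 1) (by omega),
    dif_pos (by omega)] at h1
  have e : m + d l - 1 - (d l - 1) = m := by omega
  simp only [e] at h1
  exact h1.symm

theorem toep_comm (x : ((k : Fin t) × Fin (d k)) → Fin t → F)
    (hx : ∀ (a : (k : Fin t) × Fin (d k)) (l : Fin t), (a.2 : ℕ) + d l < d a.1 → x a l = 0) :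
    toep d x * Nm F d = Nm F d * toep d x := by
  ext ⟨k, ⟨i, hi⟩⟩ ⟨l, ⟨j, hj⟩⟩
  rw [mul_Nm_apply, Nm_mul_apply]
  simp only [toep, Matrix.of_apply]
  by_cases hji : j + 1 ≤ i
  · rw [dif_pos (by omega : 0 < i), dif_pos (by omega : j ≤ i - 1)]
    have e : i - 1 - j = i - (j + 1) := by omega
    simp only [e]
    by_cases hjl : j + 1 < d l
    · rw [dif_pos hjl, dif_pos hji]
    · rw [dif_neg hjl]
      symm
      apply hx
      simp only
      omega
  · have h2 : (if h : 0 < i then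
        (if h' : j ≤ i - 1 then x ⟨k, ⟨i - 1 - j, by omega⟩⟩ l else 0) else 0) = 0 := by
      by_cases hi0 : 0 < i
      · rw [dif_pos hi0, dif_neg (by omega)]
      · rw [dif_neg hi0]
    rw [h2]
    by_cases hjl : j + 1 < d l
    · rw [dif_pos hjl, dif_neg hji]
    · rw [dif_neg hjl]

end comm

section det

variable {F : Type u} [Field F] {t : ℕ} (d : Fin t → ℕ)

/-- The constraint on the first columns. -/
def IsPar (x : ((k : Fin t) × Fin (d k)) → Fin t → F) : Prop :=
  ∀ (a : (k : Fin t) × Fin (d k)) (l : Fin t), (a.2 : ℕ) + d l < d a.1 → x a l = 0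

/-- The top matrix. -/
def Tmat (hd : ∀ k, 1 ≤ d k) (x : ((k : Fin t) × Fin (d k)) → Fin t → F) :
    Matrix (Fin t) (Fin t) F :=
  Matrix.of fun k l => x ⟨k, ⟨0, hd k⟩⟩ l

/-- The block label. -/
def bD : Fin t → Fin (univ.sup d + 1) :=
  fun k => ⟨d k, Nat.lt_succ_of_le (Finset.le_sup (Finset.mem_univ k))⟩

theorem Tmat_bt (hd : ∀ k, 1 ≤ d k) (x : ((k : Fin t) × Fin (d k)) → Fin t → F)
    (hx : IsPar d x) : (Tmat d hd x).BlockTriangular (bD d) := by
  intro k l h
  simp only [Tmat, Matrix.of_apply]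
  apply hx
  simp only
  have h' : d l < d k := h
  omega

/-- The label for the big matrix. -/
def bI : ((k : Fin t) × Fin (d k)) → ℤ ×ₗ ℕ := fun a => toLex (-(a.2 : ℤ), d a.1)

theorem toep_bt (x : ((k : Fin t) × Fin (d k)) → Fin t → F) (hx : IsPar d x) :
    (toep d x).BlockTriangular (bI d) := by
  intro a c h
  simp only [bI, Prod.Lex.toLex_lt_toLex] at h
  simp only [toep, Matrix.of_apply]
  by_cases hca : (c.2 : ℕ) ≤ a.2
  · rw [dif_pos hca]
    apply hx
    simp only
    omega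
  · rw [dif_neg hca]

theorem bI_eq_iff (a c : (k : Fin t) × Fin (d k)) :
    bI d a = bI d c ↔ (a.2 : ℕ) = c.2 ∧ d a.1 = d c.1 := by
  simp only [bI, EmbeddingLike.apply_eq_iff_eq, Prod.mk.injEq]
  constructor
  · rintro ⟨h1, h2⟩
    exact ⟨by omega, h2⟩
  · rintro ⟨h1, h2⟩
    exact ⟨by omega, h2⟩

theorem bD_eq_iff (k l : Fin t) : bD d k = bD d l ↔ d k = d l := by
  simp only [bD, Fin.mk.injEq]

/-- Matching the diagonal blocks. -/
def blockEquiv (a₀ : (k : Fin t) × Fin (d k)) :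
    {k : Fin t // bD d k = bD d a₀.1} ≃ {a : (k : Fin t) × Fin (d k) // bI d a = bI d a₀} where
  toFun k := ⟨⟨k.1, ⟨a₀.2, by
      have h1 := (bD_eq_iff d _ _).1 k.2
      have h2 := a₀.2.2
      omega⟩⟩, by
      rw [bI_eq_iff]
      exact ⟨rfl, (bD_eq_iff d _ _).1 k.2⟩⟩
  invFun a := ⟨a.1.1, by
      rw [bD_eq_iff]
      exact ((bI_eq_iff d _ _).1 a.2).2⟩
  left_inv k := rfl
  right_inv a := by
    obtain ⟨⟨k, i⟩, ha⟩ := a
    apply Subtype.ext
    have h1 := ((bI_eq_iff d _ _).1 ha).1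
    simp only at h1 ⊢
    congr 1
    exact Fin.ext h1.symm

theorem block_det (hd : ∀ k, 1 ≤ d k) (x : ((k : Fin t) × Fin (d k)) → Fin t → F)
    (a₀ : (k : Fin t) × Fin (d k)) :
    ((toep d x).toSquareBlock (bI d) (bI d a₀)).det =
      ((Tmat d hd x).toSquareBlock (bD d) (bD d a₀.1)).det := by
  rw [← Matrix.det_submatrix_equiv_self (blockEquiv d a₀)]
  congr 1
  ext k l
  simp only [Matrix.submatrix_apply, Matrix.toSquareBlock_def, Matrix.of_apply, blockEquiv,
    Equiv.coe_fn_mk, toep, Tmat]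
  rw [dif_pos le_rfl]
  simp only [Nat.sub_self]

theorem det_toep_ne_zero_iff (hd : ∀ k, 1 ≤ d k) (x : ((k : Fin t) × Fin (d k)) → Fin t → F)
    (hx : IsPar d x) : (toep d x).det ≠ 0 ↔ (Tmat d hd x).det ≠ 0 := by
  classical
  rw [(toep_bt d x hx).det, (Tmat_bt d hd x hx).det, Finset.prod_ne_zero_iff,
    Finset.prod_ne_zero_iff]
  constructor
  · intro h v hv
    obtain ⟨k, -, rfl⟩ := Finset.mem_image.1 hv
    have h1 := block_det d hd x ⟨k, ⟨0, hd k⟩⟩
    simp only at h1
    rw [← h1]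
    exact h _ (Finset.mem_image_of_mem _ (Finset.mem_univ _))
  · intro h v hv
    obtain ⟨a, -, rfl⟩ := Finset.mem_image.1 hv
    rw [block_det d hd x a]
    exact h _ (Finset.mem_image_of_mem _ (Finset.mem_univ _))

end det

section count

variable {F : Type u} [Field F] {t : ℕ} (d : Fin t → ℕ)

/-- The commuting invertible matrices are parametrised by their first columns. -/
noncomputable def glEquiv (hd : ∀ k, 1 ≤ d k) :
    {g : GL ((k : Fin t) × Fin (d k)) F //
      (g : Matrix ((k : Fin t) × Fin (d k)) ((k : Fin t) × Fin (d k)) F) *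
        Cfsg.jordanTypeMatrix d F = Cfsg.jordanTypeMatrix d F *
          (g : Matrix ((k : Fin t) × Fin (d k)) ((k : Fin t) × Fin (d k)) F)} ≃
    {x : ((k : Fin t) × Fin (d k)) → Fin t → F // IsPar d x ∧ (Tmat d hd x).det ≠ 0} where
  toFun g := ⟨col d hd g.1.1, fun a l h => col_zero d hd _ ((comm_iff d _).1 g.2) a l h, by
      have h1 := eq_toep d hd _ ((comm_iff d _).1 g.2)
      rw [← det_toep_ne_zero_iff d hd _ (fun a l h => col_zero d hd _ ((comm_iff d _).1 g.2) a l h),
        h1]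
      exact Matrix.GeneralLinearGroup.det_ne_zero g.1⟩
  invFun x := ⟨Matrix.GeneralLinearGroup.mkOfDetNeZero (toep d x.1)
      ((det_toep_ne_zero_iff d hd x.1 x.2.1).2 x.2.2), by
      show toep d x.1 * _ = _ * toep d x.1
      exact (comm_iff d _).2 (toep_comm d x.1 x.2.1)⟩
  left_inv g := by
    apply Subtype.ext
    apply Units.ext
    exact eq_toep d hd _ ((comm_iff d _).1 g.2)
  right_inv x := by
    apply Subtype.ext
    exact col_toep d hd x.1

/-- Rebuilding the first columns from the top matrix and the remaining free entries. -/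
def unpar (T : Matrix (Fin t) (Fin t) F)
    (r : {p : ((k : Fin t) × Fin (d k)) × Fin t //
      0 < (p.1.2 : ℕ) ∧ d p.1.1 ≤ p.1.2 + d p.2} → F) :
    ((k : Fin t) × Fin (d k)) → Fin t → F :=
  fun a l => if h0 : (a.2 : ℕ) = 0 then T a.1 l
    else if hf : d a.1 ≤ a.2 + d l then r ⟨(a, l), ⟨Nat.pos_of_ne_zero h0, hf⟩⟩ else 0

theorem unpar_isPar (T : Matrix (Fin t) (Fin t) F) (hT : T.BlockTriangular (bD d))
    (r : {p : ((k : Fin t) × Fin (d k)) × Fin t //
      0 < (p.1.2 : ℕ) ∧ d p.1.1 ≤ p.1.2 + d p.2} → F) : IsPar d (unpar d T r) := by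
  intro a l h
  simp only [unpar]
  by_cases h0 : (a.2 : ℕ) = 0
  · rw [dif_pos h0]
    apply hT
    show d l < d a.1
    omega
  · rw [dif_neg h0, dif_neg (by omega)]

theorem Tmat_unpar (hd : ∀ k, 1 ≤ d k) (T : Matrix (Fin t) (Fin t) F)
    (r : {p : ((k : Fin t) × Fin (d k)) × Fin t //
      0 < (p.1.2 : ℕ) ∧ d p.1.1 ≤ p.1.2 + d p.2} → F) : Tmat d hd (unpar d T r) = T := by
  ext k l
  simp only [Tmat, unpar, Matrix.of_apply]
  simp

/-- Splitting the parameters into the top matrix and the rest. -/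
noncomputable def parEquiv (hd : ∀ k, 1 ≤ d k) :
    {x : ((k : Fin t) × Fin (d k)) → Fin t → F // IsPar d x ∧ (Tmat d hd x).det ≠ 0} ≃
    {T : Matrix (Fin t) (Fin t) F // T.BlockTriangular (bD d) ∧ T.det ≠ 0} ×
      ({p : ((k : Fin t) × Fin (d k)) × Fin t //
        0 < (p.1.2 : ℕ) ∧ d p.1.1 ≤ p.1.2 + d p.2} → F) where
  toFun x := (⟨Tmat d hd x.1, Tmat_bt d hd x.1 x.2.1, x.2.2⟩, fun p => x.1 p.1.1 p.1.2)
  invFun y := ⟨unpar d y.1.1 y.2, unpar_isPar d y.1.1 y.1.2.1 y.2, by
    rw [Tmat_unpar]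
    exact y.1.2.2⟩
  left_inv x := by
    apply Subtype.ext
    funext a l
    simp only [unpar]
    by_cases h0 : (a.2 : ℕ) = 0
    · rw [dif_pos h0]
      simp only [Tmat, Matrix.of_apply]
      obtain ⟨k, i⟩ := a
      simp only at h0 ⊢
      have e : (⟨0, hd k⟩ : Fin (d k)) = i := Fin.ext h0.symm
      rw [e]
    · rw [dif_neg h0]
      by_cases hf : d a.1 ≤ a.2 + d l
      · rw [dif_pos hf]
      · rw [dif_neg hf]
        exact (x.2.1 a l (by omega)).symm
  right_inv y := by
    apply Prod.ext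
    · apply Subtype.ext
      exact Tmat_unpar d hd y.1.1 y.2
    · funext p
      obtain ⟨⟨a, l⟩, hp⟩ := p
      simp only [unpar]
      rw [dif_neg (by simp only at hp; omega), dif_pos hp.2]

theorem card_cent_aux [Fintype F] (hd : ∀ k, 1 ≤ d k) :
    Nat.card {g : GL ((k : Fin t) × Fin (d k)) F //
      (g : Matrix ((k : Fin t) × Fin (d k)) ((k : Fin t) × Fin (d k)) F) *
        Cfsg.jordanTypeMatrix d F = Cfsg.jordanTypeMatrix d F *
          (g : Matrix ((k : Fin t) × Fin (d k)) ((k : Fin t) × Fin (d k)) F)} =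
      (∏ δ : Fin (univ.sup d + 1),
        Nat.card {A : Matrix {k // bD d k = δ} {k // bD d k = δ} F // A.det ≠ 0}) *
      Fintype.card F ^ Nat.card {p : Fin t × Fin t // bD d p.1 < bD d p.2} *
      Fintype.card F ^ Nat.card {p : ((k : Fin t) × Fin (d k)) × Fin t //
        0 < (p.1.2 : ℕ) ∧ d p.1.1 ≤ p.1.2 + d p.2} := by
  classical
  rw [Nat.card_congr ((glEquiv d hd).trans (parEquiv d hd)), Nat.card_prod,
    Nat.card_congr (btEquiv (bD d)), Nat.card_prod, Nat.card_pi, Nat.card_fun, Nat.card_fun,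
    Nat.card_eq_fintype_card (α := F)]

end count

section numerics

variable {t : ℕ} (d : Fin t → ℕ)

/-- The local exponent. -/
def phi (i j : ℕ) : ℕ :=
  (if i < j then i else 0) + (if j < i then j else 0) + (if i = j then i - 1 else 0)

theorem cnt (D e : ℕ) (hD : 1 ≤ D) :
    (∑ m ∈ range D, if 0 < m ∧ D ≤ m + e then 1 else 0) + (if D < e then 1 else 0) =
      phi D e := by
  rw [← Finset.card_filter]
  rcases lt_trichotomy D e with h | h | h
  · have h1 : (range D).filter (fun m => 0 < m ∧ D ≤ m + e) = Finset.Ico 1 D := by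
      ext m
      simp only [mem_filter, mem_range, mem_Ico]
      omega
    rw [h1, Nat.card_Ico, if_pos h]
    simp only [phi, if_pos h, if_neg (not_lt_of_gt h), if_neg (ne_of_lt h)]
    omega
  · subst h
    have h1 : (range D).filter (fun m => 0 < m ∧ D ≤ m + D) = Finset.Ico 1 D := by
      ext m
      simp only [mem_filter, mem_range, mem_Ico]
      omega
    rw [h1, Nat.card_Ico, if_neg (lt_irrefl _)]
    simp only [phi, if_neg (lt_irrefl _), if_true]
    omega
  · have h1 : (range D).filter (fun m => 0 < m ∧ D ≤ m + e) = Finset.Ico (D - e) D := by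
      ext m
      simp only [mem_filter, mem_range, mem_Ico]
      omega
    rw [h1, Nat.card_Ico, if_neg (not_lt_of_gt h)]
    simp only [phi, if_pos h, if_neg (not_lt_of_gt h), if_neg (ne_of_gt h)]
    omega

theorem card_pairs_lt :
    Nat.card {p : Fin t × Fin t // bD d p.1 < bD d p.2} =
      ∑ k : Fin t, ∑ l : Fin t, if d k < d l then 1 else 0 := by
  classical
  rw [Nat.card_eq_fintype_card, Fintype.card_subtype, Finset.card_filter, Fintype.sum_prod_type]
  refine Finset.sum_congr rfl fun k _ => Finset.sum_congr rfl fun l _ => ?_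
  have h : bD d k < bD d l ↔ d k < d l := Iff.rfl
  simp only [h]

theorem card_rest :
    Nat.card {p : ((k : Fin t) × Fin (d k)) × Fin t //
        0 < (p.1.2 : ℕ) ∧ d p.1.1 ≤ p.1.2 + d p.2} =
      ∑ k : Fin t, ∑ l : Fin t, ∑ m ∈ range (d k), if 0 < m ∧ d k ≤ m + d l then 1 else 0 := by
  classical
  rw [Nat.card_eq_fintype_card, Fintype.card_subtype, Finset.card_filter, Fintype.sum_prod_type,
    Fintype.sum_sigma]
  refine Finset.sum_congr rfl fun k _ => ?_
  rw [Finset.sum_comm]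
  refine Finset.sum_congr rfl fun l _ => ?_
  rw [← Fin.sum_univ_eq_sum_range (fun m => if 0 < m ∧ d k ≤ m + d l then 1 else 0) (d k)]

theorem exponent_eq (hd : ∀ k, 1 ≤ d k) :
    Nat.card {p : Fin t × Fin t // bD d p.1 < bD d p.2} +
      Nat.card {p : ((k : Fin t) × Fin (d k)) × Fin t //
        0 < (p.1.2 : ℕ) ∧ d p.1.1 ≤ p.1.2 + d p.2} =
      ∑ k : Fin t, ∑ l : Fin t, phi (d k) (d l) := by
  rw [card_pairs_lt, card_rest, ← Finset.sum_add_distrib]
  refine Finset.sum_congr rfl fun k _ => ?_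
  rw [← Finset.sum_add_distrib]
  refine Finset.sum_congr rfl fun l _ => ?_
  rw [add_comm]
  exact cnt (d k) (d l) (hd k)

theorem sum_fiber (f : ℕ → ℕ) :
    ∑ k : Fin t, f (d k) =
      ∑ i ∈ range (univ.sup d + 1), (univ.filter (fun k : Fin t => d k = i)).card * f i := by
  rw [← Finset.sum_fiberwise_of_maps_to (g := d) (s := univ) (t := range (univ.sup d + 1))
    (fun k _ => Finset.mem_range.2 (Nat.lt_succ_of_le (Finset.le_sup (Finset.mem_univ k))))]
  refine Finset.sum_congr rfl fun i _ => ?_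
  rw [Finset.sum_congr rfl (fun k hk => by rw [(Finset.mem_filter.1 hk).2] :
    ∀ k ∈ univ.filter (fun k : Fin t => d k = i), f (d k) = f i), Finset.sum_const, smul_eq_mul]

theorem sum_fiber2 :
    ∑ k : Fin t, ∑ l : Fin t, phi (d k) (d l) =
      ∑ i ∈ range (univ.sup d + 1), ∑ j ∈ range (univ.sup d + 1),
        (univ.filter (fun k : Fin t => d k = i)).card *
          (univ.filter (fun k : Fin t => d k = j)).card * phi i j := by
  rw [sum_fiber d (fun i => ∑ l : Fin t, phi i (d l))]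
  refine Finset.sum_congr rfl fun i _ => ?_
  rw [sum_fiber d (fun j => phi i j), Finset.mul_sum]
  refine Finset.sum_congr rfl fun j _ => ?_
  ring

theorem sum_phi (s : Finset ℕ) (a : ℕ → ℕ) :
    ∑ i ∈ s, ∑ j ∈ s, a i * a j * phi i j =
      2 * (∑ i ∈ s, ∑ j ∈ s, if i < j then i * a i * a j else 0) +
        ∑ i ∈ s, (i - 1) * a i ^ 2 := by
  have h1 : ∀ i j, a i * a j * phi i j = (if i < j then i * a i * a j else 0) +
      (if j < i then j * a j * a i else 0) + (if i = j then (i - 1) * a i ^ 2 else 0) := by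
    intro i j
    unfold phi
    rcases lt_trichotomy i j with h | h | h
    · simp only [if_pos h, if_neg (not_lt_of_gt h), if_neg (ne_of_lt h)]
      ring
    · subst h
      simp only [if_neg (lt_irrefl _), if_true]
      ring
    · simp only [if_pos h, if_neg (not_lt_of_gt h), if_neg (ne_of_gt h)]
      ring
  simp only [h1, Finset.sum_add_distrib]
  have h2 : ∑ i ∈ s, ∑ j ∈ s, (if j < i then j * a j * a i else 0) =
      ∑ i ∈ s, ∑ j ∈ s, if i < j then i * a i * a j else 0 := Finset.sum_comm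
  have h3 : ∑ i ∈ s, ∑ j ∈ s, (if i = j then (i - 1) * a i ^ 2 else 0) =
      ∑ i ∈ s, (i - 1) * a i ^ 2 := by
    refine Finset.sum_congr rfl fun i hi => ?_
    rw [Finset.sum_ite_eq, if_pos hi]
  rw [h2, h3]
  ring

variable {F : Type u} [Field F] [Fintype F]

theorem card_block (δ : Fin (univ.sup d + 1)) :
    Nat.card {A : Matrix {k // bD d k = δ} {k // bD d k = δ} F // A.det ≠ 0} =
      ∏ j : Fin ((univ.filter (fun k : Fin t => d k = (δ : ℕ))).card),
        (Fintype.card F ^ (univ.filter (fun k : Fin t => d k = (δ : ℕ))).card -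
          Fintype.card F ^ (j : ℕ)) := by
  rw [card_det_ne_zero]
  have h : Fintype.card {k // bD d k = δ} =
      (univ.filter (fun k : Fin t => d k = (δ : ℕ))).card := by
    rw [Fintype.card_subtype]
    congr 1
    ext k
    simp [bD, Fin.ext_iff]
  rw [h]

/-- The order of the centraliser of a unipotent matrix of given Jordan type. -/
theorem card_cent {q : ℕ} (hF : Fintype.card F = q) (hd : ∀ k, 1 ≤ d k) :
    Nat.card {g : GL ((k : Fin t) × Fin (d k)) F //
      (g : Matrix ((k : Fin t) × Fin (d k)) ((k : Fin t) × Fin (d k)) F) *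
        Cfsg.jordanTypeMatrix d F = Cfsg.jordanTypeMatrix d F *
          (g : Matrix ((k : Fin t) × Fin (d k)) ((k : Fin t) × Fin (d k)) F)} =
      q ^ (2 * (∑ i ∈ Finset.range (Finset.univ.sup d + 1),
          ∑ j ∈ Finset.range (Finset.univ.sup d + 1),
            if i < j then i * (Finset.univ.filter (fun k : Fin t => d k = i)).card *
              (Finset.univ.filter (fun k : Fin t => d k = j)).card else 0) +
        ∑ i ∈ Finset.range (Finset.univ.sup d + 1),
          (i - 1) * (Finset.univ.filter (fun k : Fin t => d k = i)).card ^ 2) *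
      ∏ i ∈ Finset.range (Finset.univ.sup d + 1),
        ∏ j : Fin ((Finset.univ.filter (fun k : Fin t => d k = i)).card),
          (q ^ (Finset.univ.filter (fun k : Fin t => d k = i)).card - q ^ (j : ℕ)) := by
  rw [card_cent_aux d hd, mul_assoc, ← pow_add, exponent_eq d hd, sum_fiber2,
    sum_phi (range (univ.sup d + 1)) (fun i => (univ.filter (fun k : Fin t => d k = i)).card),
    mul_comm, hF]
  congr 1
  rw [← Fin.prod_univ_eq_prod_range (fun i =>
    ∏ j : Fin ((Finset.univ.filter (fun k : Fin t => d k = i)).card),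
      (q ^ (Finset.univ.filter (fun k : Fin t => d k = i)).card - q ^ (j : ℕ)))
    (univ.sup d + 1)]
  refine Finset.prod_congr rfl fun δ _ => ?_
  rw [card_block, hF]

end numerics

end Cfsg.Agent.Lib.Helper40.GLUnipCent
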