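-- Order of the centraliser in GU of a unipotent element of given Jordan type (helper40).
import Mathlib
import Cfsg.Prelude.Def_JordanBlocks
import Cfsg.Agent.Lib.Helper40.GLUnipCent
import Cfsg.Agent.Lib.Helper40.UnitaryWall
import Cfsg.Agent.Lib.Helper45.HermGU
import Cfsg.Agent.Lib.Helper99.JType3

set_option autoImplicit false
set_option linter.unusedSectionVars false

namespace Cfsg.Agent.Lib.Helper40.GUUnipCent

open Finset Matrix Cfsg.Agent.Lib.Helper40.GLUnipCent Cfsg.Agent.Lib.Helper40.UnitaryWall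

universe u

section general

/-- Counting a group by the fibres of a map which are the cosets of a subgroup. -/
theorem fiber_count {G : Type*} [Group G] (V : Subgroup G) {X : Type*} (φ : G → X)
    (hφ : ∀ a b, φ a = φ b ↔ a⁻¹ * b ∈ V) :
    Nat.card G = Nat.card (Set.range φ) * Nat.card V := by
  have e : G ⧸ V ≃ Set.range φ := Equiv.ofBijective
    (Quotient.lift (fun g => (⟨φ g, g, rfl⟩ : Set.range φ))
      (fun a b hab => Subtype.ext ((hφ a b).2 (QuotientGroup.leftRel_apply.1 hab)))) (by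
    constructor
    · intro x y
      induction x, y using Quotient.inductionOn₂ with
      | _ a b =>
        intro h
        exact Quotient.sound (QuotientGroup.leftRel_apply.2
          ((hφ a b).1 (congrArg Subtype.val h)))
    · rintro ⟨_, g, rfl⟩
      exact ⟨QuotientGroup.mk g, rfl⟩)
  rw [Subgroup.card_eq_card_quotient_mul_card_subgroup V, Nat.card_congr e]

/-- The fixed points of a semilinear involution form a "real form". -/
theorem card_fixed_sq {K : Type*} [Field K] {W : Type*} [AddCommGroup W] [Module K W]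
    (σ : K →+* K) (c : K) (hc : σ c ≠ c) (hcc : σ (σ c) = c) (θ : W →+ W)
    (hsmul : ∀ (a : K) (w : W), θ (a • w) = σ a • θ w) (hinv : ∀ w, θ (θ w) = w) :
    Nat.card {w : W // θ w = w} * Nat.card {w : W // θ w = w} = Nat.card W := by
  have hne : c - σ c ≠ 0 := sub_ne_zero.mpr (Ne.symm hc)
  have hσinv : σ (c - σ c)⁻¹ = -(c - σ c)⁻¹ := by
    rw [map_inv₀, map_sub, hcc, ← neg_sub c (σ c), neg_inv]
  have hb : ∀ w : W, θ ((c - σ c)⁻¹ • (w - θ w)) = (c - σ c)⁻¹ • (w - θ w) := by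
    intro w
    rw [hsmul, map_sub, hinv, hσinv, neg_smul, ← smul_neg, neg_sub]
  rw [← Nat.card_prod]
  apply Nat.card_congr
  refine
    { toFun := fun p => p.1.1 + c • p.2.1
      invFun := fun w => (⟨w - c • ((c - σ c)⁻¹ • (w - θ w)), ?_⟩,
        ⟨(c - σ c)⁻¹ • (w - θ w), hb w⟩)
      left_inv := ?_
      right_inv := ?_ }
  · have h1 : (c - σ c) • ((c - σ c)⁻¹ • (w - θ w)) = w - θ w := by
      rw [smul_smul, mul_inv_cancel₀ hne, one_smul]
    rw [map_sub, hsmul, hb]
    generalize (c - σ c)⁻¹ • (w - θ w) = b at h1 ⊢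
    rw [sub_smul] at h1
    rw [sub_eq_sub_iff_add_eq_add]
    calc θ w + c • b = θ w + (c • b - σ c • b) + σ c • b := by abel
      _ = θ w + (w - θ w) + σ c • b := by rw [h1]
      _ = w + σ c • b := by abel
  · rintro ⟨⟨a, ha⟩, ⟨b, hb'⟩⟩
    have h1 : a + c • b - θ (a + c • b) = (c - σ c) • b := by
      rw [map_add, hsmul, ha, hb', sub_smul]; abel
    have h2 : (c - σ c)⁻¹ • (a + c • b - θ (a + c • b)) = b := by
      rw [h1, smul_smul, inv_mul_cancel₀ hne, one_smul]
    apply Prod.ext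
    · apply Subtype.ext
      show a + c • b - c • ((c - σ c)⁻¹ • (a + c • b - θ (a + c • b))) = a
      rw [h2]; abel
    · apply Subtype.ext
      exact h2
  · intro w
    show w - c • ((c - σ c)⁻¹ • (w - θ w)) + c • ((c - σ c)⁻¹ • (w - θ w)) = w
    abel

end general

section cstar

variable {K : Type*} [Field K] (σ : K →+* K) {ι : Type*} [Fintype ι] [DecidableEq ι]

theorem cstar_zero : cstar σ (0 : Matrix ι ι K) = 0 := by
  ext i j; simp [cstar_apply]

theorem cstar_sub (A B : Matrix ι ι K) : cstar σ (A - B) = cstar σ A - cstar σ B := by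
  ext i j; simp [cstar_apply]

theorem cstar_neg (A : Matrix ι ι K) : cstar σ (-A) = -cstar σ A := by
  ext i j; simp [cstar_apply]

theorem cstar_smul (c : K) (A : Matrix ι ι K) : cstar σ (c • A) = σ c • cstar σ A := by
  ext i j; simp [cstar_apply]

theorem cstar_injective (hσ2 : ∀ a, σ (σ a) = a) {A B : Matrix ι ι K}
    (h : cstar σ A = cstar σ B) : A = B := by
  rw [← cstar_cstar σ hσ2 A, h, cstar_cstar σ hσ2]

theorem cstar_submatrix {κ : Type*} [Fintype κ] [DecidableEq κ] (e : κ ≃ ι) (A : Matrix ι ι K) :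
    cstar σ (A.submatrix e e) = (cstar σ A).submatrix e e := by
  ext i j; rfl

/-- Unitary-type relation is symmetric. -/
theorem cstar_mul_self_comm {A : Matrix ι ι K} (h : cstar σ A * A = 1) : A * cstar σ A = 1 :=
  mul_eq_one_comm.mp h

end cstar

section orbit

variable {K : Type*} [Field K] [Fintype K] (σ : K →+* K) {ι : Type*} [Fintype ι] [DecidableEq ι]

/-- Orbit counting: the centraliser of a unitary matrix `u` in `GL` acts transitively on the
invertible Hermitian matrices commuting with `u`, with stabiliser the unitary centraliser. -/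
theorem orbit_count (hσ2 : ∀ a, σ (σ a) = a) (hσ : σ ≠ RingHom.id K) (u : GL ι K)
    (hu : cstar σ (u : Matrix ι ι K) * (u : Matrix ι ι K) = 1) :
    Nat.card {g : GL ι K // g * u = u * g} =
      Nat.card {h : Matrix ι ι K // cstar σ h = h ∧ h.det ≠ 0 ∧
        h * (u : Matrix ι ι K) = (u : Matrix ι ι K) * h} *
      Nat.card {g : GL ι K // g * u = u * g ∧
        cstar σ (g : Matrix ι ι K) * (g : Matrix ι ι K) = 1} := by
  classical
  have hu' : (u : Matrix ι ι K) * cstar σ (u : Matrix ι ι K) = 1 := mul_eq_one_comm.mp hu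
  have hcomm : ∀ z : Matrix ι ι K, z * u.1 = u.1 * z → z * cstar σ u.1 = cstar σ u.1 * z := by
    intro z hz
    calc z * cstar σ u.1 = (cstar σ u.1 * u.1) * z * cstar σ u.1 := by rw [hu, one_mul]
      _ = cstar σ u.1 * (u.1 * z) * cstar σ u.1 := by simp only [mul_assoc]
      _ = cstar σ u.1 * (z * u.1) * cstar σ u.1 := by rw [hz]
      _ = cstar σ u.1 * z * (u.1 * cstar σ u.1) := by simp only [mul_assoc]
      _ = cstar σ u.1 * z := by rw [hu', mul_one]
  have hcomm2 : ∀ z : Matrix ι ι K, z * u.1 = u.1 * z → cstar σ z * u.1 = u.1 * cstar σ z := by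
    intro z hz
    have h1 := congrArg (cstar σ) (hcomm z hz)
    rw [cstar_mul, cstar_mul, cstar_cstar σ hσ2] at h1
    exact h1.symm
  let Z : Subgroup (GL ι K) := Subgroup.centralizer ({u} : Set (GL ι K))
  have hZ : ∀ g : GL ι K, g ∈ Z ↔ g * u = u * g := by
    intro g
    simp only [Z, Subgroup.mem_centralizer_iff, Set.mem_singleton_iff, forall_eq]
    exact eq_comm
  let V : Subgroup Z :=
    { carrier := {z | cstar σ (z.1 : Matrix ι ι K) * (z.1 : Matrix ι ι K) = 1}
      one_mem' := by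
        show cstar σ (1 : Matrix ι ι K) * 1 = 1
        rw [cstar_one, one_mul]
      mul_mem' := by
        intro a b ha hb
        have ha' : cstar σ (a.1 : Matrix ι ι K) * (a.1 : Matrix ι ι K) = 1 := ha
        have hb' : cstar σ (b.1 : Matrix ι ι K) * (b.1 : Matrix ι ι K) = 1 := hb
        show cstar σ ((a.1 : Matrix ι ι K) * (b.1 : Matrix ι ι K)) *
          ((a.1 : Matrix ι ι K) * (b.1 : Matrix ι ι K)) = 1
        rw [cstar_mul]
        calc cstar σ (b.1 : Matrix ι ι K) * cstar σ (a.1 : Matrix ι ι K) *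
              ((a.1 : Matrix ι ι K) * (b.1 : Matrix ι ι K))
            = cstar σ (b.1 : Matrix ι ι K) * (cstar σ (a.1 : Matrix ι ι K) *
              (a.1 : Matrix ι ι K)) * (b.1 : Matrix ι ι K) := by simp only [mul_assoc]
          _ = 1 := by rw [ha', mul_one, hb']
      inv_mem' := by
        intro a ha
        have ha' : cstar σ (a.1 : Matrix ι ι K) * (a.1 : Matrix ι ι K) = 1 := ha
        have h1 : ((a.1⁻¹ : GL ι K) : Matrix ι ι K) = cstar σ (a.1 : Matrix ι ι K) :=
          (Units.eq_inv_of_mul_eq_one_left (mul_eq_one_comm.mp ha')).symm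
        show cstar σ ((a.1⁻¹ : GL ι K) : Matrix ι ι K) * ((a.1⁻¹ : GL ι K) : Matrix ι ι K) = 1
        rw [h1, cstar_cstar σ hσ2]
        exact mul_eq_one_comm.mp ha' }
  let φ : Z → Matrix ι ι K := fun z => (z.1 : Matrix ι ι K) * cstar σ (z.1 : Matrix ι ι K)
  have hφ : ∀ a b : Z, φ a = φ b ↔ a⁻¹ * b ∈ V := by
    intro a b
    have hAA' : (a.1 : Matrix ι ι K) * ((a.1⁻¹ : GL ι K) : Matrix ι ι K) = 1 := by
      rw [← Units.val_mul, mul_inv_cancel, Units.val_one]
    have hA'A : ((a.1⁻¹ : GL ι K) : Matrix ι ι K) * (a.1 : Matrix ι ι K) = 1 := by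
      rw [← Units.val_mul, inv_mul_cancel, Units.val_one]
    have hmem : a⁻¹ * b ∈ V ↔ cstar σ (((a.1⁻¹ : GL ι K) : Matrix ι ι K) * (b.1 : Matrix ι ι K)) *
        (((a.1⁻¹ : GL ι K) : Matrix ι ι K) * (b.1 : Matrix ι ι K)) = 1 := Iff.rfl
    rw [hmem]
    show (a.1 : Matrix ι ι K) * cstar σ (a.1 : Matrix ι ι K) =
      (b.1 : Matrix ι ι K) * cstar σ (b.1 : Matrix ι ι K) ↔ _
    generalize ((a.1⁻¹ : GL ι K) : Matrix ι ι K) = A' at hAA' hA'A ⊢
    generalize (a.1 : Matrix ι ι K) = A at hAA' hA'A ⊢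
    generalize (b.1 : Matrix ι ι K) = B
    have hc1 : cstar σ A * cstar σ A' = 1 := by rw [← cstar_mul, hA'A, cstar_one]
    have hc2 : cstar σ A' * cstar σ A = 1 := by rw [← cstar_mul, hAA', cstar_one]
    constructor
    · intro h
      apply mul_eq_one_comm.mp
      rw [cstar_mul]
      calc A' * B * (cstar σ B * cstar σ A') = A' * (B * cstar σ B) * cstar σ A' := by
            simp only [mul_assoc]
        _ = A' * (A * cstar σ A) * cstar σ A' := by rw [h]
        _ = (A' * A) * (cstar σ A * cstar σ A') := by simp only [mul_assoc]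
        _ = 1 := by rw [hA'A, hc1, one_mul]
    · intro h
      have h' := mul_eq_one_comm.mp h
      rw [cstar_mul] at h'
      have h'' : A' * (B * cstar σ B) * cstar σ A' = 1 := by
        rw [← h']; simp only [mul_assoc]
      calc A * cstar σ A = A * (A' * (B * cstar σ B) * cstar σ A') * cstar σ A := by
            rw [h'', mul_one]
        _ = (A * A') * (B * cstar σ B) * (cstar σ A' * cstar σ A) := by simp only [mul_assoc]
        _ = B * cstar σ B := by rw [hAA', hc2, one_mul, mul_one]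
  have hrange : Set.range φ = {h : Matrix ι ι K | cstar σ h = h ∧ h.det ≠ 0 ∧
      h * (u : Matrix ι ι K) = (u : Matrix ι ι K) * h} := by
    ext h
    constructor
    · rintro ⟨z, rfl⟩
      have hzu : (z.1 : Matrix ι ι K) * (u : Matrix ι ι K) = (u : Matrix ι ι K) * (z.1 : Matrix ι ι K) := by
        have := (hZ z.1).1 z.2
        rw [← Units.val_mul, ← Units.val_mul, this]
      refine ⟨?_, ?_, ?_⟩
      · show cstar σ ((z.1 : Matrix ι ι K) * cstar σ (z.1 : Matrix ι ι K)) = _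
        rw [cstar_mul, cstar_cstar σ hσ2]
      · show ((z.1 : Matrix ι ι K) * cstar σ (z.1 : Matrix ι ι K)).det ≠ 0
        rw [Matrix.det_mul, det_cstar]
        have hz : (z.1 : Matrix ι ι K).det ≠ 0 := Matrix.GeneralLinearGroup.det_ne_zero z.1
        exact mul_ne_zero hz (fun h0 => hz ((map_eq_zero σ).mp h0))
      · show (z.1 : Matrix ι ι K) * cstar σ (z.1 : Matrix ι ι K) * (u : Matrix ι ι K) =
          (u : Matrix ι ι K) * ((z.1 : Matrix ι ι K) * cstar σ (z.1 : Matrix ι ι K))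
        rw [mul_assoc, hcomm2 _ hzu, ← mul_assoc, hzu, mul_assoc]
    · rintro ⟨hh, hdet, hhu⟩
      obtain ⟨w, hw, hwc⟩ := herm_sqrt σ hσ2 hσ h
        ((Matrix.isUnit_iff_isUnit_det _).mpr (isUnit_iff_ne_zero.mpr hdet)) hh
      have hwdet : w.det ≠ 0 := by
        intro h0
        apply hdet
        rw [← hw, Matrix.det_mul, h0, mul_zero]
      have hcw : (cstar σ w).det ≠ 0 := by
        rw [det_cstar]
        exact fun h0 => hwdet ((map_eq_zero σ).mp h0)
      have h1 : cstar σ (u : Matrix ι ι K) * w = w * cstar σ (u : Matrix ι ι K) :=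
        hwc _ (hcomm h hhu).symm
      have h2 : cstar σ w * (u : Matrix ι ι K) = (u : Matrix ι ι K) * cstar σ w := by
        have := congrArg (cstar σ) h1
        rw [cstar_mul, cstar_mul, cstar_cstar σ hσ2] at this
        exact this
      have hzZ : Matrix.GeneralLinearGroup.mkOfDetNeZero (cstar σ w) hcw ∈ Z := by
        rw [hZ]
        apply Units.ext
        exact h2
      refine ⟨⟨_, hzZ⟩, ?_⟩
      show cstar σ w * cstar σ (cstar σ w) = h
      rw [cstar_cstar σ hσ2, hw]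
  have e1 : {g : GL ι K // g * u = u * g} ≃ Z := Equiv.subtypeEquivRight (fun g => (hZ g).symm)
  have e2 : V ≃ {g : GL ι K // g * u = u * g ∧
      cstar σ (g : Matrix ι ι K) * (g : Matrix ι ι K) = 1} :=
    { toFun := fun v => ⟨v.1.1, (hZ _).1 v.1.2, v.2⟩
      invFun := fun g => ⟨⟨g.1, (hZ _).2 g.2.1⟩, g.2.2⟩
      left_inv := fun v => rfl
      right_inv := fun g => rfl }
  have e3 : Set.range φ ≃ {h : Matrix ι ι K // cstar σ h = h ∧ h.det ≠ 0 ∧
      h * (u : Matrix ι ι K) = (u : Matrix ι ι K) * h} := Equiv.setCongr hrange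
  rw [Nat.card_congr e1, fiber_count V φ hφ, Nat.card_congr e3, Nat.card_congr e2]

end orbit

section cayley

variable {K : Type*} [Field K] (σ : K →+* K) {ι : Type*} [Fintype ι] [DecidableEq ι]

/-- A Cayley transform adapted to the involution: `u = (1 + λM)(1 - λ̄M)⁻¹` with `λ + λ̄ = 1`
preserves the form `h` iff `M` is skew-adjoint for `h`. -/
theorem cayley_iff (hσ2 : ∀ a, σ (σ a) = a) (lam : K) (hlam : lam + σ lam = 1)
    (U w h : Matrix ι ι K)
    (hw1 : (lam • (1 : Matrix ι ι K) + σ lam • U) * w = 1)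
    (hw2 : w * (lam • (1 : Matrix ι ι K) + σ lam • U) = 1) :
    cstar σ ((U - 1) * w) * h + h * ((U - 1) * w) = 0 ↔ cstar σ U * h * U = h := by
  obtain ⟨Dm, hDm⟩ : ∃ Dm : Matrix ι ι K, Dm = lam • (1 : Matrix ι ι K) + σ lam • U := ⟨_, rfl⟩
  rw [← hDm] at hw1 hw2
  have hcD : cstar σ Dm = σ lam • (1 : Matrix ι ι K) + lam • cstar σ U := by
    rw [hDm, cstar_add, cstar_smul, cstar_smul, cstar_one, hσ2]
  have hcw1 : cstar σ Dm * cstar σ w = 1 := by rw [← cstar_mul, hw2, cstar_one]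
  have hcw2 : cstar σ w * cstar σ Dm = 1 := by rw [← cstar_mul, hw1, cstar_one]
  have key : cstar σ Dm * (cstar σ ((U - 1) * w) * h + h * ((U - 1) * w)) * Dm =
      cstar σ U * h * U - h := by
    have e1 : cstar σ Dm * cstar σ ((U - 1) * w) = cstar σ U - 1 := by
      rw [cstar_mul, ← mul_assoc, hcw1, one_mul, cstar_sub, cstar_one]
    have e2 : (U - 1) * w * Dm = U - 1 := by rw [mul_assoc, hw2, mul_one]
    have h1 : σ lam = 1 - lam := by rw [← hlam]; ring
    calc cstar σ Dm * (cstar σ ((U - 1) * w) * h + h * ((U - 1) * w)) * Dm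
        = (cstar σ Dm * cstar σ ((U - 1) * w)) * h * Dm +
            cstar σ Dm * h * ((U - 1) * w * Dm) := by
          simp only [mul_add, add_mul, mul_assoc]
      _ = (cstar σ U - 1) * h * Dm + cstar σ Dm * h * (U - 1) := by rw [e1, e2]
      _ = cstar σ U * h * U - h := by
          rw [hcD, hDm, h1]
          simp only [sub_mul, mul_sub, add_mul, mul_add, one_mul, mul_one, Matrix.smul_mul,
            Matrix.mul_smul, sub_smul, one_smul, mul_assoc]
          abel
  constructor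
  · intro h0
    rw [h0, mul_zero, zero_mul] at key
    exact sub_eq_zero.mp key.symm
  · intro h0
    rw [h0, sub_self] at key
    calc cstar σ ((U - 1) * w) * h + h * ((U - 1) * w)
        = (cstar σ w * cstar σ Dm) * (cstar σ ((U - 1) * w) * h + h * ((U - 1) * w)) *
            (Dm * w) := by rw [hcw2, hw1, one_mul, mul_one]
      _ = cstar σ w * (cstar σ Dm * (cstar σ ((U - 1) * w) * h + h * ((U - 1) * w)) * Dm) *
            w := by simp only [mul_assoc]
      _ = 0 := by rw [key, mul_zero, zero_mul]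

/-- For a unitary `U`, preserving `h` is commuting with `h`. -/
theorem unitary_comm_iff (U h : Matrix ι ι K) (hU : cstar σ U * U = 1) :
    cstar σ U * h * U = h ↔ h * U = U * h := by
  have hU' : U * cstar σ U = 1 := mul_eq_one_comm.mp hU
  constructor
  · intro h0
    calc h * U = (U * cstar σ U) * h * U := by rw [hU', one_mul]
      _ = U * (cstar σ U * h * U) := by simp only [mul_assoc]
      _ = U * h := by rw [h0]
  · intro h0
    rw [mul_assoc, h0, ← mul_assoc, hU, one_mul]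

end cayley

section model

variable {K : Type u} [Field K] (σ : K →+* K) {t : ℕ} (d : Fin t → ℕ)

/-- Reversal within blocks. -/
def rev (a : (k : Fin t) × Fin (d k)) : (k : Fin t) × Fin (d k) :=
  ⟨a.1, ⟨d a.1 - 1 - a.2, by have := a.2.2; omega⟩⟩

theorem rev_rev (a : (k : Fin t) × Fin (d k)) : rev d (rev d a) = a := by
  obtain ⟨k, i⟩ := a
  simp only [rev]
  congr 1
  apply Fin.ext
  simp only
  have := i.2
  omega

theorem eq_rev_iff (a b : (k : Fin t) × Fin (d k)) :
    b = rev d a ↔ b.1 = a.1 ∧ (b.2 : ℕ) + a.2 + 1 = d a.1 := by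
  constructor
  · rintro rfl
    refine ⟨rfl, ?_⟩
    simp only [rev]
    have := a.2.2
    omega
  · rintro ⟨h1, h2⟩
    obtain ⟨k, i⟩ := a
    obtain ⟨l, j⟩ := b
    simp only at h1 h2
    subst h1
    simp only [rev]
    congr 1
    apply Fin.ext
    simp only
    omega

/-- The signed block reversal matrix. -/
def cm (K : Type u) [Field K] {t : ℕ} (d : Fin t → ℕ) :
    Matrix ((k : Fin t) × Fin (d k)) ((k : Fin t) × Fin (d k)) K :=
  Matrix.of fun a b => if b = rev d a then (-1) ^ (a.2 : ℕ) else 0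

theorem cm_mul_apply (g : Matrix ((k : Fin t) × Fin (d k)) ((k : Fin t) × Fin (d k)) K)
    (a b : (k : Fin t) × Fin (d k)) :
    (cm K d * g) a b = (-1) ^ (a.2 : ℕ) * g (rev d a) b := by
  rw [Matrix.mul_apply, Finset.sum_eq_single (rev d a)]
  · simp [cm]
  · intro c _ hc
    simp [cm, hc]
  · intro h
    exact absurd (Finset.mem_univ _) h

theorem mul_cmT_apply (g : Matrix ((k : Fin t) × Fin (d k)) ((k : Fin t) × Fin (d k)) K)
    (a b : (k : Fin t) × Fin (d k)) :
    (g * (cm K d)ᵀ) a b = g a (rev d b) * (-1) ^ (b.2 : ℕ) := by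
  rw [Matrix.mul_apply, Finset.sum_eq_single (rev d b)]
  · simp [cm]
  · intro c _ hc
    simp [cm, hc]
  · intro h
    exact absurd (Finset.mem_univ _) h

theorem cmT_mul_apply (g : Matrix ((k : Fin t) × Fin (d k)) ((k : Fin t) × Fin (d k)) K)
    (a b : (k : Fin t) × Fin (d k)) :
    ((cm K d)ᵀ * g) a b = (-1) ^ ((rev d a).2 : ℕ) * g (rev d a) b := by
  rw [Matrix.mul_apply, Finset.sum_eq_single (rev d a)]
  · simp [cm, rev_rev]
  · intro c _ hc
    have : a ≠ rev d c := fun h => hc (by rw [h, rev_rev])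
    simp [cm, this]
  · intro h
    exact absurd (Finset.mem_univ _) h

theorem cm_mul_cmT : cm K d * (cm K d)ᵀ = 1 := by
  ext a b
  rw [cm_mul_apply, Matrix.transpose_apply, Matrix.one_apply]
  simp only [cm, Matrix.of_apply]
  by_cases h : a = b
  · subst h
    rw [if_pos rfl, if_pos rfl, ← mul_pow]
    simp
  · have : rev d a ≠ rev d b := fun h' => h (by rw [← rev_rev d a, h', rev_rev])
    rw [if_neg this, if_neg h, mul_zero]

theorem cmT_mul_cm : (cm K d)ᵀ * cm K d = 1 := mul_eq_one_comm.mp (cm_mul_cmT d)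

theorem cstar_cm : cstar σ (cm K d) = (cm K d)ᵀ := by
  ext a b
  rw [cstar_apply, Matrix.transpose_apply]
  simp only [cm, Matrix.of_apply]
  split_ifs <;> simp

theorem cstar_cmT : cstar σ (cm K d)ᵀ = cm K d := by
  ext a b
  rw [cstar_apply, Matrix.transpose_apply]
  simp only [cm, Matrix.of_apply]
  split_ifs <;> simp

theorem cstar_Nm : cstar σ (Nm K d) = (Nm K d)ᵀ := by
  ext a b
  rw [cstar_apply, Matrix.transpose_apply]
  simp only [Nm, Matrix.of_apply]
  split_ifs <;> simp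

theorem NmT_mul_apply (g : Matrix ((k : Fin t) × Fin (d k)) ((k : Fin t) × Fin (d k)) K)
    (a b : (k : Fin t) × Fin (d k)) :
    ((Nm K d)ᵀ * g) a b = if h : (a.2 : ℕ) + 1 < d a.1 then g ⟨a.1, ⟨a.2 + 1, h⟩⟩ b else 0 := by
  have e : (Nm K d)ᵀ * g = (gᵀ * Nm K d)ᵀ := by
    rw [Matrix.transpose_mul, Matrix.transpose_transpose]
  rw [e, Matrix.transpose_apply, mul_Nm_apply]
  simp only [Matrix.transpose_apply]

/-- The basic relation between the reversal and the nilpotent matrix. -/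
theorem cm_mul_Nm : cm K d * Nm K d = -((Nm K d)ᵀ * cm K d) := by
  ext a b
  rw [cm_mul_apply, Matrix.neg_apply, NmT_mul_apply]
  simp only [Nm, cm, Matrix.of_apply]
  by_cases h : (a.2 : ℕ) + 1 < d a.1
  · rw [dif_pos h]
    by_cases hb : b = rev d ⟨a.1, ⟨a.2 + 1, h⟩⟩
    · rw [if_pos hb, if_pos, pow_succ]
      · ring
      · have h1 := (eq_rev_iff d _ _).1 hb
        simp only at h1
        refine ⟨h1.1.symm, ?_⟩
        simp only [rev]
        omega
    · rw [if_neg hb, if_neg, mul_zero, neg_zero]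
      rintro ⟨h1, h2⟩
      apply hb
      rw [eq_rev_iff]
      simp only [rev] at h1 h2 ⊢
      exact ⟨h1.symm, by omega⟩
  · rw [dif_neg h, if_neg, mul_zero, neg_zero]
    rintro ⟨h1, h2⟩
    simp only [rev] at h2
    omega

theorem Nm_mul_cmT : Nm K d * (cm K d)ᵀ = -((cm K d)ᵀ * (Nm K d)ᵀ) := by
  have h : (cm K d)ᵀ * (cm K d * Nm K d) * (cm K d)ᵀ =
      (cm K d)ᵀ * (-((Nm K d)ᵀ * cm K d)) * (cm K d)ᵀ := by rw [cm_mul_Nm]
  rw [← mul_assoc, cmT_mul_cm, one_mul] at h
  rw [h, mul_neg, neg_mul, mul_assoc, mul_assoc, cm_mul_cmT, mul_one]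

theorem NmT_mul_cmT : (Nm K d)ᵀ * (cm K d)ᵀ = -((cm K d)ᵀ * Nm K d) := by
  have h := congrArg Matrix.transpose (cm_mul_Nm (K := K) d)
  rw [Matrix.transpose_mul, Matrix.transpose_neg, Matrix.transpose_mul,
    Matrix.transpose_transpose] at h
  exact h

/-- The involution on matrices corresponding to `h ↦ h†` under `h = cm * a`. -/
def star0 (A : Matrix ((k : Fin t) × Fin (d k)) ((k : Fin t) × Fin (d k)) K) :
    Matrix ((k : Fin t) × Fin (d k)) ((k : Fin t) × Fin (d k)) K :=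
  (cm K d)ᵀ * cstar σ A * (cm K d)ᵀ

theorem star0_star0 (hσ2 : ∀ a, σ (σ a) = a)
    (A : Matrix ((k : Fin t) × Fin (d k)) ((k : Fin t) × Fin (d k)) K) :
    star0 σ d (star0 σ d A) = A := by
  unfold star0
  rw [cstar_mul, cstar_mul, cstar_cmT, cstar_cstar σ hσ2]
  calc (cm K d)ᵀ * (cm K d * (A * cm K d)) * (cm K d)ᵀ
      = ((cm K d)ᵀ * cm K d) * A * (cm K d * (cm K d)ᵀ) := by simp only [mul_assoc]
    _ = A := by rw [cmT_mul_cm, cm_mul_cmT, one_mul, mul_one]

theorem star0_comm (A : Matrix ((k : Fin t) × Fin (d k)) ((k : Fin t) × Fin (d k)) K)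
    (hA : A * Nm K d = Nm K d * A) : star0 σ d A * Nm K d = Nm K d * star0 σ d A := by
  have h1 : (Nm K d)ᵀ * cstar σ A = cstar σ A * (Nm K d)ᵀ := by
    have := congrArg (cstar σ) hA
    rw [cstar_mul, cstar_mul, cstar_Nm] at this
    exact this
  unfold star0
  calc (cm K d)ᵀ * cstar σ A * (cm K d)ᵀ * Nm K d
      = (cm K d)ᵀ * cstar σ A * ((cm K d)ᵀ * Nm K d) := by simp only [mul_assoc]
    _ = (cm K d)ᵀ * cstar σ A * (-((Nm K d)ᵀ * (cm K d)ᵀ)) := by rw [NmT_mul_cmT, neg_neg]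
    _ = -((cm K d)ᵀ * (cstar σ A * (Nm K d)ᵀ) * (cm K d)ᵀ) := by
        simp only [mul_neg, mul_assoc]
    _ = -((cm K d)ᵀ * ((Nm K d)ᵀ * cstar σ A) * (cm K d)ᵀ) := by rw [h1]
    _ = -(((cm K d)ᵀ * (Nm K d)ᵀ) * cstar σ A * (cm K d)ᵀ) := by simp only [mul_assoc]
    _ = Nm K d * (cm K d)ᵀ * cstar σ A * (cm K d)ᵀ := by
        rw [Nm_mul_cmT]; simp only [neg_mul]
    _ = Nm K d * ((cm K d)ᵀ * cstar σ A * (cm K d)ᵀ) := by simp only [mul_assoc]

theorem toep_add (x y : ((k : Fin t) × Fin (d k)) → Fin t → K) :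
    toep d (x + y) = toep d x + toep d y := by
  ext a b
  simp only [toep, Matrix.of_apply, Matrix.add_apply, Pi.add_apply]
  split_ifs <;> simp

theorem toep_smul (c : K) (x : ((k : Fin t) × Fin (d k)) → Fin t → K) :
    toep d (c • x) = c • toep d x := by
  ext a b
  simp only [toep, Matrix.of_apply, Matrix.smul_apply, Pi.smul_apply]
  split_ifs <;> simp

/-- The involution on the first-column parameters. -/
def Th (hd : ∀ k, 1 ≤ d k) (x : ((k : Fin t) × Fin (d k)) → Fin t → K) :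
    ((k : Fin t) × Fin (d k)) → Fin t → K :=
  col d hd (star0 σ d (toep d x))

theorem Th_isPar (hd : ∀ k, 1 ≤ d k) (x : ((k : Fin t) × Fin (d k)) → Fin t → K)
    (hx : IsPar d x) : IsPar d (Th σ d hd x) :=
  fun a l h => col_zero d hd _ (star0_comm σ d _ (toep_comm d x hx)) a l h

theorem toep_Th (hd : ∀ k, 1 ≤ d k) (x : ((k : Fin t) × Fin (d k)) → Fin t → K)
    (hx : IsPar d x) : toep d (Th σ d hd x) = star0 σ d (toep d x) :=
  eq_toep d hd _ (star0_comm σ d _ (toep_comm d x hx))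

theorem Th_Th (hσ2 : ∀ a, σ (σ a) = a) (hd : ∀ k, 1 ≤ d k)
    (x : ((k : Fin t) × Fin (d k)) → Fin t → K) (hx : IsPar d x) :
    Th σ d hd (Th σ d hd x) = x := by
  conv_lhs => rw [Th, toep_Th σ d hd x hx, star0_star0 σ d hσ2]
  exact col_toep d hd x

theorem Th_add (hd : ∀ k, 1 ≤ d k) (x y : ((k : Fin t) × Fin (d k)) → Fin t → K) :
    Th σ d hd (x + y) = Th σ d hd x + Th σ d hd y := by
  unfold Th star0
  rw [toep_add, cstar_add, mul_add, add_mul]
  rfl

theorem Th_smul (hd : ∀ k, 1 ≤ d k) (c : K) (x : ((k : Fin t) × Fin (d k)) → Fin t → K) :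
    Th σ d hd (c • x) = σ c • Th σ d hd x := by
  unfold Th star0
  rw [toep_smul, cstar_smul, Matrix.mul_smul, Matrix.smul_mul]
  rfl

theorem Tmat_Th (hd : ∀ k, 1 ≤ d k) (x : ((k : Fin t) × Fin (d k)) → Fin t → K)
    (k l : Fin t) (hkl : d k = d l) :
    Tmat d hd (Th σ d hd x) k l = (-1) ^ (d k - 1) * σ (Tmat d hd x l k) := by
  have h1 : Tmat d hd (Th σ d hd x) k l =
      star0 σ d (toep d x) ⟨k, ⟨0, hd k⟩⟩ ⟨l, ⟨0, hd l⟩⟩ := rfl
  rw [h1]
  unfold star0
  rw [mul_cmT_apply, cmT_mul_apply, cstar_apply]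
  simp only [rev, toep, Matrix.of_apply, Tmat, pow_zero, mul_one, Nat.sub_zero]
  rw [dif_pos (by omega)]
  have e : d l - 1 - (d k - 1) = 0 := by omega
  simp only [e]

theorem isPar_add {x y : ((k : Fin t) × Fin (d k)) → Fin t → K} (hx : IsPar d x)
    (hy : IsPar d y) : IsPar d (x + y) := by
  intro a l h
  rw [Pi.add_apply, Pi.add_apply, hx a l h, hy a l h, add_zero]

theorem isPar_sub {x y : ((k : Fin t) × Fin (d k)) → Fin t → K} (hx : IsPar d x)
    (hy : IsPar d y) : IsPar d (x - y) := by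
  intro a l h
  rw [Pi.sub_apply, Pi.sub_apply, hx a l h, hy a l h, sub_zero]

theorem isPar_smul (c : K) {x : ((k : Fin t) × Fin (d k)) → Fin t → K} (hx : IsPar d x) :
    IsPar d (c • x) := by
  intro a l h
  rw [Pi.smul_apply, Pi.smul_apply, hx a l h, smul_zero]

/-- The Hermitian forms for which the nilpotent Jordan matrix is skew-adjoint, in terms of the
first-column parameters. -/
noncomputable def modelEquiv (hd : ∀ k, 1 ≤ d k) :
    {h : Matrix ((k : Fin t) × Fin (d k)) ((k : Fin t) × Fin (d k)) K //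
      cstar σ h = h ∧ h.det ≠ 0 ∧ cstar σ (Nm K d) * h + h * Nm K d = 0} ≃
    {x : ((k : Fin t) × Fin (d k)) → Fin t → K //
      IsPar d x ∧ Th σ d hd x = x ∧ (Tmat d hd x).det ≠ 0} where
  toFun h := ⟨col d hd ((cm K d)ᵀ * h.1), by
    obtain ⟨h, hh, hdet, hN⟩ := h
    have hc : (cm K d)ᵀ * h * Nm K d = Nm K d * ((cm K d)ᵀ * h) := by
      rw [cstar_Nm] at hN
      have h2 : h * Nm K d = -((Nm K d)ᵀ * h) := eq_neg_of_add_eq_zero_right hN
      rw [mul_assoc, h2, mul_neg, ← mul_assoc, ← mul_assoc, Nm_mul_cmT, neg_mul]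
    have hpar : IsPar d (col d hd ((cm K d)ᵀ * h)) := fun a l h' => col_zero d hd _ hc a l h'
    have htoep := eq_toep d hd _ hc
    refine ⟨hpar, ?_, ?_⟩
    · show Th σ d hd (col d hd ((cm K d)ᵀ * h)) = col d hd ((cm K d)ᵀ * h)
      unfold Th star0
      rw [htoep, cstar_mul, cstar_cmT, hh, mul_assoc, mul_assoc, cm_mul_cmT, mul_one]
    · rw [← det_toep_ne_zero_iff d hd _ hpar, htoep, Matrix.det_mul]
      refine mul_ne_zero ?_ hdet
      intro h0
      have := congrArg Matrix.det (cmT_mul_cm (K := K) d)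
      rw [Matrix.det_mul, h0, zero_mul, Matrix.det_one] at this
      exact zero_ne_one this⟩
  invFun x := ⟨cm K d * toep d x.1, by
    obtain ⟨x, hpar, hth, hdet⟩ := x
    have hst : star0 σ d (toep d x) = toep d x := by
      rw [← toep_Th σ d hd x hpar, hth]
    refine ⟨?_, ?_, ?_⟩
    · rw [cstar_mul, cstar_cm]
      unfold star0 at hst
      calc cstar σ (toep d x) * (cm K d)ᵀ
          = (cm K d * (cm K d)ᵀ) * cstar σ (toep d x) * (cm K d)ᵀ := by
            rw [cm_mul_cmT, one_mul]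
        _ = cm K d * ((cm K d)ᵀ * cstar σ (toep d x) * (cm K d)ᵀ) := by simp only [mul_assoc]
        _ = cm K d * toep d x := by rw [hst]
    · rw [Matrix.det_mul]
      refine mul_ne_zero ?_ ((det_toep_ne_zero_iff d hd x hpar).2 hdet)
      intro h0
      have := congrArg Matrix.det (cm_mul_cmT (K := K) d)
      rw [Matrix.det_mul, h0, zero_mul, Matrix.det_one] at this
      exact zero_ne_one this
    · rw [cstar_Nm, ← mul_assoc, mul_assoc (cm K d), toep_comm d x hpar, ← mul_assoc,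
        ← add_mul, cm_mul_Nm, add_neg_cancel, zero_mul]⟩
  left_inv h := by
    obtain ⟨h, hh, hdet, hN⟩ := h
    have hc : (cm K d)ᵀ * h * Nm K d = Nm K d * ((cm K d)ᵀ * h) := by
      rw [cstar_Nm] at hN
      have h2 : h * Nm K d = -((Nm K d)ᵀ * h) := eq_neg_of_add_eq_zero_right hN
      rw [mul_assoc, h2, mul_neg, ← mul_assoc, ← mul_assoc, Nm_mul_cmT, neg_mul]
    apply Subtype.ext
    show cm K d * toep d (col d hd ((cm K d)ᵀ * h)) = h
    rw [eq_toep d hd _ hc, ← mul_assoc, cm_mul_cmT, one_mul]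
  right_inv x := by
    apply Subtype.ext
    show col d hd ((cm K d)ᵀ * (cm K d * toep d x.1)) = x.1
    rw [← mul_assoc, cmT_mul_cm, one_mul, col_toep]

/-- `Th` as an additive map. -/
def ThHom (hd : ∀ k, 1 ≤ d k) :
    (((k : Fin t) × Fin (d k)) → Fin t → K) →+ (((k : Fin t) × Fin (d k)) → Fin t → K) :=
  AddMonoidHom.mk' (Th σ d hd) (Th_add σ d hd)

theorem Th_sub (hd : ∀ k, 1 ≤ d k) (x y : ((k : Fin t) × Fin (d k)) → Fin t → K) :
    Th σ d hd (x - y) = Th σ d hd x - Th σ d hd y :=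
  map_sub (ThHom σ d hd) x y

/-- The diagonal blocks of the top matrix. -/
def Dg (hd : ∀ k, 1 ≤ d k) (x : ((k : Fin t) × Fin (d k)) → Fin t → K)
    (δ : Fin (univ.sup d + 1)) : Matrix {k // bD d k = δ} {k // bD d k = δ} K :=
  (Tmat d hd x).toSquareBlock (bD d) δ

theorem Dg_apply (hd : ∀ k, 1 ≤ d k) (x : ((k : Fin t) × Fin (d k)) → Fin t → K)
    (δ : Fin (univ.sup d + 1)) (k l : {k // bD d k = δ}) :
    Dg d hd x δ k l = x ⟨k.1, ⟨0, hd k.1⟩⟩ l.1 := rfl

theorem Dg_add (hd : ∀ k, 1 ≤ d k) (x y : ((k : Fin t) × Fin (d k)) → Fin t → K)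
    (δ : Fin (univ.sup d + 1)) : Dg d hd (x + y) δ = Dg d hd x δ + Dg d hd y δ := by
  ext k l; rfl

theorem Dg_sub (hd : ∀ k, 1 ≤ d k) (x y : ((k : Fin t) × Fin (d k)) → Fin t → K)
    (δ : Fin (univ.sup d + 1)) : Dg d hd (x - y) δ = Dg d hd x δ - Dg d hd y δ := by
  ext k l; rfl

theorem Dg_smul (hd : ∀ k, 1 ≤ d k) (c : K) (x : ((k : Fin t) × Fin (d k)) → Fin t → K)
    (δ : Fin (univ.sup d + 1)) : Dg d hd (c • x) δ = c • Dg d hd x δ := by
  ext k l; rfl

theorem Dg_Th (hd : ∀ k, 1 ≤ d k) (x : ((k : Fin t) × Fin (d k)) → Fin t → K)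
    (δ : Fin (univ.sup d + 1)) :
    Dg d hd (Th σ d hd x) δ = ((-1 : K) ^ ((δ : ℕ) - 1)) • cstar σ (Dg d hd x δ) := by
  ext k l
  have hk : d k.1 = δ := congrArg Fin.val k.2
  have hl : d l.1 = δ := congrArg Fin.val l.2
  rw [Matrix.smul_apply, cstar_apply, smul_eq_mul, ← hk]
  exact Tmat_Th σ d hd x k.1 l.1 (hk.trans hl.symm)

theorem det_Tmat_ne_zero_iff (hd : ∀ k, 1 ≤ d k) (x : ((k : Fin t) × Fin (d k)) → Fin t → K)
    (hx : IsPar d x) : (Tmat d hd x).det ≠ 0 ↔ ∀ δ, (Dg d hd x δ).det ≠ 0 := by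
  rw [(Tmat_bt d hd x hx).det_fintype, Finset.prod_ne_zero_iff]
  constructor
  · intro h δ
    exact h δ (Finset.mem_univ _)
  · intro h δ _
    exact h δ

/-- The parameters with prescribed diagonal blocks and zero elsewhere. -/
def Lf (Y : (δ : Fin (univ.sup d + 1)) → Matrix {k // bD d k = δ} {k // bD d k = δ} K) :
    ((k : Fin t) × Fin (d k)) → Fin t → K :=
  fun a l => if h : (a.2 : ℕ) = 0 ∧ bD d a.1 = bD d l then Y (bD d l) ⟨a.1, h.2⟩ ⟨l, rfl⟩ else 0

theorem Lf_isPar (Y : (δ : Fin (univ.sup d + 1)) → Matrix {k // bD d k = δ} {k // bD d k = δ} K) :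
    IsPar d (Lf d Y) := by
  intro a l h
  simp only [Lf]
  rw [dif_neg]
  rintro ⟨h0, h1⟩
  have := (bD_eq_iff d _ _).1 h1
  omega

theorem Dg_Lf (hd : ∀ k, 1 ≤ d k)
    (Y : (δ : Fin (univ.sup d + 1)) → Matrix {k // bD d k = δ} {k // bD d k = δ} K)
    (δ : Fin (univ.sup d + 1)) : Dg d hd (Lf d Y) δ = Y δ := by
  ext ⟨k, hk⟩ ⟨l, hl⟩
  subst hl
  rw [Dg_apply]
  simp only [Lf]
  rw [dif_pos ⟨trivial, hk⟩]

/-- A `Th`-fixed lift of a family of (skew-)Hermitian diagonal blocks. -/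
def Lf' (hd : ∀ k, 1 ≤ d k) (lam : K)
    (Y : (δ : Fin (univ.sup d + 1)) → Matrix {k // bD d k = δ} {k // bD d k = δ} K) :
    ((k : Fin t) × Fin (d k)) → Fin t → K :=
  lam • Lf d Y + σ lam • Th σ d hd (Lf d Y)

theorem Lf'_isPar (hd : ∀ k, 1 ≤ d k) (lam : K)
    (Y : (δ : Fin (univ.sup d + 1)) → Matrix {k // bD d k = δ} {k // bD d k = δ} K) :
    IsPar d (Lf' σ d hd lam Y) :=
  isPar_add d (isPar_smul d _ (Lf_isPar d Y)) (isPar_smul d _ (Th_isPar σ d hd _ (Lf_isPar d Y)))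

theorem Th_Lf' (hσ2 : ∀ a, σ (σ a) = a) (hd : ∀ k, 1 ≤ d k) (lam : K)
    (Y : (δ : Fin (univ.sup d + 1)) → Matrix {k // bD d k = δ} {k // bD d k = δ} K) :
    Th σ d hd (Lf' σ d hd lam Y) = Lf' σ d hd lam Y := by
  unfold Lf'
  rw [Th_add, Th_smul, Th_smul, hσ2, Th_Th σ d hσ2 hd _ (Lf_isPar d Y), add_comm]

theorem neg_one_pow_mul_self (n : ℕ) : ((-1 : K) ^ n) * ((-1 : K) ^ n) = 1 := by
  rw [← mul_pow]; simp

theorem Dg_Lf' (hd : ∀ k, 1 ≤ d k) (lam : K) (hlam : lam + σ lam = 1)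
    (Y : (δ : Fin (univ.sup d + 1)) → Matrix {k // bD d k = δ} {k // bD d k = δ} K)
    (δ : Fin (univ.sup d + 1)) (hY : cstar σ (Y δ) = ((-1 : K) ^ ((δ : ℕ) - 1)) • Y δ) :
    Dg d hd (Lf' σ d hd lam Y) δ = Y δ := by
  have e : ((-1 : K) ^ ((δ : ℕ) - 1)) • (((-1 : K) ^ ((δ : ℕ) - 1)) • Y δ) = Y δ := by
    rw [smul_smul, neg_one_pow_mul_self, one_smul]
  unfold Lf'
  rw [Dg_add, Dg_smul, Dg_smul, Dg_Th, Dg_Lf, hY, e, ← add_smul, hlam, one_smul]

/-- The parameters with zero diagonal blocks. -/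
def X0 (hd : ∀ k, 1 ≤ d k) : Submodule K (((k : Fin t) × Fin (d k)) → Fin t → K) where
  carrier := {x | IsPar d x ∧ ∀ δ, Dg d hd x δ = 0}
  add_mem' := by
    intro x y hx hy
    refine ⟨isPar_add d hx.1 hy.1, fun δ => ?_⟩
    rw [Dg_add, hx.2 δ, hy.2 δ, add_zero]
  zero_mem' := ⟨fun _ _ _ => rfl, fun _ => rfl⟩
  smul_mem' := by
    intro c x hx
    refine ⟨isPar_smul d c hx.1, fun δ => ?_⟩
    rw [Dg_smul, hx.2 δ, smul_zero]

/-- Splitting off the diagonal blocks. -/
noncomputable def splitEquiv (hσ2 : ∀ a, σ (σ a) = a) (hd : ∀ k, 1 ≤ d k) (lam : K)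
    (hlam : lam + σ lam = 1) :
    {x : ((k : Fin t) × Fin (d k)) → Fin t → K //
      IsPar d x ∧ Th σ d hd x = x ∧ (Tmat d hd x).det ≠ 0} ≃
    {w : X0 d hd // Th σ d hd w.1 = w.1} ×
      ((δ : Fin (univ.sup d + 1)) → {Y : Matrix {k // bD d k = δ} {k // bD d k = δ} K //
        cstar σ Y = ((-1 : K) ^ ((δ : ℕ) - 1)) • Y ∧ Y.det ≠ 0}) where
  toFun x :=
    have hherm : ∀ δ, cstar σ (Dg d hd x.1 δ) = ((-1 : K) ^ ((δ : ℕ) - 1)) • Dg d hd x.1 δ := by
      intro δ
      have h1 := Dg_Th σ d hd x.1 δ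
      rw [x.2.2.1] at h1
      conv_rhs => rw [h1, smul_smul, neg_one_pow_mul_self, one_smul]
    (⟨⟨x.1 - Lf' σ d hd lam (Dg d hd x.1), isPar_sub d x.2.1 (Lf'_isPar σ d hd lam _), fun δ => by
        rw [Dg_sub, Dg_Lf' σ d hd lam hlam _ δ (hherm δ), sub_self]⟩, by
        show Th σ d hd (x.1 - Lf' σ d hd lam (Dg d hd x.1)) = x.1 - Lf' σ d hd lam (Dg d hd x.1)
        rw [Th_sub, x.2.2.1, Th_Lf' σ d hσ2 hd]⟩,
      fun δ => ⟨Dg d hd x.1 δ, hherm δ, (det_Tmat_ne_zero_iff d hd x.1 x.2.1).1 x.2.2.2 δ⟩)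
  invFun y := ⟨y.1.1.1 + Lf' σ d hd lam (fun δ => (y.2 δ).1),
    isPar_add d y.1.1.2.1 (Lf'_isPar σ d hd lam _), by
      rw [Th_add, y.1.2, Th_Lf' σ d hσ2 hd], by
      rw [det_Tmat_ne_zero_iff d hd _ (isPar_add d y.1.1.2.1 (Lf'_isPar σ d hd lam _))]
      intro δ
      rw [Dg_add, y.1.1.2.2 δ, zero_add, Dg_Lf' σ d hd lam hlam _ δ (y.2 δ).2.1]
      exact (y.2 δ).2.2⟩
  left_inv x := by
    apply Subtype.ext
    show x.1 - Lf' σ d hd lam (Dg d hd x.1) + Lf' σ d hd lam (Dg d hd x.1) = x.1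
    rw [sub_add_cancel]
  right_inv y := by
    have hD : ∀ δ, Dg d hd (y.1.1.1 + Lf' σ d hd lam (fun δ => (y.2 δ).1)) δ = (y.2 δ).1 := by
      intro δ
      rw [Dg_add, y.1.1.2.2 δ, zero_add, Dg_Lf' σ d hd lam hlam _ δ (y.2 δ).2.1]
    have hD' : Dg d hd (y.1.1.1 + Lf' σ d hd lam (fun δ => (y.2 δ).1)) = fun δ => (y.2 δ).1 :=
      funext hD
    apply Prod.ext
    · apply Subtype.ext
      apply Subtype.ext
      show y.1.1.1 + Lf' σ d hd lam (fun δ => (y.2 δ).1) -
        Lf' σ d hd lam (Dg d hd (y.1.1.1 + Lf' σ d hd lam (fun δ => (y.2 δ).1))) = y.1.1.1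
      rw [hD', add_sub_cancel_right]
    · funext δ
      apply Subtype.ext
      exact hD δ

/-- `X0` is a coordinate space. -/
noncomputable def X0Equiv (hd : ∀ k, 1 ≤ d k) :
    X0 (K := K) d hd ≃ ({p : ((k : Fin t) × Fin (d k)) × Fin t //
      d p.1.1 ≤ p.1.2 + d p.2 ∧ ¬((p.1.2 : ℕ) = 0 ∧ d p.1.1 = d p.2)} → K) where
  toFun w := fun p => w.1 p.1.1 p.1.2
  invFun r := ⟨fun a l => if h : d a.1 ≤ a.2 + d l ∧ ¬((a.2 : ℕ) = 0 ∧ d a.1 = d l)
      then r ⟨(a, l), h⟩ else 0, by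
    constructor
    · intro a l h
      simp only
      rw [dif_neg]
      intro h'
      omega
    · intro δ
      ext k l
      rw [Dg_apply]
      have hk : d k.1 = δ := congrArg Fin.val k.2
      have hl : d l.1 = δ := congrArg Fin.val l.2
      simp only
      rw [dif_neg]
      · rfl
      · intro h'
        exact h'.2 ⟨trivial, hk.trans hl.symm⟩⟩
  left_inv w := by
    apply Subtype.ext
    funext a l
    simp only
    by_cases h : d a.1 ≤ a.2 + d l ∧ ¬((a.2 : ℕ) = 0 ∧ d a.1 = d l)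
    · rw [dif_pos h]
    · rw [dif_neg h]
      symm
      by_cases hf : d a.1 ≤ a.2 + d l
      · have h2 : (a.2 : ℕ) = 0 ∧ d a.1 = d l := by
          by_contra h3
          exact h ⟨hf, h3⟩
        have h3 := congrFun (congrFun (w.2.2 (bD d l)) ⟨a.1, (bD_eq_iff d _ _).2 h2.2⟩) ⟨l, rfl⟩
        rw [Dg_apply] at h3
        obtain ⟨k, i⟩ := a
        have hi : i = ⟨0, hd k⟩ := Fin.ext h2.1
        subst hi
        exact h3
      · exact w.2.1 a l (by omega)
  right_inv r := by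
    funext p
    obtain ⟨⟨a, l⟩, hp⟩ := p
    simp only
    rw [dif_pos hp]

theorem cnt' (D e : ℕ) (_hD : 1 ≤ D) :
    (∑ m ∈ range D, if D ≤ m + e ∧ ¬(m = 0 ∧ D = e) then 1 else 0) = phi D e := by
  rw [← Finset.card_filter]
  rcases lt_trichotomy D e with h | h | h
  · have h1 : (range D).filter (fun m => D ≤ m + e ∧ ¬(m = 0 ∧ D = e)) = range D := by
      ext m
      simp only [mem_filter, mem_range]
      omega
    rw [h1, Finset.card_range]
    simp only [phi, if_pos h, if_neg (not_lt_of_gt h), if_neg (ne_of_lt h)]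
    omega
  · have h1 : (range D).filter (fun m => D ≤ m + e ∧ ¬(m = 0 ∧ D = e)) = Finset.Ico 1 D := by
      ext m
      simp only [mem_filter, mem_range, mem_Ico]
      omega
    rw [h1, Nat.card_Ico]
    subst h
    simp only [phi, if_neg (lt_irrefl _), if_true]
    omega
  · have h1 : (range D).filter (fun m => D ≤ m + e ∧ ¬(m = 0 ∧ D = e)) = Finset.Ico (D - e) D := by
      ext m
      simp only [mem_filter, mem_range, mem_Ico]
      omega
    rw [h1, Nat.card_Ico]
    simp only [phi, if_pos h, if_neg (not_lt_of_gt h), if_neg (ne_of_gt h)]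
    omega

theorem card_P1 (hd : ∀ k, 1 ≤ d k) :
    Nat.card {p : ((k : Fin t) × Fin (d k)) × Fin t //
      d p.1.1 ≤ p.1.2 + d p.2 ∧ ¬((p.1.2 : ℕ) = 0 ∧ d p.1.1 = d p.2)} =
      ∑ k : Fin t, ∑ l : Fin t, phi (d k) (d l) := by
  classical
  rw [Nat.card_eq_fintype_card, Fintype.card_subtype, Finset.card_filter, Fintype.sum_prod_type,
    Fintype.sum_sigma]
  refine Finset.sum_congr rfl fun k _ => ?_
  rw [Finset.sum_comm]
  refine Finset.sum_congr rfl fun l _ => ?_
  rw [← cnt' (d k) (d l) (hd k), ← Fin.sum_univ_eq_sum_range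
    (fun m => if d k ≤ m + d l ∧ ¬(m = 0 ∧ d k = d l) then 1 else 0) (d k)]

variable [Fintype K]

theorem card_X0 (hd : ∀ k, 1 ≤ d k) :
    Nat.card (X0 (K := K) d hd) = Fintype.card K ^ (∑ k : Fin t, ∑ l : Fin t, phi (d k) (d l)) := by
  rw [Nat.card_congr (X0Equiv d hd), Nat.card_fun, Nat.card_eq_fintype_card (α := K), card_P1 d hd]

theorem card_fixed (hσ2 : ∀ a, σ (σ a) = a) (c : K) (hc : σ c ≠ c) (hd : ∀ k, 1 ≤ d k) :
    Nat.card {w : X0 (K := K) d hd // Th σ d hd w.1 = w.1} *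
      Nat.card {w : X0 (K := K) d hd // Th σ d hd w.1 = w.1} =
      Fintype.card K ^ (∑ k : Fin t, ∑ l : Fin t, phi (d k) (d l)) := by
  let θ : X0 (K := K) d hd →+ X0 (K := K) d hd :=
    { toFun := fun w => ⟨Th σ d hd w.1, Th_isPar σ d hd w.1 w.2.1, fun δ => by
        rw [Dg_Th, w.2.2 δ, cstar_zero, smul_zero]⟩
      map_zero' := Subtype.ext (map_zero (ThHom σ d hd))
      map_add' := fun a b => Subtype.ext (Th_add σ d hd a.1 b.1) }
  have h := card_fixed_sq σ c hc (hσ2 c) θ (fun a w => Subtype.ext (Th_smul σ d hd a w.1))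
    (fun w => Subtype.ext (Th_Th σ d hσ2 hd w.1 w.2.1))
  have e : {w : X0 (K := K) d hd // θ w = w} ≃ {w : X0 (K := K) d hd // Th σ d hd w.1 = w.1} :=
    Equiv.subtypeEquivRight (fun w => Subtype.ext_iff)
  rw [← Nat.card_congr e, h, card_X0]

end model

section herm

variable {K : Type u} [Field K] [Fintype K] (σ : K →+* K) {ι : Type} [Fintype ι] [DecidableEq ι]

/-- `ε`-Hermitian invertible matrices correspond to Hermitian ones. -/
theorem card_eps_herm (hσ2 : ∀ a, σ (σ a) = a) (c : K) (hc : σ c ≠ c) (n : ℕ) :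
    Nat.card {Y : Matrix ι ι K // cstar σ Y = ((-1 : K) ^ n) • Y ∧ Y.det ≠ 0} =
      Nat.card {Y : Matrix ι ι K // cstar σ Y = Y ∧ Y.det ≠ 0} := by
  obtain ⟨μ, hμ0, hμ⟩ : ∃ μ : K, μ ≠ 0 ∧ σ μ = (-1 : K) ^ n * μ := by
    rcases neg_one_pow_eq_or K n with h | h
    · exact ⟨1, one_ne_zero, by rw [h, map_one, mul_one]⟩
    · refine ⟨c - σ c, sub_ne_zero.mpr (Ne.symm hc), ?_⟩
      rw [h, map_sub, hσ2]; ring
  have hεinv : ((-1 : K) ^ n)⁻¹ = (-1 : K) ^ n := inv_eq_of_mul_eq_one_left (neg_one_pow_mul_self n)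
  apply Nat.card_congr
  refine
    { toFun := fun Y => ⟨μ • Y.1, ?_, ?_⟩
      invFun := fun Z => ⟨μ⁻¹ • Z.1, ?_, ?_⟩
      left_inv := ?_
      right_inv := ?_ }
  · rw [cstar_smul, Y.2.1, hμ, smul_smul]
    congr 1
    rw [mul_comm ((-1 : K) ^ n) μ, mul_assoc, neg_one_pow_mul_self, mul_one]
  · rw [Matrix.det_smul]
    exact mul_ne_zero (pow_ne_zero _ hμ0) Y.2.2
  · rw [cstar_smul, Z.2.1, map_inv₀, hμ, mul_inv, hεinv, smul_smul]
  · rw [Matrix.det_smul]
    exact mul_ne_zero (pow_ne_zero _ (inv_ne_zero hμ0)) Z.2.2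
  · intro Y
    apply Subtype.ext
    show μ⁻¹ • (μ • Y.1) = Y.1
    rw [smul_smul, inv_mul_cancel₀ hμ0, one_smul]
  · intro Z
    apply Subtype.ext
    show μ • (μ⁻¹ • Z.1) = Z.1
    rw [smul_smul, mul_inv_cancel₀ hμ0, one_smul]

/-- Invertible Hermitian matrices times unitary matrices count all invertible matrices. -/
theorem herm_mul_unitary (hσ2 : ∀ a, σ (σ a) = a) (hσ : σ ≠ RingHom.id K) :
    Nat.card {Y : Matrix ι ι K // cstar σ Y = Y ∧ Y.det ≠ 0} *
      Nat.card {g : GL ι K // cstar σ (g : Matrix ι ι K) * (g : Matrix ι ι K) = 1} =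
      Nat.card {A : Matrix ι ι K // A.det ≠ 0} := by
  have h := orbit_count σ hσ2 hσ (1 : GL ι K) (by rw [Units.val_one, cstar_one, one_mul])
  have e1 : {g : GL ι K // g * 1 = 1 * g} ≃ {A : Matrix ι ι K // A.det ≠ 0} :=
    { toFun := fun g => ⟨g.1.1, Matrix.GeneralLinearGroup.det_ne_zero g.1⟩
      invFun := fun A => ⟨Matrix.GeneralLinearGroup.mkOfDetNeZero A.1 A.2, by
        rw [mul_one, one_mul]⟩
      left_inv := fun g => Subtype.ext (Units.ext rfl)
      right_inv := fun A => rfl }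
  have e2 : {h : Matrix ι ι K // cstar σ h = h ∧ h.det ≠ 0 ∧
      h * ((1 : GL ι K) : Matrix ι ι K) = ((1 : GL ι K) : Matrix ι ι K) * h} ≃
      {Y : Matrix ι ι K // cstar σ Y = Y ∧ Y.det ≠ 0} :=
    Equiv.subtypeEquivRight (fun h => by
      rw [Units.val_one, mul_one, one_mul]
      exact ⟨fun hh => ⟨hh.1, hh.2.1⟩, fun hh => ⟨hh.1, hh.2, rfl⟩⟩)
  have e3 : {g : GL ι K // g * 1 = 1 * g ∧
      cstar σ (g : Matrix ι ι K) * (g : Matrix ι ι K) = 1} ≃
      {g : GL ι K // cstar σ (g : Matrix ι ι K) * (g : Matrix ι ι K) = 1} :=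
    Equiv.subtypeEquivRight (fun g => by
      rw [mul_one, one_mul]
      exact ⟨fun hh => hh.2, fun hh => ⟨rfl, hh⟩⟩)
  rw [Nat.card_congr e1, Nat.card_congr e2, Nat.card_congr e3] at h
  exact h.symm

end herm

section unitary

variable {K : Type u} [Field K] [Fintype K] {q : ℕ}

/-- The unitary matrices on an arbitrary finite index type. -/
theorem card_unitary (hK : Fintype.card K = q ^ 2) {ι : Type} [Fintype ι] [DecidableEq ι] :
    Nat.card {g : GL ι K // cstar (Cfsg.Agent.Lib.Helper45.sigmaQ hK) (g : Matrix ι ι K) *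
      (g : Matrix ι ι K) = 1} = Nat.card ↥(Cfsg.GU (Fintype.card ι) K q) := by
  classical
  have hσ2 := Cfsg.Agent.Lib.Helper45.conj_conj hK
  obtain ⟨σ, hσ⟩ : ∃ σ : K →+* K, σ = Cfsg.Agent.Lib.Helper45.sigmaQ hK := ⟨_, rfl⟩
  have hσ2' : ∀ a, σ (σ a) = a := by
    intro a; rw [hσ]; exact hσ2 a
  let e : ι ≃ Fin (Fintype.card ι) := Fintype.equivFin ι
  have e1 : {g : GL ι K // cstar σ (g : Matrix ι ι K) * (g : Matrix ι ι K) = 1} ≃
      {M : Matrix ι ι K // cstar σ M * M = 1} :=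
    { toFun := fun g => ⟨g.1.1, g.2⟩
      invFun := fun M => ⟨⟨M.1, cstar σ M.1, mul_eq_one_comm.mp M.2, M.2⟩, M.2⟩
      left_inv := fun g => Subtype.ext (Units.ext rfl)
      right_inv := fun M => rfl }
  have e2 : {M : Matrix ι ι K // cstar σ M * M = 1} ≃
      {M : Matrix (Fin (Fintype.card ι)) (Fin (Fintype.card ι)) K // cstar σ M * M = 1} :=
    (Matrix.reindex e e).subtypeEquiv (fun M => by
      have h1 : cstar σ (Matrix.reindex e e M) * Matrix.reindex e e M =
          Matrix.reindex e e (cstar σ M * M) := by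
        rw [Matrix.reindex_apply, Matrix.reindex_apply, cstar_submatrix,
          Matrix.submatrix_mul_equiv]
      rw [h1]
      constructor
      · intro h
        rw [h, Matrix.reindex_apply, Matrix.submatrix_one_equiv]
      · intro h
        apply (Matrix.reindex e e).injective
        rw [h, Matrix.reindex_apply, Matrix.submatrix_one_equiv])
  have e3 : {M : Matrix (Fin (Fintype.card ι)) (Fin (Fintype.card ι)) K // cstar σ M * M = 1} ≃
      ↥(Cfsg.GU (Fintype.card ι) K q) :=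
    { toFun := fun M => ⟨⟨M.1, cstar σ M.1, mul_eq_one_comm.mp M.2, M.2⟩, by
        rw [mem_GU_iff_cstar hK, ← hσ]
        exact M.2⟩
      invFun := fun g => ⟨g.1.1, by
        have := (mem_GU_iff_cstar hK g.1).1 g.2
        rw [← hσ] at this
        exact this⟩
      left_inv := fun M => rfl
      right_inv := fun g => Subtype.ext (Units.ext rfl) }
  rw [← hσ]
  exact Nat.card_congr (e1.trans (e2.trans e3))

end unitary

section final

variable {K : Type u} [Field K] [Fintype K] {q n t : ℕ}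

open Cfsg.Agent.Lib.Helper45 Cfsg.Agent.Lib.Helper99

theorem submatrix_equiv_inj {ι κ : Type*} (e : κ ≃ ι) {A B : Matrix ι ι K}
    (h : A.submatrix e e = B.submatrix e e) : A = B := by
  ext i j
  have := congrFun (congrFun h (e.symm i)) (e.symm j)
  simpa using this

/-- Transport of Hermitian forms with a skew-adjoint matrix along a similarity. -/
theorem transfer (σ : K →+* K) (hσ2 : ∀ a, σ (σ a) = a) {ι : Type*} [Fintype ι] [DecidableEq ι]
    (P Q c c' h : Matrix ι ι K) (hcc' : c * c' = 1) (hcP : c * P = Q * c)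
    (hh : cstar σ h = h) (hdet : h.det ≠ 0) (hQ : cstar σ Q * h + h * Q = 0) :
    cstar σ (cstar σ c * h * c) = cstar σ c * h * c ∧ (cstar σ c * h * c).det ≠ 0 ∧
      cstar σ P * (cstar σ c * h * c) + (cstar σ c * h * c) * P = 0 := by
  refine ⟨?_, ?_, ?_⟩
  · rw [cstar_mul, cstar_mul, cstar_cstar σ hσ2, hh, mul_assoc]
  · have hc : c.det ≠ 0 := by
      intro h0
      have := congrArg Matrix.det hcc'
      rw [Matrix.det_mul, h0, zero_mul, Matrix.det_one] at this
      exact zero_ne_one this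
    rw [Matrix.det_mul, Matrix.det_mul, det_cstar]
    exact mul_ne_zero (mul_ne_zero (fun h0 => hc ((map_eq_zero σ).mp h0)) hdet) hc
  · have e1 : cstar σ P * (cstar σ c * h * c) = cstar σ c * (cstar σ Q * h) * c := by
      calc cstar σ P * (cstar σ c * h * c) = (cstar σ P * cstar σ c) * h * c := by
            simp only [mul_assoc]
        _ = cstar σ (c * P) * h * c := by rw [cstar_mul]
        _ = cstar σ (Q * c) * h * c := by rw [hcP]
        _ = cstar σ c * (cstar σ Q * h) * c := by rw [cstar_mul]; simp only [mul_assoc]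
    have e2 : cstar σ c * h * c * P = cstar σ c * (h * Q) * c := by
      calc cstar σ c * h * c * P = cstar σ c * h * (c * P) := by simp only [mul_assoc]
        _ = cstar σ c * h * (Q * c) := by rw [hcP]
        _ = cstar σ c * (h * Q) * c := by simp only [mul_assoc]
    rw [e1, e2, ← add_mul, ← mul_add, hQ, mul_zero, zero_mul]

/-- The invertible Hermitian matrices commuting with a unipotent unitary matrix of Jordan type
`d` are counted by the Hermitian forms for which the nilpotent Jordan matrix is skew-adjoint. -/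
theorem card_herm_comm (hK : Fintype.card K = q ^ 2) (d : Fin t → ℕ)
    (e : ((k : Fin t) × Fin (d k)) ≃ Fin n) (u : ↥(Cfsg.GU n K q))
    (hu : IsConj (Matrix.reindex e e (Cfsg.jordanTypeMatrix d K))
      ((u : GL (Fin n) K) : Matrix (Fin n) (Fin n) K)) :
    Nat.card {h : Matrix (Fin n) (Fin n) K // cstar (sigmaQ hK) h = h ∧ h.det ≠ 0 ∧
      h * ((u : GL (Fin n) K) : Matrix (Fin n) (Fin n) K) =
        ((u : GL (Fin n) K) : Matrix (Fin n) (Fin n) K) * h} =
    Nat.card {h : Matrix ((k : Fin t) × Fin (d k)) ((k : Fin t) × Fin (d k)) K //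
      cstar (sigmaQ hK) h = h ∧ h.det ≠ 0 ∧
        cstar (sigmaQ hK) (Nm K d) * h + h * Nm K d = 0} := by
  classical
  have hσ2 : ∀ a, sigmaQ hK (sigmaQ hK a) = a := conj_conj hK
  have hσne := sigmaQ_ne_id' hK
  have hUU0 := (mem_GU_iff_cstar hK u.1).1 u.2
  obtain ⟨σ, hσ⟩ : ∃ σ : K →+* K, σ = sigmaQ hK := ⟨_, rfl⟩
  rw [← hσ] at hσ2 hσne hUU0 ⊢
  obtain ⟨U, hU⟩ : ∃ U : Matrix (Fin n) (Fin n) K,
      U = ((u : GL (Fin n) K) : Matrix (Fin n) (Fin n) K) := ⟨_, rfl⟩
  rw [← hU] at hu hUU0 ⊢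
  obtain ⟨c, hc⟩ : ∃ c : K, σ c ≠ c := by
    by_contra h
    push Not at h
    exact hσne (RingHom.ext h)
  obtain ⟨lam, hlam⟩ : ∃ lam : K, lam + σ lam = 1 := by
    refine ⟨c * (c - σ c)⁻¹, ?_⟩
    have hne : c - σ c ≠ 0 := sub_ne_zero.mpr (Ne.symm hc)
    have hne' : σ c - c ≠ 0 := sub_ne_zero.mpr hc
    rw [map_mul, map_inv₀, map_sub, hσ2]
    field_simp
    ring
  have hrk := fun j => jt_conj_rank d e U hu j
  have hnil : IsNilpotent (U - 1) := Cfsg.Agent.Lib.Helper40.Jordan.isNilpotent_of_rank hrk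
  have hDm : lam • (1 : Matrix (Fin n) (Fin n) K) + σ lam • U = 1 + σ lam • (U - 1) := by
    rw [smul_sub]
    have h1 : σ lam • (1 : Matrix (Fin n) (Fin n) K) = 1 - lam • (1 : Matrix (Fin n) (Fin n) K) := by
      rw [eq_sub_iff_add_eq, ← add_smul, add_comm, hlam, one_smul]
    rw [h1]
    abel
  have hunit : IsUnit (lam • (1 : Matrix (Fin n) (Fin n) K) + σ lam • U) := by
    rw [hDm]
    exact (hnil.smul (σ lam)).isUnit_one_add
  obtain ⟨w, hw1, hw2⟩ : ∃ w : Matrix (Fin n) (Fin n) K,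
      (lam • (1 : Matrix (Fin n) (Fin n) K) + σ lam • U) * w = 1 ∧
      w * (lam • (1 : Matrix (Fin n) (Fin n) K) + σ lam • U) = 1 := by
    obtain ⟨v, hv⟩ := hunit
    exact ⟨↑v⁻¹, by rw [← hv]; exact v.mul_inv, by rw [← hv]; exact v.inv_mul⟩
  have hDU : (lam • (1 : Matrix (Fin n) (Fin n) K) + σ lam • U) * U =
      U * (lam • (1 : Matrix (Fin n) (Fin n) K) + σ lam • U) := by
    simp only [add_mul, mul_add, Matrix.smul_mul, Matrix.mul_smul, one_mul, mul_one]
  have hwU : w * U = U * w := by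
    calc w * U = w * U * ((lam • (1 : Matrix (Fin n) (Fin n) K) + σ lam • U) * w) := by
          rw [hw1, mul_one]
      _ = w * (U * (lam • (1 : Matrix (Fin n) (Fin n) K) + σ lam • U)) * w := by
          simp only [mul_assoc]
      _ = w * ((lam • (1 : Matrix (Fin n) (Fin n) K) + σ lam • U) * U) * w := by rw [hDU]
      _ = (w * (lam • (1 : Matrix (Fin n) (Fin n) K) + σ lam • U)) * U * w := by
          simp only [mul_assoc]
      _ = U * w := by rw [hw2, one_mul]
  obtain ⟨M, hM⟩ : ∃ M : Matrix (Fin n) (Fin n) K, M = (U - 1) * w := ⟨_, rfl⟩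
  have hcomm : Commute (U - 1) w := by
    show (U - 1) * w = w * (U - 1)
    rw [sub_mul, mul_sub, one_mul, mul_one, hwU]
  have hwdet : w.det ≠ 0 := by
    intro h0
    have := congrArg Matrix.det hw2
    rw [Matrix.det_mul, h0, zero_mul, Matrix.det_one] at this
    exact zero_ne_one this
  have hrM : ∀ j, ((1 + M - 1) ^ j).rank =
      Cfsg.Agent.Lib.Helper40.Jordan.rk (Finset.univ.val.map d) j := by
    intro j
    rw [add_sub_cancel_left, hM, hcomm.mul_pow, Matrix.rank_mul_eq_left_of_isUnit_det _ _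
      (by rw [Matrix.det_pow]; exact isUnit_iff_ne_zero.mpr (pow_ne_zero _ hwdet)), hrk j]
  obtain ⟨c₂, hc₂⟩ := jt_isConj_of_rank d e (1 + M) hrM
  have hc₂' : (c₂ : Matrix (Fin n) (Fin n) K) *
      Matrix.reindex e e (Cfsg.jordanTypeMatrix d K) = (1 + M) * c₂ := hc₂
  obtain ⟨N', hN'⟩ : ∃ N' : Matrix (Fin n) (Fin n) K, N' = Matrix.reindex e e (Nm K d) :=
    ⟨_, rfl⟩
  have hJ : Matrix.reindex e e (Cfsg.jordanTypeMatrix d K) = 1 + N' := by
    rw [hN', jt_eq]
    ext i j
    simp only [Matrix.reindex_apply, Matrix.submatrix_apply, Matrix.add_apply, Matrix.one_apply,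
      EmbeddingLike.apply_eq_iff_eq]
  obtain ⟨C, hC⟩ : ∃ C : Matrix (Fin n) (Fin n) K, C = (c₂ : Matrix (Fin n) (Fin n) K) :=
    ⟨_, rfl⟩
  obtain ⟨C', hC'⟩ : ∃ C' : Matrix (Fin n) (Fin n) K,
      C' = ((c₂⁻¹ : (Matrix (Fin n) (Fin n) K)ˣ) : Matrix (Fin n) (Fin n) K) := ⟨_, rfl⟩
  have hcc' : C * C' = 1 := by
    rw [hC, hC', ← Units.val_mul, mul_inv_cancel, Units.val_one]
  have hc'c : C' * C = 1 := by
    rw [hC, hC', ← Units.val_mul, inv_mul_cancel, Units.val_one]
  rw [← hC] at hc₂'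
  have hcN : C * N' = M * C := by
    rw [hJ, mul_add, add_mul, mul_one, one_mul] at hc₂'
    exact add_left_cancel hc₂'
  have hc'M : C' * M = N' * C' := by
    calc C' * M = C' * M * (C * C') := by rw [hcc', mul_one]
      _ = C' * (M * C) * C' := by simp only [mul_assoc]
      _ = C' * (C * N') * C' := by rw [hcN]
      _ = (C' * C) * N' * C' := by simp only [mul_assoc]
      _ = N' * C' := by rw [hc'c, one_mul]
  have e1 : {h : Matrix (Fin n) (Fin n) K // cstar σ h = h ∧ h.det ≠ 0 ∧ h * U = U * h} ≃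
      {h : Matrix (Fin n) (Fin n) K // cstar σ h = h ∧ h.det ≠ 0 ∧
        cstar σ M * h + h * M = 0} :=
    Equiv.subtypeEquivRight (fun h => by
      rw [hM, cayley_iff σ hσ2 lam hlam U w h hw1 hw2, unitary_comm_iff σ U h hUU0])
  have e2 : {h : Matrix (Fin n) (Fin n) K // cstar σ h = h ∧ h.det ≠ 0 ∧
        cstar σ M * h + h * M = 0} ≃
      {h : Matrix (Fin n) (Fin n) K // cstar σ h = h ∧ h.det ≠ 0 ∧
        cstar σ N' * h + h * N' = 0} :=
    { toFun := fun h => ⟨cstar σ C * h.1 * C,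
        transfer σ hσ2 N' M C C' h.1 hcc' hcN h.2.1 h.2.2.1 h.2.2.2⟩
      invFun := fun h => ⟨cstar σ C' * h.1 * C',
        transfer σ hσ2 M N' C' C h.1 hc'c hc'M h.2.1 h.2.2.1 h.2.2.2⟩
      left_inv := fun h => Subtype.ext (by
        show cstar σ C' * (cstar σ C * h.1 * C) * C' = h.1
        calc cstar σ C' * (cstar σ C * h.1 * C) * C'
            = (cstar σ C' * cstar σ C) * h.1 * (C * C') := by simp only [mul_assoc]
          _ = h.1 := by rw [← cstar_mul, hcc', cstar_one, one_mul, mul_one])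
      right_inv := fun h => Subtype.ext (by
        show cstar σ C * (cstar σ C' * h.1 * C') * C = h.1
        calc cstar σ C * (cstar σ C' * h.1 * C') * C
            = (cstar σ C * cstar σ C') * h.1 * (C' * C) := by simp only [mul_assoc]
          _ = h.1 := by rw [← cstar_mul, hc'c, cstar_one, one_mul, mul_one]) }
  have hNm : Nm K d = N'.submatrix e e := by
    rw [hN', Matrix.reindex_apply, Matrix.submatrix_submatrix]
    simp
  have e3 : {h : Matrix (Fin n) (Fin n) K // cstar σ h = h ∧ h.det ≠ 0 ∧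
        cstar σ N' * h + h * N' = 0} ≃
      {h : Matrix ((k : Fin t) × Fin (d k)) ((k : Fin t) × Fin (d k)) K //
        cstar σ h = h ∧ h.det ≠ 0 ∧ cstar σ (Nm K d) * h + h * Nm K d = 0} :=
    (Matrix.reindex e e).symm.subtypeEquiv (fun h => by
      show _ ↔ cstar σ (h.submatrix e e) = h.submatrix e e ∧ (h.submatrix e e).det ≠ 0 ∧
        cstar σ (Nm K d) * h.submatrix e e + h.submatrix e e * Nm K d = 0
      have hadd : ∀ A B : Matrix (Fin n) (Fin n) K,
          A.submatrix e e + B.submatrix e e = (A + B).submatrix e e := fun A B => rfl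
      rw [cstar_submatrix, Matrix.det_submatrix_equiv_self, hNm, cstar_submatrix,
        Matrix.submatrix_mul_equiv, Matrix.submatrix_mul_equiv, hadd]
      constructor
      · rintro ⟨h1, h2, h3⟩
        refine ⟨by rw [h1], h2, ?_⟩
        rw [h3]
        rfl
      · rintro ⟨h1, h2, h3⟩
        refine ⟨submatrix_equiv_inj e h1, h2, submatrix_equiv_inj e ?_⟩
        rw [h3]
        rfl)
  exact Nat.card_congr (e1.trans (e2.trans e3))

/-- The centraliser in `GL` of a conjugate of the Jordan type matrix. -/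
theorem card_gl_comm (d : Fin t → ℕ) (e : ((k : Fin t) × Fin (d k)) ≃ Fin n)
    (u : GL (Fin n) K)
    (hu : IsConj (Matrix.reindex e e (Cfsg.jordanTypeMatrix d K))
      (u : Matrix (Fin n) (Fin n) K)) :
    Nat.card {g : GL (Fin n) K // g * u = u * g} =
    Nat.card {g : GL ((k : Fin t) × Fin (d k)) K //
      (g : Matrix ((k : Fin t) × Fin (d k)) ((k : Fin t) × Fin (d k)) K) *
        Cfsg.jordanTypeMatrix d K = Cfsg.jordanTypeMatrix d K *
          (g : Matrix ((k : Fin t) × Fin (d k)) ((k : Fin t) × Fin (d k)) K)} := by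
  classical
  obtain ⟨c, hc⟩ := hu
  have hc' : (c : Matrix (Fin n) (Fin n) K) * Matrix.reindex e e (Cfsg.jordanTypeMatrix d K) =
      (u : Matrix (Fin n) (Fin n) K) * c := hc
  obtain ⟨C, hC⟩ : ∃ C : Matrix (Fin n) (Fin n) K, C = (c : Matrix (Fin n) (Fin n) K) :=
    ⟨_, rfl⟩
  obtain ⟨C', hC'⟩ : ∃ C' : Matrix (Fin n) (Fin n) K,
      C' = ((c⁻¹ : (Matrix (Fin n) (Fin n) K)ˣ) : Matrix (Fin n) (Fin n) K) := ⟨_, rfl⟩
  have hcc' : C * C' = 1 := by
    rw [hC, hC', ← Units.val_mul, mul_inv_cancel, Units.val_one]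
  have hc'c : C' * C = 1 := by
    rw [hC, hC', ← Units.val_mul, inv_mul_cancel, Units.val_one]
  rw [← hC] at hc'
  let ψ : Matrix (Fin n) (Fin n) K ≃* Matrix ((k : Fin t) × Fin (d k)) ((k : Fin t) × Fin (d k)) K :=
    { toFun := fun M => (C' * M * C).submatrix e e
      invFun := fun M => C * (M.submatrix e.symm e.symm) * C'
      left_inv := fun M => by
        show C * (((C' * M * C).submatrix e e).submatrix e.symm e.symm) * C' = M
        rw [Matrix.submatrix_submatrix]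
        have : (e ∘ e.symm : Fin n → Fin n) = id := by funext x; simp
        rw [this, Matrix.submatrix_id_id]
        calc C * (C' * M * C) * C' = (C * C') * M * (C * C') := by simp only [mul_assoc]
          _ = M := by rw [hcc', one_mul, mul_one]
      right_inv := fun M => by
        show (C' * (C * (M.submatrix e.symm e.symm) * C') * C).submatrix e e = M
        have h1 : C' * (C * (M.submatrix e.symm e.symm) * C') * C = M.submatrix e.symm e.symm := by
          calc C' * (C * (M.submatrix e.symm e.symm) * C') * C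
              = (C' * C) * (M.submatrix e.symm e.symm) * (C' * C) := by simp only [mul_assoc]
            _ = M.submatrix e.symm e.symm := by rw [hc'c, one_mul, mul_one]
        rw [h1, Matrix.submatrix_submatrix]
        have : (e.symm ∘ e : _ → _) = id := by funext x; simp
        rw [this, Matrix.submatrix_id_id]
      map_mul' := fun M₁ M₂ => by
        show (C' * (M₁ * M₂) * C).submatrix e e =
          (C' * M₁ * C).submatrix e e * (C' * M₂ * C).submatrix e e
        rw [Matrix.submatrix_mul_equiv]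
        congr 1
        calc C' * (M₁ * M₂) * C = C' * M₁ * (C * C') * M₂ * C := by
              rw [hcc', mul_one]; simp only [mul_assoc]
          _ = C' * M₁ * C * (C' * M₂ * C) := by simp only [mul_assoc] }
  have hψu : ψ (u : Matrix (Fin n) (Fin n) K) = Cfsg.jordanTypeMatrix d K := by
    show (C' * (u : Matrix (Fin n) (Fin n) K) * C).submatrix e e = _
    rw [mul_assoc, ← hc', ← mul_assoc, hc'c, one_mul, Matrix.reindex_apply,
      Matrix.submatrix_submatrix]
    have : (e.symm ∘ e : _ → _) = id := by funext x; simp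
    rw [this, Matrix.submatrix_id_id]
  apply Nat.card_congr
  refine (Units.mapEquiv ψ).toEquiv.subtypeEquiv (fun g => ?_)
  show g * u = u * g ↔ ψ (g : Matrix (Fin n) (Fin n) K) * Cfsg.jordanTypeMatrix d K =
    Cfsg.jordanTypeMatrix d K * ψ (g : Matrix (Fin n) (Fin n) K)
  rw [← hψu, ← map_mul, ← map_mul, ψ.injective.eq_iff, ← Units.val_mul, ← Units.val_mul,
    Units.val_inj]

theorem card_fiber (d : Fin t → ℕ) (δ : Fin (univ.sup d + 1)) :
    Fintype.card {k // bD d k = δ} = (univ.filter (fun k : Fin t => d k = (δ : ℕ))).card := by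
  rw [Fintype.card_subtype]
  congr 1
  ext k
  simp [bD, Fin.ext_iff]

theorem gu_int (q a : ℕ) (hq : 1 ≤ q) :
    ((q ^ (a * (a - 1) / 2) * ∏ i ∈ Finset.range a,
      (if Even i then q ^ (i + 1) + 1 else q ^ (i + 1) - 1) : ℕ) : ℤ) =
      (q : ℤ) ^ (a * (a - 1) / 2) * ∏ j : Fin a, ((q : ℤ) ^ ((j : ℕ) + 1) - (-1) ^ ((j : ℕ) + 1)) := by
  rw [Nat.cast_mul, Nat.cast_pow, Nat.cast_prod,
    Fin.prod_univ_eq_prod_range (fun j => (q : ℤ) ^ (j + 1) - (-1) ^ (j + 1)) a]
  congr 1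
  apply Finset.prod_congr rfl
  intro i _
  by_cases hi : Even i
  · rw [if_pos hi, Odd.neg_one_pow hi.add_one]
    push_cast
    ring
  · rw [if_neg hi, Even.neg_one_pow (Nat.not_even_iff_odd.mp hi).add_one,
      Nat.cast_sub (Nat.one_le_pow _ _ hq)]
    push_cast
    ring

/-- Order of the centraliser in `GU_n(q)` of a unipotent element of given Jordan type. -/
theorem card_cent_GU (hK : Fintype.card K = q ^ 2) (d : Fin t → ℕ) (hd : ∀ k, 1 ≤ d k)
    (e : ((k : Fin t) × Fin (d k)) ≃ Fin n) (u : ↥(Cfsg.GU n K q))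
    (hu : IsConj (Matrix.reindex e e (Cfsg.jordanTypeMatrix d K))
      ((u : GL (Fin n) K) : Matrix (Fin n) (Fin n) K)) :
    (Nat.card ↥(Subgroup.centralizer ({u} : Set ↥(Cfsg.GU n K q))) : ℤ) =
      (q : ℤ) ^ (2 * (∑ i ∈ Finset.range (Finset.univ.sup d + 1),
          ∑ j ∈ Finset.range (Finset.univ.sup d + 1),
            if i < j then i * (Finset.univ.filter (fun k : Fin t => d k = i)).card *
              (Finset.univ.filter (fun k : Fin t => d k = j)).card else 0) +
        ∑ i ∈ Finset.range (Finset.univ.sup d + 1),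
          (i - 1) * (Finset.univ.filter (fun k : Fin t => d k = i)).card ^ 2) *
      ∏ i ∈ Finset.range (Finset.univ.sup d + 1),
        ((q : ℤ) ^ ((Finset.univ.filter (fun k : Fin t => d k = i)).card *
            ((Finset.univ.filter (fun k : Fin t => d k = i)).card - 1) / 2) *
          ∏ j : Fin (Finset.univ.filter (fun k : Fin t => d k = i)).card,
            ((q : ℤ) ^ ((j : ℕ) + 1) - (-1) ^ ((j : ℕ) + 1))) := by
  classical
  have hq : 2 ≤ q := two_le_q hK
  have hσ2 : ∀ a, sigmaQ hK (sigmaQ hK a) = a := conj_conj hK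
  have hσne := sigmaQ_ne_id' hK
  have hUU := (mem_GU_iff_cstar hK u.1).1 u.2
  obtain ⟨c, hc⟩ : ∃ c : K, sigmaQ hK c ≠ c := by
    by_contra h
    push Not at h
    exact hσne (RingHom.ext h)
  obtain ⟨lam, hlam⟩ : ∃ lam : K, lam + sigmaQ hK lam = 1 := by
    refine ⟨c * (c - sigmaQ hK c)⁻¹, ?_⟩
    have hne : c - sigmaQ hK c ≠ 0 := sub_ne_zero.mpr (Ne.symm hc)
    have hne' : sigmaQ hK c - c ≠ 0 := sub_ne_zero.mpr hc
    rw [map_mul, map_inv₀, map_sub, hσ2]
    field_simp
    ring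
  have eA : ↥(Subgroup.centralizer ({u} : Set ↥(Cfsg.GU n K q))) ≃
      {g : GL (Fin n) K // g * u.1 = u.1 * g ∧
        cstar (sigmaQ hK) (g : Matrix (Fin n) (Fin n) K) * (g : Matrix (Fin n) (Fin n) K) = 1} :=
    { toFun := fun z => ⟨z.1.1, by
        have h1 := Subgroup.mem_centralizer_iff.1 z.2 u rfl
        have h2 := congrArg Subtype.val h1
        exact h2.symm, (mem_GU_iff_cstar hK z.1.1).1 z.1.2⟩
      invFun := fun g => ⟨⟨g.1, (mem_GU_iff_cstar hK g.1).2 g.2.2⟩, by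
        rw [Subgroup.mem_centralizer_iff]
        rintro h (rfl : h = u)
        exact Subtype.ext g.2.1.symm⟩
      left_inv := fun z => rfl
      right_inv := fun g => rfl }
  have hB := orbit_count (sigmaQ hK) hσ2 hσne u.1 hUU
  obtain ⟨E, hE⟩ : ∃ E : ℕ, E = ∑ k : Fin t, ∑ l : Fin t, phi (d k) (d l) := ⟨_, rfl⟩
  have hC : Nat.card {g : GL (Fin n) K // g * u.1 = u.1 * g} =
      (∏ δ : Fin (univ.sup d + 1),
        Nat.card {A : Matrix {k // bD d k = δ} {k // bD d k = δ} K // A.det ≠ 0}) *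
        (q ^ 2) ^ E := by
    rw [card_gl_comm d e u.1 hu, card_cent_aux d hd, mul_assoc, ← pow_add, exponent_eq d hd, hK,
      hE]
  have hD : Nat.card {h : Matrix (Fin n) (Fin n) K // cstar (sigmaQ hK) h = h ∧ h.det ≠ 0 ∧
        h * ((u : GL (Fin n) K) : Matrix (Fin n) (Fin n) K) =
          ((u : GL (Fin n) K) : Matrix (Fin n) (Fin n) K) * h} =
      Nat.card {w : X0 (K := K) d hd // Th (sigmaQ hK) d hd w.1 = w.1} *
        ∏ δ : Fin (univ.sup d + 1),
          Nat.card {Y : Matrix {k // bD d k = δ} {k // bD d k = δ} K //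
            cstar (sigmaQ hK) Y = ((-1 : K) ^ ((δ : ℕ) - 1)) • Y ∧ Y.det ≠ 0} := by
    rw [card_herm_comm hK d e u hu, Nat.card_congr (modelEquiv (sigmaQ hK) d hd),
      Nat.card_congr (splitEquiv (sigmaQ hK) d hσ2 hd lam hlam), Nat.card_prod, Nat.card_pi]
  have hf := card_fixed (sigmaQ hK) d hσ2 c hc hd
  rw [hK, ← hE] at hf
  have hf' : Nat.card {w : X0 (K := K) d hd // Th (sigmaQ hK) d hd w.1 = w.1} = q ^ E := by
    apply Nat.mul_self_inj.1
    rw [hf, ← pow_mul, ← pow_add, two_mul]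
  have hH : ∀ δ : Fin (univ.sup d + 1),
      Nat.card {Y : Matrix {k // bD d k = δ} {k // bD d k = δ} K //
        cstar (sigmaQ hK) Y = ((-1 : K) ^ ((δ : ℕ) - 1)) • Y ∧ Y.det ≠ 0} *
      Nat.card ↥(Cfsg.GU (Fintype.card {k // bD d k = δ}) K q) =
      Nat.card {A : Matrix {k // bD d k = δ} {k // bD d k = δ} K // A.det ≠ 0} := by
    intro δ
    rw [card_eps_herm (sigmaQ hK) hσ2 c hc, ← card_unitary hK,
      herm_mul_unitary (sigmaQ hK) hσ2 hσne]
  have hpos : 0 < q ^ E * ∏ δ : Fin (univ.sup d + 1),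
      Nat.card {Y : Matrix {k // bD d k = δ} {k // bD d k = δ} K //
        cstar (sigmaQ hK) Y = ((-1 : K) ^ ((δ : ℕ) - 1)) • Y ∧ Y.det ≠ 0} := by
    apply Nat.mul_pos (pow_pos (by omega) _)
    apply Finset.prod_pos
    intro δ _
    apply Nat.pos_of_ne_zero
    intro h0
    have h1 := hH δ
    rw [h0, zero_mul] at h1
    have : Nonempty {A : Matrix {k // bD d k = δ} {k // bD d k = δ} K // A.det ≠ 0} :=
      ⟨⟨1, by rw [Matrix.det_one]; exact one_ne_zero⟩⟩
    exact (Nat.card_pos (α := {A : Matrix {k // bD d k = δ} {k // bD d k = δ} K //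
      A.det ≠ 0})).ne' h1.symm
  have hmain : Nat.card ↥(Subgroup.centralizer ({u} : Set ↥(Cfsg.GU n K q))) =
      q ^ E * ∏ δ : Fin (univ.sup d + 1),
        Nat.card ↥(Cfsg.GU (Fintype.card {k // bD d k = δ}) K q) := by
    apply Nat.eq_of_mul_eq_mul_left hpos
    rw [Nat.card_congr eA]
    have h3 := hB
    rw [hC, hD, hf', ← Finset.prod_congr rfl (fun δ _ => hH δ), Finset.prod_mul_distrib] at h3
    have h2 : (q ^ 2) ^ E = q ^ E * q ^ E := by rw [← pow_mul, two_mul, pow_add]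
    rw [h2] at h3
    rw [← h3]
    ring
  rw [hmain, hE, sum_fiber2, sum_phi (range (univ.sup d + 1))
    (fun i => (univ.filter (fun k : Fin t => d k = i)).card), Nat.cast_mul, Nat.cast_pow,
    Nat.cast_prod]
  congr 1
  rw [← Fin.prod_univ_eq_prod_range (fun i =>
    ((q : ℤ) ^ ((Finset.univ.filter (fun k : Fin t => d k = i)).card *
        ((Finset.univ.filter (fun k : Fin t => d k = i)).card - 1) / 2) *
      ∏ j : Fin (Finset.univ.filter (fun k : Fin t => d k = i)).card,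
        ((q : ℤ) ^ ((j : ℕ) + 1) - (-1) ^ ((j : ℕ) + 1)))) (univ.sup d + 1)]
  refine Finset.prod_congr rfl fun δ _ => ?_
  rw [card_GU hK, card_fiber d δ, gu_int q _ (by omega)]

end final

end Cfsg.Agent.Lib.Helper40.GUUnipCent
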