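import Mathlib

/-!
# A lower bound for cross-characteristic representations of `SL_n(q)` with central kernel
-/

namespace Cfsg.Agent.Lib.Helper40.LSBound

open Matrix

universe u v

section transvec

variable {F : Type u} [Field F] {m : ℕ}

/-- The generalized transvection `1 + x φᵀ`. -/
def gt (x φ : Fin (m + 1) → F) : Matrix (Fin (m + 1)) (Fin (m + 1)) F := 1 + vecMulVec x φ

theorem det_gt (x φ : Fin (m + 1) → F) (h : φ ⬝ᵥ x = 0) : (gt x φ).det = 1 := by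
  unfold gt
  rw [vecMulVec_eq (ι := Unit), det_one_add_replicateCol_mul_replicateRow, h, add_zero]

theorem gt_mulVec (x φ y : Fin (m + 1) → F) : gt x φ *ᵥ y = y + (φ ⬝ᵥ y) • x := by
  unfold gt
  rw [add_mulVec, one_mulVec, vecMulVec_mulVec, op_smul_eq_smul]

/-- The first basis vector. -/
def e0 : Fin (m + 1) → F := Pi.single 0 1

/-- The elements of the unipotent radical of the stabiliser of a point. -/
def Usl (u : Fin m → F) : SpecialLinearGroup (Fin (m + 1)) F :=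
  ⟨gt e0 (vecCons 0 u), det_gt _ _ (by simp [e0])⟩

theorem Usl_add (u u' : Fin m → F) : Usl (u + u') = Usl u * Usl u' := by
  apply Subtype.ext
  show gt e0 (vecCons 0 (u + u')) = gt e0 (vecCons 0 u) * gt e0 (vecCons 0 u')
  unfold gt
  have h1 : (vecCons 0 (u + u') : Fin (m + 1) → F) = vecCons 0 u + vecCons 0 u' := by
    rw [cons_add_cons, add_zero]
  have h2 : (vecCons 0 u : Fin (m + 1) → F) ⬝ᵥ e0 = 0 := by simp [e0]
  rw [h1, vecMulVec_add, add_mul, one_mul, mul_add, mul_one, vecMulVec_mul_vecMulVec, h2,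
    zero_smul]
  have h3 : vecMulVec (e0 : Fin (m + 1) → F) (0 : Fin (m + 1) → F) = 0 := by
    ext i j
    simp [vecMulVec_apply]
  rw [h3, add_zero]
  abel

theorem Usl_zero : Usl (0 : Fin m → F) = 1 := by
  apply Subtype.ext
  show gt e0 (vecCons 0 (0 : Fin m → F)) = 1
  unfold gt
  have h3 : vecMulVec (e0 : Fin (m + 1) → F) (vecCons 0 (0 : Fin m → F)) = 0 := by
    ext i j
    refine Fin.cases ?_ (fun j' => ?_) j <;> simp [vecMulVec_apply]
  rw [h3, add_zero]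

theorem cons_tail (y : Fin (m + 1) → F) (hy : y 0 = 0) : vecCons 0 (vecTail y) = y := by
  funext j
  refine Fin.cases ?_ (fun j' => ?_) j
  · simp [hy]
  · simp [vecTail]

theorem vecMul_zero_coord (y : Fin (m + 1) → F) (hy : y 0 = 0)
    (A : Matrix (Fin (m + 1)) (Fin (m + 1)) F) (hA : A *ᵥ e0 = e0) : (y ᵥ* A) 0 = 0 := by
  have h1 : (y ᵥ* A) 0 = y ⬝ᵥ (A *ᵥ e0) := by
    rw [dotProduct_mulVec]
    simp [e0]
  rw [h1, hA]
  simp [e0, hy]

theorem inv_mulVec_e0 (g : SpecialLinearGroup (Fin (m + 1)) F)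
    (hg : (g : Matrix (Fin (m + 1)) (Fin (m + 1)) F) *ᵥ e0 = e0) :
    ((g⁻¹ : SpecialLinearGroup (Fin (m + 1)) F) : Matrix (Fin (m + 1)) (Fin (m + 1)) F) *ᵥ e0
      = e0 := by
  have h1 : ((g⁻¹ : SpecialLinearGroup (Fin (m + 1)) F) : Matrix (Fin (m + 1)) (Fin (m + 1)) F) *
      (g : Matrix (Fin (m + 1)) (Fin (m + 1)) F) = 1 := by
    have e : (g⁻¹ * g).1 = (g⁻¹).1 * g.1 := rfl
    show (g⁻¹).1 * g.1 = 1
    rw [← e, inv_mul_cancel]
    rfl
  calc ((g⁻¹ : SpecialLinearGroup (Fin (m + 1)) F) : Matrix (Fin (m + 1)) (Fin (m + 1)) F) *ᵥ e0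
      = ((g⁻¹ : SpecialLinearGroup (Fin (m + 1)) F) : Matrix (Fin (m + 1)) (Fin (m + 1)) F) *ᵥ
        ((g : Matrix (Fin (m + 1)) (Fin (m + 1)) F) *ᵥ e0) := by rw [hg]
    _ = e0 := by rw [mulVec_mulVec, h1, one_mulVec]

/-- The action on the parameters of the unipotent radical. -/
def theta (g : SpecialLinearGroup (Fin (m + 1)) F) (u : Fin m → F) : Fin m → F :=
  vecTail (vecCons 0 u ᵥ*
    ((g⁻¹ : SpecialLinearGroup (Fin (m + 1)) F) : Matrix (Fin (m + 1)) (Fin (m + 1)) F))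

theorem cons_theta (g : SpecialLinearGroup (Fin (m + 1)) F)
    (hg : (g : Matrix (Fin (m + 1)) (Fin (m + 1)) F) *ᵥ e0 = e0) (u : Fin m → F) :
    vecCons 0 (theta g u) = vecCons 0 u ᵥ*
      ((g⁻¹ : SpecialLinearGroup (Fin (m + 1)) F) : Matrix (Fin (m + 1)) (Fin (m + 1)) F) :=
  cons_tail _ (vecMul_zero_coord _ (by simp) _ (inv_mulVec_e0 g hg))

theorem theta_theta (g : SpecialLinearGroup (Fin (m + 1)) F)
    (hg : (g : Matrix (Fin (m + 1)) (Fin (m + 1)) F) *ᵥ e0 = e0) (u : Fin m → F) :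
    theta g⁻¹ (theta g u) = u := by
  have h1 : ((g⁻¹ : SpecialLinearGroup (Fin (m + 1)) F) : Matrix (Fin (m + 1)) (Fin (m + 1)) F) *
      (g : Matrix (Fin (m + 1)) (Fin (m + 1)) F) = 1 := by
    have e : (g⁻¹ * g).1 = (g⁻¹).1 * g.1 := rfl
    show (g⁻¹).1 * g.1 = 1
    rw [← e, inv_mul_cancel]
    rfl
  unfold theta
  rw [inv_inv]
  have h2 := cons_theta g hg u
  unfold theta at h2
  rw [h2, vecMul_vecMul, h1, vecMul_one]
  funext j
  simp [vecTail]

theorem conj_Usl (g : SpecialLinearGroup (Fin (m + 1)) F)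
    (hg : (g : Matrix (Fin (m + 1)) (Fin (m + 1)) F) *ᵥ e0 = e0) (u : Fin m → F) :
    g * Usl u * g⁻¹ = Usl (theta g u) := by
  have h1 : (g : Matrix (Fin (m + 1)) (Fin (m + 1)) F) *
      ((g⁻¹ : SpecialLinearGroup (Fin (m + 1)) F) : Matrix (Fin (m + 1)) (Fin (m + 1)) F) = 1 := by
    have e : (g * g⁻¹).1 = g.1 * (g⁻¹).1 := rfl
    show g.1 * (g⁻¹).1 = 1
    rw [← e, mul_inv_cancel]
    rfl
  apply Subtype.ext
  show (g : Matrix (Fin (m + 1)) (Fin (m + 1)) F) * gt e0 (vecCons 0 u) *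
      ((g⁻¹ : SpecialLinearGroup (Fin (m + 1)) F) : Matrix (Fin (m + 1)) (Fin (m + 1)) F) =
      gt e0 (vecCons 0 (theta g u))
  rw [cons_theta g hg u]
  unfold gt
  rw [mul_add, mul_one, add_mul, h1, mul_vecMulVec, vecMulVec_mul, hg]

end transvec

section rep

variable {F : Type u} [Field F] [Fintype F] [DecidableEq F] {L : Type v} [Field L] {m d : ℕ}
  (ρ : SpecialLinearGroup (Fin (m + 1)) F →* GL (Fin d) L) (ψ : AddChar F L)

/-- The matrices representing the unipotent radical. -/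
def Rm (u : Fin m → F) : Matrix (Fin d) (Fin d) L :=
  ((ρ (Usl u) : GL (Fin d) L) : Matrix (Fin d) (Fin d) L)

omit [Fintype F] [DecidableEq F] in
theorem Rm_add (u u' : Fin m → F) : Rm ρ (u + u') = Rm ρ u * Rm ρ u' := by
  unfold Rm
  rw [Usl_add, map_mul, Units.val_mul]

omit [Fintype F] [DecidableEq F] in
theorem Rm_zero : Rm ρ (0 : Fin m → F) = 1 := by
  unfold Rm
  rw [Usl_zero, map_one, Units.val_one]

/-- The isotypic projections. -/
noncomputable def Em (w : Fin m → F) : Matrix (Fin d) (Fin d) L :=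
  ((Fintype.card F : L) ^ m)⁻¹ • ∑ u : Fin m → F, ψ (-(u ⬝ᵥ w)) • Rm ρ u

theorem Rm_mul_Em (u₀ w : Fin m → F) : Rm ρ u₀ * Em ρ ψ w = ψ (u₀ ⬝ᵥ w) • Em ρ ψ w := by
  have key : Rm ρ u₀ * ∑ u : Fin m → F, ψ (-(u ⬝ᵥ w)) • Rm ρ u =
      ψ (u₀ ⬝ᵥ w) • ∑ u : Fin m → F, ψ (-(u ⬝ᵥ w)) • Rm ρ u := by
    rw [Finset.mul_sum, Finset.smul_sum]
    rw [← Equiv.sum_comp (Equiv.addLeft u₀)
      (fun u => ψ (u₀ ⬝ᵥ w) • (ψ (-(u ⬝ᵥ w)) • Rm ρ u))]
    apply Finset.sum_congr rfl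
    intro u _
    simp only [Equiv.coe_addLeft]
    rw [Matrix.mul_smul, ← Rm_add, smul_smul, ← AddChar.map_add_eq_mul, add_dotProduct]
    congr 2
    ring
  unfold Em
  rw [Matrix.mul_smul, key, smul_comm]

theorem sum_char (hψ : ∀ a : F, a ≠ 0 → ∃ c, ψ (a * c) ≠ 1) (x : Fin m → F) :
    ∑ u : Fin m → F, ψ (u ⬝ᵥ x) = if x = 0 then ((Fintype.card F : L) ^ m) else 0 := by
  classical
  split_ifs with hx
  · subst hx
    simp
  · obtain ⟨k, hk⟩ : ∃ k, x k ≠ 0 := by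
      by_contra h
      push Not at h
      exact hx (funext h)
    obtain ⟨c, hc⟩ := hψ (x k) hk
    have h1 : ∑ u : Fin m → F, ψ (u ⬝ᵥ x) = ψ (x k * c) * ∑ u : Fin m → F, ψ (u ⬝ᵥ x) := by
      rw [Finset.mul_sum, ← Equiv.sum_comp (Equiv.addLeft (Pi.single k c))
        (fun u : Fin m → F => ψ (u ⬝ᵥ x))]
      apply Finset.sum_congr rfl
      intro u _
      simp only [Equiv.coe_addLeft]
      rw [add_dotProduct, AddChar.map_add_eq_mul, single_dotProduct, mul_comm c]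
    have h2 : (1 - ψ (x k * c)) * ∑ u : Fin m → F, ψ (u ⬝ᵥ x) = 0 := by
      rw [sub_mul, one_mul, ← h1, sub_self]
    rcases mul_eq_zero.1 h2 with h3 | h3
    · exact absurd (sub_eq_zero.1 h3).symm hc
    · exact h3

theorem sum_char_neg (hψ : ∀ a : F, a ≠ 0 → ∃ c, ψ (a * c) ≠ 1) (u : Fin m → F) :
    ∑ w : Fin m → F, ψ (-(u ⬝ᵥ w)) = if u = 0 then ((Fintype.card F : L) ^ m) else 0 := by
  rw [← sum_char ψ hψ u, ← Equiv.sum_comp (Equiv.neg (Fin m → F)) (fun w => ψ (w ⬝ᵥ u))]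
  apply Finset.sum_congr rfl
  intro w _
  simp only [Equiv.neg_apply]
  rw [neg_dotProduct, dotProduct_comm]

theorem sum_Em (hψ : ∀ a : F, a ≠ 0 → ∃ c, ψ (a * c) ≠ 1) (hq : (Fintype.card F : L) ≠ 0) :
    ∑ w : Fin m → F, Em ρ ψ w = 1 := by
  classical
  unfold Em
  rw [← Finset.smul_sum, Finset.sum_comm]
  have h1 : ∀ u : Fin m → F, ∑ w : Fin m → F, ψ (-(u ⬝ᵥ w)) • Rm ρ u =
      if u = 0 then ((Fintype.card F : L) ^ m) • (1 : Matrix (Fin d) (Fin d) L) else 0 := by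
    intro u
    rw [← Finset.sum_smul, sum_char_neg ψ hψ u]
    split_ifs with hu
    · rw [hu, Rm_zero]
    · rw [zero_smul]
  rw [Finset.sum_congr rfl (fun u _ => h1 u), Finset.sum_ite_eq' Finset.univ (0 : Fin m → F),
    if_pos (Finset.mem_univ _), smul_smul, inv_mul_cancel₀ (pow_ne_zero m hq), one_smul]

theorem Em_mul_Em (hψ : ∀ a : F, a ≠ 0 → ∃ c, ψ (a * c) ≠ 1) (hq : (Fintype.card F : L) ≠ 0)
    (w' w : Fin m → F) : Em ρ ψ w' * Em ρ ψ w = if w' = w then Em ρ ψ w else 0 := by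
  have h0 : Em ρ ψ w' =
      ((Fintype.card F : L) ^ m)⁻¹ • ∑ u : Fin m → F, ψ (-(u ⬝ᵥ w')) • Rm ρ u := rfl
  rw [h0, Matrix.smul_mul, Finset.sum_mul]
  have h1 : ∀ u : Fin m → F, ψ (-(u ⬝ᵥ w')) • Rm ρ u * Em ρ ψ w =
      ψ (u ⬝ᵥ (w - w')) • Em ρ ψ w := by
    intro u
    rw [Matrix.smul_mul, Rm_mul_Em, smul_smul, ← AddChar.map_add_eq_mul, dotProduct_sub]
    congr 2
    ring
  rw [Finset.sum_congr rfl (fun u _ => h1 u), ← Finset.sum_smul, sum_char ψ hψ (w - w')]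
  by_cases hw : w' = w
  · rw [if_pos hw, if_pos (by rw [hw, sub_self]), smul_smul,
      inv_mul_cancel₀ (pow_ne_zero m hq), one_smul]
  · rw [if_neg hw, if_neg (fun h => hw (sub_eq_zero.1 h).symm), zero_smul, smul_zero]

theorem conj_Em (g : SpecialLinearGroup (Fin (m + 1)) F)
    (hg : (g : Matrix (Fin (m + 1)) (Fin (m + 1)) F) *ᵥ e0 = e0) (w : Fin m → F) :
    ((ρ g : GL (Fin d) L) : Matrix (Fin d) (Fin d) L) * Em ρ ψ w *
        ((ρ g⁻¹ : GL (Fin d) L) : Matrix (Fin d) (Fin d) L) =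
      Em ρ ψ (vecTail ((g : Matrix (Fin (m + 1)) (Fin (m + 1)) F) *ᵥ vecCons 0 w)) := by
  have hginv := inv_mulVec_e0 g hg
  let e : (Fin m → F) ≃ (Fin m → F) :=
    { toFun := theta g
      invFun := theta g⁻¹
      left_inv := theta_theta g hg
      right_inv := fun u => by
        have h := theta_theta g⁻¹ hginv u
        rw [inv_inv] at h
        exact h }
  have h1 : ∀ u : Fin m → F, ((ρ g : GL (Fin d) L) : Matrix (Fin d) (Fin d) L) * Rm ρ u *
      ((ρ g⁻¹ : GL (Fin d) L) : Matrix (Fin d) (Fin d) L) = Rm ρ (theta g u) := by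
    intro u
    unfold Rm
    rw [← conj_Usl g hg u, map_mul, map_mul, Units.val_mul, Units.val_mul]
  have h2 : ∀ u : Fin m → F, theta g⁻¹ u ⬝ᵥ w =
      u ⬝ᵥ vecTail ((g : Matrix (Fin (m + 1)) (Fin (m + 1)) F) *ᵥ vecCons 0 w) := by
    intro u
    have h3 : (vecCons 0 (theta g⁻¹ u) : Fin (m + 1) → F) ⬝ᵥ vecCons 0 w =
        theta g⁻¹ u ⬝ᵥ w := by
      rw [cons_dotProduct_cons, zero_mul, zero_add]
    rw [← h3, cons_theta g⁻¹ hginv u, inv_inv, ← dotProduct_mulVec, cons_dotProduct, zero_mul,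
      zero_add]
  unfold Em
  rw [Matrix.mul_smul, Matrix.smul_mul, Finset.mul_sum, Finset.sum_mul]
  congr 1
  rw [← Equiv.sum_comp e (fun u => ψ (-(u ⬝ᵥ
    vecTail ((g : Matrix (Fin (m + 1)) (Fin (m + 1)) F) *ᵥ vecCons 0 w))) • Rm ρ u)]
  apply Finset.sum_congr rfl
  intro u _
  show _ = ψ (-(theta g u ⬝ᵥ
    vecTail ((g : Matrix (Fin (m + 1)) (Fin (m + 1)) F) *ᵥ vecCons 0 w))) • Rm ρ (theta g u)
  rw [Matrix.mul_smul, Matrix.smul_mul, h1, ← h2 (theta g u), theta_theta g hg u]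

theorem Em_ne_zero_of_conj (g : SpecialLinearGroup (Fin (m + 1)) F)
    (hg : (g : Matrix (Fin (m + 1)) (Fin (m + 1)) F) *ᵥ e0 = e0) (w : Fin m → F)
    (h : Em ρ ψ w ≠ 0) :
    Em ρ ψ (vecTail ((g : Matrix (Fin (m + 1)) (Fin (m + 1)) F) *ᵥ vecCons 0 w)) ≠ 0 := by
  intro h0
  apply h
  have h1 := conj_Em ρ ψ g hg w
  rw [h0] at h1
  have h2 : ((ρ g⁻¹ : GL (Fin d) L) : Matrix (Fin d) (Fin d) L) *
      ((ρ g : GL (Fin d) L) : Matrix (Fin d) (Fin d) L) = 1 := by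
    rw [← Units.val_mul, ← map_mul, inv_mul_cancel, map_one, Units.val_one]
  calc Em ρ ψ w = (((ρ g⁻¹ : GL (Fin d) L) : Matrix (Fin d) (Fin d) L) *
        ((ρ g : GL (Fin d) L) : Matrix (Fin d) (Fin d) L)) * Em ρ ψ w *
        (((ρ g⁻¹ : GL (Fin d) L) : Matrix (Fin d) (Fin d) L) *
        ((ρ g : GL (Fin d) L) : Matrix (Fin d) (Fin d) L)) := by rw [h2, one_mul, mul_one]
    _ = ((ρ g⁻¹ : GL (Fin d) L) : Matrix (Fin d) (Fin d) L) *
        (((ρ g : GL (Fin d) L) : Matrix (Fin d) (Fin d) L) * Em ρ ψ w *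
        ((ρ g⁻¹ : GL (Fin d) L) : Matrix (Fin d) (Fin d) L)) *
        ((ρ g : GL (Fin d) L) : Matrix (Fin d) (Fin d) L) := by simp only [mul_assoc]
    _ = 0 := by rw [h1, mul_zero, zero_mul]

theorem Em_ne_zero_of_coord (w w' : Fin m → F) (k : Fin m) (hk : w k = w' k) (hk0 : w k ≠ 0)
    (h : Em ρ ψ w ≠ 0) : Em ρ ψ w' ≠ 0 := by
  classical
  have hdot : (vecCons 0 (Pi.single k 1) : Fin (m + 1) → F) ⬝ᵥ
      vecCons 0 ((w k)⁻¹ • (w' - w)) = 0 := by
    rw [cons_dotProduct_cons, zero_mul, zero_add, single_one_dotProduct]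
    simp [hk]
  let g : SpecialLinearGroup (Fin (m + 1)) F :=
    ⟨gt (vecCons 0 ((w k)⁻¹ • (w' - w))) (vecCons 0 (Pi.single k 1)), det_gt _ _ hdot⟩
  have hg : (g : Matrix (Fin (m + 1)) (Fin (m + 1)) F) *ᵥ e0 = e0 := by
    show gt (vecCons 0 ((w k)⁻¹ • (w' - w))) (vecCons 0 (Pi.single k 1)) *ᵥ e0 = e0
    rw [gt_mulVec]
    have h1 : (vecCons 0 (Pi.single k 1) : Fin (m + 1) → F) ⬝ᵥ e0 = 0 := by simp [e0]
    rw [h1, zero_smul, add_zero]
  have h2 := Em_ne_zero_of_conj ρ ψ g hg w h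
  have h3 : vecTail ((g : Matrix (Fin (m + 1)) (Fin (m + 1)) F) *ᵥ vecCons 0 w) = w' := by
    show vecTail (gt (vecCons 0 ((w k)⁻¹ • (w' - w))) (vecCons 0 (Pi.single k 1)) *ᵥ
      vecCons 0 w) = w'
    rw [gt_mulVec, cons_dotProduct_cons, zero_mul, zero_add, single_one_dotProduct]
    funext j
    simp only [vecTail, Function.comp_apply, Pi.add_apply, Pi.smul_apply, cons_val_succ,
      smul_eq_mul, Pi.sub_apply]
    field_simp
    ring
  rw [h3] at h2
  exact h2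

theorem Em_ne_zero_all (hm : 2 ≤ m) (w₁ : Fin m → F) (hw₁ : w₁ ≠ 0) (h₁ : Em ρ ψ w₁ ≠ 0)
    (w : Fin m → F) (hw : w ≠ 0) : Em ρ ψ w ≠ 0 := by
  classical
  obtain ⟨k, hk⟩ : ∃ k, w₁ k ≠ 0 := by
    by_contra h
    push Not at h
    exact hw₁ (funext h)
  obtain ⟨l, hl⟩ : ∃ l, w l ≠ 0 := by
    by_contra h
    push Not at h
    exact hw (funext h)
  by_cases hkl : k = l
  · subst hkl
    obtain ⟨j, hj⟩ : ∃ j : Fin m, j ≠ k := by
      by_cases h0 : k = ⟨0, by omega⟩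
      · exact ⟨⟨1, by omega⟩, by rw [h0]; simp [Fin.ext_iff]⟩
      · exact ⟨⟨0, by omega⟩, fun h => h0 h.symm⟩
    have s1 := Em_ne_zero_of_coord ρ ψ w₁ (Pi.single k (w₁ k) + Pi.single j 1) k
      (by simp [hj.symm]) hk h₁
    have s2 := Em_ne_zero_of_coord ρ ψ _ (Pi.single k (w k) + Pi.single j 1) j
      (by simp [hj]) (by simp [hj]) s1
    exact Em_ne_zero_of_coord ρ ψ _ w k (by simp [hj.symm]) (by simpa [hj.symm] using hl) s2
  · have s1 := Em_ne_zero_of_coord ρ ψ w₁ (Pi.single k (w₁ k) + Pi.single l (w l)) k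
      (by simp [hkl]) hk h₁
    exact Em_ne_zero_of_coord ρ ψ _ w l (by simp [Ne.symm hkl]) (by simpa [Ne.symm hkl] using hl) s1

end rep

section final

variable {F : Type u} [Field F] [Fintype F] [DecidableEq F] {L : Type v} [Field L] {m d : ℕ}
  (ρ : SpecialLinearGroup (Fin (m + 1)) F →* GL (Fin d) L) (ψ : AddChar F L)

theorem exists_Em_ne_zero (hψ : ∀ a : F, a ≠ 0 → ∃ c, ψ (a * c) ≠ 1)
    (hq : (Fintype.card F : L) ≠ 0) (hm : 1 ≤ m)
    (hker : ρ.ker ≤ Subgroup.center (SpecialLinearGroup (Fin (m + 1)) F)) :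
    ∃ w : Fin m → F, w ≠ 0 ∧ Em ρ ψ w ≠ 0 := by
  by_contra hcon
  push Not at hcon
  have h1 : Em ρ ψ (0 : Fin m → F) = 1 := by
    have h := sum_Em ρ ψ hψ hq
    rw [Finset.sum_eq_single (0 : Fin m → F) (fun w _ hw => hcon w hw)
      (fun h0 => absurd (Finset.mem_univ _) h0)] at h
    exact h
  have h2 : ∀ u : Fin m → F, Rm ρ u = 1 := by
    intro u
    have h := Rm_mul_Em ρ ψ u 0
    rw [h1, mul_one, dotProduct_zero, AddChar.map_zero_eq_one, one_smul] at h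
    exact h
  let k : Fin m := ⟨0, hm⟩
  have h3 : Usl (Pi.single k 1 : Fin m → F) ∈ ρ.ker := by
    rw [MonoidHom.mem_ker]
    apply Units.ext
    exact h2 _
  have h4 := hker h3
  rw [Matrix.SpecialLinearGroup.mem_center_iff] at h4
  obtain ⟨r, -, hr⟩ := h4
  have h5 := congrFun (congrFun hr 0) k.succ
  have h6 : ((Usl (Pi.single k 1 : Fin m → F) : SpecialLinearGroup (Fin (m + 1)) F) :
      Matrix (Fin (m + 1)) (Fin (m + 1)) F) 0 k.succ = 1 := by
    show gt e0 (vecCons 0 (Pi.single k 1)) 0 k.succ = 1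
    unfold gt
    rw [Matrix.add_apply, Matrix.one_apply_ne (Fin.succ_ne_zero k).symm, zero_add,
      vecMulVec_apply]
    simp [e0]
  rw [h6, Matrix.scalar_apply, Matrix.diagonal_apply_ne _ (Fin.succ_ne_zero k).symm] at h5
  exact zero_ne_one h5

omit [Fintype F] [DecidableEq F] in
theorem card_le_of_orth {ι : Type*} [Fintype ι] [DecidableEq ι]
    (E : ι → Matrix (Fin d) (Fin d) L) (hne : ∀ i, E i ≠ 0)
    (horth : ∀ i j, E i * E j = if i = j then E j else 0) : Fintype.card ι ≤ d := by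
  have hy : ∀ i, ∃ y : Fin d → L, E i *ᵥ y ≠ 0 := by
    intro i
    by_contra h
    push Not at h
    apply hne i
    ext a b
    have h1 := congrFun (h (Pi.single b 1)) a
    simpa using h1
  choose y hy using hy
  have hli : LinearIndependent L (fun i => E i *ᵥ y i) := by
    rw [Fintype.linearIndependent_iff]
    intro c hc j
    have h1 := congrArg (fun v => (E j).mulVecLin v) hc
    simp only [map_sum, map_smul, Matrix.mulVecLin_apply, mulVec_mulVec, map_zero] at h1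
    rw [Finset.sum_eq_single j] at h1
    · rw [horth j j, if_pos rfl] at h1
      rcases smul_eq_zero.1 h1 with h2 | h2
      · exact h2
      · exact absurd h2 (hy j)
    · intro i _ hij
      rw [horth j i, if_neg (Ne.symm hij), zero_mulVec, smul_zero]
    · intro h
      exact absurd (Finset.mem_univ j) h
  have h := hli.fintype_card_le_finrank
  rwa [Module.finrank_fin_fun] at h

theorem core_bound (hψ : ∀ a : F, a ≠ 0 → ∃ c, ψ (a * c) ≠ 1)
    (hq : (Fintype.card F : L) ≠ 0) (hm : 2 ≤ m)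
    (hker : ρ.ker ≤ Subgroup.center (SpecialLinearGroup (Fin (m + 1)) F)) :
    Fintype.card F ^ m - 1 ≤ d := by
  obtain ⟨w₁, hw₁, h₁⟩ := exists_Em_ne_zero ρ ψ hψ hq (by omega) hker
  have hall := Em_ne_zero_all ρ ψ hm w₁ hw₁ h₁
  have h := card_le_of_orth (fun w : {w : Fin m → F // ¬ (w = 0)} => Em ρ ψ w.1)
    (fun w => hall w.1 w.2)
    (fun w w' => by
      rw [Em_mul_Em ρ ψ hψ hq]
      by_cases hww : w = w'
      · rw [if_pos hww, if_pos (by rw [hww])]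
      · rw [if_neg hww, if_neg (fun h' => hww (Subtype.ext h'))])
  rwa [Fintype.card_subtype_compl, Fintype.card_subtype_eq, Fintype.card_fun,
    Fintype.card_fin] at h

end final

/-- Every representation of `SL_n(q)`, `n ≥ 3`, in cross characteristic with central kernel has
degree at least `q ^ (n - 1) - 1`. -/
theorem sl_bound {F : Type u} [Field F] [Fintype F] {q : ℕ} (hq : Fintype.card F = q) (n : ℕ)
    (hn : 3 ≤ n) {K : Type v} [Field K] (hK : ringChar K ≠ ringChar F) {d : ℕ}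
    (ρ : SpecialLinearGroup (Fin n) F →* GL (Fin d) K)
    (hker : ρ.ker ≤ Subgroup.center (SpecialLinearGroup (Fin n) F)) :
    q ^ (n - 1) - 1 ≤ d := by
  classical
  obtain ⟨m, rfl⟩ : ∃ m, n = m + 1 := ⟨n - 1, by omega⟩
  let P := AddChar.FiniteField.primitiveChar F K hK
  have hψ : ∀ a : F, a ≠ 0 → ∃ c, P.char (a * c) ≠ 1 := by
    intro a ha
    have h1 := P.prim ha
    obtain ⟨c, hc⟩ := AddChar.ne_one_iff.1 h1
    exact ⟨c, hc⟩
  let ι : GL (Fin d) K →* GL (Fin d) (CyclotomicField P.n K) :=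
    Matrix.GeneralLinearGroup.map (algebraMap K (CyclotomicField P.n K))
  have hι : Function.Injective ι := by
    apply Units.map_injective
    intro A B hAB
    ext i j
    have h1 := congrFun (congrFun hAB i) j
    exact (algebraMap K (CyclotomicField P.n K)).injective h1
  have hker' : (ι.comp ρ).ker ≤ Subgroup.center (SpecialLinearGroup (Fin (m + 1)) F) := by
    intro g hg
    apply hker
    rw [MonoidHom.mem_ker] at hg ⊢
    apply hι
    rw [map_one]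
    exact hg
  have hp : (ringChar F).Prime := CharP.char_is_prime F (ringChar F)
  have hpK : ((ringChar F : ℕ) : K) ≠ 0 := by
    intro h
    have h1 := (CharP.cast_eq_zero_iff K (ringChar K) (ringChar F)).1 h
    rcases (Nat.dvd_prime hp).1 h1 with h2 | h2
    · exact CharP.ringChar_ne_one h2
    · exact hK h2
  have hqL : (Fintype.card F : CyclotomicField P.n K) ≠ 0 := by
    obtain ⟨k, -, hk⟩ := FiniteField.card F (ringChar F)
    rw [hk, Nat.cast_pow]
    apply pow_ne_zero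
    rw [← map_natCast (algebraMap K (CyclotomicField P.n K))]
    exact (map_ne_zero _).2 hpK
  have h := core_bound (ι.comp ρ) P.char hψ hqL (by omega) hker'
  rw [hq] at h
  exact h

end Cfsg.Agent.Lib.Helper40.LSBound
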