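import Cfsg.Agent.Lib.Helper40.CharIdem
import Cfsg.Agent.Lib.Helper40.SympCenter

/-!
# A lower bound for cross-characteristic representations of `Sp_{2n}(q)`, `q` odd
-/

namespace Cfsg.Agent.Lib.Helper40.LSBoundSp

open Matrix Cfsg.Agent.Lib.Helper40.LSBound Cfsg.Agent.Lib.Helper40.CharIdem

universe u v

section blocks

variable {F : Type u} [Field F] {k : ℕ}

/-- The symmetric matrix `e₀ σᵀ + σ e₀ᵀ`. -/
def Ssym (σ : Fin (k + 1) → F) : Matrix (Fin (k + 1)) (Fin (k + 1)) F :=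
  vecMulVec e0 σ + vecMulVec σ e0

theorem Ssym_transpose (σ : Fin (k + 1) → F) : (Ssym σ)ᵀ = Ssym σ := by
  unfold Ssym
  rw [transpose_add, transpose_vecMulVec, transpose_vecMulVec]
  exact add_comm _ _

theorem Ssym_add (σ σ' : Fin (k + 1) → F) : Ssym (σ + σ') = Ssym σ + Ssym σ' := by
  unfold Ssym
  rw [vecMulVec_add, add_vecMulVec]
  abel

/-- The unipotent elements attached to the symmetric matrices `Ssym σ`. -/
def Usp (σ : Fin (k + 1) → F) : symplecticGroup (Fin (k + 1)) F :=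
  ⟨fromBlocks 1 (Ssym σ) 0 1, by
    rw [SymplecticGroup.fromBlocks_mem_iff]
    refine ⟨by simp, by simp [Ssym_transpose], by simp⟩⟩

theorem Usp_add (σ σ' : Fin (k + 1) → F) : Usp (σ + σ') = Usp σ * Usp σ' := by
  apply Subtype.ext
  show fromBlocks 1 (Ssym (σ + σ')) 0 1 =
    fromBlocks 1 (Ssym σ) 0 1 * fromBlocks 1 (Ssym σ') 0 1
  rw [fromBlocks_multiply, Ssym_add]
  simp [add_comm]

/-- The Levi elements. -/
def Lv (A B : Matrix (Fin (k + 1)) (Fin (k + 1)) F) (h : B * A = 1) :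
    symplecticGroup (Fin (k + 1)) F :=
  ⟨fromBlocks A 0 0 Bᵀ, by
    rw [SymplecticGroup.fromBlocks_mem_iff]
    refine ⟨by simp, by simp, ?_⟩
    rw [← transpose_mul, h]
    simp⟩

theorem Lv_mul_Usp (A B : Matrix (Fin (k + 1)) (Fin (k + 1)) F) (h : B * A = 1) (t : F)
    (ht : t ≠ 0) (hA : A *ᵥ e0 = t • e0) (σ : Fin (k + 1) → F) :
    Lv A B h * Usp σ = Usp (t • (A *ᵥ σ)) * Lv A B h := by
  have hB : B *ᵥ e0 = t⁻¹ • e0 := by
    have h1 : B *ᵥ (A *ᵥ e0) = e0 := by rw [mulVec_mulVec, h, one_mulVec]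
    rw [hA, mulVec_smul] at h1
    calc B *ᵥ e0 = t⁻¹ • (t • B *ᵥ e0) := by rw [smul_smul, inv_mul_cancel₀ ht, one_smul]
      _ = t⁻¹ • e0 := by rw [h1]
  have key : A * Ssym σ = Ssym (t • (A *ᵥ σ)) * Bᵀ := by
    unfold Ssym
    rw [mul_add, mul_vecMulVec, mul_vecMulVec, add_mul, vecMulVec_mul, vecMulVec_mul,
      vecMul_transpose, vecMul_transpose, hA, hB, mulVec_smul, mulVec_mulVec, h, one_mulVec,
      smul_vecMulVec, vecMulVec_smul, smul_vecMulVec, vecMulVec_smul, smul_smul,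
      mul_inv_cancel₀ ht, one_smul]
  apply Subtype.ext
  show fromBlocks A 0 0 Bᵀ * fromBlocks 1 (Ssym σ) 0 1 =
    fromBlocks 1 (Ssym (t • (A *ᵥ σ))) 0 1 * fromBlocks A 0 0 Bᵀ
  rw [fromBlocks_multiply, fromBlocks_multiply, ← key]
  simp

end blocks

section rep

variable {F : Type u} [Field F] [Fintype F] [DecidableEq F] {L : Type v} [Field L] {k d : ℕ}
  (ρ : symplecticGroup (Fin (k + 1)) F →* GL (Fin d) L) (ψ : AddChar F L)

omit [Fintype F] [DecidableEq F] in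
theorem hU : ∀ u u' : Fin (k + 1) → F, Usp (u + u') = Usp u * Usp u' := Usp_add

theorem Em_ne_zero_Lv (A B : Matrix (Fin (k + 1)) (Fin (k + 1)) F) (h : B * A = 1)
    (h' : A * B = 1) (t : F) (ht : t ≠ 0) (hA : A *ᵥ e0 = t • e0) (w : Fin (k + 1) → F)
    (hw : Em ρ ψ Usp w ≠ 0) : Em ρ ψ Usp (t⁻¹ • (w ᵥ* B)) ≠ 0 := by
  let e : (Fin (k + 1) → F) ≃ (Fin (k + 1) → F) :=
    { toFun := fun u => t • (A *ᵥ u)
      invFun := fun u => t⁻¹ • (B *ᵥ u)
      left_inv := fun u => by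
        show t⁻¹ • (B *ᵥ (t • (A *ᵥ u))) = u
        rw [mulVec_smul, mulVec_mulVec, h, one_mulVec, smul_smul, inv_mul_cancel₀ ht, one_smul]
      right_inv := fun u => by
        show t • (A *ᵥ (t⁻¹ • (B *ᵥ u))) = u
        rw [mulVec_smul, mulVec_mulVec, h', one_mulVec, smul_smul, mul_inv_cancel₀ ht, one_smul] }
  apply Em_ne_zero_of_conj ρ ψ Usp (Lv A B h) e (fun u => Lv_mul_Usp A B h t ht hA u) w _ _ hw
  intro u
  show (t⁻¹ • (B *ᵥ u)) ⬝ᵥ w = u ⬝ᵥ (t⁻¹ • (w ᵥ* B))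
  rw [smul_dotProduct, dotProduct_smul, dotProduct_comm (B *ᵥ u) w, dotProduct_mulVec,
    dotProduct_comm u]

theorem Em_ne_zero_shear (b : Fin k → F) (w : Fin (k + 1) → F) (hw : Em ρ ψ Usp w ≠ 0) :
    Em ρ ψ Usp (w - w 0 • vecCons 0 b) ≠ 0 := by
  have hβ : (vecCons 0 b : Fin (k + 1) → F) ⬝ᵥ e0 = 0 := by simp [e0]
  obtain ⟨E, hE⟩ : ∃ E : Matrix (Fin (k + 1)) (Fin (k + 1)) F,
      E = vecMulVec e0 (vecCons 0 b) := ⟨_, rfl⟩
  have hEE : E * E = 0 := by
    rw [hE, vecMulVec_mul_vecMulVec, hβ, zero_smul]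
    ext i j
    simp [vecMulVec_apply]
  have h1 : (1 - E) * (1 + E) = 1 := by
    rw [sub_mul, one_mul, mul_add, mul_one, hEE]
    abel
  have h2 : (1 + E) * (1 - E) = 1 := by
    rw [add_mul, one_mul, mul_sub, mul_one, hEE]
    abel
  have hA : (1 + E) *ᵥ (e0 : Fin (k + 1) → F) = (1 : F) • e0 := by
    rw [add_mulVec, one_mulVec, hE, vecMulVec_mulVec, hβ, one_smul]
    simp
  have h3 := Em_ne_zero_Lv ρ ψ _ _ h1 h2 1 one_ne_zero hA w hw
  have h4 : (1 : F)⁻¹ • (w ᵥ* (1 - E)) = w - w 0 • vecCons 0 b := by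
    rw [inv_one, one_smul, vecMul_sub, vecMul_one, hE, vecMul_vecMulVec]
    congr 2
    simp [e0]
  rw [h4] at h3
  exact h3

theorem Em_ne_zero_diag (t : F) (ht : t ≠ 0) (w : Fin (k + 1) → F) (hw : Em ρ ψ Usp w ≠ 0) :
    ∃ w' : Fin (k + 1) → F, w' 0 = t⁻¹ * t⁻¹ * w 0 ∧ Em ρ ψ Usp w' ≠ 0 := by
  have h1 : diagonal (fun i : Fin (k + 1) => if i = 0 then t⁻¹ else 1) *
      diagonal (fun i : Fin (k + 1) => if i = 0 then t else 1) = 1 := by
    rw [diagonal_mul_diagonal, ← diagonal_one]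
    congr 1
    funext i
    split_ifs
    · exact inv_mul_cancel₀ ht
    · exact one_mul 1
  have h2 : diagonal (fun i : Fin (k + 1) => if i = 0 then t else 1) *
      diagonal (fun i : Fin (k + 1) => if i = 0 then t⁻¹ else 1) = 1 := by
    rw [diagonal_mul_diagonal, ← diagonal_one]
    congr 1
    funext i
    split_ifs
    · exact mul_inv_cancel₀ ht
    · exact one_mul 1
  have hA : diagonal (fun i : Fin (k + 1) => if i = 0 then t else 1) *ᵥ
      (e0 : Fin (k + 1) → F) = t • e0 := by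
    funext i
    rw [mulVec_diagonal]
    by_cases hi : i = 0
    · simp [hi, e0]
    · simp [hi, e0]
  have h3 := Em_ne_zero_Lv ρ ψ _ _ h1 h2 t ht hA w hw
  refine ⟨_, ?_, h3⟩
  rw [Pi.smul_apply, vecMul_diagonal, if_pos rfl, smul_eq_mul]
  ring

theorem exists_Em_ne_zero (hψ : ∀ a : F, a ≠ 0 → ∃ c, ψ (a * c) ≠ 1)
    (hq : (Fintype.card F : L) ≠ 0) (h2 : (2 : F) ≠ 0)
    (hker : ρ.ker ≤ Subgroup.center (symplecticGroup (Fin (k + 1)) F)) :
    ∃ w : Fin (k + 1) → F, w 0 ≠ 0 ∧ Em ρ ψ Usp w ≠ 0 := by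
  by_contra hcon
  push Not at hcon
  have h1 : Rm ρ Usp (e0 : Fin (k + 1) → F) = 1 := by
    have h3 : Rm ρ Usp (e0 : Fin (k + 1) → F) * ∑ w : Fin (k + 1) → F, Em ρ ψ Usp w =
        ∑ w : Fin (k + 1) → F, Em ρ ψ Usp w := by
      rw [Finset.mul_sum]
      apply Finset.sum_congr rfl
      intro w _
      rw [Rm_mul_Em ρ ψ Usp hU]
      by_cases hw : w 0 = 0
      · have h4 : (e0 : Fin (k + 1) → F) ⬝ᵥ w = 0 := by simp [e0, hw]
        rw [h4, AddChar.map_zero_eq_one, one_smul]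
      · rw [hcon w hw, smul_zero]
    rw [sum_Em ρ ψ Usp hU hψ hq, mul_one] at h3
    exact h3
  have h3 : Usp (e0 : Fin (k + 1) → F) ∈ ρ.ker := by
    rw [MonoidHom.mem_ker]
    apply Units.ext
    exact h1
  obtain ⟨a, -, ha⟩ := center_scalar (k + 1) (by omega) _ (hker h3)
  have h5 := congrFun (congrFun ha (Sum.inl 0)) (Sum.inr 0)
  have h6 : ((Usp (e0 : Fin (k + 1) → F) : symplecticGroup (Fin (k + 1)) F) :
      Matrix (Fin (k + 1) ⊕ Fin (k + 1)) (Fin (k + 1) ⊕ Fin (k + 1)) F) (Sum.inl 0) (Sum.inr 0)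
      = 2 := by
    show fromBlocks 1 (Ssym (e0 : Fin (k + 1) → F)) 0 1 (Sum.inl 0) (Sum.inr 0) = 2
    rw [fromBlocks_apply₁₂]
    simp [Ssym, e0, vecMulVec_apply]
    norm_num
  rw [h6] at h5
  simp at h5
  exact h2 h5

end rep

section final

variable {F : Type u} [Field F] [Fintype F] [DecidableEq F] {L : Type v} [Field L] {k d : ℕ}
  (ρ : symplecticGroup (Fin (k + 1)) F →* GL (Fin d) L) (ψ : AddChar F L)

theorem core_bound (hψ : ∀ a : F, a ≠ 0 → ∃ c, ψ (a * c) ≠ 1)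
    (hq : (Fintype.card F : L) ≠ 0) (hodd : Odd (Fintype.card F))
    (hker : ρ.ker ≤ Subgroup.center (symplecticGroup (Fin (k + 1)) F)) :
    Fintype.card F ^ k * ((Fintype.card F - 1) / 2) ≤ d := by
  classical
  have h2 : (2 : F) ≠ 0 := by
    intro h
    have h1 : ((2 : ℕ) : F) = 0 := by exact_mod_cast h
    have h3 := (CharP.cast_eq_zero_iff F (ringChar F) 2).1 h1
    have hp : (ringChar F).Prime := CharP.char_is_prime F (ringChar F)
    have h4 := (Nat.prime_dvd_prime_iff_eq hp Nat.prime_two).1 h3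
    have h5 := FiniteField.even_card_iff_char_two.1 h4
    rcases hodd with ⟨c, hc⟩
    omega
  obtain ⟨w₁, hw₁, h₁⟩ := exists_Em_ne_zero ρ ψ hψ hq h2 hker
  have : Fintype (powMonoidHom 2 : Fˣ →* Fˣ).range := Fintype.ofFinite _
  let f : (powMonoidHom 2 : Fˣ →* Fˣ).range × (Fin k → F) → (Fin (k + 1) → F) :=
    fun x => vecCons (((x.1 : Fˣ) : F) * w₁ 0) x.2
  have hf : Function.Injective f := by
    rintro ⟨σ, α⟩ ⟨σ', α'⟩ h
    have h0 := congrFun h 0
    simp only [f, cons_val_zero] at h0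
    have h1 : (σ : Fˣ) = σ' := Units.ext (mul_right_cancel₀ hw₁ h0)
    have h3 : α = α' := by
      funext j
      have h4 := congrFun h j.succ
      simpa [f] using h4
    rw [Prod.mk.injEq]
    exact ⟨Subtype.ext h1, h3⟩
  have hne : ∀ x, Em ρ ψ Usp (f x) ≠ 0 := by
    rintro ⟨⟨σ, s, hs⟩, α⟩
    obtain ⟨w₂, hw₂0, hw₂⟩ := Em_ne_zero_diag ρ ψ ((s : F)⁻¹) (inv_ne_zero s.ne_zero) w₁ h₁
    have hγ : w₂ 0 ≠ 0 := by
      rw [hw₂0]
      exact mul_ne_zero (mul_ne_zero (inv_ne_zero (inv_ne_zero s.ne_zero))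
        (inv_ne_zero (inv_ne_zero s.ne_zero))) hw₁
    have h3 := Em_ne_zero_shear ρ ψ ((w₂ 0)⁻¹ • (vecTail w₂ - α)) w₂ hw₂
    have h4 : f ⟨⟨σ, s, hs⟩, α⟩ = w₂ - w₂ 0 • vecCons 0 ((w₂ 0)⁻¹ • (vecTail w₂ - α)) := by
      funext j
      refine Fin.cases ?_ (fun j' => ?_) j
      · have h5 : (σ : F) = (s : F) * (s : F) := by
          rw [← hs]
          simp [pow_two]
        simp only [f, cons_val_zero, Pi.sub_apply, Pi.smul_apply, smul_eq_mul, mul_zero, sub_zero]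
        rw [hw₂0, h5, inv_inv]
      · simp only [f, cons_val_succ, Pi.sub_apply, Pi.smul_apply, smul_eq_mul, vecTail,
          Function.comp_apply]
        field_simp
        ring
    rw [h4]
    exact h3
  have h := card_le ρ ψ Usp hU hψ hq f hf hne
  rw [Fintype.card_prod, Fintype.card_fun, Fintype.card_fin] at h
  have hR : Fintype.card (powMonoidHom 2 : Fˣ →* Fˣ).range = (Fintype.card F - 1) / 2 := by
    rw [← Nat.card_eq_fintype_card, IsCyclic.card_powMonoidHom_range, Nat.card_eq_fintype_card,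
      Fintype.card_units]
    have h6 : 2 ∣ Fintype.card F - 1 := by
      rcases hodd with ⟨c, hc⟩
      exact ⟨c, by omega⟩
    rw [Nat.gcd_eq_right h6]
  rw [hR, mul_comm] at h
  exact h

end final

/-- Every representation of `Sp_{2n}(q)`, `q` odd, in cross characteristic with central kernel has
degree at least `q ^ (n - 1) * (q - 1) / 2`. -/
theorem sp_bound {F : Type u} [Field F] [Fintype F] {q : ℕ} (hq : Fintype.card F = q)
    (hodd : Odd q) (n : ℕ) (hn : 2 ≤ n) {K : Type v} [Field K] (hK : ringChar K ≠ ringChar F)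
    {d : ℕ} (ρ : symplecticGroup (Fin n) F →* GL (Fin d) K)
    (hker : ρ.ker ≤ Subgroup.center (symplecticGroup (Fin n) F)) :
    q ^ (n - 1) * (q - 1) / 2 ≤ d := by
  classical
  obtain ⟨k, rfl⟩ : ∃ k, n = k + 1 := ⟨n - 1, by omega⟩
  let P := AddChar.FiniteField.primitiveChar F K hK
  have hψ : ∀ a : F, a ≠ 0 → ∃ c, P.char (a * c) ≠ 1 := by
    intro a ha
    have h1 := P.prim ha
    obtain ⟨c, hc⟩ := AddChar.ne_one_iff.1 h1
    exact ⟨c, hc⟩
  let ι : GL (Fin d) K →* GL (Fin d) (CyclotomicField P.n K) :=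
    Matrix.GeneralLinearGroup.map (algebraMap K (CyclotomicField P.n K))
  have hι : Function.Injective ι := by
    apply Units.map_injective
    intro A B hAB
    ext i j
    have h1 := congrFun (congrFun hAB i) j
    exact (algebraMap K (CyclotomicField P.n K)).injective h1
  have hker' : (ι.comp ρ).ker ≤ Subgroup.center (symplecticGroup (Fin (k + 1)) F) := by
    intro g hg
    apply hker
    rw [MonoidHom.mem_ker] at hg ⊢
    apply hι
    rw [map_one]
    exact hg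
  have hp : (ringChar F).Prime := CharP.char_is_prime F (ringChar F)
  have hpK : ((ringChar F : ℕ) : K) ≠ 0 := by
    intro h
    have h1 := (CharP.cast_eq_zero_iff K (ringChar K) (ringChar F)).1 h
    rcases (Nat.dvd_prime hp).1 h1 with h2 | h2
    · exact CharP.ringChar_ne_one h2
    · exact hK h2
  have hqL : (Fintype.card F : CyclotomicField P.n K) ≠ 0 := by
    obtain ⟨j, -, hj⟩ := FiniteField.card F (ringChar F)
    rw [hj, Nat.cast_pow]
    apply pow_ne_zero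
    rw [← map_natCast (algebraMap K (CyclotomicField P.n K))]
    exact (map_ne_zero _).2 hpK
  have h := core_bound (ι.comp ρ) P.char hψ hqL (by rw [hq]; exact hodd) hker'
  rw [hq] at h
  have h6 : 2 ∣ q - 1 := by
    rcases hodd with ⟨c, hc⟩
    exact ⟨c, by omega⟩
  rw [Nat.add_sub_cancel, Nat.mul_div_assoc _ h6]
  exact h

end Cfsg.Agent.Lib.Helper40.LSBoundSp
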