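-- helper40: elements of odd prime order of Sp fixing no pair of complementary Lagrangians.
import Mathlib
import Cfsg.Prelude.Def_ClassicalGeometry
import Cfsg.Agent.Lib.Helper40.Lagr
import Cfsg.Agent.Lib.Helper40.SpPrimeOrder
import Cfsg.Agent.Lib.Helper40.Elusive
import Cfsg.Agent.Lib.Helper99.SpStab

set_option autoImplicit false

namespace Cfsg.Agent.Lib.Helper40.Lagr

open Matrix Polynomial Cfsg Cfsg.Agent.Lib.Helper94

universe u

section Irr

variable {F : Type u} [Field F]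

theorem cyc_le {V : Type*} [AddCommGroup V] [Module F V] (f : Module.End F V) (v : V)
    (S : Submodule F V) (hS : ∀ x ∈ S, f x ∈ S) (hv : v ∈ S) :
    Cfsg.Agent.Lib.Helper40.cyc f v ≤ S := by
  rintro _ ⟨k, rfl⟩
  rw [Cfsg.Agent.Lib.Helper40.evalAt_apply]
  have hpow : ∀ n : ℕ, (f ^ n) v ∈ S := by
    intro n
    induction n with
    | zero => simpa using hv
    | succ n ih =>
      rw [pow_succ', Module.End.mul_apply]
      exact hS _ ih
  induction k using Polynomial.induction_on' with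
  | add p q hp hq =>
    rw [map_add, LinearMap.add_apply]
    exact S.add_mem hp hq
  | monomial n c =>
    rw [aeval_monomial, Module.End.mul_apply, Module.algebraMap_end_apply]
    exact S.smul_mem _ (hpow n)

/-- an element of order `r` of `GL_i(q)`, `i = ord_r(q)`, acts irreducibly. -/
theorem cyc_top [Fintype F] {p q : ℕ} [Fact p.Prime] [CharP F p] (hq : Fintype.card F = q)
    (r : ℕ) [Fact r.Prime] (hrp : r ≠ p) (b : ℕ) (hb : 2 * b = orderOf (q : ZMod r))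
    (hb1 : 1 ≤ b) (A : Matrix (Fin b ⊕ Fin b) (Fin b ⊕ Fin b) F) (hA : A ^ r = 1) (hA1 : A ≠ 1)
    (v : Fin b ⊕ Fin b → F) (hv : v ≠ 0) :
    Cfsg.Agent.Lib.Helper40.cyc (Matrix.toLin' A) v = ⊤ := by
  classical
  obtain ⟨S, hS, -⟩ := Cfsg.Agent.Lib.Helper40.Elusive.exists_factors hq r hrp
  rw [← hb] at hS
  have hcard : Fintype.card (Fin b ⊕ Fin b) = 2 * b := by
    rw [Fintype.card_sum, Fintype.card_fin]
    ring
  have hrF : (r : F) ≠ 0 := Cfsg.Agent.Lib.Helper40.Elusive.natCast_ne_zero_of_ne r hrp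
  obtain ⟨a, ha, hχ⟩ := Cfsg.Agent.Lib.Helper40.SpExist.charpoly_eq_chi' hS A hA (2 * b) hcard
  have hex : ∃ π₀ : S, 1 ≤ a π₀ := by
    by_contra hcon
    push Not at hcon
    have h0 : ∀ π : S, a π = 0 := fun π => by
      have := hcon π
      omega
    have h1 : ∑ π, a π = 0 := Finset.sum_eq_zero fun π _ => h0 π
    rw [h1, mul_zero, Nat.sub_zero] at hχ
    unfold Cfsg.Agent.Lib.Helper40.PrimeOrderGL.chi at hχ
    have h2 : ∏ π : S, π.1 ^ a π = 1 := Finset.prod_eq_one fun π _ => by rw [h0 π, pow_zero]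
    rw [h2, mul_one] at hχ
    exact hA1 (Cfsg.Agent.Lib.Helper40.SpExist.eq_one_of_charpoly' A r hrF hA (2 * b) hcard hχ)
  obtain ⟨π₀, hπ₀⟩ := hex
  have hirr : Irreducible π₀.1 := hS.irred π₀.1 π₀.2
  have hdeg : π₀.1.natDegree = 2 * b := hS.deg π₀.1 π₀.2
  have hdvd : π₀.1 ∣ A.charpoly := by
    rw [hχ]
    unfold Cfsg.Agent.Lib.Helper40.PrimeOrderGL.chi
    exact Dvd.dvd.mul_left ((dvd_pow_self _ (by omega)).trans
      (Finset.dvd_prod_of_mem (fun π : S => π.1 ^ a π) (Finset.mem_univ π₀))) _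
  obtain ⟨c, hc⟩ := hdvd
  have hc0 : c ≠ 0 := by
    rintro rfl
    rw [mul_zero] at hc
    exact (Matrix.charpoly_monic A).ne_zero hc
  have hcdeg : c.natDegree = 0 := by
    have h3 := congrArg Polynomial.natDegree hc
    rw [Matrix.charpoly_natDegree_eq_dim, hcard, Polynomial.natDegree_mul hirr.ne_zero hc0,
      hdeg] at h3
    omega
  have hAπ : aeval A π₀.1 = 0 := by
    have h4 := Matrix.aeval_self_charpoly A
    rw [hc, map_mul, Polynomial.eq_C_of_natDegree_eq_zero hcdeg, aeval_C] at h4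
    have h5 : c.coeff 0 ≠ 0 := by
      intro h
      apply hc0
      rw [Polynomial.eq_C_of_natDegree_eq_zero hcdeg, h, map_zero]
    have h6 := congrArg (fun M => M * algebraMap F (Matrix (Fin b ⊕ Fin b) (Fin b ⊕ Fin b) F)
      (c.coeff 0)⁻¹) h4
    simp only [mul_assoc, ← map_mul, mul_inv_cancel₀ h5, map_one, mul_one, zero_mul] at h6
    exact h6
  have hAπ' : aeval (Matrix.toLin' A) π₀.1 = 0 := by
    have h7 := Polynomial.aeval_algHom_apply
      (Matrix.toLinAlgEquiv' : Matrix (Fin b ⊕ Fin b) (Fin b ⊕ Fin b) F ≃ₐ[F] _).toAlgHom A π₀.1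
    rw [hAπ, map_zero] at h7
    exact h7
  have h8 := Cfsg.Agent.Lib.Helper40.Elusive.finrank_cyc (Matrix.toLin' A) v π₀.1 hirr hv
    (by rw [hAπ']; rfl)
  apply Submodule.eq_top_of_finrank_eq
  rw [h8, hdeg, finrank_space]

end Irr

section Block

variable {F : Type u} [Field F]

/-- the index equivalence splitting off the first `b` hyperbolic pairs. -/
def eB (b c d : ℕ) (h : b + c = d) : (Fin b ⊕ Fin b) ⊕ (Fin c ⊕ Fin c) ≃ Fin d ⊕ Fin d :=
  (Equiv.sumSumSumComm _ _ _ _).trans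
    (Equiv.sumCongr (finSumFinEquiv.trans (finCongr h)) (finSumFinEquiv.trans (finCongr h)))

theorem form_eB (b c d : ℕ) (h : b + c = d) (u v : Fin d ⊕ Fin d → F) :
    sympForm d F u v =
      Cfsg.Agent.Lib.Helper99.splitForm b c (u ∘ eB b c d h) (v ∘ eB b c d h) := by
  subst h
  unfold Cfsg.Agent.Lib.Helper99.splitForm
  rw [sf_eq, sf_eq, sf_eq, ← (finSumFinEquiv (m := b) (n := c)).sum_comp, Fintype.sum_sum_type]
  congr 1

end Block

section Derange

variable {F : Type u} [Field F] [Fintype F]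

/-- an element of order `r` of `Sp_{2d}(q)` fixing no pair of complementary Lagrangians,
when `ord_r(q) = 2b` with `b ≤ d`. -/
theorem derange_lagr {p q : ℕ} [Fact p.Prime] [CharP F p] (hq : Fintype.card F = q) (d : ℕ)
    (r : ℕ) [Fact r.Prime] (hr2 : r ≠ 2) (hrp : r ≠ p) (b : ℕ) (hb1 : 1 ≤ b) (hbd : b ≤ d)
    (hb : 2 * b = orderOf (q : ZMod r)) :
    ∃ x : Matrix.symplecticGroup (Fin d) F,
      (x : Matrix (Fin d ⊕ Fin d) (Fin d ⊕ Fin d) F) ^ r = 1 ∧
      ¬ (∃ U W : Submodule F (Fin d ⊕ Fin d → F), IsCompl U W ∧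
        (∀ u ∈ U, ∀ v ∈ U, Cfsg.sympForm d F u v = 0) ∧
        (∀ u ∈ W, ∀ v ∈ W, Cfsg.sympForm d F u v = 0) ∧
        ((U.map (Matrix.toLin' (x : Matrix (Fin d ⊕ Fin d) (Fin d ⊕ Fin d) F)) = U ∧
          W.map (Matrix.toLin' (x : Matrix (Fin d ⊕ Fin d) (Fin d ⊕ Fin d) F)) = W) ∨
         (U.map (Matrix.toLin' (x : Matrix (Fin d ⊕ Fin d) (Fin d ⊕ Fin d) F)) = W ∧
          W.map (Matrix.toLin' (x : Matrix (Fin d ⊕ Fin d) (Fin d ⊕ Fin d) F)) = U))) := by
  classical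
  have hr : r.Prime := Fact.out
  have hq1 : 1 < q := by
    rw [← hq]
    exact Fintype.one_lt_card
  -- an element of order r in Sp_{2b}
  have hdvd : r ∣ q ^ (2 * b) - 1 :=
    (Cfsg.Agent.Lib.Helper40.Elusive.dvd_pow_sub_one_iff q r hq1.le (2 * b)).2 (by rw [hb])
  have hcard := Cfsg.Agent.Lib.Helper40.card_symplecticGroup (F := F) b
  rw [hq] at hcard
  have hdvd2 : r ∣ Nat.card (Matrix.symplecticGroup (Fin b) F) := by
    rw [hcard]
    apply Dvd.dvd.mul_left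
    have h1 : b - 1 ∈ Finset.range b := Finset.mem_range.2 (by omega)
    have h2 := Finset.dvd_prod_of_mem (fun i => q ^ (2 * (i + 1)) - 1) h1
    have h3 : b - 1 + 1 = b := by omega
    simp only [h3] at h2
    exact hdvd.trans h2
  obtain ⟨A₀, hA₀⟩ := exists_prime_orderOf_dvd_card' r hdvd2
  obtain ⟨A, hAdef⟩ : ∃ A : Matrix (Fin b ⊕ Fin b) (Fin b ⊕ Fin b) F, A = A₀.1 := ⟨_, rfl⟩
  have hAmem : A ∈ Matrix.symplecticGroup (Fin b) F := by
    rw [hAdef]
    exact A₀.2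
  have hAr : A ^ r = 1 := by
    have h1 := pow_orderOf_eq_one A₀
    rw [hA₀] at h1
    have h2 := congrArg (fun M : Matrix.symplecticGroup (Fin b) F =>
      (M : Matrix (Fin b ⊕ Fin b) (Fin b ⊕ Fin b) F)) h1
    simp only [SubmonoidClass.coe_pow, Submonoid.coe_one] at h2
    rw [hAdef]
    exact h2
  have hA1 : A ≠ 1 := by
    intro h
    have h1 : A₀ = 1 := Subtype.ext (by rw [← hAdef, h]; rfl)
    rw [h1, orderOf_one] at hA₀
    exact hr.one_lt.ne hA₀
  -- the block element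
  obtain ⟨c, hc⟩ : ∃ c, b + c = d := ⟨d - b, by omega⟩
  obtain ⟨e, he⟩ : ∃ e : (Fin b ⊕ Fin b) ⊕ (Fin c ⊕ Fin c) ≃ Fin d ⊕ Fin d, e = eB b c d hc :=
    ⟨_, rfl⟩
  have hform : ∀ u v : Fin d ⊕ Fin d → F, sympForm d F u v =
      Cfsg.Agent.Lib.Helper99.splitForm b c (u ∘ e) (v ∘ e) := by
    intro u v
    rw [he]
    exact form_eB b c d hc u v
  obtain ⟨X, hX⟩ : ∃ X : Matrix (Fin d ⊕ Fin d) (Fin d ⊕ Fin d) F,
      X = Matrix.reindexAlgEquiv F F e (Matrix.fromBlocks A 0 0 1) := ⟨_, rfl⟩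
  have hXsub : X = (Matrix.fromBlocks A 0 0 1).submatrix e.symm e.symm := by
    rw [hX]
    rfl
  have hXmul : ∀ v : Fin d ⊕ Fin d → F,
      (X *ᵥ v) ∘ e = Matrix.fromBlocks A 0 0 1 *ᵥ (v ∘ e) := by
    intro v
    rw [hXsub, Matrix.submatrix_mulVec_equiv]
    funext s
    simp
  have hXmem : X ∈ Matrix.symplecticGroup (Fin d) F := by
    apply Cfsg.Agent.Lib.Helper13.mem_symplecticGroup_of_sympForm d
    intro u v
    rw [hform, hform, hXmul, hXmul]
    exact (Cfsg.Agent.Lib.Helper99.split_of_blocks b c hAmem (one_mem _)).1 _ _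
  have hpow : ∀ k : ℕ, (Matrix.fromBlocks A 0 0
      (1 : Matrix (Fin c ⊕ Fin c) (Fin c ⊕ Fin c) F)) ^ k = Matrix.fromBlocks (A ^ k) 0 0 1 := by
    intro k
    induction k with
    | zero => rw [pow_zero, pow_zero, Matrix.fromBlocks_one]
    | succ k ih =>
      rw [pow_succ, ih, Matrix.fromBlocks_multiply]
      simp [pow_succ]
  have hXr : X ^ r = 1 := by
    rw [hX, ← map_pow, hpow, hAr, Matrix.fromBlocks_one, map_one]
  obtain ⟨ext₁, hext₁⟩ : ∃ ext₁ : (Fin b ⊕ Fin b → F) → (Fin d ⊕ Fin d → F),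
      ∀ a, ext₁ a = (Sum.elim a (0 : Fin c ⊕ Fin c → F)) ∘ e.symm := ⟨_, fun _ => rfl⟩
  obtain ⟨ext₂, hext₂⟩ : ∃ ext₂ : (Fin c ⊕ Fin c → F) → (Fin d ⊕ Fin d → F),
      ∀ a, ext₂ a = (Sum.elim (0 : Fin b ⊕ Fin b → F) a) ∘ e.symm := ⟨_, fun _ => rfl⟩
  have hext₁_l : ∀ a j, ext₁ a (e (Sum.inl j)) = a j := by
    intro a j
    rw [hext₁]
    simp
  have hext₁_e : ∀ a, ext₁ a ∘ e = Sum.elim a (0 : Fin c ⊕ Fin c → F) := by
    intro a
    rw [hext₁]
    funext s
    simp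
  have hext₁_add : ∀ a a', ext₁ (a + a') = ext₁ a + ext₁ a' := by
    intro a a'
    funext k
    obtain ⟨s, rfl⟩ := e.surjective k
    cases s <;> simp [hext₁]
  have hext₁_sub : ∀ a a', ext₁ (a - a') = ext₁ a - ext₁ a' := by
    intro a a'
    funext k
    obtain ⟨s, rfl⟩ := e.surjective k
    cases s <;> simp [hext₁]
  have hext₁_smul : ∀ (t : F) a, ext₁ (t • a) = t • ext₁ a := by
    intro t a
    funext k
    obtain ⟨s, rfl⟩ := e.surjective k
    cases s <;> simp [hext₁]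
  have hext₁_zero : ext₁ 0 = 0 := by
    funext k
    obtain ⟨s, rfl⟩ := e.surjective k
    cases s <;> simp [hext₁]
  have hdecomp : ∀ v : Fin d ⊕ Fin d → F,
      v = ext₁ ((v ∘ e) ∘ Sum.inl) + ext₂ ((v ∘ e) ∘ Sum.inr) := by
    intro v
    funext k
    obtain ⟨s, rfl⟩ := e.surjective k
    cases s <;> simp [hext₁, hext₂]
  have hX1 : ∀ a, X *ᵥ ext₁ a = ext₁ (A *ᵥ a) := by
    intro a
    have h1 := hXmul (ext₁ a)
    rw [hext₁_e, Matrix.fromBlocks_mulVec] at h1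
    funext k
    obtain ⟨s, rfl⟩ := e.surjective k
    have h2 := congrFun h1 s
    rw [Function.comp_apply] at h2
    rw [h2, hext₁]
    cases s <;> simp
  have hX2 : ∀ a, X *ᵥ ext₂ a = ext₂ a := by
    intro a
    have h1 := hXmul (ext₂ a)
    have h3 : ext₂ a ∘ e = Sum.elim (0 : Fin b ⊕ Fin b → F) a := by
      rw [hext₂]
      funext s
      simp
    rw [h3, Matrix.fromBlocks_mulVec] at h1
    funext k
    obtain ⟨s, rfl⟩ := e.surjective k
    have h2 := congrFun h1 s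
    rw [Function.comp_apply] at h2
    rw [h2, hext₂]
    cases s <;> simp
  have hXsubv : ∀ v : Fin d ⊕ Fin d → F,
      X *ᵥ v - v = ext₁ ((A - 1) *ᵥ ((v ∘ e) ∘ Sum.inl)) := by
    intro v
    obtain ⟨v₁, hv₁⟩ : ∃ v₁ : Fin b ⊕ Fin b → F, v₁ = (v ∘ e) ∘ Sum.inl := ⟨_, rfl⟩
    obtain ⟨v₂, hv₂⟩ : ∃ v₂ : Fin c ⊕ Fin c → F, v₂ = (v ∘ e) ∘ Sum.inr := ⟨_, rfl⟩
    have hv : v = ext₁ v₁ + ext₂ v₂ := by
      rw [hv₁, hv₂]
      exact hdecomp v
    rw [← hv₁]
    have h1 : X *ᵥ v = ext₁ (A *ᵥ v₁) + ext₂ v₂ := by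
      conv_lhs => rw [hv]
      rw [Matrix.mulVec_add, hX1, hX2]
    rw [h1, Matrix.sub_mulVec, Matrix.one_mulVec, hext₁_sub]
    conv_lhs => rw [hv]
    abel
  have hform₁ : ∀ a a', sympForm d F (ext₁ a) (ext₁ a') = sympForm b F a a' := by
    intro a a'
    rw [hform, hext₁_e, hext₁_e]
    unfold Cfsg.Agent.Lib.Helper99.splitForm
    rw [Sum.elim_comp_inl, Sum.elim_comp_inl, Sum.elim_comp_inr, sf_zero_left, add_zero]
  -- invariant totally isotropic subspaces are fixed pointwise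
  have keyD : ∀ U : Submodule F (Fin d ⊕ Fin d → F),
      (∀ u ∈ U, ∀ v ∈ U, sympForm d F u v = 0) → (∀ u ∈ U, X *ᵥ u ∈ U) →
      ∀ u ∈ U, X *ᵥ u = u := by
    intro U hU hinv u hu
    by_contra hne
    obtain ⟨a₀, ha₀⟩ : ∃ a₀ : Fin b ⊕ Fin b → F, a₀ = (A - 1) *ᵥ ((u ∘ e) ∘ Sum.inl) :=
      ⟨_, rfl⟩
    have h1 : ext₁ a₀ = X *ᵥ u - u := by rw [ha₀, hXsubv]
    have h2 : a₀ ≠ 0 := by
      intro h
      rw [h, hext₁_zero] at h1
      exact hne (sub_eq_zero.1 h1.symm)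
    have h3 : ext₁ a₀ ∈ U := by
      rw [h1]
      exact U.sub_mem (hinv u hu) hu
    let S : Submodule F (Fin b ⊕ Fin b → F) :=
      { carrier := {a | ext₁ a ∈ U}
        add_mem' := fun {a a'} ha ha' => by
          show ext₁ (a + a') ∈ U
          rw [hext₁_add]
          exact U.add_mem ha ha'
        zero_mem' := by
          show ext₁ 0 ∈ U
          rw [hext₁_zero]
          exact U.zero_mem
        smul_mem' := fun t a ha => by
          show ext₁ (t • a) ∈ U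
          rw [hext₁_smul]
          exact U.smul_mem t ha }
    have hSinv : ∀ a ∈ S, Matrix.toLin' A a ∈ S := by
      intro a ha
      show ext₁ (Matrix.toLin' A a) ∈ U
      rw [Matrix.toLin'_apply, ← hX1]
      exact hinv _ ha
    have h4 := cyc_le (Matrix.toLin' A) a₀ S hSinv h3
    rw [cyc_top hq r hrp b hb hb1 A hAr hA1 a₀ h2] at h4
    have h5 : ∀ a, ext₁ a ∈ U := fun a => h4 Submodule.mem_top
    obtain ⟨a₁, ha₁⟩ : ∃ a₁ : Fin b ⊕ Fin b → F, a₁ = Pi.single (Sum.inl ⟨0, by omega⟩) 1 :=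
      ⟨_, rfl⟩
    have ha₁0 : a₁ ≠ 0 := by
      intro h
      have h6 := congrFun h (Sum.inl ⟨0, by omega⟩)
      rw [ha₁] at h6
      simp at h6
    obtain ⟨a₂, ha₂⟩ := Cfsg.Agent.Lib.Helper13.sympForm_exists_ne_zero a₁ ha₁0
    apply ha₂
    rw [← hform₁]
    exact hU _ (h5 a₁) _ (h5 a₂)
  have hmapmem : ∀ (U : Submodule F (Fin d ⊕ Fin d → F)), U.map (Matrix.toLin' X) = U →
      ∀ u ∈ U, X *ᵥ u ∈ U := by
    intro U hUX u hu
    have h1 : Matrix.toLin' X u ∈ U.map (Matrix.toLin' X) := Submodule.mem_map_of_mem hu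
    rw [hUX, Matrix.toLin'_apply] at h1
    exact h1
  have fixcase : ∀ U W : Submodule F (Fin d ⊕ Fin d → F), IsCompl U W →
      (∀ u ∈ U, ∀ v ∈ U, sympForm d F u v = 0) → (∀ u ∈ W, ∀ v ∈ W, sympForm d F u v = 0) →
      U.map (Matrix.toLin' X) = U → W.map (Matrix.toLin' X) = W → False := by
    intro U W hcUW hU hW hUX hWX
    have h1 := keyD U hU (hmapmem U hUX)
    have h2 := keyD W hW (hmapmem W hWX)
    have h3 : ∀ v : Fin d ⊕ Fin d → F, X *ᵥ v = v := by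
      intro v
      have h4 : v ∈ U ⊔ W := by
        rw [hcUW.sup_eq_top]
        trivial
      obtain ⟨u, hu, w, hw, rfl⟩ := Submodule.mem_sup.1 h4
      rw [Matrix.mulVec_add, h1 u hu, h2 w hw]
    apply hA1
    apply Matrix.toLin'.injective
    apply LinearMap.ext
    intro a
    rw [Matrix.toLin'_apply, Matrix.toLin'_apply, Matrix.one_mulVec]
    have h5 := h3 (ext₁ a)
    rw [hX1] at h5
    funext j
    have h6 := congrFun h5 (e (Sum.inl j))
    rw [hext₁_l, hext₁_l] at h6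
    exact h6
  refine ⟨⟨X, hXmem⟩, hXr, ?_⟩
  rintro ⟨U, W, hcUW, hU, hW, hcase⟩
  rcases hcase with ⟨h1, h2⟩ | ⟨h1, h2⟩
  · exact fixcase U W hcUW hU hW h1 h2
  · have hpowlin : ∀ k : ℕ, (Matrix.toLin' X) ^ k = Matrix.toLin' (X ^ k) := by
      intro k
      induction k with
      | zero => rw [pow_zero, pow_zero, Matrix.toLin'_one]; rfl
      | succ k ih => rw [pow_succ, pow_succ, ih, Matrix.toLin'_mul]; rfl
    have hf2 : U.map (Matrix.toLin' X * Matrix.toLin' X) = U := by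
      rw [Module.End.mul_eq_comp, Submodule.map_comp, h1, h2]
    have hfk : ∀ k : ℕ, U.map ((Matrix.toLin' X * Matrix.toLin' X) ^ k) = U := by
      intro k
      induction k with
      | zero => rw [pow_zero]; exact Submodule.map_id U
      | succ k ih => rw [pow_succ, Module.End.mul_eq_comp, Submodule.map_comp, hf2, ih]
    obtain ⟨k, hk⟩ : ∃ k, r + 1 = 2 * k := by
      rcases hr.eq_two_or_odd' with h | ⟨k, hk⟩
      · exact absurd h hr2
      · exact ⟨k + 1, by omega⟩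
    have h3 : (Matrix.toLin' X * Matrix.toLin' X) ^ k = Matrix.toLin' X := by
      rw [← pow_two, ← pow_mul, ← hk, hpowlin, pow_succ, hXr, one_mul]
    have h4 := hfk k
    rw [h3] at h4
    have h5 : W = U := by rw [← h1, h4]
    exact fixcase U W hcUW hU hW h4 (by rw [h5]; exact h4)

end Derange

end Cfsg.Agent.Lib.Helper40.Lagr
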