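-- PGL_n(q) / PSL_n(q) is cyclic of order gcd(n, q - 1) (helper40).
import Mathlib
import Cfsg.Agent.Lib.Helper13.GUQuot

set_option autoImplicit false

namespace Cfsg.Agent.Lib.Helper40

open Matrix Cfsg.Agent.Lib.Helper13

universe u

variable {F : Type u} [Field F] [Fintype F]

theorem pgl_quotient {q : ℕ} (hF : Fintype.card F = q) (n : ℕ) (hn : 1 ≤ n) :
    ∃ g : Matrix.ProjGenLinGroup (Fin n) F →* Multiplicative (ZMod (Nat.gcd n (q - 1))),
      Function.Surjective g ∧
      g.ker = (Matrix.ProjectiveSpecialLinearGroup.toPGL :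
        Matrix.ProjectiveSpecialLinearGroup (Fin n) F →* Matrix.ProjGenLinGroup (Fin n) F).range := by
  classical
  have : Nonempty (Fin n) := ⟨⟨0, hn⟩⟩
  have hN : Nat.card Fˣ = q - 1 := by
    rw [Nat.card_eq_fintype_card, Fintype.card_units, hF]
  set e := Nat.card Fˣ / Nat.gcd n (Nat.card Fˣ) with he
  have hcard : Nat.card (powMonoidHom e : Fˣ →* Fˣ).range = Nat.gcd n (q - 1) := by
    rw [he, cyclic_card_range, hN]
  obtain ⟨iso⟩ := cyclic_equiv_zmod hcard
  let ψ : GL (Fin n) F →* Multiplicative (ZMod (Nat.gcd n (q - 1))) :=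
    iso.toMonoidHom.comp ((powMonoidHom e : Fˣ →* Fˣ).rangeRestrict.comp
      (Matrix.GeneralLinearGroup.det : GL (Fin n) F →* Fˣ))
  have hψ : ∀ g : GL (Fin n) F, ψ g = 1 ↔ (Matrix.GeneralLinearGroup.det g) ^ e = 1 := by
    intro g
    simp only [ψ]
    rw [MonoidHom.comp_apply, MulEquiv.coe_toMonoidHom,
      MulEquiv.map_eq_one_iff, MonoidHom.comp_apply, Subtype.ext_iff]
    rfl
  have hcenter : Subgroup.center (GL (Fin n) F) ≤ ψ.ker := by
    intro g hg
    rw [Matrix.GeneralLinearGroup.center_eq_range_scalar] at hg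
    obtain ⟨u, rfl⟩ := hg
    rw [MonoidHom.mem_ker, hψ, Matrix.GeneralLinearGroup.det_scalar, Fintype.card_fin]
    exact cyclic_pow_mul_eq_one n u
  let φ : Matrix.ProjGenLinGroup (Fin n) F →* Multiplicative (ZMod (Nat.gcd n (q - 1))) :=
    QuotientGroup.lift (Subgroup.center (GL (Fin n) F)) ψ hcenter
  have hφ : ∀ g : GL (Fin n) F, φ (Matrix.ProjGenLinGroup.mk g) = ψ g := fun g => rfl
  refine ⟨φ, ?_, ?_⟩
  · intro y
    have hsurj : Function.Surjective ψ :=
      iso.surjective.comp ((MonoidHom.rangeRestrict_surjective _).comp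
        Matrix.GeneralLinearGroup.det_surjective)
    obtain ⟨g, hg⟩ := hsurj y
    exact ⟨Matrix.ProjGenLinGroup.mk g, by rw [hφ, hg]⟩
  · ext x
    obtain ⟨g, rfl⟩ := Matrix.ProjGenLinGroup.mk_surjective x
    rw [MonoidHom.mem_ker, hφ, hψ]
    constructor
    · intro h
      obtain ⟨l, hl⟩ := cyclic_exists_pow n (Matrix.GeneralLinearGroup.det g) h
      have hdet : Matrix.GeneralLinearGroup.det (g * (Matrix.GeneralLinearGroup.scalar (Fin n) l)⁻¹) = 1 := by
        rw [map_mul, map_inv, Matrix.GeneralLinearGroup.det_scalar, Fintype.card_fin, hl,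
          mul_inv_cancel]
      have hdet' : ((g * (Matrix.GeneralLinearGroup.scalar (Fin n) l)⁻¹ : GL (Fin n) F) :
          Matrix (Fin n) (Fin n) F).det = 1 := by
        have h2 := congrArg Units.val hdet
        exact h2
      let s : Matrix.SpecialLinearGroup (Fin n) F := ⟨_, hdet'⟩
      refine ⟨(QuotientGroup.mk s : Matrix.ProjectiveSpecialLinearGroup (Fin n) F), ?_⟩
      rw [Matrix.ProjectiveSpecialLinearGroup.toPGL_mk]
      have hs : Matrix.SpecialLinearGroup.toGL s =
          g * (Matrix.GeneralLinearGroup.scalar (Fin n) l)⁻¹ := Units.ext rfl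
      rw [hs, map_mul, map_inv, Matrix.ProjGenLinGroup.mk_scalar, inv_one, mul_one]
    · rintro ⟨y, hy⟩
      obtain ⟨s, rfl⟩ := QuotientGroup.mk_surjective y
      rw [Matrix.ProjectiveSpecialLinearGroup.toPGL_mk, Matrix.ProjGenLinGroup.mk_eq_mk_iff] at hy
      obtain ⟨u, hu⟩ := hy
      rw [← hu, map_mul, Matrix.GeneralLinearGroup.det_scalar, Fintype.card_fin]
      have h1 : Matrix.GeneralLinearGroup.det (Matrix.SpecialLinearGroup.toGL s) = 1 := by
        apply Units.ext
        exact s.2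
      rw [h1, one_mul]
      exact cyclic_pow_mul_eq_one n u

end Cfsg.Agent.Lib.Helper40
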