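-- Elements of prime order of symplectic groups and nondegenerate subspaces (helper40).
import Mathlib
import Cfsg.Prelude.Def_GeometricClasses
import Cfsg.Agent.Lib.Helper40.SpIso
import Cfsg.Agent.Lib.Helper40.Jordan
import Cfsg.Agent.Lib.Helper40.Elusive3
import Cfsg.Agent.Lib.Helper13.SpNondeg
import Cfsg.Agent.Lib.Helper94.SpBasis

set_option autoImplicit false
set_option linter.unusedSectionVars false

namespace Cfsg.Agent.Lib.Helper40.SpNd

open Cfsg Cfsg.Geo Polynomial Module Matrix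

universe u

section basics

variable {F : Type u} [Field F] {d : ℕ}

/-- nondegenerate subspaces of the symplectic space. -/
def Nd (W : Submodule F (Fin d ⊕ Fin d → F)) : Prop :=
  ∀ u ∈ W, u ≠ 0 → ∃ v ∈ W, sympForm d F u v ≠ 0

theorem sf_swap0 {u v : Fin d ⊕ Fin d → F} (h : sympForm d F u v = 0) :
    sympForm d F v u = 0 := by
  rw [Helper13.sympForm_swap, h, neg_zero]

theorem sf_inv (x : Matrix (Fin d ⊕ Fin d) (Fin d ⊕ Fin d) F)
    (hx : x ∈ Matrix.symplecticGroup (Fin d) F) (u v : Fin d ⊕ Fin d → F) :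
    sympForm d F (x *ᵥ u) (x *ᵥ v) = sympForm d F u v :=
  Helper13.sympForm_mulVec_of_mem d hx u v

theorem nd_bot : Nd (⊥ : Submodule F (Fin d ⊕ Fin d → F)) := by
  intro u hu hne
  exact absurd ((Submodule.mem_bot F).1 hu) hne

theorem nd_top : Nd (⊤ : Submodule F (Fin d ⊕ Fin d → F)) := by
  intro u _ hne
  obtain ⟨a, ha⟩ := Helper13.sympForm_exists_ne_zero u hne
  exact ⟨a, Submodule.mem_top, ha⟩

theorem nd_disjoint (W : Submodule F (Fin d ⊕ Fin d → F)) (hW : Nd W) :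
    Disjoint W (SpIso.perp W) := by
  rw [Submodule.disjoint_def]
  intro u hu hu'
  by_contra hne
  obtain ⟨v, hv, hv0⟩ := hW u hu hne
  exact hv0 (sf_swap0 ((SpIso.mem_perp W u).1 hu' v hv))

theorem nd_isCompl (W : Submodule F (Fin d ⊕ Fin d → F)) (hW : Nd W) :
    IsCompl W (SpIso.perp W) := by
  refine IsCompl.of_eq (nd_disjoint W hW).eq_bot ?_
  apply Submodule.eq_top_of_finrank_eq
  have h1 := Submodule.finrank_sup_add_finrank_inf_eq W (SpIso.perp W)
  rw [(nd_disjoint W hW).eq_bot, finrank_bot, add_zero, SpIso.finrank_perp] at h1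
  have h2 : finrank F W ≤ 2 * d := by
    have := Submodule.finrank_le W
    rw [Lagr.finrank_space] at this
    exact this
  rw [h1, Lagr.finrank_space]
  omega

theorem nd_of_disjoint (W : Submodule F (Fin d ⊕ Fin d → F))
    (h : Disjoint W (SpIso.perp W)) : Nd W := by
  intro u hu hne
  by_contra hcon
  push Not at hcon
  have h1 : u ∈ SpIso.perp W := (SpIso.mem_perp W u).2 (fun v hv => sf_swap0 (hcon v hv))
  exact hne ((Submodule.disjoint_def.1 h) u hu h1)

theorem nd_inf_perp (U P : Submodule F (Fin d ⊕ Fin d → F)) (hU : Nd U) (hP : Nd P)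
    (hPU : P ≤ U) : Nd (U ⊓ SpIso.perp P) := by
  intro u hu hne
  obtain ⟨v, hv, hv0⟩ := hU u hu.1 hne
  have hc := nd_isCompl P hP
  have hv' : v ∈ P ⊔ SpIso.perp P := by
    rw [hc.sup_eq_top]
    exact Submodule.mem_top
  obtain ⟨a, ha, b, hb, rfl⟩ := Submodule.mem_sup.1 hv'
  have h1 : sympForm d F u a = 0 := sf_swap0 ((SpIso.mem_perp P u).1 hu.2 a ha)
  refine ⟨b, ⟨?_, hb⟩, ?_⟩
  · have h2 : b = (a + b) - a := by abel
    rw [h2]
    exact U.sub_mem hv (hPU ha)
  · rw [Helper13.sympForm_add_right, h1, zero_add] at hv0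
    exact hv0

theorem finrank_inf_perp (U P : Submodule F (Fin d ⊕ Fin d → F)) (hP : Nd P) (hPU : P ≤ U) :
    finrank F ↥(U ⊓ SpIso.perp P) + finrank F P = finrank F U := by
  have hc := nd_isCompl P hP
  have h1 := Submodule.finrank_sup_add_finrank_inf_eq P (U ⊓ SpIso.perp P)
  have h2 : P ⊓ (U ⊓ SpIso.perp P) = ⊥ := by
    apply le_antisymm _ bot_le
    calc P ⊓ (U ⊓ SpIso.perp P) ≤ P ⊓ SpIso.perp P := inf_le_inf_left _ inf_le_right
      _ = ⊥ := hc.inf_eq_bot
  have h3 : P ⊔ (U ⊓ SpIso.perp P) = U := by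
    rw [inf_comm, ← sup_inf_assoc_of_le _ hPU, hc.sup_eq_top, top_inf_eq]
  rw [h2, h3, finrank_bot, add_zero] at h1
  omega

theorem sup_inf_perp (U P : Submodule F (Fin d ⊕ Fin d → F)) (hP : Nd P) (hPU : P ≤ U) :
    P ⊔ (U ⊓ SpIso.perp P) = U := by
  have hc := nd_isCompl P hP
  rw [inf_comm, ← sup_inf_assoc_of_le _ hPU, hc.sup_eq_top, top_inf_eq]

theorem nd_sup (P W : Submodule F (Fin d ⊕ Fin d → F)) (hP : Nd P) (hW : Nd W)
    (h : W ≤ SpIso.perp P) : Nd (P ⊔ W) := by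
  intro u hu hne
  obtain ⟨a, ha, b, hb, rfl⟩ := Submodule.mem_sup.1 hu
  by_cases ha0 : a = 0
  · subst ha0
    rw [zero_add] at hne ⊢
    obtain ⟨v, hv, hv0⟩ := hW b hb hne
    exact ⟨v, Submodule.mem_sup_right hv, hv0⟩
  · obtain ⟨v, hv, hv0⟩ := hP a ha ha0
    refine ⟨v, Submodule.mem_sup_left hv, ?_⟩
    rw [Helper13.sympForm_add_left, sf_swap0 ((SpIso.mem_perp P b).1 (h hb) v hv), add_zero]
    exact hv0

theorem finrank_nd_sup (P W : Submodule F (Fin d ⊕ Fin d → F)) (hP : Nd P)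
    (h : W ≤ SpIso.perp P) : finrank F ↥(P ⊔ W) = finrank F P + finrank F W := by
  have h1 := Submodule.finrank_sup_add_finrank_inf_eq P W
  have h2 : P ⊓ W = ⊥ := by
    apply le_antisymm _ bot_le
    calc P ⊓ W ≤ P ⊓ SpIso.perp P := inf_le_inf_left _ h
      _ = ⊥ := (nd_isCompl P hP).inf_eq_bot
  rw [h2, finrank_bot, add_zero] at h1
  exact h1

theorem inv_inf_perp (x : Matrix (Fin d ⊕ Fin d) (Fin d ⊕ Fin d) F)
    (hx : x ∈ Matrix.symplecticGroup (Fin d) F) (U P : Submodule F (Fin d ⊕ Fin d → F))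
    (hU : U.map (Matrix.toLin' x) ≤ U) (hP : P.map (Matrix.toLin' x) ≤ P) :
    (U ⊓ SpIso.perp P).map (Matrix.toLin' x) ≤ U ⊓ SpIso.perp P :=
  (Submodule.map_inf_le _).trans (inf_le_inf hU (SpIso.perp_invariant x hx P hP))

theorem inv_sup (f : (Fin d ⊕ Fin d → F) →ₗ[F] (Fin d ⊕ Fin d → F))
    (P W : Submodule F (Fin d ⊕ Fin d → F)) (hP : P.map f ≤ P) (hW : W.map f ≤ W) :
    (P ⊔ W).map f ≤ P ⊔ W := by
  rw [Submodule.map_sup]
  exact sup_le_sup hP hW

theorem nd_even (W : Submodule F (Fin d ⊕ Fin d → F)) (hW : Nd W) : Even (finrank F W) := by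
  have hnd : IsNondegenerateOn (sympForm d F) W := by
    intro w hw hw0
    obtain ⟨v, hv, hne⟩ := hW w hw hw0
    refine ⟨⟨v, hv, ?_⟩, ⟨v, hv, hne⟩⟩
    rw [Helper13.sympForm_swap]
    exact neg_ne_zero.2 hne
  obtain ⟨k, hk⟩ := Helper94.exists_even_finrank _ hnd
  exact ⟨k, by rw [hk]; ring⟩

theorem gram_nd {ι : Type*} [Fintype ι] (w : ι → (Fin d ⊕ Fin d → F))
    (hG : ∀ α : ι → F, (∀ j, ∑ i, α i * sympForm d F (w i) (w j) = 0) → α = 0) :
    LinearIndependent F w ∧ Nd (Submodule.span F (Set.range w)) := by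
  have key : ∀ (α : ι → F) (v : Fin d ⊕ Fin d → F),
      sympForm d F (∑ i, α i • w i) v = ∑ i, α i * sympForm d F (w i) v := by
    intro α v
    rw [Helper94.sf_sum_left]
    exact Finset.sum_congr rfl (fun i _ => Helper13.sympForm_smul_left _ _ _ _)
  constructor
  · rw [Fintype.linearIndependent_iff]
    intro α hα
    have h0 := hG α (fun j => by rw [← key, hα, Helper13.sympForm_zero_left])
    intro i
    rw [h0]
    rfl
  · intro u hu hne
    obtain ⟨α, rfl⟩ := (Submodule.mem_span_range_iff_exists_fun F).1 hu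
    by_contra hcon
    push Not at hcon
    apply hne
    have h0 := hG α (fun j => by
      rw [← key]
      exact hcon _ (Submodule.subset_span ⟨j, rfl⟩))
    rw [h0]
    simp

theorem nd_pair (u v : Fin d ⊕ Fin d → F) (h : sympForm d F u v ≠ 0) :
    Nd (Submodule.span F {u, v}) ∧ finrank F (Submodule.span F {u, v}) = 2 := by
  have hG : ∀ α : Fin 2 → F,
      (∀ j, ∑ i, α i * sympForm d F (![u, v] i) (![u, v] j) = 0) → α = 0 := by
    intro α hα
    have h0 := hα 0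
    have h1 := hα 1
    simp [Fin.sum_univ_two, Helper13.sympForm_self] at h0 h1
    have hvu : sympForm d F v u ≠ 0 := by
      rw [Helper13.sympForm_swap]
      exact neg_ne_zero.2 h
    funext i
    fin_cases i
    · exact h1.resolve_right h
    · exact h0.resolve_right hvu
  obtain ⟨hli, hnd⟩ := gram_nd ![u, v] hG
  have hr : Set.range ![u, v] = {u, v} := by
    simp [Matrix.range_cons, Matrix.range_empty, Set.pair_comm]
  rw [hr] at hnd
  refine ⟨hnd, ?_⟩
  rw [← hr, finrank_span_eq_card hli, Fintype.card_fin]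

theorem mem_of_inv (x : Matrix (Fin d ⊕ Fin d) (Fin d ⊕ Fin d) F)
    (U : Submodule F (Fin d ⊕ Fin d → F)) (hUi : U.map (Matrix.toLin' x) ≤ U)
    (v : Fin d ⊕ Fin d → F) (hv : v ∈ U) : x *ᵥ v ∈ U := by
  have h := hUi (Submodule.mem_map_of_mem hv)
  rwa [Matrix.toLin'_apply] at h

end basics

section inv2

variable {F : Type u} [Field F] {d : ℕ}

theorem plane_eigen (x : Matrix (Fin d ⊕ Fin d) (Fin d ⊕ Fin d) F)
    (hx : x ∈ Matrix.symplecticGroup (Fin d) F) (hxx : x * x = 1)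
    (U : Submodule F (Fin d ⊕ Fin d → F)) (hU : Nd U) (hUi : U.map (Matrix.toLin' x) ≤ U)
    (h2 : (2 : F) ≠ 0) (s : F) (hs : s * s = 1) (e : Fin d ⊕ Fin d → F) (he : e ∈ U)
    (he0 : e ≠ 0) (hxe : x *ᵥ e = s • e) :
    ∃ P : Submodule F (Fin d ⊕ Fin d → F), P ≤ U ∧ Nd P ∧ P.map (Matrix.toLin' x) ≤ P ∧
      finrank F P = 2 := by
  obtain ⟨w, hw, hw0⟩ := hU e he he0
  have hxw : x *ᵥ w ∈ U := mem_of_inv x U hUi w hw
  obtain ⟨w', hw'⟩ : ∃ w' : Fin d ⊕ Fin d → F, w' = w + s • (x *ᵥ w) := ⟨_, rfl⟩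
  have hw'U : w' ∈ U := by
    rw [hw']
    exact U.add_mem hw (U.smul_mem s hxw)
  have hxw' : x *ᵥ w' = s • w' := by
    rw [hw', Matrix.mulVec_add, Matrix.mulVec_smul, Matrix.mulVec_mulVec, hxx, Matrix.one_mulVec,
      smul_add, smul_smul, hs, one_smul, add_comm]
  have hform : sympForm d F e w' = 2 * sympForm d F e w := by
    have h1 : sympForm d F e (x *ᵥ w) = s * sympForm d F e w := by
      have h3 := sf_inv x hx e (x *ᵥ w)
      rw [Matrix.mulVec_mulVec, hxx, Matrix.one_mulVec, hxe, Helper13.sympForm_smul_left] at h3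
      exact h3.symm
    rw [hw', Helper13.sympForm_add_right, Helper13.sympForm_smul_right, h1, ← mul_assoc, hs]
    ring
  have hne : sympForm d F e w' ≠ 0 := by
    rw [hform]
    exact mul_ne_zero h2 hw0
  obtain ⟨hnd, hfr⟩ := nd_pair e w' hne
  refine ⟨Submodule.span F {e, w'}, ?_, hnd, ?_, hfr⟩
  · apply Submodule.span_le.2
    intro v hv
    rcases hv with rfl | hv
    · exact he
    · rw [Set.mem_singleton_iff.1 hv]
      exact hw'U
  · rw [Submodule.map_span_le]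
    intro v hv
    rcases hv with rfl | hv
    · rw [Matrix.toLin'_apply, hxe]
      exact Submodule.smul_mem _ _ (Submodule.subset_span (Set.mem_insert _ _))
    · rw [Set.mem_singleton_iff.1 hv, Matrix.toLin'_apply, hxw']
      exact Submodule.smul_mem _ _ (Submodule.subset_span (Set.mem_insert_of_mem _ rfl))

theorem plane_inv_pos (x : Matrix (Fin d ⊕ Fin d) (Fin d ⊕ Fin d) F)
    (hx : x ∈ Matrix.symplecticGroup (Fin d) F) (hxx : x * x = 1)
    (U : Submodule F (Fin d ⊕ Fin d → F)) (hU : Nd U) (hUi : U.map (Matrix.toLin' x) ≤ U)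
    (h2 : (2 : F) ≠ 0) (hne : U ≠ ⊥) :
    ∃ P : Submodule F (Fin d ⊕ Fin d → F), P ≤ U ∧ Nd P ∧ P.map (Matrix.toLin' x) ≤ P ∧
      finrank F P = 2 := by
  obtain ⟨u, hu, hu0⟩ := Submodule.exists_mem_ne_zero_of_ne_bot hne
  have hxu : x *ᵥ u ∈ U := mem_of_inv x U hUi u hu
  by_cases h : u + x *ᵥ u = 0
  · refine plane_eigen x hx hxx U hU hUi h2 (-1) (by ring) u hu hu0 ?_
    rw [neg_one_smul]
    exact eq_neg_of_add_eq_zero_right h
  · refine plane_eigen x hx hxx U hU hUi h2 1 (by ring) (u + x *ᵥ u) (U.add_mem hu hxu) h ?_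
    rw [Matrix.mulVec_add, Matrix.mulVec_mulVec, hxx, Matrix.one_mulVec, one_smul, add_comm]

theorem plane_inv_neg (x : Matrix (Fin d ⊕ Fin d) (Fin d ⊕ Fin d) F)
    (hx : x ∈ Matrix.symplecticGroup (Fin d) F) (hxx : x * x = -1)
    (U : Submodule F (Fin d ⊕ Fin d → F)) (hU : Nd U) (hUi : U.map (Matrix.toLin' x) ≤ U)
    (h2 : (2 : F) ≠ 0) (hne : U ≠ ⊥) :
    ∃ P : Submodule F (Fin d ⊕ Fin d → F), P ≤ U ∧ Nd P ∧ P.map (Matrix.toLin' x) ≤ P ∧
      finrank F P = 2 := by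
  have hmem : ∀ v ∈ U, x *ᵥ v ∈ U := fun v hv => mem_of_inv x U hUi v hv
  have hxxv : ∀ v : Fin d ⊕ Fin d → F, x *ᵥ (x *ᵥ v) = -v := by
    intro v
    rw [Matrix.mulVec_mulVec, hxx, Matrix.neg_mulVec, Matrix.one_mulVec]
  have hex : ∃ v ∈ U, sympForm d F v (x *ᵥ v) ≠ 0 := by
    by_contra hcon
    push Not at hcon
    obtain ⟨u, hu, hu0⟩ := Submodule.exists_mem_ne_zero_of_ne_bot hne
    obtain ⟨w, hw, hw0⟩ := hU u hu hu0
    obtain ⟨v, hv⟩ : ∃ v : Fin d ⊕ Fin d → F, v = -(x *ᵥ w) := ⟨_, rfl⟩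
    have hvU : v ∈ U := by
      rw [hv]
      exact U.neg_mem (hmem w hw)
    have hxv : x *ᵥ v = w := by
      rw [hv, Matrix.mulVec_neg, hxxv, neg_neg]
    have h1 := hcon (u + v) (U.add_mem hu hvU)
    rw [Matrix.mulVec_add, Helper13.sympForm_add_left, Helper13.sympForm_add_right,
      Helper13.sympForm_add_right, hcon u hu, hcon v hvU, zero_add, add_zero] at h1
    have h5 : sympForm d F w (-u) = sympForm d F u w := by
      rw [← neg_one_smul F u, Helper13.sympForm_smul_right, Helper13.sympForm_swap d w u]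
      ring
    have h3 : sympForm d F v (x *ᵥ u) = sympForm d F u w := by
      have h4 := sf_inv x hx v (x *ᵥ u)
      rw [hxxv, hxv] at h4
      rw [← h4, h5]
    rw [h3, hxv] at h1
    have h6 : 2 * sympForm d F u w = 0 := by
      rw [two_mul]
      exact h1
    rcases mul_eq_zero.1 h6 with h7 | h7
    · exact h2 h7
    · exact hw0 h7
  obtain ⟨v, hv, hv0⟩ := hex
  obtain ⟨hnd, hfr⟩ := nd_pair v (x *ᵥ v) hv0
  refine ⟨Submodule.span F {v, x *ᵥ v}, ?_, hnd, ?_, hfr⟩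
  · apply Submodule.span_le.2
    intro z hz
    rcases hz with rfl | hz
    · exact hv
    · rw [Set.mem_singleton_iff.1 hz]
      exact hmem v hv
  · rw [Submodule.map_span_le]
    intro z hz
    rcases hz with rfl | hz
    · rw [Matrix.toLin'_apply]
      exact Submodule.subset_span (Set.mem_insert_of_mem _ rfl)
    · rw [Set.mem_singleton_iff.1 hz, Matrix.toLin'_apply, hxxv]
      exact Submodule.neg_mem _ (Submodule.subset_span (Set.mem_insert _ _))

/-- Involutions in odd characteristic fix nondegenerate subspaces of every even dimension. -/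
theorem exists_nd_inv2 (x : Matrix (Fin d ⊕ Fin d) (Fin d ⊕ Fin d) F)
    (hx : x ∈ Matrix.symplecticGroup (Fin d) F) (h2 : (2 : F) ≠ 0)
    (hxx : x * x = 1 ∨ x * x = -1) :
    ∀ t : ℕ, ∀ U : Submodule F (Fin d ⊕ Fin d → F), Nd U → U.map (Matrix.toLin' x) ≤ U →
      2 * t ≤ finrank F U →
      ∃ W : Submodule F (Fin d ⊕ Fin d → F), W ≤ U ∧ Nd W ∧ W.map (Matrix.toLin' x) ≤ W ∧
        finrank F W = 2 * t := by
  intro t
  induction t with
  | zero =>
    intro U _ _ _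
    refine ⟨⊥, bot_le, nd_bot, ?_, ?_⟩
    · rw [Submodule.map_bot]
    · rw [finrank_bot]
  | succ t ih =>
    intro U hU hUi hfr
    have hne : U ≠ ⊥ := by
      rintro rfl
      rw [finrank_bot] at hfr
      omega
    obtain ⟨P, hPU, hP, hPi, hP2⟩ : ∃ P : Submodule F (Fin d ⊕ Fin d → F), P ≤ U ∧ Nd P ∧
        P.map (Matrix.toLin' x) ≤ P ∧ finrank F P = 2 := by
      rcases hxx with h | h
      · exact plane_inv_pos x hx h U hU hUi h2 hne
      · exact plane_inv_neg x hx h U hU hUi h2 hne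
    have h3 := finrank_inf_perp U P hP hPU
    obtain ⟨W', hW'U, hW', hW'i, hW'fr⟩ := ih (U ⊓ SpIso.perp P) (nd_inf_perp U P hU hP hPU)
      (inv_inf_perp x hx U P hUi hPi) (by omega)
    refine ⟨P ⊔ W', sup_le hPU (hW'U.trans inf_le_left),
      nd_sup P W' hP hW' (hW'U.trans inf_le_right), inv_sup _ P W' hPi hW'i, ?_⟩
    rw [finrank_nd_sup P W' hP (hW'U.trans inf_le_right), hP2, hW'fr]
    ring

end inv2

section char2

variable {F : Type u} [Field F] {d : ℕ}

theorem piece_char2 (x : Matrix (Fin d ⊕ Fin d) (Fin d ⊕ Fin d) F)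
    (hx : x ∈ Matrix.symplecticGroup (Fin d) F) (h2 : (2 : F) = 0) (hxx : x * x = 1)
    (U : Submodule F (Fin d ⊕ Fin d → F)) (hU : Nd U) (hUi : U.map (Matrix.toLin' x) ≤ U)
    (hne : U ≠ ⊥) :
    ∃ P : Submodule F (Fin d ⊕ Fin d → F), P ≤ U ∧ Nd P ∧ P.map (Matrix.toLin' x) ≤ P ∧
      (finrank F P = 2 ∨ finrank F P = 4) := by
  have hmem : ∀ v ∈ U, x *ᵥ v ∈ U := fun v hv => mem_of_inv x U hUi v hv
  have hxxv : ∀ v : Fin d ⊕ Fin d → F, x *ᵥ (x *ᵥ v) = v := by
    intro v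
    rw [Matrix.mulVec_mulVec, hxx, Matrix.one_mulVec]
  by_cases hA : ∃ v ∈ U, sympForm d F v (x *ᵥ v) ≠ 0
  · obtain ⟨v, hv, hv0⟩ := hA
    obtain ⟨hnd, hfr⟩ := nd_pair v (x *ᵥ v) hv0
    refine ⟨Submodule.span F {v, x *ᵥ v}, ?_, hnd, ?_, Or.inl hfr⟩
    · apply Submodule.span_le.2
      intro z hz
      rcases hz with rfl | hz
      · exact hv
      · rw [Set.mem_singleton_iff.1 hz]
        exact hmem v hv
    · rw [Submodule.map_span_le]
      intro z hz
      rcases hz with rfl | hz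
      · rw [Matrix.toLin'_apply]
        exact Submodule.subset_span (Set.mem_insert_of_mem _ rfl)
      · rw [Set.mem_singleton_iff.1 hz, Matrix.toLin'_apply, hxxv]
        exact Submodule.subset_span (Set.mem_insert _ _)
  · push Not at hA
    by_cases hB : ∀ v ∈ U, x *ᵥ v = v
    · obtain ⟨u, hu, hu0⟩ := Submodule.exists_mem_ne_zero_of_ne_bot hne
      obtain ⟨w, hw, hw0⟩ := hU u hu hu0
      obtain ⟨hnd, hfr⟩ := nd_pair u w hw0
      refine ⟨Submodule.span F {u, w}, ?_, hnd, ?_, Or.inl hfr⟩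
      · apply Submodule.span_le.2
        intro z hz
        rcases hz with rfl | hz
        · exact hu
        · rw [Set.mem_singleton_iff.1 hz]
          exact hw
      · rw [Submodule.map_span_le]
        intro z hz
        rcases hz with rfl | hz
        · rw [Matrix.toLin'_apply, hB z hu]
          exact Submodule.subset_span (Set.mem_insert _ _)
        · rw [Set.mem_singleton_iff.1 hz, Matrix.toLin'_apply, hB w hw]
          exact Submodule.subset_span (Set.mem_insert_of_mem _ rfl)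
    · push Not at hB
      obtain ⟨v, hv, hxv⟩ := hB
      have he0 : x *ᵥ v + v ≠ 0 := by
        intro h
        apply hxv
        have h3 : v + v = 0 := by
          rw [← two_smul F v, h2, zero_smul]
        have h4 : x *ᵥ v = -v := eq_neg_of_add_eq_zero_left h
        rw [h4]
        exact neg_eq_of_add_eq_zero_left h3
      obtain ⟨w, hw, hw0⟩ := hU (x *ᵥ v + v) (U.add_mem (hmem v hv) hv) he0
      obtain ⟨a, ha⟩ : ∃ a : F, a = sympForm d F v w := ⟨_, rfl⟩
      obtain ⟨b, hb⟩ : ∃ b : F, b = sympForm d F (x *ᵥ v) w := ⟨_, rfl⟩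
      have hab : a + b ≠ 0 := by
        rw [Helper13.sympForm_add_left, ← ha, ← hb, add_comm] at hw0
        exact hw0
      have g1 : sympForm d F v (x *ᵥ w) = b := by
        have h3 := sf_inv x hx v (x *ᵥ w)
        rw [hxxv] at h3
        rw [hb, h3]
      have g2 : sympForm d F (x *ᵥ v) (x *ᵥ w) = a := by
        rw [sf_inv x hx, ha]
      have g3 : sympForm d F w v = -a := by
        rw [Helper13.sympForm_swap, ← ha]
      have g4 : sympForm d F w (x *ᵥ v) = -b := by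
        rw [Helper13.sympForm_swap, ← hb]
      have g5 : sympForm d F (x *ᵥ w) v = -b := by
        rw [Helper13.sympForm_swap, g1]
      have g6 : sympForm d F (x *ᵥ w) (x *ᵥ v) = -a := by
        rw [Helper13.sympForm_swap, g2]
      have g7 : sympForm d F (x *ᵥ v) v = 0 := sf_swap0 (hA v hv)
      have g8 : sympForm d F (x *ᵥ w) w = 0 := sf_swap0 (hA w hw)
      have g9 := hA v hv
      have g10 := hA w hw
      have hG : ∀ α : Fin 4 → F, (∀ j, ∑ i, α i * sympForm d F (![v, x *ᵥ v, w, x *ᵥ w] i)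
          (![v, x *ᵥ v, w, x *ᵥ w] j) = 0) → α = 0 := by
        intro α hα
        have e0 := hα 0
        have e1 := hα 1
        have e2 := hα 2
        have e3 := hα 3
        simp [Fin.sum_univ_four, Helper13.sympForm_self, g1, g2, g3, g4, g5, g6, g7, g8, g9,
          g10, ← ha, ← hb] at e0 e1 e2 e3
        have h01 : (α 0 + α 1) * (a + b) = 0 := by linear_combination e2 + e3
        have h01' : α 0 + α 1 = 0 := (mul_eq_zero.1 h01).resolve_right hab
        have h0 : α 0 * (a + b) = 0 := by linear_combination e2 + b * h01' - α 1 * b * h2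
        have h0' : α 0 = 0 := (mul_eq_zero.1 h0).resolve_right hab
        have h1' : α 1 = 0 := by
          rw [h0', zero_add] at h01'
          exact h01'
        have h23 : (α 2 + α 3) * (a + b) = 0 := by linear_combination -e0 - e1
        have h23' : α 2 + α 3 = 0 := (mul_eq_zero.1 h23).resolve_right hab
        have h2a : α 2 * (a + b) = 0 := by linear_combination -e0 + b * h23' - α 3 * b * h2
        have h2' : α 2 = 0 := (mul_eq_zero.1 h2a).resolve_right hab
        have h3' : α 3 = 0 := by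
          rw [h2', zero_add] at h23'
          exact h23'
        funext i
        fin_cases i
        · exact h0'
        · exact h1'
        · exact h2'
        · exact h3'
      obtain ⟨hli, hnd⟩ := gram_nd ![v, x *ᵥ v, w, x *ᵥ w] hG
      have hcU : ∀ i, ![v, x *ᵥ v, w, x *ᵥ w] i ∈ U := by
        intro i
        fin_cases i
        · exact hv
        · exact hmem v hv
        · exact hw
        · exact hmem w hw
      have hcx : ∀ i, ∃ j, x *ᵥ (![v, x *ᵥ v, w, x *ᵥ w] i) = ![v, x *ᵥ v, w, x *ᵥ w] j := by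
        intro i
        fin_cases i
        · exact ⟨1, rfl⟩
        · exact ⟨0, hxxv v⟩
        · exact ⟨3, rfl⟩
        · exact ⟨2, hxxv w⟩
      refine ⟨Submodule.span F (Set.range ![v, x *ᵥ v, w, x *ᵥ w]), ?_, hnd, ?_, Or.inr ?_⟩
      · apply Submodule.span_le.2
        rintro _ ⟨i, rfl⟩
        exact hcU i
      · rw [Submodule.map_span_le]
        rintro _ ⟨i, rfl⟩
        obtain ⟨j, hj⟩ := hcx i
        rw [Matrix.toLin'_apply, hj]
        exact Submodule.subset_span ⟨j, rfl⟩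
      · rw [finrank_span_eq_card hli, Fintype.card_fin]

/-- Involutions in characteristic two: invariant nondegenerate subspaces. -/
theorem exists_nd_char2 (x : Matrix (Fin d ⊕ Fin d) (Fin d ⊕ Fin d) F)
    (hx : x ∈ Matrix.symplecticGroup (Fin d) F) (h2 : (2 : F) = 0) (hxx : x * x = 1) :
    ∀ n : ℕ, ∀ U : Submodule F (Fin d ⊕ Fin d → F), finrank F U = n → Nd U →
      U.map (Matrix.toLin' x) ≤ U → ∀ t : ℕ, 2 * t ≤ n → (t % 2 = 0 ∨ n % 4 = 2) →
      ∃ W : Submodule F (Fin d ⊕ Fin d → F), W ≤ U ∧ Nd W ∧ W.map (Matrix.toLin' x) ≤ W ∧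
        finrank F W = 2 * t := by
  intro n
  induction n using Nat.strong_induction_on with
  | _ n ih =>
    intro U hUn hU hUi t ht hcond
    by_cases ht0 : t = 0
    · subst ht0
      refine ⟨⊥, bot_le, nd_bot, ?_, ?_⟩
      · rw [Submodule.map_bot]
      · rw [finrank_bot]
    by_cases htn : 2 * t = n
    · exact ⟨U, le_rfl, hU, hUi, by rw [hUn, htn]⟩
    obtain ⟨e, he⟩ := nd_even U hU
    rw [hUn] at he
    have hne : U ≠ ⊥ := by
      rintro rfl
      rw [finrank_bot] at hUn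
      omega
    obtain ⟨P, hPU, hP, hPi, hPfr⟩ := piece_char2 x hx h2 hxx U hU hUi hne
    have h3 := finrank_inf_perp U P hP hPU
    rw [hUn] at h3
    have hU' := nd_inf_perp U P hU hP hPU
    have hU'i := inv_inf_perp x hx U P hUi hPi
    rcases hPfr with hP2 | hP4
    · by_cases hte : t % 2 = 0
      · obtain ⟨W, hWU, hW, hWi, hWfr⟩ := ih (n - 2) (by omega) (U ⊓ SpIso.perp P) (by omega)
          hU' hU'i t (by omega) (Or.inl hte)
        exact ⟨W, hWU.trans inf_le_left, hW, hWi, hWfr⟩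
      · obtain ⟨W', hW'U, hW', hW'i, hW'fr⟩ := ih (n - 2) (by omega) (U ⊓ SpIso.perp P)
          (by omega) hU' hU'i (t - 1) (by omega) (Or.inl (by omega))
        refine ⟨P ⊔ W', sup_le hPU (hW'U.trans inf_le_left),
          nd_sup P W' hP hW' (hW'U.trans inf_le_right), inv_sup _ P W' hPi hW'i, ?_⟩
        rw [finrank_nd_sup P W' hP (hW'U.trans inf_le_right), hP2, hW'fr]
        omega
    · by_cases hte : t % 2 = 0
      · obtain ⟨W', hW'U, hW', hW'i, hW'fr⟩ := ih (n - 4) (by omega) (U ⊓ SpIso.perp P)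
          (by omega) hU' hU'i (t - 2) (by omega) (Or.inl (by omega))
        refine ⟨P ⊔ W', sup_le hPU (hW'U.trans inf_le_left),
          nd_sup P W' hP hW' (hW'U.trans inf_le_right), inv_sup _ P W' hPi hW'i, ?_⟩
        rw [finrank_nd_sup P W' hP (hW'U.trans inf_le_right), hP4, hW'fr]
        omega
      · obtain ⟨W, hWU, hW, hWi, hWfr⟩ := ih (n - 4) (by omega) (U ⊓ SpIso.perp P) (by omega)
          hU' hU'i t (by omega) (Or.inr (by omega))
        exact ⟨W, hWU.trans inf_le_left, hW, hWi, hWfr⟩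

end char2

section derange2

variable {F : Type u} [Field F] {d : ℕ}

theorem neg_eq_self_of_two (h2 : (2 : F) = 0) {M : Type*} [AddCommGroup M] [Module F M]
    (v : M) : -v = v := by
  have h3 : v + v = 0 := by rw [← two_smul F v, h2, zero_smul]
  exact neg_eq_of_add_eq_zero_left h3

theorem exists_derange2 (h2 : (2 : F) = 0) (e : ℕ) (he : e + e = d) (hd : 0 < d) :
    ∃ x : Matrix (Fin d ⊕ Fin d) (Fin d ⊕ Fin d) F, x ∈ Matrix.symplecticGroup (Fin d) F ∧
      x * x = 1 ∧ (∀ z : F, x ≠ z • (1 : Matrix (Fin d ⊕ Fin d) (Fin d ⊕ Fin d) F)) ∧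
      ¬ ∃ P : Submodule F (Fin d ⊕ Fin d → F), Nd P ∧ P.map (Matrix.toLin' x) ≤ P ∧
        finrank F P = 2 := by
  classical
  obtain ⟨σ, -⟩ : ∃ σ : Fin d ≃ Fin e ⊕ Fin e, True :=
    ⟨(finSumFinEquiv.trans (finCongr he)).symm, trivial⟩
  obtain ⟨B, hB⟩ : ∃ B : Matrix (Fin d) (Fin d) F, B = (Matrix.J (Fin e) F).submatrix σ σ :=
    ⟨_, rfl⟩
  have hBT : Bᵀ = B := by
    rw [hB, Matrix.transpose_submatrix, Matrix.J_transpose,
      neg_eq_self_of_two h2 (Matrix.J (Fin e) F)]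
  have hBB : B * B = 1 := by
    rw [hB, Matrix.submatrix_mul_equiv, Matrix.J_squared,
      neg_eq_self_of_two h2 (1 : Matrix (Fin e ⊕ Fin e) (Fin e ⊕ Fin e) F),
      Matrix.submatrix_one_equiv]
  have hBalt : ∀ w : Fin d → F, w ⬝ᵥ (B *ᵥ w) = 0 := by
    intro w
    rw [hB, Matrix.submatrix_mulVec_equiv]
    have h3 := Helper13.sympForm_self e (w ∘ σ.symm)
    unfold sympForm at h3
    rw [← h3]
    simp only [dotProduct]
    exact Fintype.sum_equiv σ _ _ (fun i => by simp)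
  obtain ⟨x, hxdef⟩ : ∃ x : Matrix (Fin d ⊕ Fin d) (Fin d ⊕ Fin d) F,
      x = Matrix.fromBlocks 1 B 0 1 := ⟨_, rfl⟩
  have hxmem : x ∈ Matrix.symplecticGroup (Fin d) F := by
    rw [SymplecticGroup.mem_iff, hxdef, Matrix.J, Matrix.fromBlocks_transpose,
      Matrix.fromBlocks_multiply, Matrix.fromBlocks_multiply, hBT]
    simp
  have hxx : x * x = 1 := by
    rw [hxdef, Matrix.fromBlocks_multiply]
    have h3 : B + B = 0 := by rw [← two_smul F B, h2, zero_smul]
    simp [h3, Matrix.fromBlocks_one]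
  have hmv : ∀ v : Fin d ⊕ Fin d → F,
      x *ᵥ v = Sum.elim (v ∘ Sum.inl + B *ᵥ (v ∘ Sum.inr)) (v ∘ Sum.inr) := by
    intro v
    rw [hxdef, Matrix.fromBlocks_mulVec]
    simp
  have hF3 : ∀ v : Fin d ⊕ Fin d → F, sympForm d F v (x *ᵥ v) = 0 := by
    intro v
    rw [Helper13.sympForm_eq, hmv]
    simp only [Sum.elim_inl, Sum.elim_inr, Pi.add_apply, Function.comp_apply]
    have h3 := hBalt (v ∘ Sum.inr)
    simp only [dotProduct, Function.comp_apply] at h3
    rw [← h3]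
    apply Finset.sum_congr rfl
    intro i _
    ring
  have hF4 : ∀ v w : Fin d ⊕ Fin d → F, v ∘ Sum.inr = 0 → w ∘ Sum.inr = 0 →
      sympForm d F v w = 0 := by
    intro v w hv hw
    rw [Helper13.sympForm_eq]
    apply Finset.sum_eq_zero
    intro i _
    have h3 : v (Sum.inr i) = 0 := congrFun hv i
    have h4 : w (Sum.inr i) = 0 := congrFun hw i
    rw [h3, h4, zero_mul, mul_zero, sub_zero]
  have hfixinr : ∀ v : Fin d ⊕ Fin d → F, x *ᵥ v = v → v ∘ Sum.inr = 0 := by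
    intro v hv
    have h3 : B *ᵥ (v ∘ Sum.inr) = 0 := by
      funext i
      have h4 := congrFun hv (Sum.inl i)
      rw [hmv, Sum.elim_inl, Pi.add_apply, Function.comp_apply] at h4
      rw [Pi.zero_apply]
      exact left_eq_add.1 h4.symm
    have h5 : v ∘ Sum.inr = B *ᵥ (B *ᵥ (v ∘ Sum.inr)) := by
      rw [Matrix.mulVec_mulVec, hBB, Matrix.one_mulVec]
    rw [h5, h3, Matrix.mulVec_zero]
  have hns : ∀ z : F, x ≠ z • (1 : Matrix (Fin d ⊕ Fin d) (Fin d ⊕ Fin d) F) := by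
    intro z hz
    have hB0 : B = 0 := by
      ext i j
      have h3 := congrFun (congrFun hz (Sum.inl i)) (Sum.inr j)
      rw [hxdef, Matrix.fromBlocks_apply₁₂] at h3
      rw [h3]
      simp
    have h4 := congrFun (congrFun hBB ⟨0, hd⟩) ⟨0, hd⟩
    rw [hB0, Matrix.zero_mul, Matrix.one_apply_eq, Matrix.zero_apply] at h4
    exact zero_ne_one h4
  refine ⟨x, hxmem, hxx, hns, ?_⟩
  rintro ⟨P, hP, hPi, hPfr⟩
  have hPne : P ≠ ⊥ := by
    rintro rfl
    rw [finrank_bot] at hPfr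
    omega
  by_cases hfix : ∀ v ∈ P, x *ᵥ v = v
  · obtain ⟨u, hu, hu0⟩ := Submodule.exists_mem_ne_zero_of_ne_bot hPne
    obtain ⟨w, hw, hw0⟩ := hP u hu hu0
    exact hw0 (hF4 u w (hfixinr u (hfix u hu)) (hfixinr w (hfix w hw)))
  · push Not at hfix
    obtain ⟨v, hv, hxv⟩ := hfix
    obtain ⟨e', he'⟩ : ∃ e' : Fin d ⊕ Fin d → F, e' = x *ᵥ v + v := ⟨_, rfl⟩
    have he'P : e' ∈ P := by
      rw [he']
      exact P.add_mem (mem_of_inv x P hPi v hv) hv
    have he'0 : e' ≠ 0 := by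
      intro h
      apply hxv
      rw [he'] at h
      have h4 : x *ᵥ v = -v := eq_neg_of_add_eq_zero_left h
      rw [h4]
      exact neg_eq_self_of_two h2 v
    have hxe' : x *ᵥ e' = e' := by
      rw [he', Matrix.mulVec_add, Matrix.mulVec_mulVec, hxx, Matrix.one_mulVec, add_comm]
    obtain ⟨w, hw, hw0⟩ := hP e' he'P he'0
    obtain ⟨hnd, hfr⟩ := nd_pair e' w hw0
    have hspan : Submodule.span F {e', w} = P := by
      apply Submodule.eq_of_le_of_finrank_eq
      · apply Submodule.span_le.2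
        intro z hz
        rcases hz with rfl | hz
        · exact he'P
        · rw [Set.mem_singleton_iff.1 hz]
          exact hw
      · rw [hfr, hPfr]
    have hvs : v ∈ Submodule.span F {e', w} := by
      rw [hspan]
      exact hv
    obtain ⟨a, b, hab⟩ := Submodule.mem_span_pair.1 hvs
    have hev : sympForm d F e' v = 0 := by
      rw [he', Helper13.sympForm_add_left, Helper13.sympForm_self, add_zero]
      exact sf_swap0 (hF3 v)
    rw [← hab, Helper13.sympForm_add_right, Helper13.sympForm_smul_right,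
      Helper13.sympForm_smul_right, Helper13.sympForm_self, mul_zero, zero_add] at hev
    have hb0 : b = 0 := (mul_eq_zero.1 hev).resolve_right hw0
    apply hxv
    rw [← hab, hb0, zero_smul, add_zero, Matrix.mulVec_smul, hxe']

/-- Involutions in characteristic two. -/
theorem char2_iff (h2 : (2 : F) = 0) (d m : ℕ) (hd : 0 < d) (hm : 2 ≤ m) (hme : Even m)
    (hm2d : m ≤ 2 * d) :
    (∀ x : ↥(Matrix.symplecticGroup (Fin d) F),
      (∃ z : F, ((x ^ 2 : ↥(Matrix.symplecticGroup (Fin d) F)) :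
        Matrix (Fin d ⊕ Fin d) (Fin d ⊕ Fin d) F) =
          z • (1 : Matrix (Fin d ⊕ Fin d) (Fin d ⊕ Fin d) F)) →
      (∀ z : F, (x : Matrix (Fin d ⊕ Fin d) (Fin d ⊕ Fin d) F) ≠
        z • (1 : Matrix (Fin d ⊕ Fin d) (Fin d ⊕ Fin d) F)) →
      ∃ W : Submodule F (Fin d ⊕ Fin d → F), finrank F W = m ∧ Nd W ∧
        W.map (Matrix.toLin' (x : Matrix (Fin d ⊕ Fin d) (Fin d ⊕ Fin d) F)) ≤ W) ↔
    ((2 * d) % 4 = 2 ∨ m % 4 = 0) := by
  obtain ⟨m', hm'⟩ := hme
  constructor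
  · intro h
    by_contra hcon
    push Not at hcon
    obtain ⟨x, hxmem, hxx, hns, hno⟩ := exists_derange2 (d := d) h2 (d / 2) (by omega) hd
    obtain ⟨W, hWfr, hW, hWi⟩ := h ⟨x, hxmem⟩ ⟨1, by
      rw [SubmonoidClass.coe_pow, pow_two, hxx, one_smul]⟩ hns
    obtain ⟨P, -, hP, hPi, hPfr⟩ := exists_nd_char2 x hxmem h2 hxx m W hWfr hW hWi 1
      (by omega) (Or.inr (by omega))
    exact hno ⟨P, hP, hPi, hPfr⟩
  · intro hcond x ⟨z, hz⟩ _
    have hzmem : z • (1 : Matrix (Fin d ⊕ Fin d) (Fin d ⊕ Fin d) F) ∈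
        Matrix.symplecticGroup (Fin d) F := by
      rw [← hz]
      exact (x ^ 2).2
    have hzz : z * z = 1 := SpImprim.scalar_sq hd z hzmem
    have hz1 : z = 1 := by
      have h3 : (z - 1) * (z - 1) = 0 := by linear_combination hzz + (1 - z) * h2
      have h4 : z - 1 = 0 := by
        rcases mul_eq_zero.1 h3 with h | h <;> exact h
      exact sub_eq_zero.1 h4
    rw [SubmonoidClass.coe_pow, pow_two, hz1, one_smul] at hz
    obtain ⟨W, -, hW, hWi, hWfr⟩ := exists_nd_char2 x.1 x.2 h2 hz (2 * d) ⊤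
      (by rw [finrank_top, Lagr.finrank_space]) nd_top le_top m' (by omega)
      (by omega)
    exact ⟨W, by rw [hWfr, hm']; ring, hW, hWi⟩

end derange2

section count

variable {F : Type u} [Field F] {d : ℕ}

theorem inv2_all (h2 : (2 : F) ≠ 0) (d m : ℕ) (hd : 0 < d) (hme : Even m) (hm2d : m ≤ 2 * d)
    (x : ↥(Matrix.symplecticGroup (Fin d) F))
    (hx2 : ∃ z : F, ((x ^ 2 : ↥(Matrix.symplecticGroup (Fin d) F)) :
        Matrix (Fin d ⊕ Fin d) (Fin d ⊕ Fin d) F) =
          z • (1 : Matrix (Fin d ⊕ Fin d) (Fin d ⊕ Fin d) F)) :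
    ∃ W : Submodule F (Fin d ⊕ Fin d → F), finrank F W = m ∧ Nd W ∧
      W.map (Matrix.toLin' (x : Matrix (Fin d ⊕ Fin d) (Fin d ⊕ Fin d) F)) ≤ W := by
  obtain ⟨m', hm'⟩ := hme
  obtain ⟨z, hz⟩ := hx2
  have hzmem : z • (1 : Matrix (Fin d ⊕ Fin d) (Fin d ⊕ Fin d) F) ∈
      Matrix.symplecticGroup (Fin d) F := by
    rw [← hz]
    exact (x ^ 2).2
  have hzz : z * z = 1 := SpImprim.scalar_sq hd z hzmem
  have hz1 : z = 1 ∨ z = -1 := by
    have h3 : (z - 1) * (z + 1) = 0 := by linear_combination hzz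
    rcases mul_eq_zero.1 h3 with h | h
    · exact Or.inl (sub_eq_zero.1 h)
    · exact Or.inr (eq_neg_of_add_eq_zero_left h)
  rw [SubmonoidClass.coe_pow, pow_two] at hz
  have hxx : x.1 * x.1 = 1 ∨ x.1 * x.1 = -1 := by
    rcases hz1 with h | h
    · left
      rw [hz, h, one_smul]
    · right
      rw [hz, h, neg_one_smul]
  obtain ⟨W, -, hW, hWi, hWfr⟩ := exists_nd_inv2 x.1 x.2 h2 hxx m' ⊤ nd_top le_top
    (by rw [finrank_top, Lagr.finrank_space]; omega)
  exact ⟨W, by rw [hWfr, hm']; ring, hW, hWi⟩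

theorem exists_nd_dim : ∀ t : ℕ, ∀ U : Submodule F (Fin d ⊕ Fin d → F), Nd U →
    2 * t ≤ finrank F U →
    ∃ W : Submodule F (Fin d ⊕ Fin d → F), W ≤ U ∧ Nd W ∧ finrank F W = 2 * t := by
  intro t
  induction t with
  | zero =>
    intro U _ _
    exact ⟨⊥, bot_le, nd_bot, by rw [finrank_bot]⟩
  | succ t ih =>
    intro U hU hfr
    have hne : U ≠ ⊥ := by
      rintro rfl
      rw [finrank_bot] at hfr
      omega
    obtain ⟨u, hu, hu0⟩ := Submodule.exists_mem_ne_zero_of_ne_bot hne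
    obtain ⟨w, hw, hw0⟩ := hU u hu hu0
    obtain ⟨hP, hP2⟩ := nd_pair u w hw0
    have hPU : Submodule.span F {u, w} ≤ U := by
      apply Submodule.span_le.2
      intro z hz
      rcases hz with rfl | hz
      · exact hu
      · rw [Set.mem_singleton_iff.1 hz]
        exact hw
    have h3 := finrank_inf_perp U _ hP hPU
    obtain ⟨W', hW'U, hW', hW'fr⟩ := ih (U ⊓ SpIso.perp (Submodule.span F {u, w}))
      (nd_inf_perp U _ hU hP hPU) (by omega)
    refine ⟨Submodule.span F {u, w} ⊔ W', sup_le hPU (hW'U.trans inf_le_left),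
      nd_sup _ W' hP hW' (hW'U.trans inf_le_right), ?_⟩
    rw [finrank_nd_sup _ W' hP (hW'U.trans inf_le_right), hP2, hW'fr]
    ring

theorem ndOn_of_nd (W : Submodule F (Fin d ⊕ Fin d → F)) (hW : Nd W) :
    IsNondegenerateOn (sympForm d F) W := by
  intro w hw hw0
  obtain ⟨v, hv, hne⟩ := hW w hw hw0
  refine ⟨⟨v, hv, ?_⟩, ⟨v, hv, hne⟩⟩
  rw [Helper13.sympForm_swap]
  exact neg_ne_zero.2 hne

theorem sb_li {h : ℕ} (W : Submodule F (Fin d ⊕ Fin d → F))
    (a b : Fin h → (Fin d ⊕ Fin d → F)) (hsb : Helper94.IsSympBasis W a b) :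
    LinearIndependent F (Sum.elim a b) := by
  classical
  refine (gram_nd (Sum.elim a b) ?_).1
  intro α hα
  funext j
  rcases j with l | l
  · have e1 := hα (Sum.inr l)
    simp only [Fintype.sum_sum_type, Sum.elim_inl, Sum.elim_inr, hsb.ab, hsb.bb, mul_zero,
      Finset.sum_const_zero, add_zero, mul_ite, mul_one, Finset.sum_ite_eq', Finset.mem_univ,
      if_true] at e1
    exact e1
  · have e1 := hα (Sum.inl l)
    simp only [Fintype.sum_sum_type, Sum.elim_inl, Sum.elim_inr, hsb.aa, hsb.ba, mul_zero,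
      Finset.sum_const_zero, zero_add, mul_ite, mul_neg, mul_one, Finset.sum_ite_eq',
      Finset.mem_univ, if_true, neg_eq_zero] at e1
    exact e1

theorem sb_span {h : ℕ} (W : Submodule F (Fin d ⊕ Fin d → F))
    (a b : Fin h → (Fin d ⊕ Fin d → F)) (hsb : Helper94.IsSympBasis W a b) :
    W = Submodule.span F (Set.range (Sum.elim a b)) := by
  apply le_antisymm
  · intro v hv
    rw [hsb.expand v hv]
    apply Submodule.sum_mem
    intro l _
    apply Submodule.sub_mem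
    · exact Submodule.smul_mem _ _ (Submodule.subset_span ⟨Sum.inl l, rfl⟩)
    · exact Submodule.smul_mem _ _ (Submodule.subset_span ⟨Sum.inr l, rfl⟩)
  · apply Submodule.span_le.2
    rintro _ ⟨k, rfl⟩
    rcases k with l | l
    · exact hsb.mem_a l
    · exact hsb.mem_b l

/-- Witt: the symplectic group is transitive on nondegenerate subspaces of given dimension. -/
theorem nd_trans (h : ℕ) (W W' : Submodule F (Fin d ⊕ Fin d → F)) (hW : Nd W) (hW' : Nd W')
    (hfr : finrank F W = 2 * h) (hfr' : finrank F W' = 2 * h) :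
    ∃ A : ↥(Matrix.symplecticGroup (Fin d) F), W.map (Matrix.toLin' A.1) = W' := by
  obtain ⟨a, b, hsb⟩ := Helper94.exists_sympBasis W h hfr (ndOn_of_nd W hW)
  obtain ⟨a', b', hsb'⟩ := Helper94.exists_sympBasis W' h hfr' (ndOn_of_nd W' hW')
  have hgram : ∀ i j : Fin h ⊕ Fin h, sympForm d F (Sum.elim a b i) (Sum.elim a b j) =
      sympForm d F (Sum.elim a' b' i) (Sum.elim a' b' j) := by
    intro i j
    rcases i with s | s <;> rcases j with s' | s'
    · simp only [Sum.elim_inl]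
      rw [hsb.aa, hsb'.aa]
    · simp only [Sum.elim_inl, Sum.elim_inr]
      rw [hsb.ab, hsb'.ab]
    · simp only [Sum.elim_inl, Sum.elim_inr]
      rw [hsb.ba, hsb'.ba]
    · simp only [Sum.elim_inr]
      rw [hsb.bb, hsb'.bb]
  obtain ⟨A, hA⟩ := Helper13.witt_gram_tuples _ _ (sb_li W a b hsb) (sb_li W' a' b' hsb') hgram
  refine ⟨A, ?_⟩
  rw [sb_span W a b hsb, sb_span W' a' b' hsb', Submodule.map_span, ← Set.range_comp]
  congr 2
  funext k
  rw [Function.comp_apply, Matrix.toLin'_apply]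
  exact hA k

attribute [local instance] Lagr.spAct

theorem nd_smul (g : ↥(Matrix.symplecticGroup (Fin d) F))
    (W : Submodule F (Fin d ⊕ Fin d → F)) (hW : Nd W) :
    Nd (W.map (Matrix.toLin' g.1)) := by
  rintro _ ⟨u, hu, rfl⟩ hne
  have hu0 : u ≠ 0 := by
    rintro rfl
    exact hne (map_zero _)
  obtain ⟨v, hv, hv0⟩ := hW u hu hu0
  refine ⟨Matrix.toLin' g.1 v, Submodule.mem_map_of_mem hv, ?_⟩
  rw [SpIso.form_toLin g.1 g.2]
  exact hv0

theorem finrank_smul (g : ↥(Matrix.symplecticGroup (Fin d) F))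
    (W : Submodule F (Fin d ⊕ Fin d → F)) :
    finrank F (W.map (Matrix.toLin' g.1)) = finrank F W :=
  (Submodule.equivMapOfInjective _ (SpIso.toLin_injective g.1 g.2) W).finrank_eq.symm

theorem stab_eq (W₀ : Submodule F (Fin d ⊕ Fin d → F)) :
    MulAction.stabilizer (↥(Matrix.symplecticGroup (Fin d) F)) W₀ =
      Cfsg.stabilizing (Cfsg.spToMat d F) (W₀ : Set (Fin d ⊕ Fin d → F)) := by
  ext g
  rw [MulAction.mem_stabilizer_iff, Lagr.smul_def]
  show W₀.map (Matrix.toLin' g.1) = W₀ ↔ ∀ v : Fin d ⊕ Fin d → F, v ∈ W₀ ↔ g.1 *ᵥ v ∈ W₀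
  constructor
  · intro h v
    constructor
    · intro hv
      have h3 : Matrix.toLin' g.1 v ∈ W₀.map (Matrix.toLin' g.1) := Submodule.mem_map_of_mem hv
      rw [h, Matrix.toLin'_apply] at h3
      exact h3
    · intro hv
      have h3 : g.1 *ᵥ v ∈ W₀.map (Matrix.toLin' g.1) := by
        rw [h]
        exact hv
      obtain ⟨v', hv', hvv⟩ := h3
      rw [Matrix.toLin'_apply] at hvv
      have h4 : v' = v := Helper13.symp_mulVec_injective g hvv
      rw [← h4]
      exact hv'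
  · intro h
    apply SpIso.map_eq_of_le _ (SpIso.toLin_injective g.1 g.2)
    rintro _ ⟨v, hv, rfl⟩
    rw [Matrix.toLin'_apply]
    exact (h v).1 hv

/-- Orbit-stabilizer count of the nondegenerate subspaces of dimension `2h`. -/
theorem card_nd_mul [Fintype F] (h : ℕ) (hh : h ≤ d) :
    Nat.card {W : Submodule F (Fin d ⊕ Fin d → F) // finrank F W = 2 * h ∧ Nd W} *
      (Nat.card ↥(Matrix.symplecticGroup (Fin h) F) *
        Nat.card ↥(Matrix.symplecticGroup (Fin (d - h)) F)) =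
    Nat.card ↥(Matrix.symplecticGroup (Fin d) F) := by
  obtain ⟨W₀, -, hW₀, hW₀fr⟩ := exists_nd_dim (d := d) (F := F) h ⊤ nd_top
    (by rw [finrank_top, Lagr.finrank_space]; omega)
  have htr : ∀ t ∈ {W : Submodule F (Fin d ⊕ Fin d → F) | finrank F W = 2 * h ∧ Nd W},
      ∃ g : ↥(Matrix.symplecticGroup (Fin d) F), g • W₀ = t := by
    intro t ht
    obtain ⟨A, hA⟩ := nd_trans h W₀ t hW₀ ht.2 hW₀fr ht.1
    exact ⟨A, hA⟩
  have h1 := Helper13.card_preimage_orbit (G := ↥(Matrix.symplecticGroup (Fin d) F)) W₀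
    {W : Submodule F (Fin d ⊕ Fin d → F) | finrank F W = 2 * h ∧ Nd W} htr
  have h2 : Nat.card {g : ↥(Matrix.symplecticGroup (Fin d) F) //
      g • W₀ ∈ {W : Submodule F (Fin d ⊕ Fin d → F) | finrank F W = 2 * h ∧ Nd W}} =
      Nat.card ↥(Matrix.symplecticGroup (Fin d) F) := by
    apply Nat.card_congr
    apply Equiv.subtypeUnivEquiv
    intro g
    exact ⟨by rw [Lagr.smul_def, finrank_smul, hW₀fr], nd_smul g W₀ hW₀⟩
  obtain ⟨e⟩ := Helper13.sp_stab_nondeg h hh W₀ hW₀fr (by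
    intro u hu hu'
    by_contra hne
    obtain ⟨v, hv, hv0⟩ := hW₀ u hu hne
    exact hv0 (hu' v hv))
  have h3 : Nat.card (MulAction.stabilizer (↥(Matrix.symplecticGroup (Fin d) F)) W₀) =
      Nat.card ↥(Matrix.symplecticGroup (Fin h) F) *
        Nat.card ↥(Matrix.symplecticGroup (Fin (d - h)) F) := by
    rw [stab_eq W₀, Nat.card_congr e.toEquiv, Nat.card_prod]
  rw [← h3, ← h2, h1]
  rfl

/-- A prime dividing the number of nondegenerate subspaces of dimension `2h`. -/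
theorem exists_of_dvd_nd [Fintype F] {p : ℕ} [Fact p.Prime] [CharP F p] (r : ℕ) [Fact r.Prime]
    (hrp : r ≠ p) (h : ℕ) (hh : h ≤ d)
    (hr : r ∣ Nat.card {W : Submodule F (Fin d ⊕ Fin d → F) // finrank F W = 2 * h ∧ Nd W}) :
    ∃ j, j < h ∧ orderOf ((Fintype.card F : ℕ) : ZMod r) ∣ 2 * (d - j) := by
  have hrP : r.Prime := Fact.out
  have hq : 2 ≤ Fintype.card F := Fintype.one_lt_card
  have h1 := card_nd_mul (F := F) (d := d) h hh
  rw [Cfsg.Agent.Lib.Helper40.card_symplecticGroup h, Cfsg.Agent.Lib.Helper40.card_symplecticGroup (d - h),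
    Cfsg.Agent.Lib.Helper40.card_symplecticGroup d] at h1
  have hsplit := Finset.prod_range_mul_prod_Ico
    (fun i => Fintype.card F ^ (2 * (i + 1)) - 1) (Nat.sub_le d h)
  have hpos : 0 < ∏ i ∈ Finset.range (d - h), (Fintype.card F ^ (2 * (i + 1)) - 1) := by
    apply Finset.prod_pos
    intro i _
    exact Nat.sub_pos_of_lt (Nat.one_lt_pow (by omega) (by omega))
  rw [← hsplit] at h1
  have h2 : (∏ i ∈ Finset.range (d - h), (Fintype.card F ^ (2 * (i + 1)) - 1)) *
      (Nat.card {W : Submodule F (Fin d ⊕ Fin d → F) // finrank F W = 2 * h ∧ Nd W} *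
        (Fintype.card F ^ (h ^ 2) * (∏ i ∈ Finset.range h, (Fintype.card F ^ (2 * (i + 1)) - 1)) *
          Fintype.card F ^ ((d - h) ^ 2))) =
      (∏ i ∈ Finset.range (d - h), (Fintype.card F ^ (2 * (i + 1)) - 1)) *
        (Fintype.card F ^ (d ^ 2) *
          ∏ i ∈ Finset.Ico (d - h) d, (Fintype.card F ^ (2 * (i + 1)) - 1)) := by
    calc _ = Nat.card {W : Submodule F (Fin d ⊕ Fin d → F) // finrank F W = 2 * h ∧ Nd W} *
          (Fintype.card F ^ (h ^ 2) * (∏ i ∈ Finset.range h,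
            (Fintype.card F ^ (2 * (i + 1)) - 1)) * (Fintype.card F ^ ((d - h) ^ 2) *
            ∏ i ∈ Finset.range (d - h), (Fintype.card F ^ (2 * (i + 1)) - 1))) := by ring
      _ = _ := h1
      _ = _ := by ring
  have h3 := Nat.eq_of_mul_eq_mul_left hpos h2
  have h4 : r ∣ Fintype.card F ^ (d ^ 2) *
      ∏ i ∈ Finset.Ico (d - h) d, (Fintype.card F ^ (2 * (i + 1)) - 1) := by
    rw [← h3]
    exact Dvd.dvd.mul_right hr _
  rcases (Nat.Prime.dvd_mul hrP).1 h4 with h5 | h5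
  · exfalso
    have h6 := hrP.dvd_of_dvd_pow h5
    have h7 : ((Fintype.card F : ℕ) : ZMod r) = 0 := (ZMod.natCast_eq_zero_iff _ _).2 h6
    exact Subf5.natCast_card_ne_zero rfl r hrp h7
  · obtain ⟨j, hj, hj2⟩ := (Prime.dvd_finsetProd_iff hrP.prime _).1 h5
    rw [Finset.mem_Ico] at hj
    refine ⟨d - (j + 1), by omega, ?_⟩
    have h8 : 2 * (d - (d - (j + 1))) = 2 * (j + 1) := by omega
    rw [h8]
    exact (Elusive.dvd_pow_sub_one_iff _ r (by omega) _).1 hj2

end count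

section bsum

variable {F : Type u} [Field F]

theorem rank_pow_eq' {ι : Type} [Fintype ι] [DecidableEq ι] (M : Matrix ι ι F) (j : ℕ) :
    (M ^ j).rank = finrank F (LinearMap.range ((Matrix.toLin' M) ^ j)) := by
  rw [← Matrix.toLin'_pow, Matrix.rank, Matrix.toLin'_apply']

theorem rank_fromBlocks_diag {α β : Type} [Fintype α] [Fintype β] [DecidableEq α]
    [DecidableEq β] (A : Matrix α α F) (B : Matrix β β F) :
    (Matrix.fromBlocks A 0 0 B).rank = A.rank + B.rank := by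
  have hconj : Jordan.Conj (Matrix.toLin' (Matrix.fromBlocks A 0 0 B))
      ((Matrix.toLin' A).prodMap (Matrix.toLin' B)) := by
    refine ⟨LinearEquiv.sumArrowLequivProdArrow α β F F, fun v => ?_⟩
    apply Prod.ext
    · funext i
      simp [Matrix.toLin'_apply, Matrix.fromBlocks_mulVec]
      rfl
    · funext i
      simp [Matrix.toLin'_apply, Matrix.fromBlocks_mulVec]
      rfl
  have h1 := hconj.finrank_range_pow 1
  rw [Jordan.finrank_range_prodMap_pow] at h1
  rw [← Matrix.toLin'_pow, ← Matrix.toLin'_pow, ← Matrix.toLin'_pow, pow_one, pow_one,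
    pow_one] at h1
  rw [Matrix.rank, Matrix.rank, Matrix.rank, ← Matrix.toLin'_apply', ← Matrix.toLin'_apply',
    ← Matrix.toLin'_apply']
  exact h1

theorem fromBlocks_sub_one {α β : Type} [Fintype α] [Fintype β] [DecidableEq α]
    [DecidableEq β] (A : Matrix α α F) (B : Matrix β β F) :
    Matrix.fromBlocks A 0 0 B - 1 = Matrix.fromBlocks (A - 1) 0 0 (B - 1) := by
  ext (i | i) (j | j) <;> simp [Matrix.one_apply]

/-- Transport of an invariant subspace along a conjugation. -/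
theorem transport {d : ℕ} (y Y Q : Matrix (Fin d ⊕ Fin d) (Fin d ⊕ Fin d) F)
    (hyQ : y * Q = Q * Y) (W₀ : Submodule F (Fin d ⊕ Fin d → F))
    (hW₀ : W₀.map (Matrix.toLin' Y) ≤ W₀) :
    (W₀.map (Matrix.toLin' Q)).map (Matrix.toLin' y) ≤ W₀.map (Matrix.toLin' Q) := by
  rintro _ ⟨_, ⟨w, hw, rfl⟩, rfl⟩
  refine ⟨Matrix.toLin' Y w, hW₀ (Submodule.mem_map_of_mem hw), ?_⟩
  rw [← Matrix.toLin'_mul_apply, ← Matrix.toLin'_mul_apply, hyQ]

/-- Block sums of symplectic matrices. -/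
theorem exists_bsum {a b d : ℕ} (hab : a + b = d)
    (g₁ : Matrix (Fin a ⊕ Fin a) (Fin a ⊕ Fin a) F)
    (g₂ : Matrix (Fin b ⊕ Fin b) (Fin b ⊕ Fin b) F)
    (h₁ : g₁ ∈ Matrix.symplecticGroup (Fin a) F) (h₂ : g₂ ∈ Matrix.symplecticGroup (Fin b) F) :
    ∃ Y : Matrix (Fin d ⊕ Fin d) (Fin d ⊕ Fin d) F, Y ∈ Matrix.symplecticGroup (Fin d) F ∧
      Y.charpoly = g₁.charpoly * g₂.charpoly ∧
      (∀ n : ℕ, g₁ ^ n = 1 → g₂ ^ n = 1 → Y ^ n = 1) ∧
      (∀ j : ℕ, ((Y - 1) ^ j).rank = ((g₁ - 1) ^ j).rank + ((g₂ - 1) ^ j).rank) ∧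
      ∃ W : Submodule F (Fin d ⊕ Fin d → F), finrank F W = 2 * a ∧ Nd W ∧
        W.map (Matrix.toLin' Y) ≤ W := by
  classical
  obtain ⟨ε, -⟩ : ∃ ε : Fin a ⊕ Fin b ≃ Fin d, True :=
    ⟨finSumFinEquiv.trans (finCongr hab), trivial⟩
  obtain ⟨E, hE⟩ : ∃ E : (Fin a ⊕ Fin a) ⊕ (Fin b ⊕ Fin b) ≃ Fin d ⊕ Fin d,
      E = Helper13.splitIdx ε := ⟨_, rfl⟩
  obtain ⟨Y₀, hY₀⟩ : ∃ Y₀ : Matrix ((Fin a ⊕ Fin a) ⊕ (Fin b ⊕ Fin b))
      ((Fin a ⊕ Fin a) ⊕ (Fin b ⊕ Fin b)) F, Y₀ = Matrix.fromBlocks g₁ 0 0 g₂ := ⟨_, rfl⟩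
  obtain ⟨Y, hY⟩ : ∃ Y : Matrix (Fin d ⊕ Fin d) (Fin d ⊕ Fin d) F,
      Y = Matrix.reindexAlgEquiv F F E Y₀ := ⟨_, rfl⟩
  have hYre : Y = Matrix.reindex E E Y₀ := by
    rw [hY, Matrix.coe_reindexAlgEquiv]
  have hYsub : Y = Y₀.submatrix E.symm E.symm := by
    rw [hYre]
    rfl
  have hJ : Matrix.J (Fin d) F = (Matrix.fromBlocks (Matrix.J (Fin a) F) 0 0
      (Matrix.J (Fin b) F)).submatrix E.symm E.symm := by
    rw [← Helper13.J_submatrix_splitIdx (F := F) ε, hE, Matrix.submatrix_submatrix]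
    simp
  have hYmem : Y ∈ Matrix.symplecticGroup (Fin d) F := by
    rw [SymplecticGroup.mem_iff, hYsub, Matrix.transpose_submatrix]
    conv_lhs => rw [hJ]
    conv_rhs => rw [hJ]
    rw [Matrix.submatrix_mul_equiv, Matrix.submatrix_mul_equiv, hY₀, Matrix.fromBlocks_transpose,
      Matrix.fromBlocks_multiply, Matrix.fromBlocks_multiply]
    simp only [Matrix.mul_zero, Matrix.zero_mul, add_zero, zero_add, Matrix.transpose_zero]
    rw [SymplecticGroup.mem_iff.1 h₁, SymplecticGroup.mem_iff.1 h₂]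
  have hform : ∀ w w' : (Fin a ⊕ Fin a) ⊕ (Fin b ⊕ Fin b) → F,
      sympForm d F (w ∘ E.symm) (w' ∘ E.symm) =
        sympForm a F (w ∘ Sum.inl) (w' ∘ Sum.inl) + sympForm b F (w ∘ Sum.inr) (w' ∘ Sum.inr) := by
    intro w w'
    have h3 : sympForm d F (w ∘ E.symm) (w' ∘ E.symm) =
        w ⬝ᵥ (Matrix.fromBlocks (Matrix.J (Fin a) F) 0 0 (Matrix.J (Fin b) F) *ᵥ w') := by
      unfold sympForm
      rw [hJ, Matrix.submatrix_mulVec_equiv]
      simp only [dotProduct]
      refine Fintype.sum_equiv E.symm _ _ (fun k => ?_)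
      simp [Function.comp_assoc]
    rw [h3, Matrix.fromBlocks_mulVec]
    unfold sympForm
    simp [dotProduct, Fintype.sum_sum_type]
  obtain ⟨φ, hφ⟩ : ∃ φ : (Fin a ⊕ Fin a → F) →ₗ[F] (Fin d ⊕ Fin d → F), ∀ u,
      φ u = (Sum.elim u (0 : Fin b ⊕ Fin b → F)) ∘ E.symm := by
    refine ⟨{ toFun := fun u => (Sum.elim u (0 : Fin b ⊕ Fin b → F)) ∘ E.symm,
              map_add' := ?_, map_smul' := ?_ }, fun _ => rfl⟩
    · intro u v
      funext k
      rcases hk : E.symm k with s | s <;> simp [hk]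
    · intro c u
      funext k
      rcases hk : E.symm k with s | s <;> simp [hk]
  have hφE : ∀ u, φ u ∘ E = Sum.elim u (0 : Fin b ⊕ Fin b → F) := by
    intro u
    rw [hφ]
    funext s
    simp
  have hφinj : Function.Injective φ := by
    intro u v huv
    funext j
    have h7 : (φ u ∘ E) (Sum.inl j) = (φ v ∘ E) (Sum.inl j) := by rw [huv]
    rw [hφE, hφE] at h7
    exact h7
  have hYmul : ∀ v : Fin d ⊕ Fin d → F, (Y *ᵥ v) ∘ E = Y₀ *ᵥ (v ∘ E) := by
    intro v
    rw [hYsub, Matrix.submatrix_mulVec_equiv]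
    funext s
    simp
  have hYφ : ∀ u, Y *ᵥ φ u = φ (g₁ *ᵥ u) := by
    intro u
    have h9 : (Y *ᵥ φ u) ∘ E = φ (g₁ *ᵥ u) ∘ E := by
      rw [hYmul, hφE, hφE, hY₀, Matrix.fromBlocks_mulVec]
      simp
    funext k
    obtain ⟨s, rfl⟩ := E.surjective k
    exact congrFun h9 s
  have hφform : ∀ u v, sympForm d F (φ u) (φ v) = sympForm a F u v := by
    intro u v
    rw [hφ, hφ, hform]
    have h3 : (Sum.elim u (0 : Fin b ⊕ Fin b → F)) ∘ Sum.inl = u := rfl
    have h4 : (Sum.elim v (0 : Fin b ⊕ Fin b → F)) ∘ Sum.inl = v := rfl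
    have h5 : (Sum.elim u (0 : Fin b ⊕ Fin b → F)) ∘ Sum.inr = 0 := rfl
    rw [h3, h4, h5, Helper13.sympForm_zero_left, add_zero]
  refine ⟨Y, hYmem, ?_, ?_, ?_, LinearMap.range φ, ?_, ?_, ?_⟩
  · rw [hYre, Matrix.charpoly_reindex, hY₀, Matrix.charpoly_fromBlocks_zero₁₂]
  · intro n e1 e2
    rw [hY, ← map_pow, hY₀, Matrix.fromBlocks_diagonal_pow, e1, e2, Matrix.fromBlocks_one,
      map_one]
  · intro j
    have h3 : (Y - 1) ^ j = Matrix.reindex E E
        (Matrix.fromBlocks ((g₁ - 1) ^ j) 0 0 ((g₂ - 1) ^ j)) := by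
      rw [← Matrix.fromBlocks_diagonal_pow, ← fromBlocks_sub_one, ← hY₀,
        ← Matrix.coe_reindexAlgEquiv F F E, map_pow, map_sub, map_one, ← hY]
    rw [h3, Matrix.rank_reindex, rank_fromBlocks_diag]
  · rw [LinearMap.finrank_range_of_inj hφinj, Module.finrank_fintype_fun_eq_card,
      Fintype.card_sum, Fintype.card_fin]
    ring
  · rintro _ ⟨u, rfl⟩ hne
    have hu0 : u ≠ 0 := by
      rintro rfl
      exact hne (map_zero _)
    obtain ⟨v, hv⟩ := Helper13.sympForm_exists_ne_zero u hu0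
    refine ⟨φ v, ⟨v, rfl⟩, ?_⟩
    rw [hφform]
    exact hv
  · rintro _ ⟨_, ⟨u, rfl⟩, rfl⟩
    exact ⟨g₁ *ᵥ u, by rw [Matrix.toLin'_apply, hYφ]⟩

end bsum

section semisimple

open Cfsg.Agent.Lib.Helper40.PrimeOrderGL Cfsg.Agent.Lib.Helper40.DualPoly
  Cfsg.Agent.Lib.Helper40.SpExist Cfsg.Agent.Lib.Helper40.SympWall
  Cfsg.Agent.Lib.Helper40.GUPrimeOrder

variable {F : Type u} [Field F] [Fintype F]

theorem exists_split_sym {T : Type*} [Fintype T] [DecidableEq T] (τ : T → T)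
    (hτ2 : ∀ x, τ (τ x) = x) (i c n m : ℕ) (hi0 : 0 < i)
    (hpar : ((∀ x, τ x = x) ∧ c = i) ∨ ((∀ x, τ x ≠ x) ∧ c = 2 * i))
    (a : T → ℕ) (ha : ∀ x, a (τ x) = a x) (hle : i * ∑ x, a x ≤ n) (hk : m % c ≤ n % c) :
    ∃ a₁ a₂ : T → ℕ, (∀ x, a₁ (τ x) = a₁ x) ∧ (∀ x, a₂ (τ x) = a₂ x) ∧
      (∀ x, a₁ x + a₂ x = a x) ∧ i * ∑ x, a₁ x ≤ m ∧ i * ∑ x, a₂ x ≤ n - m := by
  classical
  have hc0 : 0 < c := by
    rcases hpar with ⟨-, h⟩ | ⟨-, h⟩ <;> omega
  have hMc := Nat.div_add_mod m c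
  have hNc := Nat.div_add_mod n c
  rcases hpar with ⟨hid, hci⟩ | ⟨hfpf, hci⟩
  · rw [hci] at hMc hNc hk hc0
    obtain ⟨a₁, ha₁le, ha₁sum⟩ := Decomp.exists_sub a (min (∑ x, a x) (m / i)) (min_le_left _ _)
    refine ⟨a₁, fun x => a x - a₁ x, fun x => by rw [hid x], fun x => by rw [hid x], ?_, ?_, ?_⟩
    · intro x
      have := ha₁le x
      show a₁ x + (a x - a₁ x) = a x
      omega
    · rw [ha₁sum]
      have h1 : i * min (∑ x, a x) (m / i) ≤ i * (m / i) := Nat.mul_le_mul_left i (min_le_right _ _)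
      omega
    · have h1 : ∑ x, (a x - a₁ x) = ∑ x, a x - ∑ x, a₁ x := by
        have h2 : ∑ x, a x = ∑ x, (a x - a₁ x) + ∑ x, a₁ x := by
          rw [← Finset.sum_add_distrib]
          exact Finset.sum_congr rfl (fun x _ => by have := ha₁le x; omega)
        omega
      rw [h1, ha₁sum, Nat.mul_sub]
      have hA : ∑ x, a x ≤ n / i := by
        rw [Nat.le_div_iff_mul_le hi0, mul_comm]
        exact hle
      have hA' : i * ∑ x, a x ≤ i * (n / i) := Nat.mul_le_mul_left i hA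
      by_cases hβ : ∑ x, a x ≤ m / i
      · rw [min_eq_left hβ]
        omega
      · rw [min_eq_right (by omega)]
        omega
  · obtain ⟨h', hh1, hh2⟩ := (SpIso.exists_half τ hτ2 a ha).2 hfpf
    obtain ⟨h₁, hh₁le, hh₁sum⟩ := Decomp.exists_sub h' (min (∑ x, h' x) (m / c))
      (min_le_left _ _)
    obtain ⟨e, he⟩ : ∃ e : T ≃ T, ∀ x, e x = τ x := ⟨⟨τ, τ, hτ2, hτ2⟩, fun _ => rfl⟩
    have hsumτ : ∑ x, h₁ (τ x) = ∑ x, h₁ x := by
      rw [← Equiv.sum_comp e h₁]
      exact Finset.sum_congr rfl (fun x _ => by rw [he x])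
    have ha₁le : ∀ x, h₁ x + h₁ (τ x) ≤ a x := fun x =>
      (Nat.add_le_add (hh₁le x) (hh₁le (τ x))).trans (hh1 x)
    have ha₁sum : ∑ x, (h₁ x + h₁ (τ x)) = 2 * min (∑ x, h' x) (m / c) := by
      rw [Finset.sum_add_distrib, hsumτ, hh₁sum]
      ring
    refine ⟨fun x => h₁ x + h₁ (τ x), fun x => a x - (h₁ x + h₁ (τ x)), ?_, ?_, ?_, ?_, ?_⟩
    · intro x
      show h₁ (τ x) + h₁ (τ (τ x)) = h₁ x + h₁ (τ x)
      rw [hτ2, add_comm]
    · intro x
      show a (τ x) - (h₁ (τ x) + h₁ (τ (τ x))) = a x - (h₁ x + h₁ (τ x))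
      rw [hτ2, ha x, add_comm]
    · intro x
      have := ha₁le x
      show h₁ x + h₁ (τ x) + (a x - (h₁ x + h₁ (τ x))) = a x
      omega
    · rw [ha₁sum]
      have h1 : c * min (∑ x, h' x) (m / c) ≤ c * (m / c) :=
        Nat.mul_le_mul_left c (min_le_right _ _)
      have h2 : i * (2 * min (∑ x, h' x) (m / c)) = c * min (∑ x, h' x) (m / c) := by
        rw [hci]
        ring
      omega
    · have h1 : ∑ x, (a x - (h₁ x + h₁ (τ x))) = ∑ x, a x - ∑ x, (h₁ x + h₁ (τ x)) := by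
        have h2 : ∑ x, a x = ∑ x, (a x - (h₁ x + h₁ (τ x))) + ∑ x, (h₁ x + h₁ (τ x)) := by
          rw [← Finset.sum_add_distrib]
          exact Finset.sum_congr rfl (fun x _ => by have := ha₁le x; omega)
        omega
      rw [h1, ha₁sum, Nat.mul_sub, ← hh2]
      have hia : i * (2 * ∑ x, h' x) = c * ∑ x, h' x := by
        rw [hci]
        ring
      have hin : i * (2 * min (∑ x, h' x) (m / c)) = c * min (∑ x, h' x) (m / c) := by
        rw [hci]
        ring
      rw [hia, hin]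
      have hle' : c * ∑ x, h' x ≤ n := by
        rw [← hia, hh2]
        exact hle
      have hA : ∑ x, h' x ≤ n / c := by
        rw [Nat.le_div_iff_mul_le hc0, mul_comm]
        exact hle'
      have hA' : c * ∑ x, h' x ≤ c * (n / c) := Nat.mul_le_mul_left c hA
      by_cases hβ : ∑ x, h' x ≤ m / c
      · rw [min_eq_left hβ]
        omega
      · rw [min_eq_right (by omega)]
        omega

theorem exists_nd_of_split (p : ℕ) [Fact p.Prime] [CharP F p] {S : Finset F[X]} {r i : ℕ}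
    (hS : Factors S r i) (hr : r.Prime) (hr2 : r ≠ 2) (hrF : (r : F) ≠ 0)
    (dg : S → S) (hdg : ∀ π : S, (dg π : F[X]) = dual (RingHom.id F) π.1)
    {d h : ℕ} (hhd : h ≤ d)
    (y : Matrix (Fin d ⊕ Fin d) (Fin d ⊕ Fin d) F)
    (hy : y ∈ Matrix.symplecticGroup (Fin d) F) (hyr : y ^ r = 1)
    (a : S → ℕ) (hle : i * ∑ π, a π ≤ 2 * d)
    (hχ : y.charpoly = chi S a (2 * d - i * ∑ π, a π))
    (a₁ a₂ : S → ℕ) (ha₁ : ∀ π, a₁ (dg π) = a₁ π) (ha₂ : ∀ π, a₂ (dg π) = a₂ π)
    (hsum : ∀ π, a₁ π + a₂ π = a π)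
    (h1 : i * ∑ π, a₁ π ≤ 2 * h) (h2 : i * ∑ π, a₂ π ≤ 2 * (d - h)) :
    ∃ W : Submodule F (Fin d ⊕ Fin d → F), finrank F W = 2 * h ∧ Nd W ∧
      W.map (Matrix.toLin' y) ≤ W := by
  classical
  obtain ⟨g₁, hg₁r, hg₁χ⟩ := SpImprim.exists_sp_chi p hS hr hr2 dg hdg h a₁ ha₁ h1
  obtain ⟨g₂, hg₂r, hg₂χ⟩ := SpImprim.exists_sp_chi p hS hr hr2 dg hdg (d - h) a₂ ha₂ h2
  obtain ⟨Y, hYmem, hYχ, hYpow, -, W₀, hW₀fr, hW₀, hW₀i⟩ :=
    exists_bsum (d := d) (by omega : h + (d - h) = d) g₁.1 g₂.1 g₁.2 g₂.2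
  have hYr : Y ^ r = 1 := hYpow r hg₁r hg₂r
  have hsumA : ∑ π, a π = ∑ π, a₁ π + ∑ π, a₂ π := by
    rw [← Finset.sum_add_distrib]
    exact Finset.sum_congr rfl (fun π _ => (hsum π).symm)
  have hχeq : Y.charpoly = y.charpoly := by
    rw [hYχ, hg₁χ, hg₂χ, hχ]
    unfold chi
    have hk : 2 * d - i * ∑ π, a π = (2 * h - i * ∑ π, a₁ π) +
        (2 * (d - h) - i * ∑ π, a₂ π) := by
      rw [hsumA, mul_add]
      omega
    rw [hk, pow_add]
    have hp : ∀ π : S, π.1 ^ a π = π.1 ^ a₁ π * π.1 ^ a₂ π := by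
      intro π
      rw [← pow_add, hsum]
    rw [Finset.prod_congr rfl (fun π _ => hp π), Finset.prod_mul_distrib]
    ring
  obtain ⟨yg, hyg⟩ : ∃ yg : ↥(Matrix.symplecticGroup (Fin d) F), yg.1 = y := ⟨⟨y, hy⟩, rfl⟩
  obtain ⟨Yg, hYg⟩ : ∃ Yg : ↥(Matrix.symplecticGroup (Fin d) F), Yg.1 = Y :=
    ⟨⟨Y, hYmem⟩, rfl⟩
  have hygr : yg ^ r = 1 := by
    apply Subtype.ext
    rw [SubmonoidClass.coe_pow, hyg, hyr]
    rfl
  have hYgr : Yg ^ r = 1 := by
    apply Subtype.ext
    rw [SubmonoidClass.coe_pow, hYg, hYr]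
    rfl
  have hconj := sp_conj_of_charpoly yg Yg r r hrF hrF hygr hYgr (by rw [hyg, hYg, hχeq])
  obtain ⟨P, hP⟩ := isConj_iff.1 hconj
  have hyQ : y * (P⁻¹).1 = (P⁻¹).1 * Y := by
    have h7 : yg * P⁻¹ = P⁻¹ * Yg := by
      rw [← hP]
      group
    have h8 := congrArg Subtype.val h7
    rw [← hyg, ← hYg]
    exact h8
  refine ⟨W₀.map (Matrix.toLin' (P⁻¹).1), ?_, nd_smul P⁻¹ W₀ hW₀,
    transport y Y (P⁻¹).1 hyQ W₀ hW₀i⟩
  rw [finrank_smul, hW₀fr]

/-- Odd primes different from the characteristic. -/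
theorem main_odd {p q : ℕ} [Fact p.Prime] [CharP F p] (hq : Fintype.card F = q) (d m : ℕ)
    (hm : 2 ≤ m) (hme : Even m) (hmd : m < d) (r : ℕ) [Fact r.Prime] (hr2 : r ≠ 2)
    (hrp : r ≠ p)
    (hrΩ : r ∣ Nat.card {W : Submodule F (Fin d ⊕ Fin d → F) // finrank F W = m ∧ Nd W})
    (i c : ℕ) (hi : i = orderOf (q : ZMod r)) (hc : c = if Even i then i else 2 * i) :
    (∀ x : ↥(Matrix.symplecticGroup (Fin d) F),
      (∃ z : F, ((x ^ r : ↥(Matrix.symplecticGroup (Fin d) F)) :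
        Matrix (Fin d ⊕ Fin d) (Fin d ⊕ Fin d) F) =
          z • (1 : Matrix (Fin d ⊕ Fin d) (Fin d ⊕ Fin d) F)) →
      (∀ z : F, (x : Matrix (Fin d ⊕ Fin d) (Fin d ⊕ Fin d) F) ≠
        z • (1 : Matrix (Fin d ⊕ Fin d) (Fin d ⊕ Fin d) F)) →
      ∃ W : Submodule F (Fin d ⊕ Fin d → F), finrank F W = m ∧ Nd W ∧
        W.map (Matrix.toLin' (x : Matrix (Fin d ⊕ Fin d) (Fin d ⊕ Fin d) F)) ≤ W) ↔
    (c ≤ m ∧ m % c ≤ (2 * d) % c) := by
  classical
  have hr : r.Prime := Fact.out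
  obtain ⟨S, dg, hS, hne, hdg, hdd, hdev, hdodd⟩ := SpImprim.exists_data hq r hr2 hrp i hi
  have hrF : (r : F) ≠ 0 := Elusive.natCast_ne_zero_of_ne r hrp
  have hi0 : 0 < i := by
    rw [hi]
    exact Elusive.orderOf_pos_of_ne hq r hrp
  have hd0 : 0 < d := by omega
  obtain ⟨π₀, hπ₀⟩ := hne
  obtain ⟨P₀, -⟩ : ∃ P₀ : S, P₀ = ⟨π₀, hπ₀⟩ := ⟨_, rfl⟩
  have hpar : ((∀ π, dg π = π) ∧ c = i) ∨ ((∀ π, dg π ≠ π) ∧ c = 2 * i) := by
    by_cases hev : Even i
    · left
      exact ⟨hdev hev, by rw [hc, if_pos hev]⟩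
    · right
      exact ⟨hdodd (Nat.not_even_iff_odd.1 hev), by rw [hc, if_neg hev]⟩
  have hc0 : 0 < c := by
    rcases hpar with ⟨-, h⟩ | ⟨-, h⟩ <;> omega
  have hcdvd : ∀ N : ℕ, Even N → i ∣ N → c ∣ N := by
    intro N hN hiN
    rcases hpar with ⟨-, h⟩ | ⟨hfpf, h⟩
    · rw [h]
      exact hiN
    · rw [h]
      have hodd : Odd i := by
        by_contra hev
        rw [Nat.not_odd_iff_even] at hev
        exact hfpf P₀ (hdev hev _)
      exact Nat.Coprime.mul_dvd_of_dvd_of_dvd (Nat.coprime_two_left.2 hodd) hN.two_dvd hiN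
  obtain ⟨h, hh⟩ := hme
  have hh2 : m = 2 * h := by omega
  have hrΩ' : r ∣ Nat.card {W : Submodule F (Fin d ⊕ Fin d → F) //
      finrank F W = 2 * h ∧ Nd W} := by
    rw [← hh2]
    exact hrΩ
  obtain ⟨j, hjh, hj⟩ := exists_of_dvd_nd r hrp h (by omega) hrΩ'
  rw [hq, ← hi] at hj
  have hcj : c ∣ 2 * (d - j) := hcdvd _ (even_two_mul _) hj
  have hk2 : (2 * d) % c + 2 ≤ m := by
    obtain ⟨u, hu⟩ := hcj
    have h1 : 2 * d = 2 * j + c * u := by omega
    have h2 : (2 * d) % c = (2 * j) % c := by rw [h1, Nat.add_mul_mod_self_left]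
    have h3 := Nat.mod_le (2 * j) c
    omega
  have hc2d : c ≤ 2 * d := by
    have h1 := Nat.le_of_dvd (by omega) hcj
    omega
  have hmodlt := Nat.mod_lt (2 * d) hc0
  constructor
  · intro hL
    have hN0 : 0 < (2 * d) / c := Nat.div_pos hc2d hc0
    obtain ⟨x, hxr, hxfix, hxns⟩ := SpImprim.exists_test p hS hr hr2 hrF dg hdg hdd hpar
      ⟨π₀, hπ₀⟩ d ((2 * d) / c) (Nat.mul_div_le _ _) hN0 hc0
    obtain ⟨W, hWfr, hW, hWi⟩ := hL x ⟨1, by rw [SubmonoidClass.coe_pow, hxr, one_smul]⟩ hxns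
    have hfpow : (Matrix.toLin' x.1 : Module.End F (Fin d ⊕ Fin d → F)) ^ r = 1 := by
      rw [SpImprim.toLin_pow, hxr, Matrix.toLin'_one]
      rfl
    have h1 := SpImprim.dvd_sub_fix hS hrF (Matrix.toLin' x.1) hfpow W hWi
    have h2 := SpImprim.even_fix_inf x.1 x.2 hxr hrF W hWi hW
    have h3 : finrank F (W ⊓ SpImprim.fixS (Matrix.toLin' x.1) :
        Submodule F (Fin d ⊕ Fin d → F)) ≤ finrank F (SpImprim.fixS (Matrix.toLin' x.1)) :=
      Submodule.finrank_mono inf_le_right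
    have h4 : finrank F (W ⊓ SpImprim.fixS (Matrix.toLin' x.1) :
        Submodule F (Fin d ⊕ Fin d → F)) ≤ finrank F W :=
      Submodule.finrank_mono inf_le_left
    rw [hxfix] at h3
    rw [hWfr] at h1 h4
    obtain ⟨f₀, hf₀⟩ : ∃ f₀ : ℕ, f₀ = finrank F (W ⊓ SpImprim.fixS (Matrix.toLin' x.1) :
        Submodule F (Fin d ⊕ Fin d → F)) := ⟨_, rfl⟩
    rw [← hf₀] at h1 h2 h3 h4
    have hNc := Nat.div_add_mod (2 * d) c
    have h5 : c ∣ m - f₀ := by
      apply hcdvd _ _ h1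
      obtain ⟨e, he⟩ := h2
      exact ⟨h - e, by omega⟩
    obtain ⟨u, hu⟩ := h5
    have h6 : m = f₀ + c * u := by omega
    have h7 : m % c = f₀ := by
      rw [h6, Nat.add_mul_mod_self_left, Nat.mod_eq_of_lt (by omega)]
    refine ⟨?_, by omega⟩
    by_contra hlt
    have h8 : m % c = m := Nat.mod_eq_of_lt (by omega)
    omega
  · rintro ⟨hcm, hk⟩ x ⟨z, hz⟩ hns
    have hzmem : z • (1 : Matrix (Fin d ⊕ Fin d) (Fin d ⊕ Fin d) F) ∈
        Matrix.symplecticGroup (Fin d) F := by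
      rw [← hz]
      exact (x ^ r).2
    rw [SubmonoidClass.coe_pow] at hz
    have hzz : z * z = 1 := SpImprim.scalar_sq hd0 z hzmem
    have hz0 : z ≠ 0 := by
      rintro rfl
      rw [mul_zero] at hzz
      exact zero_ne_one hzz
    have hzr : z ^ r = z := by
      obtain ⟨k, hk'⟩ := hr.odd_of_ne_two hr2
      rw [hk', pow_succ, pow_mul, pow_two, hzz, one_pow, one_mul]
    obtain ⟨y, hy⟩ : ∃ y : Matrix (Fin d ⊕ Fin d) (Fin d ⊕ Fin d) F, y = z • x.1 := ⟨_, rfl⟩
    have hyr : y ^ r = 1 := by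
      rw [hy, _root_.smul_pow, hz, smul_smul, hzr, hzz, one_smul]
    have hymem : y ∈ Matrix.symplecticGroup (Fin d) F := by
      have h1 : y = (z • (1 : Matrix (Fin d ⊕ Fin d) (Fin d ⊕ Fin d) F)) * x.1 := by
        rw [hy, Matrix.smul_mul, Matrix.one_mul]
      rw [h1]
      exact mul_mem hzmem x.2
    have htrans : ∀ W : Submodule F (Fin d ⊕ Fin d → F),
        W.map (Matrix.toLin' x.1) = W.map (Matrix.toLin' y) := by
      intro W
      rw [hy, map_smul]
      exact (Submodule.map_smul _ _ z hz0).symm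
    suffices hsuff : ∃ W : Submodule F (Fin d ⊕ Fin d → F), finrank F W = m ∧ Nd W ∧
        W.map (Matrix.toLin' y) ≤ W by
      obtain ⟨W, h1, h2, h3⟩ := hsuff
      exact ⟨W, h1, h2, by rw [htrans W]; exact h3⟩
    obtain ⟨a, hale, hχ, hasym⟩ := SpImprim.symm_of_sp hS dg hdg hdd d y hymem hyr
    obtain ⟨a₁, a₂, ha₁, ha₂, hsum, g1, g2⟩ := exists_split_sym dg hdd i c (2 * d) m hi0 hpar a
      hasym hale hk
    rw [hh2]
    exact exists_nd_of_split p hS hr hr2 hrF dg hdg (by omega) y hymem hyr a hale hχ a₁ a₂ ha₁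
      ha₂ hsum (by omega) (by omega)

end semisimple

section unip

variable {F : Type u} [Field F] {d : ℕ}

theorem adj_one (x xi : Matrix (Fin d ⊕ Fin d) (Fin d ⊕ Fin d) F)
    (hx : x ∈ Matrix.symplecticGroup (Fin d) F) (hxi : xi * x = 1) (u v : Fin d ⊕ Fin d → F) :
    sympForm d F ((x - 1) *ᵥ u) v = - sympForm d F u ((xi * (x - 1)) *ᵥ v) := by
  have hxi' : x * xi = 1 := mul_eq_one_comm.1 hxi
  have h1 : sympForm d F (x *ᵥ u) v = sympForm d F u (xi *ᵥ v) := by
    have h2 := sf_inv x hx u (xi *ᵥ v)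
    rw [Matrix.mulVec_mulVec, hxi', Matrix.one_mulVec] at h2
    exact h2
  have h3 : (xi * (x - 1)) *ᵥ v = v - xi *ᵥ v := by
    rw [Matrix.mul_sub, Matrix.mul_one, hxi, Matrix.sub_mulVec, Matrix.one_mulVec]
  rw [Matrix.sub_mulVec, Matrix.one_mulVec, Helper13.sympForm_sub_left, h1, h3,
    Helper13.sympForm_sub_right]
  ring

theorem adj_pow (x xi : Matrix (Fin d ⊕ Fin d) (Fin d ⊕ Fin d) F)
    (hx : x ∈ Matrix.symplecticGroup (Fin d) F) (hxi : xi * x = 1) :
    ∀ (a : ℕ) (u v : Fin d ⊕ Fin d → F), sympForm d F (((x - 1) ^ a) *ᵥ u) v =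
      (-1) ^ a * sympForm d F u (((xi * (x - 1)) ^ a) *ᵥ v)
  | 0, u, v => by simp
  | a + 1, u, v => by
    have e1 : ((x - 1) ^ (a + 1)) *ᵥ u = ((x - 1) ^ a) *ᵥ ((x - 1) *ᵥ u) := by
      rw [pow_succ, Matrix.mulVec_mulVec]
    have e2 : ((xi * (x - 1)) ^ (a + 1)) *ᵥ v =
        (xi * (x - 1)) *ᵥ (((xi * (x - 1)) ^ a) *ᵥ v) := by
      rw [pow_succ', Matrix.mulVec_mulVec]
    rw [e1, e2, adj_pow x xi hx hxi a, adj_one x xi hx hxi]
    ring

theorem gram_zero (x xi : Matrix (Fin d ⊕ Fin d) (Fin d ⊕ Fin d) F)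
    (hx : x ∈ Matrix.symplecticGroup (Fin d) F) (hxi : xi * x = 1) (k : ℕ)
    (u v : Fin d ⊕ Fin d → F) (hv : ((x - 1) ^ k) *ᵥ v = 0) (a b : ℕ) (hab : k ≤ a + b) :
    sympForm d F (((x - 1) ^ a) *ᵥ u) (((x - 1) ^ b) *ᵥ v) = 0 := by
  have hxi' : x * xi = 1 := mul_eq_one_comm.1 hxi
  have hcomm : Commute xi (x - 1) := by
    show xi * (x - 1) = (x - 1) * xi
    rw [Matrix.mul_sub, Matrix.sub_mul, hxi, hxi', Matrix.mul_one, Matrix.one_mul]
  have e1 : ((xi * (x - 1)) ^ a) *ᵥ (((x - 1) ^ b) *ᵥ v) =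
      (xi ^ a) *ᵥ (((x - 1) ^ (a + b - k)) *ᵥ (((x - 1) ^ k) *ᵥ v)) := by
    have h3 : (x - 1) ^ a * (x - 1) ^ b = (x - 1) ^ (a + b - k) * (x - 1) ^ k := by
      rw [← pow_add, ← pow_add, Nat.sub_add_cancel hab]
    rw [hcomm.mul_pow, Matrix.mulVec_mulVec, Matrix.mul_assoc, h3, Matrix.mulVec_mulVec,
      Matrix.mulVec_mulVec, Matrix.mul_assoc]
  rw [adj_pow x xi hx hxi, e1, hv, Matrix.mulVec_zero, Matrix.mulVec_zero,
    Helper13.sympForm_zero_right, mul_zero]

theorem gram_top (x xi : Matrix (Fin d ⊕ Fin d) (Fin d ⊕ Fin d) F)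
    (hx : x ∈ Matrix.symplecticGroup (Fin d) F) (hxi : xi * x = 1) (k : ℕ) (hk : 0 < k)
    (u v : Fin d ⊕ Fin d → F) (hv : ((x - 1) ^ k) *ᵥ v = 0) (a b : ℕ) (hab : a + b + 1 = k) :
    sympForm d F (((x - 1) ^ a) *ᵥ u) (((x - 1) ^ b) *ᵥ v) =
      (-1) ^ a * sympForm d F u (((x - 1) ^ (k - 1)) *ᵥ v) := by
  have hxi' : x * xi = 1 := mul_eq_one_comm.1 hxi
  have hcomm : Commute xi (x - 1) := by
    show xi * (x - 1) = (x - 1) * xi
    rw [Matrix.mul_sub, Matrix.sub_mul, hxi, hxi', Matrix.mul_one, Matrix.one_mul]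
  obtain ⟨z, hz⟩ : ∃ z : Fin d ⊕ Fin d → F, z = ((x - 1) ^ (k - 1)) *ᵥ v := ⟨_, rfl⟩
  have hNz : (x - 1) *ᵥ z = 0 := by
    rw [hz, Matrix.mulVec_mulVec, ← pow_succ', Nat.sub_add_cancel hk, hv]
  have hxz : x *ᵥ z = z := by
    rw [Matrix.sub_mulVec, Matrix.one_mulVec] at hNz
    exact sub_eq_zero.1 hNz
  have hxiz : xi *ᵥ z = z := by
    conv_lhs => rw [← hxz]
    rw [Matrix.mulVec_mulVec, hxi, Matrix.one_mulVec]
  have hxipow : ∀ n : ℕ, (xi ^ n) *ᵥ z = z := by
    intro n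
    induction n with
    | zero => rw [pow_zero, Matrix.one_mulVec]
    | succ n ih => rw [pow_succ, ← Matrix.mulVec_mulVec, hxiz, ih]
  have e1 : ((xi * (x - 1)) ^ a) *ᵥ (((x - 1) ^ b) *ᵥ v) = z := by
    rw [hcomm.mul_pow, Matrix.mulVec_mulVec, Matrix.mul_assoc, ← pow_add,
      ← Matrix.mulVec_mulVec]
    have h3 : a + b = k - 1 := by omega
    rw [h3, ← hz, hxipow]
  rw [adj_pow x xi hx hxi, e1, hz]

theorem mem_pow_sub_one (x : Matrix (Fin d ⊕ Fin d) (Fin d ⊕ Fin d) F)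
    (U : Submodule F (Fin d ⊕ Fin d → F)) (hUi : U.map (Matrix.toLin' x) ≤ U)
    (v : Fin d ⊕ Fin d → F) (hv : v ∈ U) (a : ℕ) : ((x - 1) ^ a) *ᵥ v ∈ U := by
  induction a with
  | zero =>
    rw [pow_zero, Matrix.one_mulVec]
    exact hv
  | succ a ih =>
    rw [pow_succ', ← Matrix.mulVec_mulVec, Matrix.sub_mulVec, Matrix.one_mulVec]
    exact U.sub_mem (mem_of_inv x U hUi _ ih) ih

theorem map_pow_sub_one_le (x : Matrix (Fin d ⊕ Fin d) (Fin d ⊕ Fin d) F)
    (U : Submodule F (Fin d ⊕ Fin d → F)) (hUi : U.map (Matrix.toLin' x) ≤ U) (j : ℕ) :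
    U.map (Matrix.toLin' ((x - 1) ^ j)) ≤ U := by
  rintro _ ⟨v, hv, rfl⟩
  rw [Matrix.toLin'_apply]
  exact mem_pow_sub_one x U hUi v hv j

theorem finrank_map_sup (f : (Fin d ⊕ Fin d → F) →ₗ[F] (Fin d ⊕ Fin d → F))
    (P W : Submodule F (Fin d ⊕ Fin d → F)) (hPW : Disjoint P W) (hP : P.map f ≤ P)
    (hW : W.map f ≤ W) :
    finrank F ↥((P ⊔ W).map f) = finrank F ↥(P.map f) + finrank F ↥(W.map f) := by
  rw [Submodule.map_sup]
  have h1 := Submodule.finrank_sup_add_finrank_inf_eq (P.map f) (W.map f)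
  have h2 : P.map f ⊓ W.map f = ⊥ :=
    le_antisymm ((inf_le_inf hP hW).trans hPW.le_bot) bot_le
  rw [h2, finrank_bot, add_zero] at h1
  exact h1

/-- A chain of Jordan blocks with nondegenerate top pairing spans a nondegenerate invariant
subspace. -/
theorem chain_piece (x : Matrix (Fin d ⊕ Fin d) (Fin d ⊕ Fin d) F)
    (hx : x ∈ Matrix.symplecticGroup (Fin d) F) {ι : Type} [Fintype ι]
    (u : ι → (Fin d ⊕ Fin d → F)) (k : ℕ) (hk : 0 < k)
    (hu : ∀ t, ((x - 1) ^ k) *ᵥ u t = 0)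
    (hM : ∀ α : ι → F, (∀ t', ∑ t, α t * sympForm d F (u t) (((x - 1) ^ (k - 1)) *ᵥ u t') = 0) →
      α = 0) :
    ∃ P : Submodule F (Fin d ⊕ Fin d → F), Nd P ∧ P.map (Matrix.toLin' x) ≤ P ∧
      (∀ U : Submodule F (Fin d ⊕ Fin d → F), U.map (Matrix.toLin' x) ≤ U → (∀ t, u t ∈ U) →
        P ≤ U) ∧
      ∀ j, finrank F ↥(P.map (Matrix.toLin' ((x - 1) ^ j))) = Fintype.card ι * (k - j) := by
  classical
  obtain ⟨xi, hxi⟩ : ∃ xi : Matrix (Fin d ⊕ Fin d) (Fin d ⊕ Fin d) F, xi * x = 1 := by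
    refine ⟨((⟨x, hx⟩ : ↥(Matrix.symplecticGroup (Fin d) F))⁻¹).1, ?_⟩
    have h1 := inv_mul_cancel (⟨x, hx⟩ : ↥(Matrix.symplecticGroup (Fin d) F))
    exact congrArg Subtype.val h1
  obtain ⟨w, hw⟩ : ∃ w : ι × Fin k → (Fin d ⊕ Fin d → F),
      w = fun s => ((x - 1) ^ s.2.val) *ᵥ u s.1 := ⟨_, rfl⟩
  have hG : ∀ α : ι × Fin k → F,
      (∀ s', ∑ s, α s * sympForm d F (w s) (w s') = 0) → α = 0 := by
    intro α hα
    have key : ∀ a : ℕ, ∀ ha : a < k, ∀ t, α (t, ⟨a, ha⟩) = 0 := by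
      intro a
      induction a using Nat.strong_induction_on with
      | _ a ih =>
        intro ha
        have h3 : (fun t => α (t, ⟨a, ha⟩)) = 0 := by
          apply hM
          intro t'
          have h4 := hα (t', ⟨k - 1 - a, by omega⟩)
          rw [Fintype.sum_prod_type] at h4
          have h5 : ∀ t, ∑ a' : Fin k, α (t, a') * sympForm d F (w (t, a'))
              (w (t', ⟨k - 1 - a, by omega⟩)) =
              α (t, ⟨a, ha⟩) * ((-1) ^ a * sympForm d F (u t) (((x - 1) ^ (k - 1)) *ᵥ u t')) := by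
            intro t
            rw [Finset.sum_eq_single ⟨a, ha⟩]
            · rw [hw]
              show α (t, ⟨a, ha⟩) * sympForm d F (((x - 1) ^ a) *ᵥ u t)
                (((x - 1) ^ (k - 1 - a)) *ᵥ u t') = _
              rw [gram_top x xi hx hxi k hk (u t) (u t') (hu t') a (k - 1 - a) (by omega)]
            · intro a' _ hne
              rcases Nat.lt_or_gt_of_ne (fun h => hne (Fin.ext h) : a'.val ≠ a) with hlt | hgt
              · rw [ih a'.val hlt a'.2 t, zero_mul]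
              · rw [hw]
                show α (t, a') * sympForm d F (((x - 1) ^ a'.val) *ᵥ u t)
                  (((x - 1) ^ (k - 1 - a)) *ᵥ u t') = 0
                rw [gram_zero x xi hx hxi k (u t) (u t') (hu t') a'.val (k - 1 - a) (by omega),
                  mul_zero]
            · intro h
              exact absurd (Finset.mem_univ _) h
          rw [Finset.sum_congr rfl (fun t _ => h5 t)] at h4
          have h6 : (-1 : F) ^ a * ∑ t, α (t, ⟨a, ha⟩) *
              sympForm d F (u t) (((x - 1) ^ (k - 1)) *ᵥ u t') = 0 := by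
            rw [Finset.mul_sum, ← h4]
            apply Finset.sum_congr rfl
            intro t _
            ring
          rcases mul_eq_zero.1 h6 with h7 | h7
          · exact absurd h7 (pow_ne_zero _ (neg_ne_zero.2 one_ne_zero))
          · exact h7
        intro t
        exact congrFun h3 t
    funext s
    obtain ⟨t, ⟨a, ha⟩⟩ := s
    exact key a ha t
  obtain ⟨hli, hnd⟩ := gram_nd w hG
  have hspanU : ∀ U : Submodule F (Fin d ⊕ Fin d → F), U.map (Matrix.toLin' x) ≤ U →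
      (∀ t, u t ∈ U) → Submodule.span F (Set.range w) ≤ U := by
    intro U hUi hUu
    apply Submodule.span_le.2
    rintro _ ⟨s, rfl⟩
    rw [hw]
    exact mem_pow_sub_one x U hUi _ (hUu s.1) _
  have hupow : ∀ t (n : ℕ), k ≤ n → ((x - 1) ^ n) *ᵥ u t = 0 := by
    intro t n hn
    rw [← Nat.sub_add_cancel hn, pow_add, ← Matrix.mulVec_mulVec, hu, Matrix.mulVec_zero]
  have hmemP : ∀ t (n : ℕ), ((x - 1) ^ n) *ᵥ u t ∈ Submodule.span F (Set.range w) := by
    intro t n
    by_cases hn : n < k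
    · apply Submodule.subset_span
      refine ⟨(t, ⟨n, hn⟩), ?_⟩
      rw [hw]
    · rw [hupow t n (by omega)]
      exact Submodule.zero_mem _
  refine ⟨Submodule.span F (Set.range w), hnd, ?_, hspanU, ?_⟩
  · rw [Submodule.map_span_le]
    rintro _ ⟨s, rfl⟩
    have h3 : Matrix.toLin' x (w s) = w s + ((x - 1) ^ (s.2.val + 1)) *ᵥ u s.1 := by
      rw [Matrix.toLin'_apply, hw]
      show x *ᵥ (((x - 1) ^ s.2.val) *ᵥ u s.1) = ((x - 1) ^ s.2.val) *ᵥ u s.1 +
        ((x - 1) ^ (s.2.val + 1)) *ᵥ u s.1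
      rw [pow_succ', ← Matrix.mulVec_mulVec (u s.1) (x - 1), Matrix.sub_mulVec,
        Matrix.one_mulVec]
      abel
    rw [h3]
    exact Submodule.add_mem _ (Submodule.subset_span ⟨s, rfl⟩) (hmemP s.1 _)
  · intro j
    obtain ⟨wj, hwj⟩ : ∃ wj : ι × Fin (k - j) → (Fin d ⊕ Fin d → F),
        wj = fun s => ((x - 1) ^ (s.2.val + j)) *ᵥ u s.1 := ⟨_, rfl⟩
    have hwjli : LinearIndependent F wj := by
      have h3 : wj = w ∘ (fun s : ι × Fin (k - j) => (s.1, (⟨s.2.val + j, by omega⟩ : Fin k))) := by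
        rw [hwj, hw]
        rfl
      rw [h3]
      apply hli.comp
      intro s s' hss
      have h4 := congrArg Prod.fst hss
      have h5 := congrArg (fun q : ι × Fin k => q.2.val) hss
      simp only at h4 h5
      exact Prod.ext h4 (Fin.ext (by omega))
    have hmap : (Submodule.span F (Set.range w)).map (Matrix.toLin' ((x - 1) ^ j)) =
        Submodule.span F (Set.range wj) := by
      apply le_antisymm
      · rw [Submodule.map_span_le]
        rintro _ ⟨s, rfl⟩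
        have h3 : Matrix.toLin' ((x - 1) ^ j) (w s) = ((x - 1) ^ (s.2.val + j)) *ᵥ u s.1 := by
          rw [Matrix.toLin'_apply, hw]
          show ((x - 1) ^ j) *ᵥ (((x - 1) ^ s.2.val) *ᵥ u s.1) = _
          rw [Matrix.mulVec_mulVec, ← pow_add, add_comm]
        rw [h3]
        by_cases hn : s.2.val + j < k
        · apply Submodule.subset_span
          refine ⟨(s.1, ⟨s.2.val, by omega⟩), ?_⟩
          rw [hwj]
        · rw [hupow s.1 _ (by omega)]
          exact Submodule.zero_mem _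
      · apply Submodule.span_le.2
        rintro _ ⟨s, rfl⟩
        refine ⟨w (s.1, ⟨s.2.val, by omega⟩), Submodule.subset_span ⟨_, rfl⟩, ?_⟩
        rw [Matrix.toLin'_apply, hw, hwj]
        show ((x - 1) ^ j) *ᵥ (((x - 1) ^ s.2.val) *ᵥ u s.1) = _
        rw [Matrix.mulVec_mulVec, ← pow_add, add_comm]
    rw [hmap, finrank_span_eq_card hwjli, Fintype.card_prod, Fintype.card_fin]

end unip

section unipstruct

variable {F : Type u} [Field F] {d : ℕ}

theorem unip_piece (x : Matrix (Fin d ⊕ Fin d) (Fin d ⊕ Fin d) F)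
    (hx : x ∈ Matrix.symplecticGroup (Fin d) F) (h2 : (2 : F) ≠ 0) (e : ℕ)
    (hnil : (x - 1) ^ e = 0) (U : Submodule F (Fin d ⊕ Fin d → F)) (hU : Nd U)
    (hUi : U.map (Matrix.toLin' x) ≤ U) (hne : U ≠ ⊥) :
    ∃ (k c : ℕ) (P : Submodule F (Fin d ⊕ Fin d → F)), 0 < k ∧ k ≤ e ∧
      ((c = 1 ∧ Even k) ∨ (c = 2 ∧ Odd k)) ∧ P ≤ U ∧ Nd P ∧ P.map (Matrix.toLin' x) ≤ P ∧
      ∀ j, finrank F ↥(P.map (Matrix.toLin' ((x - 1) ^ j))) = c * (k - j) := by
  classical
  obtain ⟨xi, hxi⟩ : ∃ xi : Matrix (Fin d ⊕ Fin d) (Fin d ⊕ Fin d) F, xi * x = 1 := by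
    refine ⟨((⟨x, hx⟩ : ↥(Matrix.symplecticGroup (Fin d) F))⁻¹).1, ?_⟩
    have h1 := inv_mul_cancel (⟨x, hx⟩ : ↥(Matrix.symplecticGroup (Fin d) F))
    exact congrArg Subtype.val h1
  have hex : ∃ k : ℕ, ∀ v ∈ U, ((x - 1) ^ k) *ᵥ v = 0 :=
    ⟨e, fun v _ => by rw [hnil, Matrix.zero_mulVec]⟩
  obtain ⟨k, hk⟩ : ∃ k, k = Nat.find hex := ⟨_, rfl⟩
  have hkspec : ∀ v ∈ U, ((x - 1) ^ k) *ᵥ v = 0 := by
    rw [hk]
    exact Nat.find_spec hex
  have hke : k ≤ e := by
    rw [hk]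
    exact Nat.find_min' hex (fun v _ => by rw [hnil, Matrix.zero_mulVec])
  have hk0 : 0 < k := by
    by_contra h
    have h0 : k = 0 := by omega
    apply hne
    rw [eq_bot_iff]
    intro v hv
    have h3 := hkspec v hv
    rw [h0, pow_zero, Matrix.one_mulVec] at h3
    exact (Submodule.mem_bot F).2 h3
  have hmin : ¬ ∀ v ∈ U, ((x - 1) ^ (k - 1)) *ᵥ v = 0 :=
    Nat.find_min hex (m := k - 1) (by rw [← hk]; omega)
  push Not at hmin
  obtain ⟨u₀, hu₀, hz₀⟩ := hmin
  obtain ⟨v₀, hv₀, hzv⟩ := hU _ (mem_pow_sub_one x U hUi u₀ hu₀ (k - 1)) hz₀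
  have hβsym : ∀ u ∈ U, ∀ v ∈ U, sympForm d F v (((x - 1) ^ (k - 1)) *ᵥ u) =
      (-1) ^ k * sympForm d F u (((x - 1) ^ (k - 1)) *ᵥ v) := by
    intro u hu v hv
    have h3 := gram_top x xi hx hxi k hk0 u v (hkspec v hv) (k - 1) 0 (by omega)
    rw [pow_zero, Matrix.one_mulVec] at h3
    rw [Helper13.sympForm_swap, h3]
    have h4 : (-1 : F) ^ k = (-1) ^ (k - 1) * (-1) := by
      rw [← pow_succ, Nat.sub_add_cancel hk0]
    rw [h4]
    ring
  have hβvu : sympForm d F v₀ (((x - 1) ^ (k - 1)) *ᵥ u₀) ≠ 0 := by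
    rw [Helper13.sympForm_swap]
    exact neg_ne_zero.2 hzv
  rcases Nat.even_or_odd k with hev | hodd
  · have hsym : ∀ u ∈ U, ∀ v ∈ U, sympForm d F v (((x - 1) ^ (k - 1)) *ᵥ u) =
        sympForm d F u (((x - 1) ^ (k - 1)) *ᵥ v) := by
      intro u hu v hv
      rw [hβsym u hu v hv, hev.neg_one_pow, one_mul]
    obtain ⟨u₁, hu₁, hu₁β⟩ : ∃ u₁ ∈ U, sympForm d F u₁ (((x - 1) ^ (k - 1)) *ᵥ u₁) ≠ 0 := by
      by_cases h3 : sympForm d F u₀ (((x - 1) ^ (k - 1)) *ᵥ u₀) ≠ 0
      · exact ⟨u₀, hu₀, h3⟩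
      by_cases h4 : sympForm d F v₀ (((x - 1) ^ (k - 1)) *ᵥ v₀) ≠ 0
      · exact ⟨v₀, hv₀, h4⟩
      push Not at h3 h4
      refine ⟨u₀ + v₀, U.add_mem hu₀ hv₀, ?_⟩
      rw [Matrix.mulVec_add, Helper13.sympForm_add_left, Helper13.sympForm_add_right,
        Helper13.sympForm_add_right, h3, h4, hsym v₀ hv₀ u₀ hu₀, zero_add, add_zero, ← two_mul]
      exact mul_ne_zero h2 hβvu
    obtain ⟨P, hP, hPi, hPmin, hPrk⟩ := chain_piece x hx (fun _ : Unit => u₁) k hk0
      (fun _ => hkspec u₁ hu₁) (by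
        intro α hα
        have h3 := hα ()
        simp only [Finset.univ_unique, Finset.sum_singleton] at h3
        funext t
        rcases mul_eq_zero.1 h3 with h5 | h5
        · cases t
          exact h5
        · exact absurd h5 hu₁β)
    refine ⟨k, 1, P, hk0, hke, Or.inl ⟨rfl, hev⟩, hPmin U hUi (fun _ => hu₁), hP, hPi, ?_⟩
    intro j
    rw [hPrk j, Fintype.card_unit]
  · have hskew : ∀ u ∈ U, ∀ v ∈ U, sympForm d F v (((x - 1) ^ (k - 1)) *ᵥ u) =
        -sympForm d F u (((x - 1) ^ (k - 1)) *ᵥ v) := by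
      intro u hu v hv
      rw [hβsym u hu v hv, hodd.neg_one_pow, neg_one_mul]
    have hself : ∀ u ∈ U, sympForm d F u (((x - 1) ^ (k - 1)) *ᵥ u) = 0 := by
      intro u hu
      have h3 := hskew u hu u hu
      have h4 : 2 * sympForm d F u (((x - 1) ^ (k - 1)) *ᵥ u) = 0 := by linear_combination h3
      exact (mul_eq_zero.1 h4).resolve_left h2
    have g00 := hself u₀ hu₀
    have g11 := hself v₀ hv₀
    have g01 : sympForm d F u₀ (((x - 1) ^ (k - 1)) *ᵥ v₀) ≠ 0 := by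
      rw [hskew v₀ hv₀ u₀ hu₀]
      exact neg_ne_zero.2 hβvu
    obtain ⟨P, hP, hPi, hPmin, hPrk⟩ := chain_piece x hx ![u₀, v₀] k hk0 (by
        intro t
        fin_cases t
        · exact hkspec u₀ hu₀
        · exact hkspec v₀ hv₀) (by
        intro α hα
        have e0 := hα 0
        have e1 := hα 1
        simp [Fin.sum_univ_two, g00, g11] at e0 e1
        funext t
        fin_cases t
        · exact e1.resolve_right g01
        · exact e0.resolve_right hβvu)
    refine ⟨k, 2, P, hk0, hke, Or.inr ⟨rfl, hodd⟩, hPmin U hUi (by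
      intro t
      fin_cases t
      · exact hu₀
      · exact hv₀), hP, hPi, ?_⟩
    intro j
    rw [hPrk j, Fintype.card_fin]

theorem finrank_map_zero (x : Matrix (Fin d ⊕ Fin d) (Fin d ⊕ Fin d) F)
    (P : Submodule F (Fin d ⊕ Fin d → F)) :
    finrank F ↥(P.map (Matrix.toLin' ((x - 1) ^ 0))) = finrank F P := by
  rw [pow_zero, Matrix.toLin'_one, Submodule.map_id]

/-- The structure of unipotent symplectic matrices in odd characteristic. -/
theorem unip_struct (x : Matrix (Fin d ⊕ Fin d) (Fin d ⊕ Fin d) F)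
    (hx : x ∈ Matrix.symplecticGroup (Fin d) F) (h2 : (2 : F) ≠ 0) (e : ℕ)
    (hnil : (x - 1) ^ e = 0) :
    ∀ n : ℕ, ∀ U : Submodule F (Fin d ⊕ Fin d → F), finrank F U = n → Nd U →
      U.map (Matrix.toLin' x) ≤ U →
      ∃ ν : Multiset ℕ, (∀ a ∈ ν, 0 < a ∧ a ≤ e) ∧ (∀ a, Odd a → Even (ν.count a)) ∧
        (∀ j, finrank F ↥(U.map (Matrix.toLin' ((x - 1) ^ j))) = Jordan.rk ν j) ∧
        (∀ ν' : Multiset ℕ, ν' ≤ ν → (∀ a, Odd a → Even (ν'.count a)) →
          ∃ W : Submodule F (Fin d ⊕ Fin d → F), W ≤ U ∧ Nd W ∧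
            W.map (Matrix.toLin' x) ≤ W ∧ finrank F W = ν'.sum) := by
  intro n
  induction n using Nat.strong_induction_on with
  | _ n ih =>
    intro U hUn hU hUi
    by_cases hne : U = ⊥
    · refine ⟨0, ?_, ?_, ?_, ?_⟩
      · intro a ha
        exact absurd ha (Multiset.notMem_zero a)
      · intro a _
        simp
      · intro j
        rw [hne, Submodule.map_bot, finrank_bot]
        simp [Jordan.rk]
      · intro ν' hν' _
        have h0 : ν' = 0 := Multiset.le_zero.1 hν'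
        refine ⟨⊥, bot_le, nd_bot, ?_, ?_⟩
        · rw [Submodule.map_bot]
        · rw [finrank_bot, h0, Multiset.sum_zero]
    obtain ⟨k, c, P, hk0, hke, hc, hPU, hP, hPi, hPrk⟩ := unip_piece x hx h2 e hnil U hU hUi hne
    have hPfr : finrank F P = c * k := by
      rw [← finrank_map_zero x P, hPrk 0, Nat.sub_zero]
    have h3 := finrank_inf_perp U P hP hPU
    have hU' := nd_inf_perp U P hU hP hPU
    have hU'i := inv_inf_perp x hx U P hUi hPi
    have hcpos : 0 < c * k := by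
      rcases hc with ⟨h, -⟩ | ⟨h, -⟩ <;> (rw [h]; omega)
    obtain ⟨ν₁, hν₁pos, hν₁sym, hν₁rk, hν₁sel⟩ := ih (n - c * k) (by omega)
      (U ⊓ SpIso.perp P) (by omega) hU' hU'i
    have hdisj : Disjoint P (U ⊓ SpIso.perp P) :=
      Disjoint.mono_right inf_le_right (nd_disjoint P hP)
    have hrank : ∀ j, finrank F ↥(U.map (Matrix.toLin' ((x - 1) ^ j))) =
        c * (k - j) + Jordan.rk ν₁ j := by
      intro j
      conv_lhs => rw [← sup_inf_perp U P hP hPU]
      rw [finrank_map_sup _ P (U ⊓ SpIso.perp P) hdisj (map_pow_sub_one_le x P hPi j)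
        (map_pow_sub_one_le x _ hU'i j), hPrk j, hν₁rk j]
    rcases hc with ⟨hc1, hkev⟩ | ⟨hc2, hkodd⟩
    · subst hc1
      refine ⟨k ::ₘ ν₁, ?_, ?_, ?_, ?_⟩
      · intro a ha
        rcases Multiset.mem_cons.1 ha with rfl | ha
        · exact ⟨hk0, hke⟩
        · exact hν₁pos a ha
      · intro a ha
        have hak : a ≠ k := by
          rintro rfl
          exact (Nat.not_even_iff_odd.2 ha) hkev
        rw [Multiset.count_cons_of_ne hak]
        exact hν₁sym a ha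
      · intro j
        rw [hrank j, Jordan.rk_cons, one_mul]
      · intro ν' hν' hν'sym
        by_cases hkν : k ∈ ν'
        · have hle : ν'.erase k ≤ ν₁ := Multiset.erase_le_iff_le_cons.2 hν'
          obtain ⟨W₀, hW₀U, hW₀, hW₀i, hW₀fr⟩ := hν₁sel (ν'.erase k) hle (by
            intro a ha
            have hak : a ≠ k := by
              rintro rfl
              exact (Nat.not_even_iff_odd.2 ha) hkev
            rw [Multiset.count_erase_of_ne hak]
            exact hν'sym a ha)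
          refine ⟨P ⊔ W₀, sup_le hPU (hW₀U.trans inf_le_left),
            nd_sup P W₀ hP hW₀ (hW₀U.trans inf_le_right), inv_sup _ P W₀ hPi hW₀i, ?_⟩
          rw [finrank_nd_sup P W₀ hP (hW₀U.trans inf_le_right), hPfr, hW₀fr, one_mul,
            Multiset.sum_erase hkν]
        · have hle : ν' ≤ ν₁ := (Multiset.le_cons_of_notMem hkν).1 hν'
          obtain ⟨W₀, hW₀U, hW₀, hW₀i, hW₀fr⟩ := hν₁sel ν' hle hν'sym
          exact ⟨W₀, hW₀U.trans inf_le_left, hW₀, hW₀i, hW₀fr⟩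
    · subst hc2
      refine ⟨k ::ₘ k ::ₘ ν₁, ?_, ?_, ?_, ?_⟩
      · intro a ha
        rcases Multiset.mem_cons.1 ha with rfl | ha
        · exact ⟨hk0, hke⟩
        · rcases Multiset.mem_cons.1 ha with rfl | ha
          · exact ⟨hk0, hke⟩
          · exact hν₁pos a ha
      · intro a ha
        rw [Multiset.count_cons, Multiset.count_cons]
        obtain ⟨r, hr⟩ := hν₁sym a ha
        by_cases hak : a = k
        · rw [if_pos hak]
          exact ⟨r + 1, by omega⟩
        · rw [if_neg hak]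
          exact ⟨r, by omega⟩
      · intro j
        rw [hrank j, Jordan.rk_cons, Jordan.rk_cons]
        ring
      · intro ν' hν' hν'sym
        by_cases hkν : k ∈ ν'
        · obtain ⟨r, hr⟩ := hν'sym k hkodd
          have hcnt : 0 < Multiset.count k ν' := Multiset.count_pos.2 hkν
          have hkν1 : k ∈ ν'.erase k := by
            rw [← Multiset.count_pos, Multiset.count_erase_self]
            omega
          have hle1 : ν'.erase k ≤ k ::ₘ ν₁ := Multiset.erase_le_iff_le_cons.2 hν'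
          have hle : (ν'.erase k).erase k ≤ ν₁ := Multiset.erase_le_iff_le_cons.2 hle1
          obtain ⟨W₀, hW₀U, hW₀, hW₀i, hW₀fr⟩ := hν₁sel ((ν'.erase k).erase k) hle (by
            intro a ha
            by_cases hak : a = k
            · rw [hak, Multiset.count_erase_self, Multiset.count_erase_self, hr]
              exact ⟨r - 1, by omega⟩
            · rw [Multiset.count_erase_of_ne hak, Multiset.count_erase_of_ne hak]
              exact hν'sym a ha)
          refine ⟨P ⊔ W₀, sup_le hPU (hW₀U.trans inf_le_left),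
            nd_sup P W₀ hP hW₀ (hW₀U.trans inf_le_right), inv_sup _ P W₀ hPi hW₀i, ?_⟩
          have hs1 := Multiset.sum_erase hkν
          have hs2 := Multiset.sum_erase hkν1
          rw [finrank_nd_sup P W₀ hP (hW₀U.trans inf_le_right), hPfr, hW₀fr]
          omega
        · have hle1 : ν' ≤ k ::ₘ ν₁ := (Multiset.le_cons_of_notMem hkν).1 hν'
          have hle : ν' ≤ ν₁ := (Multiset.le_cons_of_notMem hkν).1 hle1
          obtain ⟨W₀, hW₀U, hW₀, hW₀i, hW₀fr⟩ := hν₁sel ν' hle hν'sym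
          exact ⟨W₀, hW₀U.trans inf_le_left, hW₀, hW₀i, hW₀fr⟩

end unipstruct

section models

variable {F : Type u} [Field F]

theorem mat_pow_eq_zero_iff_rank' {ι : Type} [Fintype ι] [DecidableEq ι] (M : Matrix ι ι F)
    (j : ℕ) : M ^ j = 0 ↔ (M ^ j).rank = 0 := by
  rw [rank_pow_eq', ← Jordan.pow_eq_zero_iff_finrank, ← Matrix.toLin'_pow]
  exact (LinearEquiv.map_eq_zero_iff _).symm

theorem shiftMat_rank (s j : ℕ) :
    ((LinearMap.toMatrix' (Jordan.shift (F := F) s)) ^ j).rank = s - j := by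
  rw [rank_pow_eq', Matrix.toLin'_toMatrix', Jordan.finrank_range_shift_pow]

theorem hyp_mem' {m : ℕ} (A A' : Matrix (Fin m) (Fin m) F) (h : A * A' = 1) :
    Matrix.fromBlocks A 0 0 A'ᵀ ∈ Matrix.symplecticGroup (Fin m) F := by
  have h' : A'ᵀ * Aᵀ = 1 := by rw [← Matrix.transpose_mul, h, Matrix.transpose_one]
  rw [SymplecticGroup.mem_iff, Matrix.J, Matrix.fromBlocks_transpose, Matrix.fromBlocks_multiply,
    Matrix.fromBlocks_multiply]
  simp only [Matrix.mul_zero, Matrix.zero_mul, add_zero, zero_add, Matrix.mul_one,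
    Matrix.mul_neg, Matrix.neg_mul, Matrix.transpose_zero, Matrix.transpose_transpose, neg_zero,
    h, h']

/-- A symplectic unipotent matrix with two Jordan blocks of size `s`. -/
theorem exists_pair (s : ℕ) : ∃ g : Matrix (Fin s ⊕ Fin s) (Fin s ⊕ Fin s) F,
    g ∈ Matrix.symplecticGroup (Fin s) F ∧ ∀ j : ℕ, ((g - 1) ^ j).rank = 2 * (s - j) := by
  classical
  obtain ⟨S, hS⟩ : ∃ S : Matrix (Fin s) (Fin s) F,
      S = LinearMap.toMatrix' (Jordan.shift (F := F) s) := ⟨_, rfl⟩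
  have hrk : ∀ j, (S ^ j).rank = s - j := fun j => by
    rw [hS]
    exact shiftMat_rank s j
  have hSs : S ^ s = 0 := by
    rw [mat_pow_eq_zero_iff_rank', hrk, Nat.sub_self]
  obtain ⟨A', hA'⟩ : ∃ A' : Matrix (Fin s) (Fin s) F,
      A' = ∑ j ∈ Finset.range s, (-S) ^ j := ⟨_, rfl⟩
  have h1 : (1 + S) * A' = 1 := by
    have h := mul_neg_geom_sum (-S) s
    rw [sub_neg_eq_add, neg_pow, hSs, mul_zero, sub_zero] at h
    rw [hA']
    exact h
  have hcomm : Commute S A' := by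
    rw [hA']
    exact Commute.sum_right _ _ _ (fun j _ => (Commute.neg_right (Commute.refl S)).pow_right j)
  have h2 : A' - 1 = S * (-A') := by
    have h3 : A' + S * A' = 1 := by
      rw [← h1, add_mul, one_mul]
    rw [mul_neg, ← h3]
    abel
  have hunit : IsUnit (-A').det := by
    apply Matrix.isUnit_det_of_left_inverse (B := -(1 + S))
    rw [neg_mul_neg, h1]
  refine ⟨Matrix.fromBlocks (1 + S) 0 0 A'ᵀ, hyp_mem' (1 + S) A' h1, fun j => ?_⟩
  have h3 : (A'ᵀ - 1) ^ j = ((S ^ j) * ((-A') ^ j))ᵀ := by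
    rw [← (hcomm.neg_right).mul_pow, ← h2, Matrix.transpose_pow, Matrix.transpose_sub,
      Matrix.transpose_one]
  rw [fromBlocks_sub_one, Matrix.fromBlocks_diagonal_pow, rank_fromBlocks_diag,
    add_sub_cancel_left, hrk, h3, Matrix.rank_transpose,
    Matrix.rank_mul_eq_left_of_isUnit_det _ _ (by rw [Matrix.det_pow]; exact hunit.pow j), hrk]
  omega

/-- The Cayley transform of a nilpotent element of the symplectic Lie algebra. -/
theorem cayley {k : ℕ} (N : Matrix (Fin k ⊕ Fin k) (Fin k ⊕ Fin k) F)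
    (hNJ : N * Matrix.J (Fin k) F = -(Matrix.J (Fin k) F * Nᵀ)) (hnil : IsNilpotent N)
    (h2 : (2 : F) ≠ 0) :
    ∃ g : Matrix (Fin k ⊕ Fin k) (Fin k ⊕ Fin k) F, g ∈ Matrix.symplecticGroup (Fin k) F ∧
      ∀ j : ℕ, ((g - 1) ^ j).rank = (N ^ j).rank := by
  classical
  obtain ⟨n, hn⟩ := hnil
  obtain ⟨V, hV⟩ : ∃ V : Matrix (Fin k ⊕ Fin k) (Fin k ⊕ Fin k) F,
      V = ∑ j ∈ Finset.range n, N ^ j := ⟨_, rfl⟩
  have h1 : V * (1 - N) = 1 := by
    rw [hV, geom_sum_mul_neg, hn, sub_zero]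
  have hcomm : Commute N V := by
    rw [hV]
    exact Commute.sum_right _ _ _ (fun j _ => (Commute.refl N).pow_right j)
  have hkey : (1 + N) * Matrix.J (Fin k) F * (1 + N)ᵀ =
      (1 - N) * Matrix.J (Fin k) F * (1 - N)ᵀ := by
    simp only [Matrix.transpose_add, Matrix.transpose_sub, Matrix.transpose_one, add_mul,
      mul_add, sub_mul, mul_sub, one_mul, mul_one, hNJ, neg_mul]
    abel
  refine ⟨V * (1 + N), ?_, fun j => ?_⟩
  · rw [SymplecticGroup.mem_iff, Matrix.transpose_mul]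
    calc V * (1 + N) * Matrix.J (Fin k) F * ((1 + N)ᵀ * Vᵀ)
        = V * ((1 + N) * Matrix.J (Fin k) F * (1 + N)ᵀ) * Vᵀ := by simp only [mul_assoc]
      _ = (V * (1 - N)) * Matrix.J (Fin k) F * (V * (1 - N))ᵀ := by
        rw [hkey, Matrix.transpose_mul]
        simp only [mul_assoc]
      _ = Matrix.J (Fin k) F := by rw [h1, Matrix.transpose_one, mul_one, one_mul]
  · have h3 : V * (1 + N) - 1 = N * (V + V) := by
      have h4 : V * (1 + N) - 1 = V * (1 + N) - V * (1 - N) := by rw [h1]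
      rw [h4, mul_add, mul_sub, mul_one, mul_add, hcomm.eq]
      abel
    have hcomm2 : Commute N (V + V) := hcomm.add_right hcomm
    have hunit : IsUnit (V + V).det := by
      apply Matrix.isUnit_det_of_right_inverse (B := (2 : F)⁻¹ • (1 - N))
      rw [Matrix.mul_smul, add_mul, h1, ← two_smul F (1 : Matrix (Fin k ⊕ Fin k) (Fin k ⊕ Fin k) F),
        smul_smul, inv_mul_cancel₀ h2, one_smul]
    rw [h3, hcomm2.mul_pow,
      Matrix.rank_mul_eq_left_of_isUnit_det _ _ (by rw [Matrix.det_pow]; exact hunit.pow j)]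

/-- A symplectic unipotent matrix with a single Jordan block of size `2k`. -/
theorem exists_block (k : ℕ) (hk : 1 ≤ k) (h2 : (2 : F) ≠ 0) :
    ∃ g : Matrix (Fin k ⊕ Fin k) (Fin k ⊕ Fin k) F, g ∈ Matrix.symplecticGroup (Fin k) F ∧
      ∀ j : ℕ, ((g - 1) ^ j).rank = 2 * k - j := by
  classical
  obtain ⟨S, hS⟩ : ∃ S : Matrix (Fin k) (Fin k) F,
      S = LinearMap.toMatrix' (Jordan.shift (F := F) k) := ⟨_, rfl⟩
  have hrk : ∀ j, (S ^ j).rank = k - j := fun j => by
    rw [hS]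
    exact shiftMat_rank k j
  have hSk : S ^ k = 0 := by
    rw [mat_pow_eq_zero_iff_rank', hrk, Nat.sub_self]
  have hSk1 : S ^ (k - 1) ≠ 0 := by
    intro h
    have h3 := hrk (k - 1)
    rw [h, Matrix.rank_zero] at h3
    omega
  have hSe : ∀ i j : Fin k, S i j = if i.val = j.val + 1 then 1 else 0 := by
    intro i j
    rw [hS, LinearMap.toMatrix'_apply, Jordan.shift_apply]
    by_cases h : 0 < i.val
    · rw [dif_pos h, Pi.single_apply]
      by_cases h' : i.val = j.val + 1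
      · rw [if_pos h', if_pos]
        ext
        simp only
        omega
      · rw [if_neg h', if_neg]
        intro hh
        apply h'
        have h5 := congrArg Fin.val hh
        simp only at h5
        omega
    · rw [dif_neg h, if_neg]
      omega
  obtain ⟨C, hC⟩ : ∃ C : Matrix (Fin k) (Fin k) F,
      C = Matrix.of (fun i j : Fin k => if i.val + j.val + 1 = k then (1 : F) else 0) :=
    ⟨_, rfl⟩
  have hCe : ∀ i j : Fin k, C i j = if i.val + j.val + 1 = k then 1 else 0 := fun i j => by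
    rw [hC]
    rfl
  have hCt : Cᵀ = C := by
    ext i j
    rw [Matrix.transpose_apply, hCe, hCe, add_comm j.val i.val]
  have hCC : C * C = 1 := by
    ext i j
    rw [Matrix.mul_apply, Finset.sum_eq_single (Fin.rev i)]
    · rw [hCe, hCe, Matrix.one_apply, if_pos (by rw [Fin.val_rev]; omega), one_mul]
      by_cases hij : i = j
      · rw [if_pos hij, if_pos]
        rw [Fin.val_rev, ← hij]
        omega
      · rw [if_neg hij, if_neg]
        intro hh
        apply hij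
        ext
        rw [Fin.val_rev] at hh
        omega
    · intro l _ hl
      rw [hCe, if_neg, zero_mul]
      intro hh
      apply hl
      ext
      rw [Fin.val_rev]
      omega
    · intro h
      exact absurd (Finset.mem_univ _) h
  have hBe : ∀ i j : Fin k, (S * C) i j = if i.val + j.val = k then 1 else 0 := by
    intro i j
    rw [Matrix.mul_apply, Finset.sum_eq_single (Fin.rev j)]
    · have hc1 : C (Fin.rev j) j = 1 := by
        rw [hCe, if_pos (by rw [Fin.val_rev]; omega)]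
      rw [hc1, mul_one, hSe]
      by_cases h : i.val + j.val = k
      · rw [if_pos h, if_pos]
        rw [Fin.val_rev]
        omega
      · rw [if_neg h, if_neg]
        rw [Fin.val_rev]
        omega
    · intro l _ hl
      rw [hCe, if_neg, mul_zero]
      intro hh
      apply hl
      ext
      rw [Fin.val_rev]
      omega
    · intro h
      exact absurd (Finset.mem_univ _) h
  have hBt : (S * C)ᵀ = S * C := by
    ext i j
    rw [Matrix.transpose_apply, hBe, hBe, add_comm]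
  obtain ⟨N, hN⟩ : ∃ N : Matrix (Fin k ⊕ Fin k) (Fin k ⊕ Fin k) F,
      N = Matrix.fromBlocks 0 (S * C) C 0 := ⟨_, rfl⟩
  have hNJ : N * Matrix.J (Fin k) F = -(Matrix.J (Fin k) F * Nᵀ) := by
    rw [hN, Matrix.J, Matrix.fromBlocks_transpose, Matrix.fromBlocks_multiply,
      Matrix.fromBlocks_multiply, hBt, hCt, Matrix.fromBlocks_neg]
    simp
  have hN2 : N * N = Matrix.fromBlocks S 0 0 (C * S * C) := by
    rw [hN, Matrix.fromBlocks_multiply]
    simp [Matrix.mul_assoc, hCC]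
  have hNpow : ∀ j, N ^ (2 * j) = Matrix.fromBlocks (S ^ j) 0 0 ((C * S * C) ^ j) := by
    intro j
    rw [pow_mul, pow_two, hN2, Matrix.fromBlocks_diagonal_pow]
  have hCSC : ∀ j, (C * S * C) ^ j = C * S ^ j * C := by
    intro j
    induction j with
    | zero => rw [pow_zero, pow_zero, mul_one, hCC]
    | succ j ih =>
      rw [pow_succ, ih, pow_succ]
      calc C * S ^ j * C * (C * S * C) = C * S ^ j * (C * C) * S * C := by
            simp only [mul_assoc]
        _ = C * (S ^ j * S) * C := by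
            rw [hCC, mul_one]
            simp only [mul_assoc]
  have hnil : IsNilpotent N := by
    refine ⟨2 * k, ?_⟩
    rw [hNpow, hCSC, hSk, mul_zero, zero_mul, Matrix.fromBlocks_zero]
  have hne : N ^ (2 * k - 1) ≠ 0 := by
    intro h
    have h3 : N ^ (2 * (k - 1)) * N = 0 := by
      rw [← pow_succ]
      have h4 : 2 * (k - 1) + 1 = 2 * k - 1 := by omega
      rw [h4, h]
    rw [hNpow, hN, Matrix.fromBlocks_multiply] at h3
    have h5 := congrArg Matrix.toBlocks₂₁ h3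
    have h0 : Matrix.toBlocks₂₁ (0 : Matrix (Fin k ⊕ Fin k) (Fin k ⊕ Fin k) F) = 0 := rfl
    rw [Matrix.toBlocks_fromBlocks₂₁, hCSC, h0] at h5
    have h6 : C * S ^ (k - 1) = 0 := by
      have h7 : C * S ^ (k - 1) * C * C = 0 := by
        simpa using h5
      rw [mul_assoc, hCC, mul_one] at h7
      exact h7
    apply hSk1
    have h8 : C * (C * S ^ (k - 1)) = 0 := by rw [h6, mul_zero]
    rw [← mul_assoc, hCC, one_mul] at h8
    exact h8
  have hNrk : ∀ j, (N ^ j).rank = 2 * k - j := by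
    have hnilL : IsNilpotent (Matrix.toLin' N) := by
      obtain ⟨n, hn⟩ := hnil
      exact ⟨n, by rw [← Matrix.toLin'_pow, hn, map_zero]⟩
    obtain ⟨μ, hμpos, hμ⟩ := Jordan.exists_type (2 * k) (Fin k ⊕ Fin k → F) (Matrix.toLin' N)
      Lagr.finrank_space hnilL
    have hμ' : ∀ j, (N ^ j).rank = Jordan.rk μ j := fun j => by rw [rank_pow_eq', hμ]
    have hsum : μ.sum = 2 * k := by
      rw [← Jordan.rk_zero, ← hμ' 0, pow_zero, Matrix.rank_one, Fintype.card_sum,
        Fintype.card_fin]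
      ring
    have h3 : Jordan.rk μ (2 * k - 1) ≠ 0 := by
      rw [← hμ', Ne, ← mat_pow_eq_zero_iff_rank']
      exact hne
    rw [Ne, Jordan.rk_eq_zero_iff] at h3
    push Not at h3
    obtain ⟨a, ha, hlt⟩ := h3
    obtain ⟨μ', rfl⟩ := Multiset.exists_cons_of_mem ha
    rw [Multiset.sum_cons] at hsum
    have hμ'0 : μ' = 0 := by
      apply Multiset.eq_zero_of_forall_notMem
      intro b hb
      have h4 := hμpos b (Multiset.mem_cons_of_mem hb)
      have h5 := Multiset.le_sum_of_mem hb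
      omega
    intro j
    rw [hμ', hμ'0, Jordan.rk_cons]
    rw [hμ'0, Multiset.sum_zero] at hsum
    have h6 : Jordan.rk (0 : Multiset ℕ) j = 0 := by simp [Jordan.rk]
    rw [h6]
    omega
  obtain ⟨g, hg, hgr⟩ := cayley N hNJ hnil h2
  exact ⟨g, hg, fun j => by rw [hgr, hNrk]⟩

/-- Every symplectic partition is the Jordan type of a unipotent symplectic matrix
(odd characteristic). -/
theorem exists_unip_model (h2 : (2 : F) ≠ 0) : ∀ d : ℕ, ∀ μ : Multiset ℕ, (∀ a ∈ μ, 0 < a) →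
    (∀ a, Odd a → Even (μ.count a)) → μ.sum = 2 * d →
    ∃ x : Matrix (Fin d ⊕ Fin d) (Fin d ⊕ Fin d) F, x ∈ Matrix.symplecticGroup (Fin d) F ∧
      ∀ j : ℕ, ((x - 1) ^ j).rank = Jordan.rk μ j := by
  intro d
  induction d using Nat.strong_induction_on with
  | _ d ih =>
    intro μ hpos hsym hsum
    by_cases hμ0 : μ = 0
    · subst hμ0
      refine ⟨1, one_mem _, fun j => ?_⟩
      have hd : d = 0 := by
        rw [Multiset.sum_zero] at hsum
        omega
      subst hd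
      have h3 : ((1 : Matrix (Fin 0 ⊕ Fin 0) (Fin 0 ⊕ Fin 0) F) - 1) ^ j = 0 :=
        Subsingleton.elim _ _
      rw [h3, Matrix.rank_zero]
      simp [Jordan.rk]
    · obtain ⟨a, ha⟩ := Multiset.exists_mem_of_ne_zero hμ0
      obtain ⟨t, rfl⟩ := Multiset.exists_cons_of_mem ha
      have ha0 := hpos a (Multiset.mem_cons_self a t)
      rw [Multiset.sum_cons] at hsum
      rcases Nat.even_or_odd a with hev | hodd
      · obtain ⟨k, hk⟩ := hev
        have hk1 : 1 ≤ k := by omega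
        have hkd : k ≤ d := by omega
        obtain ⟨g₁, hg₁, hr₁⟩ := exists_block (F := F) k hk1 h2
        obtain ⟨x', hx', hr'⟩ := ih (d - k) (by omega) t
          (fun b hb => hpos b (Multiset.mem_cons_of_mem hb))
          (fun b hb => by
            have h3 := hsym b hb
            have hba : b ≠ a := by
              rintro rfl
              exact (Nat.not_even_iff_odd.2 hb) ⟨k, hk⟩
            rw [Multiset.count_cons_of_ne hba] at h3
            exact h3) (by omega)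
        obtain ⟨Y, hY, -, -, hYr, -⟩ := exists_bsum (show k + (d - k) = d by omega) g₁ x' hg₁ hx'
        refine ⟨Y, hY, fun j => ?_⟩
        rw [hYr, hr₁, hr', Jordan.rk_cons, hk]
        omega
      · have hc := hsym a hodd
        rw [Multiset.count_cons_self] at hc
        have hat : a ∈ t := by
          rw [← Multiset.count_pos]
          rcases hc with ⟨e, he⟩
          omega
        obtain ⟨t', rfl⟩ := Multiset.exists_cons_of_mem hat
        rw [Multiset.sum_cons] at hsum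
        have had : a ≤ d := by omega
        obtain ⟨g₁, hg₁, hr₁⟩ := exists_pair (F := F) a
        obtain ⟨x', hx', hr'⟩ := ih (d - a) (by omega) t'
          (fun b hb => hpos b (Multiset.mem_cons_of_mem (Multiset.mem_cons_of_mem hb)))
          (fun b hb => by
            have h3 := hsym b hb
            by_cases hba : b = a
            · subst hba
              rw [Multiset.count_cons_self, Multiset.count_cons_self] at h3
              rcases h3 with ⟨e, he⟩
              exact ⟨e - 1, by omega⟩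
            · rw [Multiset.count_cons_of_ne hba, Multiset.count_cons_of_ne hba] at h3
              exact h3) (by omega)
        obtain ⟨Y, hY, -, -, hYr, -⟩ := exists_bsum (show a + (d - a) = d by omega) g₁ x' hg₁ hx'
        refine ⟨Y, hY, fun j => ?_⟩
        rw [hYr, hr₁, hr', Jordan.rk_cons, Jordan.rk_cons]
        omega

end models

section unipiff

variable {F : Type u} [Field F]

/-- Elements of order `p` in odd characteristic `p`. -/
theorem unip_iff {p : ℕ} [Fact p.Prime] [CharP F p] (hp2 : 2 < p) (d m : ℕ) (hd : 0 < d)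
    (hme : Even m) (hm2d : m ≤ 2 * d) :
    (∀ x : ↥(Matrix.symplecticGroup (Fin d) F),
      (∃ z : F, ((x ^ p : ↥(Matrix.symplecticGroup (Fin d) F)) :
        Matrix (Fin d ⊕ Fin d) (Fin d ⊕ Fin d) F) =
          z • (1 : Matrix (Fin d ⊕ Fin d) (Fin d ⊕ Fin d) F)) →
      (∀ z : F, (x : Matrix (Fin d ⊕ Fin d) (Fin d ⊕ Fin d) F) ≠
        z • (1 : Matrix (Fin d ⊕ Fin d) (Fin d ⊕ Fin d) F)) →
      ∃ W : Submodule F (Fin d ⊕ Fin d → F), finrank F W = m ∧ Nd W ∧
        W.map (Matrix.toLin' (x : Matrix (Fin d ⊕ Fin d) (Fin d ⊕ Fin d) F)) ≤ W) ↔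
    (∀ μ : Multiset ℕ, (∀ a ∈ μ, 0 < a ∧ a ≤ p) → (∀ a : ℕ, Odd a → Even (μ.count a)) →
      μ.sum = 2 * d →
      ∃ ν : Multiset ℕ, ν ≤ μ ∧ ν.sum = m ∧ ∀ a : ℕ, Odd a → Even (ν.count a)) := by
  classical
  have hpr : p.Prime := Fact.out
  have h2 : (2 : F) ≠ 0 := by
    intro h
    have h3 : ((2 : ℕ) : F) = 0 := by exact_mod_cast h
    rw [CharP.cast_eq_zero_iff F p] at h3
    have h4 := Nat.le_of_dvd (by norm_num) h3
    omega
  haveI : Nonempty (Fin d ⊕ Fin d) := ⟨Sum.inl ⟨0, hd⟩⟩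
  have hchar : ∀ y : Matrix (Fin d ⊕ Fin d) (Fin d ⊕ Fin d) F, (y - 1) ^ p = y ^ p - 1 := by
    intro y
    rw [sub_pow_char_of_commute p (Commute.one_right y), one_pow]
  constructor
  · intro hL μ hμ hsym hsum
    by_cases hall : ∀ a ∈ μ, a = 1
    · have hμ1 : μ = Multiset.replicate (Multiset.card μ) 1 := Multiset.eq_replicate_card.2 hall
      have hcard : Multiset.card μ = 2 * d := by
        rw [hμ1, Multiset.sum_replicate, smul_eq_mul, mul_one] at hsum
        exact hsum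
      refine ⟨Multiset.replicate m 1, ?_, ?_, ?_⟩
      · rw [hμ1, hcard, Multiset.replicate_le_replicate]
        exact hm2d
      · rw [Multiset.sum_replicate, smul_eq_mul, mul_one]
      · intro a _
        rw [Multiset.count_replicate]
        split_ifs
        · exact hme
        · exact Even.zero
    · push Not at hall
      obtain ⟨a₀, ha₀, ha₀1⟩ := hall
      obtain ⟨x, hx, hxr⟩ := exists_unip_model h2 d μ (fun a ha => (hμ a ha).1) hsym hsum
      have hnil : (x - 1) ^ p = 0 := by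
        rw [mat_pow_eq_zero_iff_rank', hxr, Jordan.rk_eq_zero_iff]
        exact fun a ha => (hμ a ha).2
      have hxp : x ^ p = 1 := by
        have h3 := hchar x
        rw [hnil] at h3
        exact (sub_eq_zero.1 h3.symm)
      have hns : ∀ z : F, x ≠ z • (1 : Matrix (Fin d ⊕ Fin d) (Fin d ⊕ Fin d) F) := by
        intro z hz
        have h3 : x - 1 = (z - 1) • (1 : Matrix (Fin d ⊕ Fin d) (Fin d ⊕ Fin d) F) := by
          rw [hz, sub_smul, one_smul]
        have h4 : ((z - 1) ^ p) • (1 : Matrix (Fin d ⊕ Fin d) (Fin d ⊕ Fin d) F) = 0 := by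
          rw [← hnil, h3, _root_.smul_pow, one_pow]
        have h5 := congrFun (congrFun h4 (Sum.inl ⟨0, hd⟩)) (Sum.inl ⟨0, hd⟩)
        rw [Matrix.smul_apply, Matrix.one_apply_eq, smul_eq_mul, mul_one, Matrix.zero_apply]
          at h5
        have h6 : z - 1 = 0 := by
          by_contra hne
          exact pow_ne_zero p hne h5
        rw [h6, zero_smul] at h3
        have h7 := hxr 1
        rw [pow_one, h3, Matrix.rank_zero] at h7
        have h8 := (Jordan.rk_eq_zero_iff μ 1).1 h7.symm a₀ ha₀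
        have h9 := (hμ a₀ ha₀).1
        omega
      obtain ⟨W, hWfr, hW, hWi⟩ := hL ⟨x, hx⟩
        ⟨1, by rw [SubmonoidClass.coe_pow, hxp, one_smul]⟩ hns
      obtain ⟨W', hW'def⟩ : ∃ W' : Submodule F (Fin d ⊕ Fin d → F),
          W' = ⊤ ⊓ SpIso.perp W := ⟨_, rfl⟩
      have hW' : Nd W' := by
        rw [hW'def]
        exact nd_inf_perp ⊤ W nd_top hW le_top
      have hW'i : W'.map (Matrix.toLin' x) ≤ W' := by
        rw [hW'def]
        exact inv_inf_perp x hx ⊤ W le_top hWi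
      have hsup : W ⊔ W' = ⊤ := by
        rw [hW'def]
        exact sup_inf_perp ⊤ W hW le_top
      have hdisj : Disjoint W W' := by
        rw [hW'def]
        exact (nd_isCompl W hW).disjoint.mono_right inf_le_right
      obtain ⟨ν₁, hν₁b, hν₁s, hν₁r, -⟩ := unip_struct x hx h2 p hnil m W hWfr hW hWi
      obtain ⟨ν₂, hν₂b, hν₂s, hν₂r, -⟩ := unip_struct x hx h2 p hnil _ W' rfl hW' hW'i
      have hrk : ∀ j, Jordan.rk μ j = Jordan.rk (ν₁ + ν₂) j := by
        intro j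
        have h3 := finrank_map_sup (Matrix.toLin' ((x - 1) ^ j)) W W' hdisj
          (map_pow_sub_one_le x W hWi j) (map_pow_sub_one_le x W' hW'i j)
        rw [hsup, Submodule.map_top, hν₁r, hν₂r] at h3
        rw [Elusive.rk_add, ← h3, ← hxr j, Matrix.rank, Matrix.toLin'_apply']
      have hμeq : μ = ν₁ + ν₂ := by
        apply Jordan.rk_injective (fun a ha => (hμ a ha).1) _ hrk
        intro a ha
        rcases Multiset.mem_add.1 ha with h | h
        · exact (hν₁b a h).1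
        · exact (hν₂b a h).1
      refine ⟨ν₁, ?_, ?_, hν₁s⟩
      · rw [hμeq]
        exact Multiset.le_add_right ν₁ ν₂
      · rw [← Jordan.rk_zero, ← hν₁r 0, finrank_map_zero, hWfr]
  · intro hR x ⟨z, hz⟩ _
    have hzmem : z • (1 : Matrix (Fin d ⊕ Fin d) (Fin d ⊕ Fin d) F) ∈
        Matrix.symplecticGroup (Fin d) F := by
      rw [← hz]
      exact (x ^ p).2
    rw [SubmonoidClass.coe_pow] at hz
    have hzz : z * z = 1 := SpImprim.scalar_sq hd z hzmem
    have hz0 : z ≠ 0 := by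
      rintro rfl
      rw [mul_zero] at hzz
      exact zero_ne_one hzz
    have hzp : z ^ p = z := by
      obtain ⟨k, hk'⟩ := hpr.odd_of_ne_two (by omega)
      rw [hk', pow_succ, pow_mul, pow_two, hzz, one_pow, one_mul]
    obtain ⟨y, hy⟩ : ∃ y : Matrix (Fin d ⊕ Fin d) (Fin d ⊕ Fin d) F, y = z • x.1 := ⟨_, rfl⟩
    have hyp : y ^ p = 1 := by
      rw [hy, _root_.smul_pow, hz, smul_smul, hzp, hzz, one_smul]
    have hymem : y ∈ Matrix.symplecticGroup (Fin d) F := by
      have h1 : y = (z • (1 : Matrix (Fin d ⊕ Fin d) (Fin d ⊕ Fin d) F)) * x.1 := by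
        rw [hy, Matrix.smul_mul, Matrix.one_mul]
      rw [h1]
      exact mul_mem hzmem x.2
    have htrans : ∀ W : Submodule F (Fin d ⊕ Fin d → F),
        W.map (Matrix.toLin' x.1) = W.map (Matrix.toLin' y) := by
      intro W
      rw [hy, map_smul]
      exact (Submodule.map_smul _ _ z hz0).symm
    have hnil : (y - 1) ^ p = 0 := by
      rw [hchar, hyp, sub_self]
    obtain ⟨ν, hνb, hνs, hνr, hνsel⟩ := unip_struct y hymem h2 p hnil (2 * d) ⊤
      (by rw [finrank_top, Lagr.finrank_space]) nd_top le_top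
    have hνsum : ν.sum = 2 * d := by
      rw [← Jordan.rk_zero, ← hνr 0, finrank_map_zero, finrank_top, Lagr.finrank_space]
    obtain ⟨ν', hle, hsum', hsym'⟩ := hR ν hνb hνs hνsum
    obtain ⟨W, -, hW, hWi, hWfr⟩ := hνsel ν' hle hsym'
    exact ⟨W, by rw [hWfr, hsum'], hW, by rw [htrans W]; exact hWi⟩

end unipiff

section final

variable {F : Type u} [Field F] [Fintype F]

/-- Prime order elements of `PSp_{2d}(q)` and nondegenerate `m`-spaces. -/
theorem main {p : ℕ} [Fact p.Prime] [CharP F p] {q : ℕ} (hq : Fintype.card F = q)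
    (d m : ℕ) (hd : 2 ≤ d) (hm : 2 ≤ m) (hme : Even m) (hmd : m < d)
    (r : ℕ) [Fact r.Prime]
    (hrΩ : r ∣ Nat.card {W : Submodule F (Fin d ⊕ Fin d → F) // finrank F W = m ∧ Nd W})
    (i c : ℕ) (hi : i = orderOf (q : ZMod r)) (hc : c = if Even i then i else 2 * i) :
    (∀ x : ↥(Matrix.symplecticGroup (Fin d) F),
      (∃ z : F, ((x ^ r : ↥(Matrix.symplecticGroup (Fin d) F)) :
        Matrix (Fin d ⊕ Fin d) (Fin d ⊕ Fin d) F) =
          z • (1 : Matrix (Fin d ⊕ Fin d) (Fin d ⊕ Fin d) F)) →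
      (∀ z : F, (x : Matrix (Fin d ⊕ Fin d) (Fin d ⊕ Fin d) F) ≠
        z • (1 : Matrix (Fin d ⊕ Fin d) (Fin d ⊕ Fin d) F)) →
      ∃ W : Submodule F (Fin d ⊕ Fin d → F), finrank F W = m ∧ Nd W ∧
        W.map (Matrix.toLin' (x : Matrix (Fin d ⊕ Fin d) (Fin d ⊕ Fin d) F)) ≤ W) ↔
    ((r = p ∧ 2 < p ∧ (∀ μ : Multiset ℕ, (∀ a ∈ μ, 0 < a ∧ a ≤ p) →
        (∀ a : ℕ, Odd a → Even (μ.count a)) → μ.sum = 2 * d →
        ∃ ν : Multiset ℕ, ν ≤ μ ∧ ν.sum = m ∧ ∀ a : ℕ, Odd a → Even (ν.count a))) ∨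
     (r = p ∧ p = 2 ∧ ((2 * d) % 4 = 2 ∨ m % 4 = 0)) ∨
     (r = 2 ∧ p ≠ 2) ∨
     (r ≠ p ∧ 2 < r ∧ c ≤ m ∧ m % c ≤ (2 * d) % c)) := by
  have hpr : p.Prime := Fact.out
  have hr : r.Prime := Fact.out
  by_cases hrp : r = p
  · subst hrp
    by_cases hp2 : r = 2
    · subst hp2
      have h2 : (2 : F) = 0 := by
        have h3 := CharP.cast_eq_zero F 2
        exact_mod_cast h3
      rw [char2_iff h2 d m (by omega) hm hme (by omega)]
      constructor
      · intro h
        exact Or.inr (Or.inl ⟨rfl, rfl, h⟩)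
      · rintro (⟨-, h, -⟩ | ⟨-, -, h⟩ | ⟨-, h⟩ | ⟨h, -⟩)
        · omega
        · exact h
        · exact absurd rfl h
        · exact absurd rfl h
    · have hp2' : 2 < r := lt_of_le_of_ne hpr.two_le (Ne.symm hp2)
      rw [unip_iff hp2' d m (by omega) hme (by omega)]
      constructor
      · intro h
        exact Or.inl ⟨rfl, hp2', h⟩
      · rintro (⟨-, -, h⟩ | ⟨-, h, -⟩ | ⟨h, -⟩ | ⟨h, -⟩)
        · exact h
        · exact absurd h hp2
        · exact absurd h hp2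
        · exact absurd rfl h
  · by_cases hr2 : r = 2
    · subst hr2
      have h2 : (2 : F) ≠ 0 := by
        have h3 := Elusive.natCast_ne_zero_of_ne (F := F) 2 hrp
        exact_mod_cast h3
      constructor
      · intro _
        exact Or.inr (Or.inr (Or.inl ⟨rfl, fun h => hrp h.symm⟩))
      · intro _ x hx _
        exact inv2_all h2 d m (by omega) hme (by omega) x hx
    · rw [main_odd hq d m hm hme hmd r hr2 hrp hrΩ i c hi hc]
      constructor
      · intro h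
        exact Or.inr (Or.inr (Or.inr ⟨hrp, lt_of_le_of_ne hr.two_le (Ne.symm hr2), h.1, h.2⟩))
      · rintro (⟨h, -⟩ | ⟨h, -⟩ | ⟨h, -⟩ | ⟨-, -, h⟩)
        · exact absurd h hrp
        · exact absurd h hrp
        · exact absurd h hr2
        · exact h

end final

end Cfsg.Agent.Lib.Helper40.SpNd
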