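-- Elements of prime order of unitary groups and nondegenerate subspaces (helper40).
import Mathlib
import Cfsg.Agent.Lib.Helper40.GUPrimeOrder
import Cfsg.Agent.Lib.Helper40.GUUnip
import Cfsg.Agent.Lib.Helper40.SpNd
import Cfsg.Agent.Lib.Helper45.HermStab
import Cfsg.Agent.Lib.Helper45.HermSU

set_option autoImplicit false
set_option linter.unusedSectionVars false

namespace Cfsg.Agent.Lib.Helper40.SUNd

open Cfsg Polynomial Module Matrix Cfsg.Agent.Lib.Helper45

universe u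

section basics

variable {K : Type u} [Field K] [Fintype K] {q n : ℕ}

/-- Nondegenerate subspaces of the standard Hermitian space. -/
def Nd (q : ℕ) {n : ℕ} (W : Submodule K (Fin n → K)) : Prop :=
  ∀ u ∈ W, u ≠ 0 → ∃ v ∈ W, Cfsg.hermForm n K q u v ≠ 0

/-- The matrix `M` fixes a nondegenerate subspace of dimension `m`. -/
def FixNd (q : ℕ) {n : ℕ} (M : Matrix (Fin n) (Fin n) K) (m : ℕ) : Prop :=
  ∃ W : Submodule K (Fin n → K), finrank K W = m ∧ Nd q W ∧ W.map (Matrix.toLin' M) ≤ W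

theorem iso_inv {M Mi : Matrix (Fin n) (Fin n) K} (hM : IsHermIso n K q M) (h : M * Mi = 1) :
    IsHermIso n K q Mi := by
  intro u v
  rw [← hM (Mi *ᵥ u) (Mi *ᵥ v), Matrix.mulVec_mulVec, Matrix.mulVec_mulVec, h,
    Matrix.one_mulVec, Matrix.one_mulVec]

theorem fixNd_conj {M T Ti : Matrix (Fin n) (Fin n) K} (hT : IsHermIso n K q T)
    (hTTi : T * Ti = 1) {m : ℕ} (h : FixNd q (T * M * Ti) m) : FixNd q M m := by
  have hTiT : Ti * T = 1 := mul_eq_one_comm.1 hTTi
  have hTi : IsHermIso n K q Ti := iso_inv hT hTTi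
  obtain ⟨W, hfr, hW, hWi⟩ := h
  have hinj : Function.Injective (Matrix.toLin' Ti) := by
    intro u v huv
    have h1 := congrArg (fun x => T *ᵥ x) huv
    simp only [Matrix.toLin'_apply, Matrix.mulVec_mulVec, hTTi, Matrix.one_mulVec] at h1
    exact h1
  refine ⟨W.map (Matrix.toLin' Ti), ?_, ?_, ?_⟩
  · rw [← hfr]
    exact (Submodule.equivMapOfInjective _ hinj W).finrank_eq.symm
  · rintro _ ⟨u, hu, rfl⟩ hne
    have hu0 : u ≠ 0 := by
      rintro rfl
      exact hne (map_zero _)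
    obtain ⟨v, hv, hv0⟩ := hW u hu hu0
    refine ⟨Matrix.toLin' Ti v, Submodule.mem_map_of_mem hv, ?_⟩
    rw [Matrix.toLin'_apply, Matrix.toLin'_apply, hTi u v]
    exact hv0
  · rintro _ ⟨_, ⟨u, hu, rfl⟩, rfl⟩
    refine ⟨Matrix.toLin' (T * M * Ti) u, hWi (Submodule.mem_map_of_mem hu), ?_⟩
    simp only [Matrix.toLin'_apply, Matrix.mulVec_mulVec]
    rw [← Matrix.mul_assoc, ← Matrix.mul_assoc, hTiT, Matrix.one_mul]

theorem fixNd_smul {M : Matrix (Fin n) (Fin n) K} (c : K) (hc : c ≠ 0) {m : ℕ}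
    (h : FixNd q M m) : FixNd q (c • M) m := by
  obtain ⟨W, hfr, hW, hWi⟩ := h
  refine ⟨W, hfr, hW, ?_⟩
  rw [map_smul, Submodule.map_smul _ _ c hc]
  exact hWi

theorem fixNd_bot (M : Matrix (Fin n) (Fin n) K) : FixNd q M 0 := by
  refine ⟨⊥, finrank_bot K _, ?_, ?_⟩
  · intro u hu hne
    exact absurd ((Submodule.mem_bot K).1 hu) hne
  · rw [Submodule.map_bot]

theorem fixNd_top (hq : q ≠ 0) (M : Matrix (Fin n) (Fin n) K) : FixNd q M n := by
  classical
  refine ⟨⊤, by rw [finrank_top, Module.finrank_fin_fun], ?_, le_top⟩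
  intro u _ hne
  obtain ⟨i, hi⟩ : ∃ i, u i ≠ 0 := by
    by_contra hcon
    push Not at hcon
    exact hne (funext hcon)
  exact ⟨Pi.single i 1, Submodule.mem_top, by rw [herm_single_right hq]; exact hi⟩

section blocks

variable {k l : ℕ}

/-- Embedding of a pair of vectors along a splitting of the coordinates. -/
def emb (e : Fin k ⊕ Fin l ≃ Fin n) : ((Fin k → K) × (Fin l → K)) →ₗ[K] (Fin n → K) where
  toFun p := (Sum.elim p.1 p.2) ∘ e.symm
  map_add' p p' := by
    funext i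
    rcases h : e.symm i with s | s <;> simp [h]
  map_smul' c p := by
    funext i
    rcases h : e.symm i with s | s <;> simp [h]

theorem emb_apply (e : Fin k ⊕ Fin l ≃ Fin n) (p : (Fin k → K) × (Fin l → K)) (i : Fin n) :
    emb e p i = Sum.elim p.1 p.2 (e.symm i) := rfl

theorem emb_injective (e : Fin k ⊕ Fin l ≃ Fin n) : Function.Injective (emb (K := K) e) := by
  intro p p' h
  apply Prod.ext
  · funext a
    have h1 := congrFun h (e (Sum.inl a))
    simpa [emb_apply] using h1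
  · funext b
    have h1 := congrFun h (e (Sum.inr b))
    simpa [emb_apply] using h1

theorem herm_emb (e : Fin k ⊕ Fin l ≃ Fin n) (p p' : (Fin k → K) × (Fin l → K)) :
    Cfsg.hermForm n K q (emb e p) (emb e p') =
      Cfsg.hermForm k K q p.1 p'.1 + Cfsg.hermForm l K q p.2 p'.2 := by
  simp only [herm_def, emb_apply]
  rw [← Equiv.sum_comp e]
  simp [Fintype.sum_sum_type]

theorem blk_mulVec_emb (e : Fin k ⊕ Fin l ≃ Fin n) (A : Matrix (Fin k) (Fin k) K)
    (B : Matrix (Fin l) (Fin l) K) (p : (Fin k → K) × (Fin l → K)) :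
    blk e A B *ᵥ emb e p = emb e (A *ᵥ p.1, B *ᵥ p.2) := by
  have h1 : (emb e p) ∘ e = Sum.elim p.1 p.2 := by
    funext s
    simp [emb_apply]
  unfold blk
  rw [Matrix.submatrix_mulVec_equiv, Equiv.symm_symm, h1, Matrix.fromBlocks_mulVec]
  simp only [Sum.elim_comp_inl, Sum.elim_comp_inr, Matrix.zero_mulVec, add_zero, zero_add]
  rfl

theorem herm_zero_right' (hq : q ≠ 0) (m : ℕ) (u : Fin m → K) :
    Cfsg.hermForm m K q u 0 = 0 := by
  simp [herm_def, hq]

theorem herm_zero_left' (m : ℕ) (v : Fin m → K) : Cfsg.hermForm m K q 0 v = 0 := by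
  simp [herm_def]

/-- Block sums of fixed nondegenerate subspaces. -/
theorem fixNd_blk (hq : q ≠ 0) (e : Fin k ⊕ Fin l ≃ Fin n) {A : Matrix (Fin k) (Fin k) K}
    {B : Matrix (Fin l) (Fin l) K} {m₁ m₂ : ℕ} (hA : FixNd q A m₁) (hB : FixNd q B m₂) :
    FixNd q (blk e A B) (m₁ + m₂) := by
  obtain ⟨W₁, hfr₁, hW₁, hWi₁⟩ := hA
  obtain ⟨W₂, hfr₂, hW₂, hWi₂⟩ := hB
  refine ⟨(W₁.prod W₂).map (emb e), ?_, ?_, ?_⟩
  · rw [← (Submodule.equivMapOfInjective _ (emb_injective e) (W₁.prod W₂)).finrank_eq,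
      (Jordan.subProdEquiv W₁ W₂).finrank_eq, Module.finrank_prod, hfr₁, hfr₂]
  · rintro _ ⟨p, hp, rfl⟩ hne
    have hp0 : p ≠ 0 := by
      rintro rfl
      exact hne (map_zero _)
    by_cases h1 : p.1 = 0
    · have h2 : p.2 ≠ 0 := by
        intro h2
        exact hp0 (Prod.ext h1 h2)
      obtain ⟨v, hv, hv0⟩ := hW₂ p.2 hp.2 h2
      refine ⟨emb e (0, v), Submodule.mem_map_of_mem ⟨W₁.zero_mem, hv⟩, ?_⟩
      rw [herm_emb, h1, herm_zero_left', zero_add]
      exact hv0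
    · obtain ⟨v, hv, hv0⟩ := hW₁ p.1 hp.1 h1
      refine ⟨emb e (v, 0), Submodule.mem_map_of_mem ⟨hv, W₂.zero_mem⟩, ?_⟩
      rw [herm_emb, herm_zero_right' hq, add_zero]
      exact hv0
  · rintro _ ⟨_, ⟨p, hp, rfl⟩, rfl⟩
    rw [Matrix.toLin'_apply, blk_mulVec_emb]
    refine Submodule.mem_map_of_mem ⟨?_, ?_⟩
    · have h1 : Matrix.toLin' A p.1 ∈ W₁.map (Matrix.toLin' A) := Submodule.mem_map_of_mem hp.1
      rw [Matrix.toLin'_apply] at h1
      exact hWi₁ h1
    · have h1 : Matrix.toLin' B p.2 ∈ W₂.map (Matrix.toLin' B) := Submodule.mem_map_of_mem hp.2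
      rw [Matrix.toLin'_apply] at h1
      exact hWi₂ h1

theorem fixNd_blk_left (hq : q ≠ 0) (e : Fin k ⊕ Fin l ≃ Fin n) (A : Matrix (Fin k) (Fin k) K)
    (B : Matrix (Fin l) (Fin l) K) : FixNd q (blk e A B) k := by
  have h := fixNd_blk hq e (fixNd_top hq A) (fixNd_bot (q := q) B)
  rw [add_zero] at h
  exact h

end blocks

end basics

section normal

variable {K : Type u} [Field K] [Fintype K] {q n : ℕ}

/-- A unitary matrix fixing a nondegenerate subspace is unitarily conjugate to a block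
diagonal matrix. -/
theorem blk_of_fix (hK : Fintype.card K = q ^ 2) {M : Matrix (Fin n) (Fin n) K}
    (hM : IsHermIso n K q M) {m : ℕ} (h : FixNd q M m) :
    ∃ (e : Fin m ⊕ Fin (n - m) ≃ Fin n) (A : Matrix (Fin m) (Fin m) K)
      (B : Matrix (Fin (n - m)) (Fin (n - m)) K) (T Ti : Matrix (Fin n) (Fin n) K),
      IsHermIso n K q T ∧ T * Ti = 1 ∧ IsHermIso m K q A ∧ IsHermIso (n - m) K q B ∧
        T * M * Ti = blk e A B := by
  classical
  obtain ⟨W, hWk, hW, hWi⟩ := h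
  have hW' : ∀ u ∈ W, (∀ v ∈ W, Cfsg.hermForm n K q u v = 0) → u = 0 := by
    intro u hu hall
    by_contra hne
    obtain ⟨v, hv, hv0⟩ := hW u hu hne
    exact hv0 (hall v hv)
  obtain ⟨T, S, hT, hS⟩ := exists_normal_form hK n W hW'
  have hinj := isHermIso_injective hK hT
  obtain ⟨Tu, hTu⟩ := isHermIso_isUnit hK hT
  obtain ⟨Ti, hTi⟩ : ∃ Ti : Matrix (Fin n) (Fin n) K,
      Ti = ((Tu⁻¹ : (Matrix (Fin n) (Fin n) K)ˣ) : Matrix (Fin n) (Fin n) K) := ⟨_, rfl⟩
  have hTTi : T * Ti = 1 := by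
    rw [hTi, ← hTu, ← Units.val_mul, mul_inv_cancel, Units.val_one]
  have hTiT : Ti * T = 1 := mul_eq_one_comm.1 hTTi
  have hScard : S.card = m := by
    have e1 : W ≃ {v : Fin n → K // ∀ i, i ∉ S → v i = 0} :=
      Equiv.ofBijective (fun v => ⟨T *ᵥ v.1, (hS v.1).1 v.2⟩) ⟨by
        intro v v' h
        exact Subtype.ext (hinj (congrArg Subtype.val h)), by
        rintro ⟨v₀, hv₀⟩
        have hTv : T *ᵥ (Ti *ᵥ v₀) = v₀ := by
          rw [Matrix.mulVec_mulVec, hTTi, Matrix.one_mulVec]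
        refine ⟨⟨Ti *ᵥ v₀, ?_⟩, ?_⟩
        · rw [hS, hTv]; exact hv₀
        · exact Subtype.ext hTv⟩
    have e2 : {v : Fin n → K // ∀ i, i ∉ S → v i = 0} ≃ (S → K) :=
      { toFun := fun v s => v.1 s.1
        invFun := fun f => ⟨fun i => if h : i ∈ S then f ⟨i, h⟩ else 0, fun i hi => dif_neg hi⟩
        left_inv := by
          intro v
          apply Subtype.ext
          funext i
          by_cases h : i ∈ S
          · simp [h]
          · simp only [dif_neg h]
            exact (v.2 i h).symm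
        right_inv := by
          intro f
          funext s
          simp [s.2] }
    have h1 : Nat.card W = Fintype.card K ^ m := by
      rw [Module.natCard_eq_pow_finrank (K := K) (V := W), hWk, Nat.card_eq_fintype_card]
    have h2 : Nat.card W = Fintype.card K ^ S.card := by
      rw [Nat.card_congr (e1.trans e2), Nat.card_eq_fintype_card, Fintype.card_fun,
        Fintype.card_coe]
    have h3 : Fintype.card K ^ S.card = Fintype.card K ^ m := by rw [← h1, ← h2]
    exact Nat.pow_right_injective (Fintype.one_lt_card (α := K)) h3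
  have hcompl : Fintype.card {i : Fin n // i ∉ S} = n - m := by
    rw [Fintype.card_subtype_compl, Fintype.card_coe, Fintype.card_fin, hScard]
  let e : Fin m ⊕ Fin (n - m) ≃ Fin n :=
    (Equiv.sumCongr (S.equivFinOfCardEq hScard).symm (Fintype.equivFinOfCardEq hcompl).symm).trans
      (Equiv.sumCompl (· ∈ S))
  have he : ∀ i, i ∉ S ↔ ∃ b, e (Sum.inr b) = i := by
    intro i
    constructor
    · intro hi
      refine ⟨Fintype.equivFinOfCardEq hcompl ⟨i, hi⟩, ?_⟩
      simp [e]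
    · rintro ⟨b, rfl⟩
      have : e (Sum.inr b) = ((Fintype.equivFinOfCardEq hcompl).symm b : Fin n) := by
        simp [e]
      rw [this]
      exact ((Fintype.equivFinOfCardEq hcompl).symm b).2
  have hWe : ∀ v, v ∈ W ↔ ∀ b, (T *ᵥ v) (e (Sum.inr b)) = 0 := by
    intro v
    rw [hS]
    constructor
    · intro h b
      exact h _ ((he _).2 ⟨b, rfl⟩)
    · intro h i hi
      obtain ⟨b, rfl⟩ := (he i).1 hi
      exact h b
  have hM' : IsHermIso n K q (T * M * Ti) :=
    isHermIso_mul (isHermIso_mul hT hM) (iso_inv hT hTTi)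
  have hstab : ∀ v : Fin n → K, (∀ b, v (e (Sum.inr b)) = 0) →
      ∀ b, ((T * M * Ti) *ᵥ v) (e (Sum.inr b)) = 0 := by
    intro v hv
    have h1 : Ti *ᵥ v ∈ W := by
      rw [hWe, Matrix.mulVec_mulVec, hTTi, Matrix.one_mulVec]
      exact hv
    have h2 : M *ᵥ (Ti *ᵥ v) ∈ W := by
      have h3 : Matrix.toLin' M (Ti *ᵥ v) ∈ W.map (Matrix.toLin' M) :=
        Submodule.mem_map_of_mem h1
      rw [Matrix.toLin'_apply] at h3
      exact hWi h3
    have h4 := (hWe _).1 h2
    rw [Matrix.mulVec_mulVec, Matrix.mulVec_mulVec] at h4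
    exact h4
  obtain ⟨A, B, hAB⟩ := exists_blk_of_stab hK e (T * M * Ti) hM' hstab
  have hiso := (isHermIso_blk_iff hK e A B).1 (hAB ▸ hM')
  exact ⟨e, A, B, T, Ti, hT, hTTi, hiso.1, hiso.2, hAB⟩

/-- Unitary matrices that are similar are unitarily conjugate (Wall). -/
theorem iso_conj_of_similar (hK : Fintype.card K = q ^ 2) {M Y : Matrix (Fin n) (Fin n) K}
    (hM : IsHermIso n K q M) (hY : IsHermIso n K q Y) (P : GL (Fin n) K)
    (hP : (P : Matrix (Fin n) (Fin n) K) * M = Y * P) :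
    ∃ T Ti : Matrix (Fin n) (Fin n) K, IsHermIso n K q T ∧ T * Ti = 1 ∧ T * M * Ti = Y := by
  obtain ⟨Mu, hMu⟩ := isHermIso_isUnit hK hM
  obtain ⟨Yu, hYu⟩ := isHermIso_isUnit hK hY
  have hMmem : Mu ∈ Cfsg.GU n K q := by
    show IsHermIso n K q (Mu : Matrix (Fin n) (Fin n) K)
    rw [hMu]
    exact hM
  have hYmem : Yu ∈ Cfsg.GU n K q := by
    show IsHermIso n K q (Yu : Matrix (Fin n) (Fin n) K)
    rw [hYu]
    exact hY
  have hconj : IsConj (Mu : GL (Fin n) K) Yu := by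
    rw [isConj_iff]
    refine ⟨P, ?_⟩
    apply Units.ext
    rw [Units.val_mul, Units.val_mul, hMu, hYu, hP, mul_assoc, ← Units.val_mul, mul_inv_cancel,
      Units.val_one, mul_one]
  have h2 := UnitaryWall.gu_conj_of_gl_conj hK ⟨Mu, hMmem⟩ ⟨Yu, hYmem⟩ hconj
  obtain ⟨c, hc⟩ := isConj_iff.1 h2
  refine ⟨((c : ↥(Cfsg.GU n K q)) : GL (Fin n) K).1,
    ((c⁻¹ : ↥(Cfsg.GU n K q)) : GL (Fin n) K).1, c.2, ?_, ?_⟩
  · rw [← Units.val_mul, ← Subgroup.coe_mul, mul_inv_cancel]
    rfl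
  · have h3 := congrArg
      (fun g : ↥(Cfsg.GU n K q) => ((g : GL (Fin n) K) : Matrix (Fin n) (Fin n) K)) hc
    simp only [Subgroup.coe_mul, Units.val_mul] at h3
    rw [hMu, hYu] at h3
    exact h3

/-- A unitary matrix similar to a block diagonal unitary matrix fixes a nondegenerate
subspace. -/
theorem fixNd_of_similar (hK : Fintype.card K = q ^ 2) {M : Matrix (Fin n) (Fin n) K}
    (hM : IsHermIso n K q M) {k l : ℕ} (e : Fin k ⊕ Fin l ≃ Fin n)
    (A : Matrix (Fin k) (Fin k) K) (B : Matrix (Fin l) (Fin l) K) (hA : IsHermIso k K q A)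
    (hB : IsHermIso l K q B) (P : GL (Fin n) K)
    (hP : (P : Matrix (Fin n) (Fin n) K) * M = blk e A B * P) : FixNd q M k := by
  have hq : q ≠ 0 := by
    have := two_le_q hK
    omega
  obtain ⟨T, Ti, hT, hTTi, hTM⟩ := iso_conj_of_similar hK hM
    ((isHermIso_blk_iff hK e A B).2 ⟨hA, hB⟩) P hP
  apply fixNd_conj hT hTTi
  rw [hTM]
  exact fixNd_blk_left hq e A B

end normal

section blkalg

variable {K : Type u} [Field K] {n k l : ℕ}

theorem blk_pow (e : Fin k ⊕ Fin l ≃ Fin n) (A : Matrix (Fin k) (Fin k) K)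
    (B : Matrix (Fin l) (Fin l) K) (j : ℕ) : blk e A B ^ j = blk e (A ^ j) (B ^ j) := by
  induction j with
  | zero => rw [pow_zero, pow_zero, pow_zero, blk_one]
  | succ j ih => rw [pow_succ, ih, blk_mul, pow_succ, pow_succ]

theorem blk_sub (e : Fin k ⊕ Fin l ≃ Fin n) (A A' : Matrix (Fin k) (Fin k) K)
    (B B' : Matrix (Fin l) (Fin l) K) : blk e A B - blk e A' B' = blk e (A - A') (B - B') := by
  ext i j
  simp only [blk, Matrix.sub_apply, Matrix.submatrix_apply]
  rcases e.symm i with a | b <;> rcases e.symm j with a' | b' <;> simp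

theorem blk_sub_one (e : Fin k ⊕ Fin l ≃ Fin n) (A : Matrix (Fin k) (Fin k) K)
    (B : Matrix (Fin l) (Fin l) K) : blk e A B - 1 = blk e (A - 1) (B - 1) := by
  rw [← blk_sub, blk_one]

theorem blk_smul (e : Fin k ⊕ Fin l ≃ Fin n) (c : K) (A : Matrix (Fin k) (Fin k) K)
    (B : Matrix (Fin l) (Fin l) K) : c • blk e A B = blk e (c • A) (c • B) := by
  ext i j
  simp only [blk, Matrix.smul_apply, Matrix.submatrix_apply]
  rcases e.symm i with a | b <;> rcases e.symm j with a' | b' <;> simp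

theorem rank_blk (e : Fin k ⊕ Fin l ≃ Fin n) (A : Matrix (Fin k) (Fin k) K)
    (B : Matrix (Fin l) (Fin l) K) : (blk e A B).rank = A.rank + B.rank := by
  unfold blk
  rw [Matrix.rank_submatrix, SpNd.rank_fromBlocks_diag]

theorem charpoly_blk (e : Fin k ⊕ Fin l ≃ Fin n) (A : Matrix (Fin k) (Fin k) K)
    (B : Matrix (Fin l) (Fin l) K) : (blk e A B).charpoly = A.charpoly * B.charpoly := by
  have h1 : blk e A B = Matrix.reindex e e (Matrix.fromBlocks A 0 0 B) := rfl
  rw [h1, Matrix.charpoly_reindex, Matrix.charpoly_fromBlocks_zero₁₂]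

theorem det_blk (e : Fin k ⊕ Fin l ≃ Fin n) (A : Matrix (Fin k) (Fin k) K)
    (B : Matrix (Fin l) (Fin l) K) : (blk e A B).det = A.det * B.det := by
  unfold blk
  rw [Matrix.det_submatrix_equiv_self, Matrix.det_fromBlocks_zero₂₁]

/-- Conjugation data as an element of `GL`. -/
theorem exists_gl {T Ti : Matrix (Fin n) (Fin n) K} (h : T * Ti = 1) :
    ∃ P : GL (Fin n) K, (P : Matrix (Fin n) (Fin n) K) = T ∧
      ((P⁻¹ : GL (Fin n) K) : Matrix (Fin n) (Fin n) K) = Ti :=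
  ⟨⟨T, Ti, h, mul_eq_one_comm.1 h⟩, rfl, rfl⟩

theorem rank_conj_pow_sub_one {M Y T Ti : Matrix (Fin n) (Fin n) K} (h : T * Ti = 1)
    (hY : T * M * Ti = Y) (j : ℕ) : ((Y - 1) ^ j).rank = ((M - 1) ^ j).rank := by
  obtain ⟨P, hP, hPi⟩ := exists_gl h
  have h1 : Y - 1 = (P : Matrix (Fin n) (Fin n) K) * (M - 1) *
      ((P⁻¹ : GL (Fin n) K) : Matrix (Fin n) (Fin n) K) := by
    rw [hP, hPi, mul_sub, sub_mul, mul_one, h, hY]
  rw [h1, Jordan.rank_pow_conj]

theorem charpoly_conj {M Y T Ti : Matrix (Fin n) (Fin n) K} (h : T * Ti = 1)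
    (hY : T * M * Ti = Y) : Y.charpoly = M.charpoly := by
  obtain ⟨P, hP, hPi⟩ := exists_gl h
  rw [← hY, ← hP, ← hPi, Matrix.coe_units_inv]
  exact Matrix.charpoly_units_conj P M

theorem det_conj {M Y T Ti : Matrix (Fin n) (Fin n) K} (h : T * Ti = 1)
    (hY : T * M * Ti = Y) : Y.det = M.det := by
  obtain ⟨P, hP, hPi⟩ := exists_gl h
  rw [← hY, ← hP, ← hPi]
  exact Matrix.det_units_conj P M

theorem pow_conj {M Y T Ti : Matrix (Fin n) (Fin n) K} (h : T * Ti = 1)
    (hY : T * M * Ti = Y) (j : ℕ) : Y ^ j = T * M ^ j * Ti := by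
  have hTiT : Ti * T = 1 := mul_eq_one_comm.1 h
  induction j with
  | zero => rw [pow_zero, pow_zero, mul_one, h]
  | succ j ih =>
    rw [pow_succ, ih, ← hY, pow_succ]
    calc T * M ^ j * Ti * (T * M * Ti) = T * M ^ j * (Ti * T) * M * Ti := by
          simp only [mul_assoc]
      _ = T * (M ^ j * M) * Ti := by
          rw [hTiT, mul_one]
          simp only [mul_assoc]

end blkalg

section scalars

variable {K : Type u} [Field K] [Fintype K] {q n : ℕ}

theorem scalar_norm (hq : q ≠ 0) (hn : 1 ≤ n) (z : K)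
    (h : IsHermIso n K q (z • (1 : Matrix (Fin n) (Fin n) K))) : z ^ (q + 1) = 1 := by
  classical
  have h1 := h (Pi.single (⟨0, hn⟩ : Fin n) 1) (Pi.single (⟨0, hn⟩ : Fin n) 1)
  rw [Matrix.smul_mulVec, Matrix.one_mulVec, herm_smul_left, herm_smul_right,
    herm_single_right hq, Pi.single_eq_same] at h1
  simp only [mul_one] at h1
  rw [pow_succ']
  exact h1

theorem iso_pow {M : Matrix (Fin n) (Fin n) K} (hM : IsHermIso n K q M) (j : ℕ) :
    IsHermIso n K q (M ^ j) := by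
  induction j with
  | zero =>
    rw [pow_zero]
    exact isHermIso_one n
  | succ j ih =>
    rw [pow_succ]
    exact isHermIso_mul ih hM

theorem iso_smul {M : Matrix (Fin n) (Fin n) K} (hM : IsHermIso n K q M) (c : K)
    (hc : c ^ (q + 1) = 1) : IsHermIso n K q (c • M) := by
  have h1 : c • M = (c • (1 : Matrix (Fin n) (Fin n) K)) * M := by
    rw [Matrix.smul_mul, Matrix.one_mul]
  rw [h1]
  exact isHermIso_mul (isHermIso_smul_one c hc) hM

theorem smul_one_ne_zero_entry (hn : 1 ≤ n) (c : K)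
    (h : c • (1 : Matrix (Fin n) (Fin n) K) = 0) : c = 0 := by
  have h5 := congrFun (congrFun h (⟨0, hn⟩ : Fin n)) (⟨0, hn⟩ : Fin n)
  rw [Matrix.smul_apply, Matrix.one_apply_eq, smul_eq_mul, mul_one, Matrix.zero_apply] at h5
  exact h5

end scalars

section unip

open Cfsg.Agent.Lib.Helper40.UnitaryWall

variable {K : Type u} [Field K] [Fintype K] {q : ℕ}

/-- Elements of order `p` of `SU_n(q)` in characteristic `p` and nondegenerate subspaces. -/
theorem unip_iff (hK : Fintype.card K = q ^ 2) {p : ℕ} [Fact p.Prime] [CharP K p] (n m : ℕ)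
    (hn : 1 ≤ n) (hmn : m ≤ n) :
    (∀ M : Matrix (Fin n) (Fin n) K, IsHermIso n K q M → M.det = 1 →
      (∃ z : K, M ^ p = z • (1 : Matrix (Fin n) (Fin n) K)) →
      (∀ z : K, M ≠ z • (1 : Matrix (Fin n) (Fin n) K)) → FixNd q M m) ↔
    (∀ μ : Multiset ℕ, (∀ a ∈ μ, 0 < a ∧ a ≤ p) → μ.sum = n →
      ∃ ν : Multiset ℕ, ν ≤ μ ∧ ν.sum = m) := by
  classical
  have hpr : p.Prime := Fact.out
  have hq : q ≠ 0 := by
    have := two_le_q hK
    omega
  haveI : Nonempty (Fin n) := ⟨⟨0, hn⟩⟩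
  have hchar : ∀ y : Matrix (Fin n) (Fin n) K, (y - 1) ^ p = y ^ p - 1 := by
    intro y
    rw [sub_pow_char_of_commute p (Commute.one_right y), one_pow]
  constructor
  · intro hL μ hμ hsum
    by_cases hall : ∀ a ∈ μ, a = 1
    · have hμ1 : μ = Multiset.replicate (Multiset.card μ) 1 := Multiset.eq_replicate_card.2 hall
      have hcard : Multiset.card μ = n := by
        rw [hμ1, Multiset.sum_replicate, smul_eq_mul, mul_one] at hsum
        exact hsum
      refine ⟨Multiset.replicate m 1, ?_, ?_⟩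
      · rw [hμ1, hcard, Multiset.replicate_le_replicate]
        exact hmn
      · rw [Multiset.sum_replicate, smul_eq_mul, mul_one]
    · push Not at hall
      obtain ⟨a₀, ha₀, ha₀1⟩ := hall
      obtain ⟨g, hg⟩ := exists_gu_type hK
        (⟨μ, fun {i} hi => (hμ i hi).1, hsum⟩ : Nat.Partition n)
      obtain ⟨M, hMdef⟩ : ∃ M : Matrix (Fin n) (Fin n) K,
          M = ((g : GL (Fin n) K) : Matrix (Fin n) (Fin n) K) := ⟨_, rfl⟩
      rw [← hMdef] at hg
      have hMiso : IsHermIso n K q M := by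
        rw [hMdef]
        exact g.2
      have hnil : (M - 1) ^ p = 0 := by
        rw [Jordan.mat_pow_eq_zero_iff_rank, hg, Jordan.rk_eq_zero_iff]
        exact fun a ha => (hμ a ha).2
      have hMp : M ^ p = 1 := by
        have h3 := hchar M
        rw [hnil] at h3
        exact (sub_eq_zero.1 h3.symm)
      have hdet : M.det = 1 := by
        have h3 : (M.det - 1) ^ p = 0 := by
          rw [sub_pow_char, one_pow, ← Matrix.det_pow, hMp, Matrix.det_one, sub_self]
        exact sub_eq_zero.1 (pow_eq_zero_iff hpr.ne_zero |>.1 h3)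
      have hns : ∀ z : K, M ≠ z • (1 : Matrix (Fin n) (Fin n) K) := by
        intro z hz
        have h3 : M - 1 = (z - 1) • (1 : Matrix (Fin n) (Fin n) K) := by
          rw [hz, sub_smul, one_smul]
        have h4 : ((z - 1) ^ p) • (1 : Matrix (Fin n) (Fin n) K) = 0 := by
          rw [← hnil, h3, _root_.smul_pow, one_pow]
        have h5 := smul_one_ne_zero_entry hn _ h4
        have h6 : z - 1 = 0 := pow_eq_zero_iff hpr.ne_zero |>.1 h5
        rw [h6, zero_smul] at h3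
        have h7 := hg 1
        rw [pow_one, h3, Matrix.rank_zero] at h7
        have h8 := (Jordan.rk_eq_zero_iff μ 1).1 h7.symm a₀ ha₀
        have h9 := (hμ a₀ ha₀).1
        omega
      have hfix := hL M hMiso hdet ⟨1, by rw [hMp, one_smul]⟩ hns
      obtain ⟨e, A, B, T, Ti, hT, hTTi, hA, hB, hTM⟩ := blk_of_fix hK hMiso hfix
      have hrk : ∀ j, Jordan.rk μ j = ((A - 1) ^ j).rank + ((B - 1) ^ j).rank := by
        intro j
        rw [← hg j, ← rank_conj_pow_sub_one hTTi hTM j, blk_sub_one, blk_pow, rank_blk]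
      have hAnil : IsNilpotent (A - 1) := by
        refine ⟨p, ?_⟩
        rw [Jordan.mat_pow_eq_zero_iff_rank]
        have h3 := hrk p
        rw [(Jordan.rk_eq_zero_iff μ p).2 (fun a ha => (hμ a ha).2)] at h3
        omega
      have hBnil : IsNilpotent (B - 1) := by
        refine ⟨p, ?_⟩
        rw [Jordan.mat_pow_eq_zero_iff_rank]
        have h3 := hrk p
        rw [(Jordan.rk_eq_zero_iff μ p).2 (fun a ha => (hμ a ha).2)] at h3
        omega
      obtain ⟨ν₁, hν₁⟩ := Jordan.exists_partition (A - 1) hAnil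
      obtain ⟨ν₂, hν₂⟩ := Jordan.exists_partition (B - 1) hBnil
      have hμeq : μ = ν₁.parts + ν₂.parts := by
        apply Jordan.rk_injective (fun a ha => (hμ a ha).1)
        · intro a ha
          rcases Multiset.mem_add.1 ha with h | h
          · exact ν₁.parts_pos h
          · exact ν₂.parts_pos h
        · intro j
          rw [hrk, Elusive.rk_add, hν₁, hν₂]
      refine ⟨ν₁.parts, ?_, ν₁.parts_sum⟩
      rw [hμeq]
      exact Multiset.le_add_right _ _
  · intro hR M hMiso _ ⟨z, hz⟩ _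
    have hzn : z ^ (q + 1) = 1 := scalar_norm hq hn z (hz ▸ iso_pow hMiso p)
    obtain ⟨w, hw⟩ := (Finite.injective_iff_surjective.1 (frobenius_inj K p)) z
    rw [frobenius_def] at hw
    have hwn : w ^ (q + 1) = 1 := by
      apply frobenius_inj K p
      rw [frobenius_def, frobenius_def, ← pow_mul, mul_comm, pow_mul, hw, hzn, one_pow]
    have hw0 : w ≠ 0 := by
      rintro rfl
      rw [zero_pow (by omega)] at hwn
      exact zero_ne_one hwn
    have hz0 : z ≠ 0 := by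
      rw [← hw]
      exact pow_ne_zero _ hw0
    obtain ⟨y, hy⟩ : ∃ y : Matrix (Fin n) (Fin n) K, y = w⁻¹ • M := ⟨_, rfl⟩
    have hyiso : IsHermIso n K q y := by
      rw [hy]
      exact iso_smul hMiso _ (by rw [inv_pow, hwn, inv_one])
    have hyp : y ^ p = 1 := by
      rw [hy, _root_.smul_pow, hz, smul_smul, inv_pow, hw, inv_mul_cancel₀ hz0, one_smul]
    have hnil : (y - 1) ^ p = 0 := by
      rw [hchar, hyp, sub_self]
    obtain ⟨μ, hμ⟩ := Jordan.exists_partition (y - 1) ⟨p, hnil⟩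
    have hμp : ∀ a ∈ μ.parts, a ≤ p := by
      rw [← Jordan.rk_eq_zero_iff, ← hμ, hnil, Matrix.rank_zero]
    obtain ⟨ν, hle, hνsum⟩ := hR μ.parts (fun a ha => ⟨μ.parts_pos ha, hμp a ha⟩) μ.parts_sum
    obtain ⟨ν', hν'⟩ : ∃ ν' : Multiset ℕ, ν' = μ.parts - ν := ⟨_, rfl⟩
    have hadd : ν + ν' = μ.parts := by
      rw [hν']
      exact add_tsub_cancel_of_le hle
    have hν'sum : ν'.sum = n - m := by
      have h3 := congrArg Multiset.sum hadd
      rw [Multiset.sum_add, hνsum, μ.parts_sum] at h3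
      omega
    obtain ⟨gA, hgA⟩ := exists_gu_type hK
      (⟨ν, fun {i} hi => μ.parts_pos (Multiset.mem_of_le hle hi), hνsum⟩ : Nat.Partition m)
    obtain ⟨gB, hgB⟩ := exists_gu_type hK
      (⟨ν', fun {i} hi => μ.parts_pos (Multiset.mem_of_le (by rw [hν']; exact Multiset.sub_le_self _ _) hi),
        hν'sum⟩ : Nat.Partition (n - m))
    obtain ⟨e, -⟩ : ∃ e : Fin m ⊕ Fin (n - m) ≃ Fin n, True :=
      ⟨finSumFinEquiv.trans (finCongr (by omega)), trivial⟩
    have hrk : ∀ j, ((y - 1) ^ j).rank =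
        ((blk e ((gA : GL (Fin m) K) : Matrix (Fin m) (Fin m) K)
          ((gB : GL (Fin (n - m)) K) : Matrix (Fin (n - m)) (Fin (n - m)) K) - 1) ^ j).rank := by
      intro j
      have h1 : ((((gA : GL (Fin m) K) : Matrix (Fin m) (Fin m) K) - 1) ^ j).rank =
          Jordan.rk ν j := hgA j
      have h2 : ((((gB : GL (Fin (n - m)) K) : Matrix (Fin (n - m)) (Fin (n - m)) K) - 1) ^ j).rank =
          Jordan.rk ν' j := hgB j
      rw [blk_sub_one, blk_pow, rank_blk, h1, h2, hμ, ← hadd, Elusive.rk_add]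
    obtain ⟨P, hP⟩ := Jordan.similar_of_rank_pow_eq (y - 1) _ ⟨p, hnil⟩ hrk
    have hP' : (P : Matrix (Fin n) (Fin n) K) * y =
        blk e ((gA : GL (Fin m) K) : Matrix (Fin m) (Fin m) K)
          ((gB : GL (Fin (n - m)) K) : Matrix (Fin (n - m)) (Fin (n - m)) K) * P := by
      rw [mul_sub, sub_mul, mul_one, one_mul] at hP
      exact sub_left_injective hP
    have hfix := fixNd_of_similar hK hyiso e _ _ gA.2 gB.2 P hP'
    have hMy : M = w • y := by
      rw [hy, smul_smul, mul_inv_cancel₀ hw0, one_smul]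
    rw [hMy]
    exact fixNd_smul w hw0 hfix

end unip

section inv2

variable {K : Type u} [Field K] [Fintype K] {q : ℕ}

theorem nd_line {n : ℕ} (v : Fin n → K) (hv : Cfsg.hermForm n K q v v ≠ 0) :
    finrank K (Submodule.span K {v}) = 1 ∧ Nd q (Submodule.span K {v}) := by
  have hv0 : v ≠ 0 := by
    rintro rfl
    exact hv (herm_zero_left' n 0)
  refine ⟨finrank_span_singleton hv0, ?_⟩
  intro x hx hne
  obtain ⟨a, rfl⟩ := Submodule.mem_span_singleton.1 hx
  have ha : a ≠ 0 := by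
    rintro rfl
    exact hne (zero_smul _ _)
  exact ⟨v, Submodule.mem_span_singleton_self v, by
    rw [herm_smul_left]
    exact mul_ne_zero ha hv⟩

theorem nd_plane {n : ℕ} (u v : Fin n → K)
    (hdet : Cfsg.hermForm n K q u u * Cfsg.hermForm n K q v v -
      Cfsg.hermForm n K q u v * Cfsg.hermForm n K q v u ≠ 0) :
    finrank K (Submodule.span K {u, v}) = 2 ∧ Nd q (Submodule.span K {u, v}) := by
  have key : ∀ a b : K, Cfsg.hermForm n K q (a • u + b • v) u = 0 →
      Cfsg.hermForm n K q (a • u + b • v) v = 0 → a = 0 ∧ b = 0 := by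
    intro a b h1 h2
    rw [herm_add_left, herm_smul_left, herm_smul_left] at h1 h2
    have ha : a * (Cfsg.hermForm n K q u u * Cfsg.hermForm n K q v v -
        Cfsg.hermForm n K q u v * Cfsg.hermForm n K q v u) = 0 := by
      linear_combination Cfsg.hermForm n K q v v * h1 - Cfsg.hermForm n K q v u * h2
    have hb : b * (Cfsg.hermForm n K q u u * Cfsg.hermForm n K q v v -
        Cfsg.hermForm n K q u v * Cfsg.hermForm n K q v u) = 0 := by
      linear_combination Cfsg.hermForm n K q u u * h2 - Cfsg.hermForm n K q u v * h1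
    exact ⟨(mul_eq_zero.1 ha).resolve_right hdet, (mul_eq_zero.1 hb).resolve_right hdet⟩
  have hli : LinearIndependent K ![u, v] := by
    rw [LinearIndependent.pair_iff]
    intro a b hab
    exact key a b (by rw [hab, herm_zero_left']) (by rw [hab, herm_zero_left'])
  have hr : Set.range ![u, v] = {u, v} := by
    ext x
    simp only [Set.mem_range, Set.mem_insert_iff, Set.mem_singleton_iff]
    constructor
    · rintro ⟨i, rfl⟩
      fin_cases i
      · left; rfl
      · right; rfl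
    · rintro (rfl | rfl)
      · exact ⟨0, rfl⟩
      · exact ⟨1, rfl⟩
  constructor
  · have h3 := finrank_span_eq_card hli
    rw [hr, Fintype.card_fin] at h3
    exact h3
  · intro x hx hne
    obtain ⟨a, b, rfl⟩ := Submodule.mem_span_pair.1 hx
    by_contra hcon
    push Not at hcon
    have h1 := hcon u (Submodule.subset_span (by simp))
    have h2 := hcon v (Submodule.subset_span (by simp))
    obtain ⟨ha, hb⟩ := key a b h1 h2
    apply hne
    rw [ha, hb, zero_smul, zero_smul, add_zero]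

/-- A unitary matrix with square `w²`, `w` of norm one, has a nondegenerate eigenline. -/
theorem step_A (hK : Fintype.card K = q ^ 2) (h2 : (2 : K) ≠ 0) (hqodd : Odd q) (w : K)
    (hw : w ^ (q + 1) = 1) (n : ℕ) (hn : 1 ≤ n) (y : Matrix (Fin n) (Fin n) K)
    (hy : IsHermIso n K q y) (hyy : y * y = (w * w) • (1 : Matrix (Fin n) (Fin n) K)) :
    FixNd q y 1 := by
  classical
  have hq : q ≠ 0 := by
    have := two_le_q hK
    omega
  obtain ⟨u, hu⟩ : ∃ u : Fin n → K, u = Pi.single (⟨0, hn⟩ : Fin n) 1 := ⟨_, rfl⟩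
  have huu : Cfsg.hermForm n K q u u = 1 := by
    rw [hu, herm_single_right hq, Pi.single_eq_same]
  have heig : ∀ c : K, c * c = w * w →
      y *ᵥ (y *ᵥ u + c • u) = c • (y *ᵥ u + c • u) := by
    intro c hc
    rw [Matrix.mulVec_add, Matrix.mulVec_mulVec, hyy, Matrix.mulVec_smul, Matrix.smul_mulVec,
      Matrix.one_mulVec, smul_add, smul_smul, hc, add_comm]
  have hline : ∀ (v : Fin n → K) (c : K), y *ᵥ v = c • v → Cfsg.hermForm n K q v v ≠ 0 →
      FixNd q y 1 := by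
    intro v c hyv hvv
    obtain ⟨h3, h4⟩ := nd_line v hvv
    refine ⟨Submodule.span K {v}, h3, h4, ?_⟩
    rw [Submodule.map_span_le]
    intro x hx
    rw [Set.mem_singleton_iff] at hx
    rw [hx, Matrix.toLin'_apply, hyv]
    exact Submodule.smul_mem _ _ (Submodule.mem_span_singleton_self v)
  obtain ⟨vp, hvp⟩ : ∃ vp : Fin n → K, vp = y *ᵥ u + w • u := ⟨_, rfl⟩
  obtain ⟨vm, hvm⟩ : ∃ vm : Fin n → K, vm = y *ᵥ u + (-w) • u := ⟨_, rfl⟩
  have hp : y *ᵥ vp = w • vp := by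
    rw [hvp]
    exact heig w rfl
  have hm : y *ᵥ vm = (-w) • vm := by
    rw [hvm]
    exact heig (-w) (by ring)
  have hwq : w * (-w) ^ q = -1 := by
    rw [Odd.neg_pow hqodd, mul_neg, ← pow_succ', hw]
  have hwq' : (-w) * w ^ q = -1 := by
    rw [neg_mul, ← pow_succ', hw]
  have horth : Cfsg.hermForm n K q vp vm = 0 := by
    have h3 := hy vp vm
    rw [hp, hm, herm_smul_left, herm_smul_right, ← mul_assoc, hwq] at h3
    have h4 : (2 : K) * Cfsg.hermForm n K q vp vm = 0 := by linear_combination -h3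
    exact (mul_eq_zero.1 h4).resolve_left h2
  have horth' : Cfsg.hermForm n K q vm vp = 0 := by
    have h3 := hy vm vp
    rw [hp, hm, herm_smul_left, herm_smul_right, ← mul_assoc, hwq'] at h3
    have h4 : (2 : K) * Cfsg.hermForm n K q vm vp = 0 := by linear_combination -h3
    exact (mul_eq_zero.1 h4).resolve_left h2
  have hsum : Cfsg.hermForm n K q vp vp + Cfsg.hermForm n K q vm vm ≠ 0 := by
    have h5 : vp - vm = (2 * w) • u := by
      rw [hvp, hvm, neg_smul, two_mul, add_smul]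
      abel
    have h6 : Cfsg.hermForm n K q (vp - vm) (vp - vm) =
        Cfsg.hermForm n K q vp vp + Cfsg.hermForm n K q vm vm := by
      rw [herm_sub_left, herm_sub_right hK, herm_sub_right hK, horth, horth']
      ring
    rw [← h6, h5, herm_smul_left, herm_smul_right, huu, mul_one, ← pow_succ', mul_pow, hw,
      mul_one]
    exact pow_ne_zero _ h2
  by_cases h0 : Cfsg.hermForm n K q vp vp = 0
  · rw [h0, zero_add] at hsum
    exact hline vm (-w) hm hsum
  · exact hline vp w hp h0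

/-- A unitary matrix with square `w²`, `w` of norm minus one, has a nondegenerate invariant
plane. -/
theorem step_B (hK : Fintype.card K = q ^ 2) (h2 : (2 : K) ≠ 0) (hqodd : Odd q) (w : K)
    (hw : w ^ (q + 1) = -1) (n : ℕ) (hn : 1 ≤ n) (y : Matrix (Fin n) (Fin n) K)
    (hy : IsHermIso n K q y) (hyy : y * y = (w * w) • (1 : Matrix (Fin n) (Fin n) K)) :
    FixNd q y 2 := by
  classical
  have hq : q ≠ 0 := by
    have := two_le_q hK
    omega
  obtain ⟨u, hu⟩ : ∃ u : Fin n → K, u = Pi.single (⟨0, hn⟩ : Fin n) 1 := ⟨_, rfl⟩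
  have huu : Cfsg.hermForm n K q u u = 1 := by
    rw [hu, herm_single_right hq, Pi.single_eq_same]
  obtain ⟨v, hv⟩ : ∃ v : Fin n → K, v = y *ᵥ u := ⟨_, rfl⟩
  have hvv : Cfsg.hermForm n K q v v = 1 := by rw [hv, hy u u, huu]
  have hyv : y *ᵥ v = (w * w) • u := by
    rw [hv, Matrix.mulVec_mulVec, hyy, Matrix.smul_mulVec, Matrix.one_mulVec]
  obtain ⟨β, hβ⟩ : ∃ β : K, β = Cfsg.hermForm n K q u v := ⟨_, rfl⟩
  have hvu : Cfsg.hermForm n K q v u = (w * w) * β := by
    rw [← hy v u, hyv, ← hv, herm_smul_left, hβ]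
  have hvu' : Cfsg.hermForm n K q v u = β ^ q := by
    rw [hβ]
    exact (herm_conj hK n u v).symm
  have h4 : β ^ q = w * w * β := by rw [← hvu', hvu]
  have hdet : Cfsg.hermForm n K q u u * Cfsg.hermForm n K q v v -
      Cfsg.hermForm n K q u v * Cfsg.hermForm n K q v u ≠ 0 := by
    rw [huu, hvv, ← hβ, hvu]
    intro h0
    have h3 : (w * β - 1) * (w * β + 1) = 0 := by linear_combination -h0
    have h6 : w ^ (q + 1) = 1 := by
      rcases mul_eq_zero.1 h3 with h | h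
      · have h5 : w ^ q * β ^ q = 1 := by
          rw [← mul_pow, sub_eq_zero.1 h, one_pow]
        rw [h4] at h5
        rw [pow_succ]
        linear_combination h5 - w ^ q * w * h
      · have h5 : w ^ q * β ^ q = -1 := by
          rw [← mul_pow, eq_neg_of_add_eq_zero_left h, Odd.neg_one_pow hqodd]
        rw [h4] at h5
        rw [pow_succ]
        linear_combination -h5 + w ^ q * w * h
    have h7 : (2 : K) = 0 := by linear_combination hw - h6
    exact h2 h7
  obtain ⟨h3, h5⟩ := nd_plane u v hdet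
  refine ⟨Submodule.span K {u, v}, h3, h5, ?_⟩
  rw [Submodule.map_span_le]
  intro x hx
  rcases hx with rfl | hx
  · rw [Matrix.toLin'_apply, ← hv]
    exact Submodule.subset_span (by simp)
  · rw [Set.mem_singleton_iff] at hx
    rw [hx, Matrix.toLin'_apply, hyv]
    exact Submodule.smul_mem _ _ (Submodule.subset_span (by simp))

/-- Squares of the blocks of a block diagonal matrix. -/
theorem blk_sq {n k l : ℕ} (e : Fin k ⊕ Fin l ≃ Fin n) {A : Matrix (Fin k) (Fin k) K}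
    {B : Matrix (Fin l) (Fin l) K} {z : K}
    (h : blk e A B * blk e A B = z • (1 : Matrix (Fin n) (Fin n) K)) :
    A * A = z • (1 : Matrix (Fin k) (Fin k) K) ∧ B * B = z • (1 : Matrix (Fin l) (Fin l) K) := by
  rw [blk_mul, ← blk_one e, blk_smul] at h
  exact blk_inj e h

theorem sq_conj {n : ℕ} {M Y T Ti : Matrix (Fin n) (Fin n) K} (h : T * Ti = 1)
    (hY : T * M * Ti = Y) {z : K} (hM : M * M = z • (1 : Matrix (Fin n) (Fin n) K)) :
    Y * Y = z • (1 : Matrix (Fin n) (Fin n) K) := by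
  have h1 := pow_conj h hY 2
  rw [pow_two, pow_two, hM, Matrix.mul_smul, Matrix.mul_one, Matrix.smul_mul, h] at h1
  exact h1

/-- Peeling off nondegenerate invariant subspaces of dimension `k`. -/
theorem peel (hK : Fintype.card K = q ^ 2) (z : K) (k : ℕ)
    (hstep : ∀ n, 1 ≤ n → ∀ y : Matrix (Fin n) (Fin n) K, IsHermIso n K q y →
      y * y = z • (1 : Matrix (Fin n) (Fin n) K) → FixNd q y k) :
    ∀ n, ∀ y : Matrix (Fin n) (Fin n) K, IsHermIso n K q y →
      y * y = z • (1 : Matrix (Fin n) (Fin n) K) → ∀ j, 1 ≤ k → j * k ≤ n →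
      FixNd q y (j * k) := by
  have hq : q ≠ 0 := by
    have := two_le_q hK
    omega
  intro n
  induction n using Nat.strong_induction_on with
  | _ n ih =>
    intro y hy hyy j hk hj
    rcases Nat.eq_zero_or_pos j with rfl | hjpos
    · rw [zero_mul]
      exact fixNd_bot y
    · have hkn : k ≤ n := by
        have : k ≤ j * k := Nat.le_mul_of_pos_left k hjpos
        omega
      have h1 := hstep n (by omega) y hy hyy
      obtain ⟨e, A, B, T, Ti, hT, hTTi, hA, hB, hTM⟩ := blk_of_fix hK hy h1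
      have hsq := sq_conj hTTi hTM hyy
      obtain ⟨-, hBB⟩ := blk_sq e hsq
      have h3 : (j - 1) * k ≤ n - k := by
        have : j * k = (j - 1) * k + k := by
          rw [← Nat.succ_mul]
          congr 1
          omega
        omega
      have h2 := ih (n - k) (by omega) B hB hBB (j - 1) hk h3
      have h4 := fixNd_blk hq e (fixNd_top hq A) h2
      have h5 : k + (j - 1) * k = j * k := by
        have : j * k = (j - 1) * k + k := by
          rw [← Nat.succ_mul]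
          congr 1
          omega
        omega
      rw [h5] at h4
      apply fixNd_conj hT hTTi
      rw [hTM]
      exact h4

theorem inv2_A (hK : Fintype.card K = q ^ 2) (h2 : (2 : K) ≠ 0) (hqodd : Odd q) (w : K)
    (hw : w ^ (q + 1) = 1) (n : ℕ) (y : Matrix (Fin n) (Fin n) K) (hy : IsHermIso n K q y)
    (hyy : y * y = (w * w) • (1 : Matrix (Fin n) (Fin n) K)) (m : ℕ) (hm : m ≤ n) :
    FixNd q y m := by
  have h := peel hK (w * w) 1 (fun n hn y hy hyy => step_A hK h2 hqodd w hw n hn y hy hyy) n y hy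
    hyy m le_rfl (by omega)
  rw [mul_one] at h
  exact h

theorem inv2_B (hK : Fintype.card K = q ^ 2) (h2 : (2 : K) ≠ 0) (hqodd : Odd q) (w : K)
    (hw : w ^ (q + 1) = -1) (n : ℕ) (y : Matrix (Fin n) (Fin n) K) (hy : IsHermIso n K q y)
    (hyy : y * y = (w * w) • (1 : Matrix (Fin n) (Fin n) K)) (j : ℕ) (hj : j * 2 ≤ n) :
    FixNd q y (j * 2) :=
  peel hK (w * w) 2 (fun n hn y hy hyy => step_B hK h2 hqodd w hw n hn y hy hyy) n y hy
    hyy j (by omega) hj

/-- In the minus case only even-dimensional nondegenerate subspaces are fixed. -/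
theorem even_of_fix_B (hK : Fintype.card K = q ^ 2) (h2 : (2 : K) ≠ 0) (hqodd : Odd q) (w : K)
    (hw : w ^ (q + 1) = -1) (n : ℕ) (y : Matrix (Fin n) (Fin n) K) (hy : IsHermIso n K q y)
    (hyy : y * y = (w * w) • (1 : Matrix (Fin n) (Fin n) K)) (m : ℕ) (h : FixNd q y m) :
    Even m := by
  obtain ⟨e, A, B, T, Ti, hT, hTTi, hA, hB, hTM⟩ := blk_of_fix hK hy h
  have hsq := sq_conj hTTi hTM hyy
  obtain ⟨hAA, -⟩ := blk_sq e hsq
  have h3 : A.det * A.det = (w ^ m) * (w ^ m) := by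
    rw [← Matrix.det_mul, hAA, Matrix.det_smul, Matrix.det_one, Fintype.card_fin, mul_one,
      mul_pow]
  have h4 := isHermIso_det hK hA
  have h5 : (A.det - w ^ m) * (A.det + w ^ m) = 0 := by linear_combination h3
  have h6 : A.det ^ (q + 1) = (-1) ^ m := by
    have hqe : Even (q + 1) := Odd.add_one hqodd
    rcases mul_eq_zero.1 h5 with h | h
    · rw [sub_eq_zero.1 h, ← pow_mul, mul_comm, pow_mul, hw]
    · rw [eq_neg_of_add_eq_zero_left h, Even.neg_pow hqe, ← pow_mul, mul_comm, pow_mul, hw]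
  rw [h4] at h6
  by_contra hodd
  rw [Nat.not_even_iff_odd] at hodd
  rw [Odd.neg_one_pow hodd] at h6
  apply h2
  linear_combination h6

/-- The determinant of a two by two matrix in the minus case. -/
theorem det_two_B (hK : Fintype.card K = q ^ 2) (h2 : (2 : K) ≠ 0) (hqodd : Odd q) (w : K)
    (hw : w ^ (q + 1) = -1) (A : Matrix (Fin 2) (Fin 2) K) (hA : IsHermIso 2 K q A)
    (hAA : A * A = (w * w) • (1 : Matrix (Fin 2) (Fin 2) K)) : A.det = -(w * w) := by
  have hq : q ≠ 0 := by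
    have := two_le_q hK
    omega
  have e00 := congrFun (congrFun hAA 0) 0
  have e01 := congrFun (congrFun hAA 0) 1
  have e10 := congrFun (congrFun hAA 1) 0
  have e11 := congrFun (congrFun hAA 1) 1
  simp only [Matrix.mul_apply, Fin.sum_univ_two, Matrix.smul_apply, Matrix.one_apply_eq,
    smul_eq_mul, mul_one] at e00 e11
  simp only [Matrix.mul_apply, Fin.sum_univ_two, Matrix.smul_apply, smul_eq_mul] at e01 e10
  rw [Matrix.one_apply_ne (by decide), mul_zero] at e01 e10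
  rw [Matrix.det_fin_two]
  by_cases hs : A 0 0 + A 1 1 = 0
  · have h3 : A 1 1 = -A 0 0 := eq_neg_of_add_eq_zero_right hs
    rw [h3]
    linear_combination -e00
  · exfalso
    have hb : A 0 1 = 0 := by
      have h3 : A 0 1 * (A 0 0 + A 1 1) = 0 := by linear_combination e01
      exact (mul_eq_zero.1 h3).resolve_right hs
    have hc : A 1 0 = 0 := by
      have h3 : A 1 0 * (A 0 0 + A 1 1) = 0 := by linear_combination e10
      exact (mul_eq_zero.1 h3).resolve_right hs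
    have had : A 0 0 = A 1 1 := by
      have h3 : (A 0 0 - A 1 1) * (A 0 0 + A 1 1) = 0 := by
        rw [hb, hc] at e00 e11
        linear_combination e00 - e11
      exact sub_eq_zero.1 ((mul_eq_zero.1 h3).resolve_right hs)
    have hsc : A = A 0 0 • (1 : Matrix (Fin 2) (Fin 2) K) := by
      ext i j
      fin_cases i <;> fin_cases j
      · simp
      · simpa using hb
      · simpa using hc
      · simpa using had.symm
    have h3 : A 0 0 ^ (q + 1) = 1 := scalar_norm hq (by omega) (A 0 0) (hsc ▸ hA)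
    have h4 : A 0 0 * A 0 0 = w * w := by
      rw [hb, hc] at e00
      linear_combination e00
    have h5 : (A 0 0 - w) * (A 0 0 + w) = 0 := by linear_combination h4
    have hqe : Even (q + 1) := Odd.add_one hqodd
    have h6 : A 0 0 ^ (q + 1) = -1 := by
      rcases mul_eq_zero.1 h5 with h | h
      · rw [sub_eq_zero.1 h, hw]
      · rw [eq_neg_of_add_eq_zero_left h, Even.neg_pow hqe, hw]
    apply h2
    linear_combination h6 - h3

/-- The determinant in the minus case. -/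
theorem det_B (hK : Fintype.card K = q ^ 2) (h2 : (2 : K) ≠ 0) (hqodd : Odd q) (w : K)
    (hw : w ^ (q + 1) = -1) :
    ∀ n, ∀ y : Matrix (Fin n) (Fin n) K, IsHermIso n K q y →
      y * y = (w * w) • (1 : Matrix (Fin n) (Fin n) K) →
      ∃ h, n = 2 * h ∧ y.det = (-(w * w)) ^ h := by
  intro n
  induction n using Nat.strong_induction_on with
  | _ n ih =>
    intro y hy hyy
    rcases Nat.eq_zero_or_pos n with rfl | hn
    · exact ⟨0, rfl, by rw [Matrix.det_isEmpty, pow_zero]⟩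
    · have h1 := step_B hK h2 hqodd w hw n hn y hy hyy
      obtain ⟨e, A, B, T, Ti, hT, hTTi, hA, hB, hTM⟩ := blk_of_fix hK hy h1
      have hsq := sq_conj hTTi hTM hyy
      obtain ⟨hAA, hBB⟩ := blk_sq e hsq
      have hcard : 2 + (n - 2) = n := by
        have h3 := Fintype.card_congr e
        rw [Fintype.card_sum, Fintype.card_fin, Fintype.card_fin, Fintype.card_fin] at h3
        exact h3
      obtain ⟨h', hn', hdet'⟩ := ih (n - 2) (by omega) B hB hBB
      refine ⟨h' + 1, by omega, ?_⟩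
      rw [← det_conj hTTi hTM, det_blk, det_two_B hK h2 hqodd w hw A hA hAA, hdet', pow_succ,
        mul_comm]

/-- The model in the minus case. -/
theorem exists_model_B (hK : Fintype.card K = q ^ 2) (z : K) (hz : z ^ (q + 1) = 1) :
    ∀ h : ℕ, ∃ x : Matrix (Fin (2 * h)) (Fin (2 * h)) K, IsHermIso (2 * h) K q x ∧
      x * x = z • (1 : Matrix (Fin (2 * h)) (Fin (2 * h)) K) ∧ x.det = (-z) ^ h := by
  intro h
  induction h with
  | zero =>
    refine ⟨1, isHermIso_one _, ?_, ?_⟩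
    · ext i
      exact absurd i.2 (by omega)
    · rw [Matrix.det_one, pow_zero]
  | succ h ih =>
    obtain ⟨x, hx, hxx, hdet⟩ := ih
    obtain ⟨A, hAdef⟩ : ∃ A : Matrix (Fin 2) (Fin 2) K, A = !![0, z; 1, 0] := ⟨_, rfl⟩
    have hA : IsHermIso 2 K q A := by
      intro u v
      rw [hAdef]
      simp only [herm_def, Fin.sum_univ_two, Matrix.mulVec, dotProduct, Matrix.of_apply,
        Matrix.cons_val', Matrix.cons_val_zero, Matrix.cons_val_one, Matrix.empty_val',
        Matrix.cons_val_fin_one, zero_mul, one_mul, zero_add, add_zero]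
      rw [mul_pow]
      have hz' : z * z ^ q = 1 := by rw [← pow_succ', hz]
      linear_combination (u 1 * v 1 ^ q) * hz'
    have hAA : A * A = z • (1 : Matrix (Fin 2) (Fin 2) K) := by
      rw [hAdef]
      ext i j
      fin_cases i <;> fin_cases j <;> simp [Matrix.mul_apply, Fin.sum_univ_two]
    have hAdet : A.det = -z := by
      rw [hAdef, Matrix.det_fin_two]
      simp
    obtain ⟨e, -⟩ : ∃ e : Fin 2 ⊕ Fin (2 * h) ≃ Fin (2 * (h + 1)), True :=
      ⟨finSumFinEquiv.trans (finCongr (by omega)), trivial⟩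
    refine ⟨blk e A x, (isHermIso_blk_iff hK e A x).2 ⟨hA, hx⟩, ?_, ?_⟩
    · rw [blk_mul, hAA, hxx, ← blk_smul, blk_one]
    · rw [det_blk, hAdet, hdet, pow_succ, mul_comm]

end inv2

section nt2

variable {K : Type u} [Field K] [Fintype K] {q : ℕ}

theorem ringChar_ne_two (h2 : (2 : K) ≠ 0) : ringChar K ≠ 2 := by
  intro h
  apply h2
  have h3 := CharP.cast_eq_zero K (ringChar K)
  rw [h] at h3
  exact_mod_cast h3

theorem card_half (hK : Fintype.card K = q ^ 2) {s : ℕ} (hs : q = 2 * s + 1) :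
    Fintype.card K / 2 = s * (q + 1) := by
  have h1 : q ^ 2 = 2 * (s * (q + 1)) + 1 := by
    rw [hs]
    ring
  rw [hK, h1]
  omega

theorem exists_w_mod4 (hK : Fintype.card K = q ^ 2) (hq1 : q % 4 = 1) :
    ∃ w : K, w ^ (q + 1) = -1 ∧ w * w = -1 := by
  have h1 : Fintype.card K % 4 ≠ 3 := by
    rw [hK, Nat.pow_mod, hq1]
    norm_num
  obtain ⟨w, hw⟩ := FiniteField.isSquare_neg_one_iff.2 h1
  refine ⟨w, ?_, hw.symm⟩
  obtain ⟨t, ht⟩ : ∃ t, q = 4 * t + 1 := ⟨q / 4, by omega⟩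
  have h3 : q + 1 = 2 * (2 * t + 1) := by omega
  rw [h3, pow_mul, pow_two, ← hw, Odd.neg_one_pow ⟨t, rfl⟩]

theorem exists_w_val (hK : Fintype.card K = q ^ 2) (h2 : (2 : K) ≠ 0) (hqodd : Odd q) (n : ℕ)
    (hn : n ≠ 0) (hv : padicValNat 2 (q + 1) < padicValNat 2 n) :
    ∃ w : K, w ^ (q + 1) = -1 ∧ (-(w * w)) ^ (n / 2) = 1 := by
  obtain ⟨s, hs⟩ := hqodd
  obtain ⟨e, he⟩ : ∃ e, e = padicValNat 2 (q + 1) := ⟨_, rfl⟩
  rw [← he] at hv
  obtain ⟨o, ho⟩ : 2 ^ e ∣ q + 1 := by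
    rw [he]
    exact pow_padicValNat_dvd
  have hodd : Odd o := by
    by_contra hcon
    rw [Nat.not_odd_iff_even] at hcon
    obtain ⟨o', ho'⟩ := hcon
    have h3 : 2 ^ (e + 1) ∣ q + 1 := ⟨o', by rw [ho, ho', pow_succ]; ring⟩
    have h4 := (padicValNat_dvd_iff_le (by omega : q + 1 ≠ 0)).1 h3
    omega
  have he1 : 1 ≤ e := by
    rw [he]
    apply (padicValNat_dvd_iff_le (by omega : q + 1 ≠ 0)).1
    rw [pow_one]
    exact ⟨s + 1, by omega⟩
  obtain ⟨t, ht⟩ : 2 ^ (e + 1) ∣ n := (padicValNat_dvd_iff_le hn).2 (by omega)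
  have hn2 : n / 2 = 2 ^ e * t := by
    rw [ht, pow_succ, mul_comm (2 ^ e) 2, mul_assoc, Nat.mul_div_cancel_left _ two_pos]
  have hEeven : Even (2 ^ e * t) := by
    obtain ⟨e', rfl⟩ : ∃ e', e = e' + 1 := ⟨e - 1, by omega⟩
    exact ⟨2 ^ e' * t, by rw [pow_succ]; ring⟩
  obtain ⟨c, hc⟩ := FiniteField.exists_nonsquare (ringChar_ne_two h2)
  have hc0 : c ≠ 0 := by
    rintro rfl
    exact hc ⟨0, by simp⟩
  have hN : c ^ (s * (q + 1)) = -1 := by
    rw [← card_half hK hs]
    rcases FiniteField.pow_dichotomy (ringChar_ne_two h2) hc0 with h | h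
    · exact absurd ((FiniteField.isSquare_iff (ringChar_ne_two h2) hc0).2 h) hc
    · exact h
  refine ⟨c ^ (s * o), ?_, ?_⟩
  · have h3 : s * o * (q + 1) = s * (q + 1) * o := by ring
    rw [← pow_mul, h3, pow_mul, hN, Odd.neg_one_pow hodd]
  · have h3 : c ^ (s * o) * c ^ (s * o) = c ^ (s * o * 2) := by
      rw [← pow_add]
      congr 1
      ring
    have h4 : s * o * 2 * (2 ^ e * t) = s * (q + 1) * (2 * t) := by
      rw [ho]
      ring
    rw [hn2, h3, neg_pow, Even.neg_one_pow hEeven, one_mul, ← pow_mul, h4, pow_mul, hN,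
      Even.neg_one_pow ⟨t, by ring⟩]

theorem val_of_w (h2 : (2 : K) ≠ 0) (hq3 : q % 4 = 3) (n : ℕ) (hn0 : n ≠ 0) (hne : Even n)
    (w : K) (hw : w ^ (q + 1) = -1) (h : (-(w * w)) ^ (n / 2) = 1) :
    padicValNat 2 (q + 1) < padicValNat 2 n := by
  obtain ⟨e, he⟩ : ∃ e, e = padicValNat 2 (q + 1) := ⟨_, rfl⟩
  rw [← he]
  obtain ⟨o, ho⟩ : 2 ^ e ∣ q + 1 := by
    rw [he]
    exact pow_padicValNat_dvd
  have hodd : Odd o := by
    by_contra hcon
    rw [Nat.not_odd_iff_even] at hcon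
    obtain ⟨o', ho'⟩ := hcon
    have h3 : 2 ^ (e + 1) ∣ q + 1 := ⟨o', by rw [ho, ho', pow_succ]; ring⟩
    have h4 := (padicValNat_dvd_iff_le (by omega : q + 1 ≠ 0)).1 h3
    omega
  have he2 : 2 ≤ e := by
    rw [he]
    apply (padicValNat_dvd_iff_le (by omega : q + 1 ≠ 0)).1
    exact ⟨q / 4 + 1, by omega⟩
  obtain ⟨N, hN⟩ := hne
  have hn2 : n / 2 = N := by omega
  rw [hn2] at h
  obtain ⟨s, hs⟩ : ∃ s : K, s = w ^ o := ⟨_, rfl⟩
  have hsE : s ^ (2 ^ e) = -1 := by
    rw [hs, ← pow_mul, mul_comm, ← ho, hw]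
  have hs1 : s ^ (2 ^ e * N + 2 * N) = 1 := by
    have h3 : ((-(w * w)) ^ N) ^ o = 1 := by rw [h, one_pow]
    have h5 : (-(w * w)) = (-1) * (w * w) := by ring
    have h6 : (w * w) ^ (N * o) = s ^ (2 * N) := by
      rw [hs, ← pow_two, ← pow_mul, ← pow_mul]
      congr 1
      ring
    have h7 : ((-1 : K)) ^ (N * o) = s ^ (2 ^ e * N) := by
      rw [mul_comm N o, pow_mul, Odd.neg_one_pow hodd, pow_mul, hsE]
    rw [← pow_mul, h5, mul_pow, h6, h7, ← pow_add] at h3
    exact h3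
  have hs2 : s ^ (2 ^ (e + 1)) = 1 := by
    rw [pow_succ, pow_mul, hsE]
    norm_num
  have hsne : ¬ s ^ (2 ^ e) = 1 := by
    rw [hsE]
    intro h3
    apply h2
    linear_combination -h3
  haveI : Fact (Nat.Prime 2) := ⟨Nat.prime_two⟩
  have hord : orderOf s = 2 ^ (e + 1) := orderOf_eq_prime_pow hsne hs2
  have hdvd : 2 ^ (e + 1) ∣ 2 ^ e * N + 2 * N := by
    rw [← hord]
    exact orderOf_dvd_of_pow_eq_one hs1
  obtain ⟨e', rfl⟩ : ∃ e', e = e' + 1 := ⟨e - 1, by omega⟩
  have h8 : 2 ^ (e' + 1) * N + 2 * N = 2 * (N * (2 ^ e' + 1)) := by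
    rw [pow_succ]
    ring
  rw [h8, pow_succ 2 (e' + 1), mul_comm (2 ^ (e' + 1)) 2] at hdvd
  have h9 : 2 ^ (e' + 1) ∣ N * (2 ^ e' + 1) := Nat.dvd_of_mul_dvd_mul_left two_pos hdvd
  have hcop : Nat.Coprime (2 ^ (e' + 1)) (2 ^ e' + 1) := by
    apply Nat.Coprime.pow_left
    rw [Nat.coprime_two_left]
    obtain ⟨e'', rfl⟩ : ∃ e'', e' = e'' + 1 := ⟨e' - 1, by omega⟩
    exact ⟨2 ^ e'', by rw [pow_succ]; ring⟩
  have h10 : 2 ^ (e' + 1) ∣ N := hcop.dvd_of_dvd_mul_right h9
  have h11 : 2 ^ (e' + 1 + 1) ∣ n := by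
    obtain ⟨t, ht⟩ := h10
    exact ⟨t, by rw [hN, ht, pow_succ]; ring⟩
  have h12 := (padicValNat_dvd_iff_le hn0).1 h11
  omega

/-- Involutions of `PSU_n(q)`, `q` odd, and nondegenerate subspaces. -/
theorem inv2_iff (hK : Fintype.card K = q ^ 2) (h2 : (2 : K) ≠ 0) (hqodd : Odd q) (n m : ℕ)
    (hn : 1 ≤ n) (hmn : m ≤ n) :
    (∀ M : Matrix (Fin n) (Fin n) K, IsHermIso n K q M → M.det = 1 →
      (∃ z : K, M ^ 2 = z • (1 : Matrix (Fin n) (Fin n) K)) →
      (∀ z : K, M ≠ z • (1 : Matrix (Fin n) (Fin n) K)) → FixNd q M m) ↔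
    (Odd n ∨ Even m ∨ (padicValNat 2 n ≤ padicValNat 2 (q + 1) ∧ q % 4 = 3)) := by
  have hq : q ≠ 0 := by
    have := two_le_q hK
    omega
  have hqe : Even (q + 1) := Odd.add_one hqodd
  constructor
  · intro hL
    by_contra hcon
    push Not at hcon
    obtain ⟨hno, hmo, hc3⟩ := hcon
    rw [Nat.not_odd_iff_even] at hno
    rw [Nat.not_even_iff_odd] at hmo
    obtain ⟨w, hw, hwn⟩ : ∃ w : K, w ^ (q + 1) = -1 ∧ (-(w * w)) ^ (n / 2) = 1 := by
      by_cases hq1 : q % 4 = 1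
      · obtain ⟨w, hw, hww⟩ := exists_w_mod4 hK hq1
        exact ⟨w, hw, by rw [hww, neg_neg, one_pow]⟩
      · have hq3 : q % 4 = 3 := by
          obtain ⟨s, hs⟩ := hqodd
          omega
        exact exists_w_val hK h2 hqodd n (by omega) (lt_of_not_ge (fun hle => hc3 hle hq3))
    obtain ⟨h, hh⟩ := hno
    have hn2 : n = 2 * h := by omega
    subst hn2
    rw [Nat.mul_div_cancel_left _ two_pos] at hwn
    have hz : (w * w) ^ (q + 1) = 1 := by
      rw [mul_pow, hw]
      norm_num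
    obtain ⟨x, hx, hxx, hdet⟩ := exists_model_B hK (w * w) hz h
    have hns : ∀ c : K, x ≠ c • (1 : Matrix (Fin (2 * h)) (Fin (2 * h)) K) := by
      intro c hc
      have h3 : c ^ (q + 1) = 1 := scalar_norm hq hn c (hc ▸ hx)
      have h4 : (c * c - w * w) • (1 : Matrix (Fin (2 * h)) (Fin (2 * h)) K) = 0 := by
        rw [sub_smul, ← hxx, hc, Matrix.smul_mul, Matrix.mul_smul, Matrix.one_mul, smul_smul,
          sub_self]
      have h5 := smul_one_ne_zero_entry hn _ h4
      have h6 : (c - w) * (c + w) = 0 := by linear_combination h5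
      have h7 : c ^ (q + 1) = -1 := by
        rcases mul_eq_zero.1 h6 with h | h
        · rw [sub_eq_zero.1 h, hw]
        · rw [eq_neg_of_add_eq_zero_left h, Even.neg_pow hqe, hw]
      apply h2
      linear_combination h7 - h3
    have hfix := hL x hx (by rw [hdet, hwn]) ⟨w * w, by rw [pow_two, hxx]⟩ hns
    have hme := even_of_fix_B hK h2 hqodd w hw _ x hx hxx m hfix
    exact (Nat.not_even_iff_odd.2 hmo) hme
  · intro hR M hM hdet ⟨z, hz⟩ _
    rw [pow_two] at hz
    have hzn : z ^ (q + 1) = 1 := scalar_norm hq hn z (hz ▸ isHermIso_mul hM hM)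
    have hz0 : z ≠ 0 := by
      rintro rfl
      rw [zero_pow (by omega)] at hzn
      exact zero_ne_one hzn
    obtain ⟨s, hs⟩ := hqodd
    have hsq : IsSquare z := by
      rw [FiniteField.isSquare_iff (ringChar_ne_two h2) hz0, card_half hK hs, mul_comm, pow_mul,
        hzn, one_pow]
    obtain ⟨w, hw⟩ := hsq
    have hw2 : (w ^ (q + 1) - 1) * (w ^ (q + 1) + 1) = 0 := by
      have h3 : (w ^ (q + 1)) * (w ^ (q + 1)) = 1 := by rw [← mul_pow, ← hw, hzn]
      linear_combination h3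
    rw [hw] at hz
    rcases mul_eq_zero.1 hw2 with h | h
    · exact inv2_A hK h2 ⟨s, hs⟩ w (sub_eq_zero.1 h) n M hM hz m hmn
    · have hwm : w ^ (q + 1) = -1 := eq_neg_of_add_eq_zero_left h
      have hne : Even n := even_of_fix_B hK h2 ⟨s, hs⟩ w hwm n M hM hz n (fixNd_top hq M)
      obtain ⟨h', hn', hdet'⟩ := det_B hK h2 ⟨s, hs⟩ w hwm n M hM hz
      rw [hdet] at hdet'
      rcases hR with ho | he | ⟨hv, hq3⟩
      · exact absurd hne (Nat.not_even_iff_odd.2 ho)
      · obtain ⟨j, hj⟩ := he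
        have h5 := inv2_B hK h2 ⟨s, hs⟩ w hwm n M hM hz j (by omega)
        have h6 : j * 2 = m := by omega
        rw [h6] at h5
        exact h5
      · exfalso
        have h5 := val_of_w h2 hq3 n (by omega) hne w hwm (by
          rw [hn', Nat.mul_div_cancel_left _ two_pos]
          exact hdet'.symm)
        omega

end nt2

section count

variable {K : Type u} [Field K] [Fintype K] {q n : ℕ}

/-- Normal form of a nondegenerate subspace. -/
theorem nd_coord (hK : Fintype.card K = q ^ 2) (W : Submodule K (Fin n → K)) {m : ℕ}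
    (hWk : finrank K W = m) (hW : Nd q W) :
    ∃ (e : Fin m ⊕ Fin (n - m) ≃ Fin n) (T Ti : Matrix (Fin n) (Fin n) K),
      IsHermIso n K q T ∧ T * Ti = 1 ∧ ∀ v, v ∈ W ↔ ∀ b, (T *ᵥ v) (e (Sum.inr b)) = 0 := by
  classical
  have hW' : ∀ u ∈ W, (∀ v ∈ W, Cfsg.hermForm n K q u v = 0) → u = 0 := by
    intro u hu hall
    by_contra hne
    obtain ⟨v, hv, hv0⟩ := hW u hu hne
    exact hv0 (hall v hv)
  obtain ⟨T, S, hT, hS⟩ := exists_normal_form hK n W hW'
  have hinj := isHermIso_injective hK hT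
  obtain ⟨Tu, hTu⟩ := isHermIso_isUnit hK hT
  obtain ⟨Ti, hTi⟩ : ∃ Ti : Matrix (Fin n) (Fin n) K,
      Ti = ((Tu⁻¹ : (Matrix (Fin n) (Fin n) K)ˣ) : Matrix (Fin n) (Fin n) K) := ⟨_, rfl⟩
  have hTTi : T * Ti = 1 := by
    rw [hTi, ← hTu, ← Units.val_mul, mul_inv_cancel, Units.val_one]
  have hTiT : Ti * T = 1 := mul_eq_one_comm.1 hTTi
  have hScard : S.card = m := by
    have e1 : W ≃ {v : Fin n → K // ∀ i, i ∉ S → v i = 0} :=
      Equiv.ofBijective (fun v => ⟨T *ᵥ v.1, (hS v.1).1 v.2⟩) ⟨by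
        intro v v' h
        exact Subtype.ext (hinj (congrArg Subtype.val h)), by
        rintro ⟨v₀, hv₀⟩
        have hTv : T *ᵥ (Ti *ᵥ v₀) = v₀ := by
          rw [Matrix.mulVec_mulVec, hTTi, Matrix.one_mulVec]
        refine ⟨⟨Ti *ᵥ v₀, ?_⟩, ?_⟩
        · rw [hS, hTv]; exact hv₀
        · exact Subtype.ext hTv⟩
    have e2 : {v : Fin n → K // ∀ i, i ∉ S → v i = 0} ≃ (S → K) :=
      { toFun := fun v s => v.1 s.1
        invFun := fun f => ⟨fun i => if h : i ∈ S then f ⟨i, h⟩ else 0, fun i hi => dif_neg hi⟩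
        left_inv := by
          intro v
          apply Subtype.ext
          funext i
          by_cases h : i ∈ S
          · simp [h]
          · simp only [dif_neg h]
            exact (v.2 i h).symm
        right_inv := by
          intro f
          funext s
          simp [s.2] }
    have h1 : Nat.card W = Fintype.card K ^ m := by
      rw [Module.natCard_eq_pow_finrank (K := K) (V := W), hWk, Nat.card_eq_fintype_card]
    have h2 : Nat.card W = Fintype.card K ^ S.card := by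
      rw [Nat.card_congr (e1.trans e2), Nat.card_eq_fintype_card, Fintype.card_fun,
        Fintype.card_coe]
    have h3 : Fintype.card K ^ S.card = Fintype.card K ^ m := by rw [← h1, ← h2]
    exact Nat.pow_right_injective (Fintype.one_lt_card (α := K)) h3
  have hcompl : Fintype.card {i : Fin n // i ∉ S} = n - m := by
    rw [Fintype.card_subtype_compl, Fintype.card_coe, Fintype.card_fin, hScard]
  let e : Fin m ⊕ Fin (n - m) ≃ Fin n :=
    (Equiv.sumCongr (S.equivFinOfCardEq hScard).symm (Fintype.equivFinOfCardEq hcompl).symm).trans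
      (Equiv.sumCompl (· ∈ S))
  have he : ∀ i, i ∉ S ↔ ∃ b, e (Sum.inr b) = i := by
    intro i
    constructor
    · intro hi
      refine ⟨Fintype.equivFinOfCardEq hcompl ⟨i, hi⟩, ?_⟩
      simp [e]
    · rintro ⟨b, rfl⟩
      have : e (Sum.inr b) = ((Fintype.equivFinOfCardEq hcompl).symm b : Fin n) := by
        simp [e]
      rw [this]
      exact ((Fintype.equivFinOfCardEq hcompl).symm b).2
  refine ⟨e, T, Ti, hT, hTTi, ?_⟩
  intro v
  rw [hS]
  constructor
  · intro h b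
    exact h _ ((he _).2 ⟨b, rfl⟩)
  · intro h i hi
    obtain ⟨b, rfl⟩ := (he i).1 hi
    exact h b

/-- The action of the unitary group on subspaces. -/
noncomputable def guAct (n : ℕ) (K : Type u) [Field K] [Fintype K] (q : ℕ) :
    MulAction ↥(Cfsg.GU n K q) (Submodule K (Fin n → K)) where
  smul g U := U.map (Matrix.toLin' ((g : GL (Fin n) K) : Matrix (Fin n) (Fin n) K))
  one_smul U := by
    show U.map (Matrix.toLin' (((1 : ↥(Cfsg.GU n K q)) : GL (Fin n) K) :
      Matrix (Fin n) (Fin n) K)) = U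
    rw [Subgroup.coe_one, Units.val_one, Matrix.toLin'_one, Submodule.map_id]
  mul_smul g h U := by
    show U.map (Matrix.toLin' (((g * h : ↥(Cfsg.GU n K q)) : GL (Fin n) K) :
      Matrix (Fin n) (Fin n) K)) =
      (U.map (Matrix.toLin' ((h : GL (Fin n) K) : Matrix (Fin n) (Fin n) K))).map
        (Matrix.toLin' ((g : GL (Fin n) K) : Matrix (Fin n) (Fin n) K))
    rw [Subgroup.coe_mul, Units.val_mul, Matrix.toLin'_mul, Submodule.map_comp]

attribute [local instance] guAct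

theorem gu_smul_def (g : ↥(Cfsg.GU n K q)) (U : Submodule K (Fin n → K)) :
    g • U = U.map (Matrix.toLin' ((g : GL (Fin n) K) : Matrix (Fin n) (Fin n) K)) := rfl

theorem gl_toLin_injective (g : GL (Fin n) K) :
    Function.Injective (Matrix.toLin' (g : Matrix (Fin n) (Fin n) K)) := by
  intro u v huv
  have h1 := congrArg (fun x => ((g⁻¹ : GL (Fin n) K) : Matrix (Fin n) (Fin n) K) *ᵥ x) huv
  simp only [Matrix.toLin'_apply, Matrix.mulVec_mulVec] at h1
  rw [← Units.val_mul, inv_mul_cancel, Units.val_one, Matrix.one_mulVec, Matrix.one_mulVec] at h1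
  exact h1

theorem gu_nd_smul (g : ↥(Cfsg.GU n K q)) (W : Submodule K (Fin n → K)) (hW : Nd q W) :
    Nd q (g • W) := by
  rintro _ ⟨u, hu, rfl⟩ hne
  have hu0 : u ≠ 0 := by
    rintro rfl
    exact hne (map_zero _)
  obtain ⟨v, hv, hv0⟩ := hW u hu hu0
  refine ⟨Matrix.toLin' ((g : GL (Fin n) K) : Matrix (Fin n) (Fin n) K) v,
    Submodule.mem_map_of_mem hv, ?_⟩
  rw [Matrix.toLin'_apply, Matrix.toLin'_apply]
  have hg : IsHermIso n K q ((g : GL (Fin n) K) : Matrix (Fin n) (Fin n) K) := g.2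
  rw [hg u v]
  exact hv0

theorem gu_finrank_smul (g : ↥(Cfsg.GU n K q)) (W : Submodule K (Fin n → K)) :
    finrank K (g • W : Submodule K (Fin n → K)) = finrank K W :=
  (Submodule.equivMapOfInjective _ (gl_toLin_injective (g : GL (Fin n) K)) W).finrank_eq.symm

/-- Witt: the unitary group is transitive on nondegenerate subspaces of given dimension. -/
theorem gu_nd_trans (hK : Fintype.card K = q ^ 2) (m : ℕ) (W W' : Submodule K (Fin n → K))
    (hW : Nd q W) (hW' : Nd q W') (hfr : finrank K W = m) (hfr' : finrank K W' = m) :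
    ∃ g : ↥(Cfsg.GU n K q), g • W = W' := by
  classical
  obtain ⟨e, T, Ti, hT, hTTi, hWe⟩ := nd_coord hK W hfr hW
  obtain ⟨e', T', Ti', hT', hTTi', hWe'⟩ := nd_coord hK W' hfr' hW'
  have hTiT' : Ti' * T' = 1 := mul_eq_one_comm.1 hTTi'
  obtain ⟨σ, hσ⟩ : ∃ σ : Equiv.Perm (Fin n), σ = e'.symm.trans e := ⟨_, rfl⟩
  obtain ⟨G, hG⟩ : ∃ G : Matrix (Fin n) (Fin n) K, G = Ti' * σ.permMatrix K * T := ⟨_, rfl⟩
  have hGiso : IsHermIso n K q G := by
    rw [hG]
    exact isHermIso_mul (isHermIso_mul (iso_inv hT' hTTi') (isHermIso_perm σ)) hT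
  obtain ⟨Gu, hGu⟩ := isHermIso_isUnit hK hGiso
  have hGmem : Gu ∈ Cfsg.GU n K q := by
    show IsHermIso n K q (Gu : Matrix (Fin n) (Fin n) K)
    rw [hGu]
    exact hGiso
  refine ⟨⟨Gu, hGmem⟩, ?_⟩
  have hle : (⟨Gu, hGmem⟩ : ↥(Cfsg.GU n K q)) • W ≤ W' := by
    rintro _ ⟨v, hv, rfl⟩
    rw [hWe']
    intro b
    show (T' *ᵥ (Matrix.toLin' (Gu : Matrix (Fin n) (Fin n) K) v)) (e' (Sum.inr b)) = 0
    rw [hGu, Matrix.toLin'_apply, hG, Matrix.mulVec_mulVec, ← Matrix.mul_assoc,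
      ← Matrix.mul_assoc, hTTi', Matrix.one_mul, ← Matrix.mulVec_mulVec,
      Matrix.permMatrix_mulVec, Function.comp_apply, hσ]
    show (T *ᵥ v) (e (e'.symm (e' (Sum.inr b)))) = 0
    rw [Equiv.symm_apply_apply]
    exact (hWe v).1 hv b
  apply Submodule.eq_of_le_of_finrank_eq hle
  rw [gu_finrank_smul, hfr, hfr']

end count

section count2

variable {K : Type u} [Field K] [Fintype K] {q n : ℕ}

attribute [local instance] guAct

theorem gu_stab_eq (W₀ : Submodule K (Fin n → K)) :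
    MulAction.stabilizer ↥(Cfsg.GU n K q) W₀ =
      (Cfsg.stabilizing (Cfsg.glToMat (Fin n) K) (W₀ : Set (Fin n → K))).subgroupOf
        (Cfsg.GU n K q) := by
  ext g
  rw [MulAction.mem_stabilizer_iff, gu_smul_def, Subgroup.mem_subgroupOf]
  show W₀.map (Matrix.toLin' ((g : GL (Fin n) K) : Matrix (Fin n) (Fin n) K)) = W₀ ↔
    ∀ v : Fin n → K, v ∈ W₀ ↔ ((g : GL (Fin n) K) : Matrix (Fin n) (Fin n) K) *ᵥ v ∈ W₀
  constructor
  · intro h v
    constructor
    · intro hv
      have h3 : Matrix.toLin' ((g : GL (Fin n) K) : Matrix (Fin n) (Fin n) K) v ∈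
          W₀.map (Matrix.toLin' ((g : GL (Fin n) K) : Matrix (Fin n) (Fin n) K)) :=
        Submodule.mem_map_of_mem hv
      rw [h, Matrix.toLin'_apply] at h3
      exact h3
    · intro hv
      have h3 : ((g : GL (Fin n) K) : Matrix (Fin n) (Fin n) K) *ᵥ v ∈
          W₀.map (Matrix.toLin' ((g : GL (Fin n) K) : Matrix (Fin n) (Fin n) K)) := by
        rw [h]
        exact hv
      obtain ⟨v', hv', hvv⟩ := h3
      rw [← Matrix.toLin'_apply] at hvv
      have h4 : v' = v := gl_toLin_injective (g : GL (Fin n) K) hvv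
      rw [← h4]
      exact hv'
  · intro h
    apply SpIso.map_eq_of_le _ (gl_toLin_injective (g : GL (Fin n) K))
    rintro _ ⟨v, hv, rfl⟩
    rw [Matrix.toLin'_apply]
    exact (h v).1 hv

/-- A nondegenerate coordinate subspace of each dimension. -/
theorem exists_nd_dim (hK : Fintype.card K = q ^ 2) (m : ℕ) (hm : m ≤ n) :
    ∃ W : Submodule K (Fin n → K), finrank K W = m ∧ Nd q W := by
  have hq : q ≠ 0 := by
    have := two_le_q hK
    omega
  obtain ⟨e⟩ : Nonempty (Fin m ⊕ Fin (n - m) ≃ Fin n) :=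
    ⟨(finSumFinEquiv).trans (finCongr (by omega))⟩
  obtain ⟨W, h1, h2, -⟩ := fixNd_blk_left hq e (1 : Matrix (Fin m) (Fin m) K)
    (1 : Matrix (Fin (n - m)) (Fin (n - m)) K)
  exact ⟨W, h1, h2⟩

/-- Orbit-stabilizer count of the nondegenerate subspaces of dimension `m`. -/
theorem gu_card_nd_mul (hK : Fintype.card K = q ^ 2) (m : ℕ) (hm : m ≤ n) :
    Nat.card {W : Submodule K (Fin n → K) // finrank K W = m ∧ Nd q W} *
      (Nat.card ↥(Cfsg.GU m K q) * Nat.card ↥(Cfsg.GU (n - m) K q)) =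
    Nat.card ↥(Cfsg.GU n K q) := by
  obtain ⟨W₀, hW₀fr, hW₀⟩ := exists_nd_dim (n := n) hK m hm
  have htr : ∀ t ∈ {W : Submodule K (Fin n → K) | finrank K W = m ∧ Nd q W},
      ∃ g : ↥(Cfsg.GU n K q), g • W₀ = t := by
    intro t ht
    exact gu_nd_trans hK m W₀ t hW₀ ht.2 hW₀fr ht.1
  have h1 := Helper13.card_preimage_orbit (G := ↥(Cfsg.GU n K q)) W₀
    {W : Submodule K (Fin n → K) | finrank K W = m ∧ Nd q W} htr
  have h2 : Nat.card {g : ↥(Cfsg.GU n K q) //
      g • W₀ ∈ {W : Submodule K (Fin n → K) | finrank K W = m ∧ Nd q W}} =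
      Nat.card ↥(Cfsg.GU n K q) := by
    apply Nat.card_congr
    apply Equiv.subtypeUnivEquiv
    intro g
    exact ⟨by rw [gu_finrank_smul, hW₀fr], gu_nd_smul g W₀ hW₀⟩
  obtain ⟨e⟩ := gu_stab_equiv hK n m W₀ hW₀fr (by
    intro u hu hu'
    by_contra hne
    obtain ⟨v, hv, hv0⟩ := hW₀ u hu hne
    exact hv0 (hu' v hv))
  have h3 : Nat.card (MulAction.stabilizer ↥(Cfsg.GU n K q) W₀) =
      Nat.card ↥(Cfsg.GU m K q) * Nat.card ↥(Cfsg.GU (n - m) K q) := by
    rw [gu_stab_eq W₀, Nat.card_congr e.toEquiv, Nat.card_prod]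
  rw [← h3, ← h2, h1]
  rfl

/-- The factors of the order of the unitary group. -/
def uf (q i : ℕ) : ℕ := if Even i then q ^ (i + 1) + 1 else q ^ (i + 1) - 1

theorem uf_pos {q : ℕ} (hq : 2 ≤ q) (i : ℕ) : 0 < uf q i := by
  unfold uf
  split_ifs
  · omega
  · exact Nat.sub_pos_of_lt (Nat.one_lt_pow (by omega) (by omega))

/-- A prime dividing the number of nondegenerate subspaces of dimension `m`. -/
theorem gu_exists_of_dvd_nd (hK : Fintype.card K = q ^ 2) (r : ℕ) (hrP : r.Prime)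
    (hrq : ¬ r ∣ q) (m : ℕ) (hm : m ≤ n)
    (hr : r ∣ Nat.card {W : Submodule K (Fin n → K) // finrank K W = m ∧ Nd q W}) :
    ∃ j, n - m ≤ j ∧ j < n ∧ r ∣ uf q j := by
  have hq := two_le_q hK
  have h1 := gu_card_nd_mul (n := n) hK m hm
  rw [card_GU hK m, card_GU hK (n - m), card_GU hK n] at h1
  have hsplit := Finset.prod_range_mul_prod_Ico (fun i => uf q i) (Nat.sub_le n m)
  have hpos : 0 < ∏ i ∈ Finset.range (n - m), uf q i :=
    Finset.prod_pos (fun i _ => uf_pos hq i)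
  have h1' : Nat.card {W : Submodule K (Fin n → K) // finrank K W = m ∧ Nd q W} *
      (q ^ (m * (m - 1) / 2) * (∏ i ∈ Finset.range m, uf q i) *
        (q ^ ((n - m) * (n - m - 1) / 2) * ∏ i ∈ Finset.range (n - m), uf q i)) =
      q ^ (n * (n - 1) / 2) * ∏ i ∈ Finset.range n, uf q i := h1
  rw [← hsplit] at h1'
  have h2 : (∏ i ∈ Finset.range (n - m), uf q i) *
      (Nat.card {W : Submodule K (Fin n → K) // finrank K W = m ∧ Nd q W} *
        (q ^ (m * (m - 1) / 2) * (∏ i ∈ Finset.range m, uf q i) *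
          q ^ ((n - m) * (n - m - 1) / 2))) =
      (∏ i ∈ Finset.range (n - m), uf q i) *
        (q ^ (n * (n - 1) / 2) * ∏ i ∈ Finset.Ico (n - m) n, uf q i) := by
    calc _ = Nat.card {W : Submodule K (Fin n → K) // finrank K W = m ∧ Nd q W} *
          (q ^ (m * (m - 1) / 2) * (∏ i ∈ Finset.range m, uf q i) *
            (q ^ ((n - m) * (n - m - 1) / 2) * ∏ i ∈ Finset.range (n - m), uf q i)) := by ring
      _ = _ := h1'
      _ = _ := by ring
  have h3 := Nat.eq_of_mul_eq_mul_left hpos h2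
  have h4 : r ∣ q ^ (n * (n - 1) / 2) * ∏ i ∈ Finset.Ico (n - m) n, uf q i := by
    rw [← h3]
    exact Dvd.dvd.mul_right hr _
  rcases (Nat.Prime.dvd_mul hrP).1 h4 with h5 | h5
  · exact absurd (hrP.dvd_of_dvd_pow h5) hrq
  · obtain ⟨j, hj, hj2⟩ := (Prime.dvd_finsetProd_iff hrP.prime _).1 h5
    rw [Finset.mem_Ico] at hj
    exact ⟨j, hj.1, hj.2, hj2⟩

end count2

section semi

open Cfsg.Agent.Lib.Helper40.PrimeOrderGL Cfsg.Agent.Lib.Helper40.DualPoly
  Cfsg.Agent.Lib.Helper40.UnitaryWall Cfsg.Agent.Lib.Helper40.GUPrimeOrder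

variable {K : Type u} [Field K] [Fintype K] {q : ℕ}

theorem exists_q_pow (hK : Fintype.card K = q ^ 2) (p : ℕ) [Fact p.Prime] [CharP K p] :
    ∃ m, q = p ^ m := by
  have hp : p.Prime := Fact.out
  obtain ⟨f, -, hf⟩ := FiniteField.card K p
  have h1 : q ∣ p ^ (f : ℕ) := by
    rw [← hf, hK]
    exact dvd_pow_self q two_ne_zero
  obtain ⟨m, -, hm⟩ := (Nat.dvd_prime_pow hp).1 h1
  exact ⟨m, hm⟩

theorem not_dvd_q (hK : Fintype.card K = q ^ 2) {p : ℕ} [Fact p.Prime] [CharP K p] (r : ℕ)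
    (hr : r.Prime) (hrp : r ≠ p) : ¬ r ∣ q := by
  have hp : p.Prime := Fact.out
  obtain ⟨m, hqm⟩ := exists_q_pow hK p
  rw [hqm]
  intro h
  exact hrp ((Nat.prime_dvd_prime_iff_eq hr hp).1 (hr.dvd_of_dvd_pow h))

/-- A prime dividing a factor of the order of the unitary group. -/
theorem c_dvd_of_uf (r : ℕ) [Fact r.Prime] (hr2 : r ≠ 2) (hq : 1 ≤ q) (i c : ℕ)
    (hi : i = orderOf (q : ZMod r))
    (hc : c = if i % 4 = 0 then i else if i % 4 = 2 then i / 2 else 2 * i) (j : ℕ)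
    (h : r ∣ uf q j) : c ∣ j + 1 := by
  have hr : r.Prime := Fact.out
  unfold uf at h
  split_ifs at h with hev
  · -- `j + 1` odd and `q ^ (j + 1) = -1`
    have h1 : ((q : ZMod r)) ^ (j + 1) = -1 := by
      have h2 : ((q ^ (j + 1) + 1 : ℕ) : ZMod r) = 0 := (ZMod.natCast_eq_zero_iff _ _).2 h
      push_cast at h2
      exact eq_neg_of_add_eq_zero_left h2
    have h3 : i ∣ 2 * (j + 1) := by
      rw [hi, orderOf_dvd_iff_pow_eq_one, mul_comm, pow_mul, h1]
      norm_num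
    have h4 : ¬ i ∣ j + 1 := by
      rw [hi, orderOf_dvd_iff_pow_eq_one, h1]
      intro h5
      have h6 : ((2 : ℕ) : ZMod r) = 0 := by
        push_cast
        linear_combination -h5
      rw [ZMod.natCast_eq_zero_iff] at h6
      exact hr2 ((Nat.prime_dvd_prime_iff_eq hr Nat.prime_two).1 h6)
    have hodd : Odd (j + 1) := Even.add_one hev
    have h5 := mod4_of_dvd i (j + 1) hodd h3 h4
    rw [hc, if_neg (by omega), if_pos h5]
    obtain ⟨t, ht⟩ : ∃ t, i = 2 * t := ⟨i / 2, by omega⟩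
    rw [ht, Nat.mul_div_cancel_left _ two_pos]
    rw [ht] at h3
    exact (Nat.mul_dvd_mul_iff_left two_pos).1 h3
  · have h1 : i ∣ j + 1 := by
      rw [hi]
      exact (Elusive.dvd_pow_sub_one_iff q r hq _).1 h
    have hev' : Even (j + 1) := by
      rw [Nat.even_add_one]
      exact hev
    rw [hc]
    split_ifs with h0 h2
    · exact h1
    · exact (Nat.div_dvd_of_dvd (by omega : 2 ∣ i)).trans h1
    · have hodd : Odd i := by
        rw [Nat.odd_iff]
        omega
      exact Nat.Coprime.mul_dvd_of_dvd_of_dvd (Nat.coprime_two_left.2 hodd) hev'.two_dvd h1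

/-- The irreducible factors of `X ^ r - 1` over `F_{q²}` with the unitary duality. -/
theorem gu_data (hK : Fintype.card K = q ^ 2) {p : ℕ} [Fact p.Prime] [CharP K p] (r : ℕ)
    [Fact r.Prime] (hr2 : r ≠ 2) (hrp : r ≠ p) (i b : ℕ) (hi : i = orderOf (q : ZMod r))
    (hb : b = if Even i then i / 2 else i) :
    ∃ (S : Finset K[X]) (dg : S → S), Factors S r b ∧ S.Nonempty ∧
      (∀ π : S, (dg π : K[X]) = dual (sigmaQ hK) π.1) ∧ (∀ π, dg (dg π) = π) ∧
      (i % 4 = 2 → ∀ π, dg π = π) ∧ (i % 4 ≠ 2 → ∀ π, dg π ≠ π) ∧ 0 < b := by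
  classical
  have hr : r.Prime := Fact.out
  have hp : p.Prime := Fact.out
  obtain ⟨m, hqm⟩ := exists_q_pow hK p
  have hrq : ¬ r ∣ q := not_dvd_q hK r hr hrp
  have hb' : b = orderOf ((q ^ 2 : ℕ) : ZMod r) := by
    push_cast
    rw [orderOf_pow' _ two_ne_zero, ← hi, hb]
    split_ifs with hev
    · rw [Nat.gcd_eq_right hev.two_dvd]
    · rw [Nat.Coprime.gcd_eq_one (Nat.not_even_iff_odd.1 hev).coprime_two_right, Nat.div_one]
  obtain ⟨S, hS, hSne⟩ := Elusive.exists_factors hK r hrp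
  rw [← hb'] at hS
  have hσ2 := conj_conj hK
  have hmemS : ∀ π : S, dual (sigmaQ hK) π.1 ∈ S := by
    intro π
    have h0 := Factors.coeff_zero_ne hS hr.pos π π.2
    have hmon := monic_dual (sigmaQ hK) π.1 h0
    have hirr := irreducible_dual (sigmaQ hK) hσ2 π.1 (hS.monic π π.2) h0 (hS.irred π π.2)
    have hdvd : dual (sigmaQ hK) π.1 ∣ X ^ r - 1 := by
      obtain ⟨c, hc⟩ := hS.dvd π π.2
      have h1 := congrArg (dual (sigmaQ hK)) hc
      rw [dual_X_pow_sub_one (sigmaQ hK) r hr.pos, dual_mul] at h1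
      exact ⟨_, h1⟩
    rcases hS.cover _ hmon hirr hdvd with h | h
    · exfalso
      have h2 := dual_dual (sigmaQ hK) hσ2 π.1 (hS.monic π π.2) h0
      rw [h, dual_X_sub_one] at h2
      exact hS.notMem (h2 ▸ π.2)
    · exact h
  obtain ⟨dg, hdg⟩ : ∃ dg : S → S, ∀ π : S, (dg π : K[X]) = dual (sigmaQ hK) π.1 :=
    ⟨fun π => ⟨dual (sigmaQ hK) π.1, hmemS π⟩, fun π => rfl⟩
  have hdd : ∀ π, dg (dg π) = π := by
    intro π
    apply Subtype.ext
    rw [hdg, hdg, dual_dual (sigmaQ hK) hσ2 π.1 (hS.monic π π.2)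
      (Factors.coeff_zero_ne hS hr.pos π π.2)]
  have hcrit : ∀ π : S, dual (sigmaQ hK) π.1 = π.1 ↔ i % 4 = 2 := by
    intro π
    rw [dual_eq_self_iff_exists (sigmaQ hK) p hσ2 q m hqm (fun x => sigmaQ_apply hK x) r hr π.1
      (hS.monic π π.2) (hS.irred π π.2) (hS.dvd π π.2) (fun h => hS.notMem (h ▸ π.2)), hK, hi]
    exact exists_dvd_add_sq_pow_iff r hr hr2 q hrq
  have hb0 : 0 < b := by
    rw [hb']
    exact Elusive.orderOf_pos_of_ne hK r hrp
  refine ⟨S, dg, hS, hSne, hdg, hdd, ?_, ?_, hb0⟩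
  · intro h4 π
    exact Subtype.ext (by rw [hdg]; exact (hcrit π).mpr h4)
  · intro h4 π h
    exact h4 ((hcrit π).mp (by rw [← hdg, h]))

/-- The multiplicities of a unitary matrix of order `r` are duality-invariant. -/
theorem symm_of_gu (hK : Fintype.card K = q ^ 2) {S : Finset K[X]} {r b : ℕ}
    (hS : Factors S r b) (dg : S → S)
    (hdg : ∀ π : S, (dg π : K[X]) = dual (sigmaQ hK) π.1) (hdd : ∀ π, dg (dg π) = π)
    (n : ℕ) (y : Matrix (Fin n) (Fin n) K) (hy : IsHermIso n K q y) (hyr : y ^ r = 1) :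
    ∃ a : S → ℕ, b * ∑ π, a π ≤ n ∧ y.charpoly = chi S a (n - b * ∑ π, a π) ∧
      ∀ π, a (dg π) = a π := by
  classical
  obtain ⟨a, ha, hχ⟩ := charpoly_eq_chi hS y hyr
  refine ⟨a, ha, hχ, ?_⟩
  have hu : cstar (sigmaQ hK) y * y = 1 :=
    (gram_iff (sigmaQ hK) (conj_conj hK) y).1 ((isHermIso_iff_gram hK y).1 hy)
  have h1 := dual_charpoly_of_unitary (sigmaQ hK) (conj_conj hK) y hu
  rw [hχ, dual_chi (sigmaQ hK) dg hdd hdg] at h1
  have h2 := chi_inj hS _ _ _ _ h1
  intro π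
  exact congrFun h2 π

omit [Fintype K] in
theorem chi_mul [DecidableEq K] {S : Finset K[X]} (a₁ a₂ : S → ℕ) (k₁ k₂ : ℕ) :
    chi S a₁ k₁ * chi S a₂ k₂ = chi S (fun π => a₁ π + a₂ π) (k₁ + k₂) := by
  unfold chi
  rw [pow_add]
  have hp : ∀ π : S, π.1 ^ (a₁ π + a₂ π) = π.1 ^ a₁ π * π.1 ^ a₂ π := fun π => pow_add _ _ _
  rw [Finset.prod_congr rfl (fun π _ => hp π), Finset.prod_mul_distrib]
  ring

/-- Unitary matrices with prescribed duality-invariant multiplicities. -/
theorem exists_gu_chi (hK : Fintype.card K = q ^ 2) (p : ℕ) [Fact p.Prime] [CharP K p]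
    [DecidableEq K] {S : Finset K[X]} {r b : ℕ} (hS : Factors S r b) (hr : r.Prime)
    (dg : S → S) (hdg : ∀ π : S, (dg π : K[X]) = dual (sigmaQ hK) π.1)
    (hdd : ∀ π, dg (dg π) = π) (n : ℕ) (a : S → ℕ) (ha : ∀ π, a (dg π) = a π)
    (hle : b * ∑ π, a π ≤ n) :
    ∃ Y : Matrix (Fin n) (Fin n) K, IsHermIso n K q Y ∧ Y ^ r = 1 ∧
      Y.charpoly = chi S a (n - b * ∑ π, a π) := by
  have hmon := monic_chi hS a (n - b * ∑ π, a π)
  have hdeg : (chi S a (n - b * ∑ π, a π)).natDegree = n := by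
    rw [natDegree_chi hS]
    omega
  have hdvd := chi_dvd hS a (n - b * ∑ π, a π)
  have h0 : (chi S a (n - b * ∑ π, a π)).coeff 0 ≠ 0 := by
    rw [coeff_zero_eq_eval_zero]
    intro h
    have h1 := eval_dvd (x := (0 : K)) hdvd
    rw [h, zero_dvd_iff] at h1
    simp [hr.pos.ne'] at h1
  have hdual : dual (sigmaQ hK) (chi S a (n - b * ∑ π, a π)) =
      chi S a (n - b * ∑ π, a π) := by
    rw [dual_chi (sigmaQ hK) dg hdd hdg]
    congr 1
    funext π
    exact ha π
  obtain ⟨B, hBc, N, hN, hco, hBN⟩ := exists_gu_charpoly hK p n _ hmon hdeg h0 hdual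
  have hMN : ((B : GL (Fin n) K) : Matrix (Fin n) (Fin n) K) ^ N = 1 := by
    have h2 := congrArg
      (fun x : ↥(Cfsg.GU n K q) => ((x : GL (Fin n) K) : Matrix (Fin n) (Fin n) K)) hBN
    simpa using h2
  have hss := isSemisimple_of_pow_eq_one _ N (natCast_ne_zero_of_coprime p N hco) hMN
  have hMr := pow_eq_one_of_charpoly_dvd _ hss r _ (hBc ▸ hdvd)
  exact ⟨_, B.2, hMr, hBc⟩

/-- A unitary matrix of order `r` fixes a nondegenerate `m`-space when the residues allow. -/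
theorem fix_of_chi (hK : Fintype.card K = q ^ 2) (p : ℕ) [Fact p.Prime] [CharP K p]
    {S : Finset K[X]} {r b c : ℕ} (hS : Factors S r b) (hr : r.Prime) (hrK : (r : K) ≠ 0)
    (dg : S → S) (hdg : ∀ π : S, (dg π : K[X]) = dual (sigmaQ hK) π.1)
    (hdd : ∀ π, dg (dg π) = π) (hb0 : 0 < b)
    (hpar : ((∀ π, dg π = π) ∧ c = b) ∨ ((∀ π, dg π ≠ π) ∧ c = 2 * b))
    (n m : ℕ) (hmn : m ≤ n) (hk : m % c ≤ n % c)
    (y : Matrix (Fin n) (Fin n) K) (hy : IsHermIso n K q y) (hyr : y ^ r = 1) :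
    FixNd q y m := by
  classical
  obtain ⟨a, hale, hχ, hasym⟩ := symm_of_gu hK hS dg hdg hdd n y hy hyr
  obtain ⟨a₁, a₂, ha₁, ha₂, hsum, g1, g2⟩ :=
    SpNd.exists_split_sym dg hdd b c n m hb0 hpar a hasym hale hk
  obtain ⟨A, hA, hAr, hAχ⟩ := exists_gu_chi hK p hS hr dg hdg hdd m a₁ ha₁ g1
  obtain ⟨B, hB, hBr, hBχ⟩ := exists_gu_chi hK p hS hr dg hdg hdd (n - m) a₂ ha₂ g2
  obtain ⟨e⟩ : Nonempty (Fin m ⊕ Fin (n - m) ≃ Fin n) :=
    ⟨(finSumFinEquiv).trans (finCongr (by omega))⟩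
  have hYr : blk e A B ^ r = 1 := by rw [blk_pow, hAr, hBr, blk_one]
  have hYiso : IsHermIso n K q (blk e A B) := (isHermIso_blk_iff hK e A B).2 ⟨hA, hB⟩
  have hsumA : ∑ π, a π = ∑ π, a₁ π + ∑ π, a₂ π := by
    rw [← Finset.sum_add_distrib]
    exact Finset.sum_congr rfl (fun π _ => (hsum π).symm)
  have hχeq : (blk e A B).charpoly = y.charpoly := by
    rw [charpoly_blk, hAχ, hBχ, hχ, chi_mul]
    have hk' : n - b * ∑ π, a π = (m - b * ∑ π, a₁ π) + ((n - m) - b * ∑ π, a₂ π) := by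
      rw [hsumA, mul_add]
      omega
    rw [hk']
    congr 1
    funext π
    exact hsum π
  obtain ⟨yu, hyu⟩ := isHermIso_isUnit hK hy
  obtain ⟨Yu, hYu⟩ := isHermIso_isUnit hK hYiso
  have hss1 := isSemisimple_of_pow_eq_one y r hrK hyr
  have hss2 := isSemisimple_of_pow_eq_one (blk e A B) r hrK hYr
  have hconj : IsConj yu Yu :=
    isConj_GL_of_semisimple yu Yu (by rw [hyu]; exact hss1) (by rw [hYu]; exact hss2)
      (by rw [hyu, hYu, hχeq])
  obtain ⟨P, hP⟩ := isConj_iff.1 hconj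
  apply fixNd_of_similar hK hy e A B hA hB P
  have h7 : P * yu = Yu * P := by
    rw [← hP]
    group
  have h8 := congrArg (fun g : GL (Fin n) K => (g : Matrix (Fin n) (Fin n) K)) h7
  simp only [Units.val_mul] at h8
  rw [hyu, hYu] at h8
  exact h8

end semi

section semi2

open Cfsg.Agent.Lib.Helper40.PrimeOrderGL Cfsg.Agent.Lib.Helper40.DualPoly
  Cfsg.Agent.Lib.Helper40.UnitaryWall Cfsg.Agent.Lib.Helper40.GUPrimeOrder

variable {K : Type u} [Field K] [Fintype K] {q : ℕ}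

/-- Test elements: unitary matrices of order `r` with prescribed multiplicities. -/
theorem exists_test_gu (hK : Fintype.card K = q ^ 2) (p : ℕ) [Fact p.Prime] [CharP K p]
    {S : Finset K[X]} {r b c : ℕ} (hS : Factors S r b) (hr : r.Prime)
    (dg : S → S) (hdg : ∀ π : S, (dg π : K[X]) = dual (sigmaQ hK) π.1)
    (hdd : ∀ π, dg (dg π) = π)
    (hpar : ((∀ π, dg π = π) ∧ c = b) ∨ ((∀ π, dg π ≠ π) ∧ c = 2 * b))
    (hne : S.Nonempty) (hc2 : 2 ≤ c) (n N : ℕ) (hN : c * N ≤ n) (hN0 : 0 < N) :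
    ∃ (x : Matrix (Fin n) (Fin n) K) (a : S → ℕ), IsHermIso n K q x ∧ x ^ r = 1 ∧
      b * ∑ π, a π = c * N ∧ x.charpoly = chi S a (n - c * N) ∧
      ∀ z : K, x ≠ z • (1 : Matrix (Fin n) (Fin n) K) := by
  classical
  obtain ⟨π₀, hπ₀⟩ := hne
  obtain ⟨P₀, -⟩ : ∃ P₀ : S, P₀ = ⟨π₀, hπ₀⟩ := ⟨_, rfl⟩
  obtain ⟨a, hasym, hasum, haP, haP'⟩ : ∃ a : S → ℕ, (∀ π, a (dg π) = a π) ∧
      b * ∑ π, a π = c * N ∧ 0 < a P₀ ∧ 0 < a (dg P₀) := by
    rcases hpar with ⟨hid, hci⟩ | ⟨hfpf, hci⟩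
    · refine ⟨fun π => if π = P₀ then N else 0, fun π => by rw [hid π], ?_, ?_, ?_⟩
      · rw [Finset.sum_ite_eq' Finset.univ P₀, if_pos (Finset.mem_univ _), hci]
      · show 0 < if P₀ = P₀ then N else 0
        rw [if_pos rfl]
        exact hN0
      · rw [hid P₀]
        show 0 < if P₀ = P₀ then N else 0
        rw [if_pos rfl]
        exact hN0
    · refine ⟨fun π => (if π = P₀ then N else 0) + (if π = dg P₀ then N else 0), ?_, ?_, ?_, ?_⟩
      · intro π
        beta_reduce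
        have h1 : (dg π = P₀) ↔ (π = dg P₀) :=
          ⟨fun h => by rw [← h, hdd], fun h => by rw [h, hdd]⟩
        have h2 : (dg π = dg P₀) ↔ (π = P₀) :=
          ⟨fun h => by rw [← hdd π, h, hdd], fun h => by rw [h]⟩
        rw [if_congr h1 rfl rfl, if_congr h2 rfl rfl, add_comm]
      · rw [Finset.sum_add_distrib, Finset.sum_ite_eq' Finset.univ P₀,
          Finset.sum_ite_eq' Finset.univ (dg P₀), if_pos (Finset.mem_univ _),
          if_pos (Finset.mem_univ _), hci]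
        ring
      · show 0 < (if P₀ = P₀ then N else 0) + (if P₀ = dg P₀ then N else 0)
        rw [if_pos rfl]
        omega
      · show 0 < (if dg P₀ = P₀ then N else 0) + (if dg P₀ = dg P₀ then N else 0)
        rw [if_pos (rfl : dg P₀ = dg P₀)]
        omega
  obtain ⟨x, hx, hxr, hχ⟩ := exists_gu_chi hK p hS hr dg hdg hdd n a hasym
    (by rw [hasum]; exact hN)
  rw [hasum] at hχ
  refine ⟨x, a, hx, hxr, hasum, hχ, ?_⟩
  intro z hz
  have hann : aeval x (X - C z : K[X]) = 0 := by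
    rw [map_sub, aeval_X, aeval_C, hz, Algebra.algebraMap_eq_smul_one, sub_self]
  have hfac : ∀ π : S, 0 < a π → π.1 = X - C z := by
    intro π hπ
    have hmem : π.1 ∈ UniqueFactorizationMonoid.normalizedFactors x.charpoly := by
      rw [hχ, nf_chi hS, ← Multiset.count_pos, count_ms hS]
      exact hπ
    have hd := dvd_of_mem_nf x (X - C z) hann π.1 hmem
    exact eq_of_monic_of_associated (hS.monic π π.2) (monic_X_sub_C z)
      ((hS.irred π π.2).associated_of_dvd (irreducible_X_sub_C z) hd)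
  have h1 := hfac P₀ haP
  have h2 := hfac (dg P₀) haP'
  rcases hpar with ⟨hid, hci⟩ | ⟨hfpf, hci⟩
  · have h3 := hS.deg P₀ P₀.2
    rw [h1, natDegree_X_sub_C] at h3
    omega
  · exact hfpf P₀ (Subtype.ext (by rw [h2, h1]))

/-- Odd primes `r ≠ p` not dividing `q + 1`. -/
theorem semi_iff (hK : Fintype.card K = q ^ 2) {p : ℕ} [Fact p.Prime] [CharP K p] (n m : ℕ)
    (hm : 1 ≤ m) (hmn : m ≤ n) (r : ℕ) [Fact r.Prime] (hr2 : r ≠ 2) (hrp : r ≠ p)
    (hrΩ : r ∣ Nat.card {W : Submodule K (Fin n → K) // finrank K W = m ∧ Nd q W})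
    (i b c : ℕ) (hi : i = orderOf (q : ZMod r)) (hb : b = if Even i then i / 2 else i)
    (hc : c = if i % 4 = 0 then i else if i % 4 = 2 then i / 2 else 2 * i) (hi2 : i ≠ 2) :
    (∀ M : Matrix (Fin n) (Fin n) K, IsHermIso n K q M → M.det = 1 →
      (∃ z : K, M ^ r = z • (1 : Matrix (Fin n) (Fin n) K)) →
      (∀ z : K, M ≠ z • (1 : Matrix (Fin n) (Fin n) K)) → FixNd q M m) ↔
    (c ≤ m ∧ m % c ≤ n % c) := by
  classical
  have hr : r.Prime := Fact.out
  have hq2 := two_le_q hK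
  have hq0 : q ≠ 0 := by omega
  have hn1 : 1 ≤ n := by omega
  obtain ⟨S, dg, hS, hne, hdg, hdd, hd2, hdn2, hb0⟩ := gu_data hK r hr2 hrp i b hi hb
  have hrK : (r : K) ≠ 0 := Elusive.natCast_ne_zero_of_ne r hrp
  have hrq : ¬ r ∣ q := not_dvd_q hK r hr hrp
  have hi0 : 0 < i := by
    rcases Nat.eq_zero_or_pos i with h | h
    · rw [h] at hb
      simp at hb
      omega
    · exact h
  have hpar : ((∀ π, dg π = π) ∧ c = b) ∨ ((∀ π, dg π ≠ π) ∧ c = 2 * b) := by
    by_cases h4 : i % 4 = 2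
    · left
      refine ⟨hd2 h4, ?_⟩
      have hev : Even i := by
        rw [Nat.even_iff]
        omega
      rw [hc, hb, if_neg (by omega), if_pos h4, if_pos hev]
    · right
      refine ⟨hdn2 h4, ?_⟩
      by_cases h0 : i % 4 = 0
      · have hev : Even i := by
          rw [Nat.even_iff]
          omega
        rw [hc, hb, if_pos h0, if_pos hev]
        omega
      · have hodd : ¬ Even i := by
          rw [Nat.even_iff]
          omega
        rw [hc, hb, if_neg h0, if_neg h4, if_neg hodd]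
  have hc2 : 2 ≤ c := by
    rw [hc]
    split_ifs with h0 h4 <;> omega
  have hc0 : 0 < c := by omega
  have hrq1 : ¬ r ∣ q + 1 := by
    intro h
    apply hi2
    have h1 : (q : ZMod r) = -1 := by
      have h2 : ((q + 1 : ℕ) : ZMod r) = 0 := (ZMod.natCast_eq_zero_iff _ _).2 h
      push_cast at h2
      exact eq_neg_of_add_eq_zero_left h2
    have h3 : i ∣ 2 := by
      rw [hi, orderOf_dvd_iff_pow_eq_one, h1]
      norm_num
    have h4 : i ≠ 1 := by
      intro h5
      rw [hi, orderOf_eq_one_iff, h1] at h5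
      have h6 : ((2 : ℕ) : ZMod r) = 0 := by
        push_cast
        linear_combination -h5
      rw [ZMod.natCast_eq_zero_iff] at h6
      exact hr2 ((Nat.prime_dvd_prime_iff_eq hr Nat.prime_two).1 h6)
    rcases (Nat.dvd_prime Nat.prime_two).1 h3 with h | h
    · exact absurd h h4
    · exact h
  have hcop : Nat.Coprime r (q + 1) := (Nat.Prime.coprime_iff_not_dvd hr).2 hrq1
  obtain ⟨j, hj1, hj2, hj3⟩ := gu_exists_of_dvd_nd hK r hr hrq m hmn hrΩ
  have hcj : c ∣ j + 1 := c_dvd_of_uf r hr2 (by omega) i c hi hc j hj3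
  have hcn : c ≤ n := by
    have := Nat.le_of_dvd (by omega) hcj
    omega
  have hnm : n % c < m := by
    obtain ⟨u, hu⟩ := hcj
    have h1 : n = (n - (j + 1)) + c * u := by omega
    have h2 : n % c = (n - (j + 1)) % c := by
      conv_lhs => rw [h1]
      rw [Nat.add_mul_mod_self_left]
    have h3 := Nat.mod_le (n - (j + 1)) c
    omega
  constructor
  · intro hL
    have hN0 : 0 < n / c := Nat.div_pos hcn hc0
    obtain ⟨x, a, hx, hxr, hasum, hχ, hns⟩ := exists_test_gu hK p hS hr dg hdg hdd hpar hne hc2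
      n (n / c) (Nat.mul_div_le _ _) hN0
    have hdet : x.det = 1 := by
      have h1 : x.det ^ r = 1 := by rw [← Matrix.det_pow, hxr, Matrix.det_one]
      have h2 : x.det ^ (q + 1) = 1 := isHermIso_det hK hx
      have h3 := pow_gcd_eq_one.2 ⟨h1, h2⟩
      have h4 : Nat.gcd r (q + 1) = 1 := hcop
      rwa [h4, pow_one] at h3
    have hfix := hL x hx hdet ⟨1, by rw [hxr, one_smul]⟩ hns
    obtain ⟨e, A, B, T, Ti, hT, hTTi, hA, hB, hTM⟩ := blk_of_fix hK hx hfix
    have hpow : blk e A B ^ r = 1 := by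
      rw [pow_conj hTTi hTM r, hxr, mul_one, hTTi]
    rw [blk_pow, ← blk_one e] at hpow
    obtain ⟨hAr, hBr⟩ := blk_inj e hpow
    obtain ⟨a₁, ha₁le, hAχ, ha₁sym⟩ := symm_of_gu hK hS dg hdg hdd m A hA hAr
    obtain ⟨a₂, ha₂le, hBχ, ha₂sym⟩ := symm_of_gu hK hS dg hdg hdd (n - m) B hB hBr
    have hχ2 : x.charpoly = chi S (fun π => a₁ π + a₂ π)
        ((m - b * ∑ π, a₁ π) + ((n - m) - b * ∑ π, a₂ π)) := by
      rw [← charpoly_conj hTTi hTM, charpoly_blk, hAχ, hBχ, chi_mul]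
    rw [hχ] at hχ2
    have haeq := chi_inj hS _ _ _ _ hχ2
    have hsum : ∑ π, a π = ∑ π, a₁ π + ∑ π, a₂ π := by
      rw [← Finset.sum_add_distrib]
      exact Finset.sum_congr rfl (fun π _ => congrFun haeq π)
    have hcd : c ∣ b * ∑ π, a₁ π := by
      rcases hpar with ⟨hid, hci⟩ | ⟨hfpf, hci⟩
      · rw [hci]
        exact dvd_mul_right _ _
      · obtain ⟨h', -, hh2⟩ := (SpIso.exists_half dg hdd a₁ ha₁sym).2 hfpf
        rw [hci, ← hh2]
        exact ⟨∑ π, h' π, by ring⟩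
    obtain ⟨u, hu⟩ := hcd
    have hNc := Nat.div_add_mod n c
    have hmodlt := Nat.mod_lt n hc0
    have h5 : b * ∑ π, a π = b * ∑ π, a₁ π + b * ∑ π, a₂ π := by rw [hsum, mul_add]
    have hk1 : m - c * u ≤ n % c := by omega
    have h7 : m % c = m - c * u := by
      have h8 : m = (m - c * u) + c * u := by omega
      conv_lhs => rw [h8]
      rw [Nat.add_mul_mod_self_left, Nat.mod_eq_of_lt (by omega)]
    refine ⟨?_, by omega⟩
    by_contra hlt
    have h8 : m % c = m := Nat.mod_eq_of_lt (by omega)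
    omega
  · rintro ⟨hcm, hk⟩ M hM hdet ⟨z, hz⟩ hns
    have hzn : z ^ (q + 1) = 1 := scalar_norm hq0 hn1 z (hz ▸ iso_pow hM r)
    have hz0 : z ≠ 0 := by
      rintro rfl
      rw [zero_pow (by omega)] at hzn
      exact zero_ne_one hzn
    obtain ⟨t, -, ht⟩ := Nat.exists_mul_mod_eq_one_of_coprime hcop (by omega : 1 < q + 1)
    obtain ⟨w, hw⟩ : ∃ w : K, w = z ^ t := ⟨_, rfl⟩
    have hwn : w ^ (q + 1) = 1 := by rw [hw, ← pow_mul, mul_comm, pow_mul, hzn, one_pow]
    have hwr : w ^ r = z := by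
      rw [hw, ← pow_mul, mul_comm, ← Nat.div_add_mod (r * t) (q + 1), ht, pow_add, pow_mul, hzn,
        one_pow, one_mul, pow_one]
    have hw0 : w ≠ 0 := by
      rintro rfl
      rw [zero_pow (by omega)] at hwn
      exact zero_ne_one hwn
    obtain ⟨y, hy⟩ : ∃ y : Matrix (Fin n) (Fin n) K, y = w⁻¹ • M := ⟨_, rfl⟩
    have hyr : y ^ r = 1 := by
      rw [hy, _root_.smul_pow, hz, smul_smul, inv_pow, hwr, inv_mul_cancel₀ hz0, one_smul]
    have hyiso : IsHermIso n K q y := by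
      rw [hy]
      exact iso_smul hM w⁻¹ (by rw [inv_pow, hwn, inv_one])
    have hfix := fix_of_chi hK p hS hr hrK dg hdg hdd hb0 hpar n m hmn hk y hyiso hyr
    have hMy : M = w • y := by rw [hy, smul_smul, mul_inv_cancel₀ hw0, one_smul]
    rw [hMy]
    exact fixNd_smul w hw0 hfix

end semi2

section semi3

open Cfsg.Agent.Lib.Helper40.PrimeOrderGL Cfsg.Agent.Lib.Helper40.DualPoly
  Cfsg.Agent.Lib.Helper40.UnitaryWall Cfsg.Agent.Lib.Helper40.GUPrimeOrder

variable {K : Type u} [Field K] [Fintype K] {q : ℕ}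

theorem q_sq_eq (hq : 1 ≤ q) : q ^ 2 - 1 = (q - 1) * (q + 1) := by
  obtain ⟨s, rfl⟩ : ∃ s, q = s + 1 := ⟨q - 1, by omega⟩
  have h1 : (s + 1) ^ 2 = s * (s + 1 + 1) + 1 := by ring
  rw [h1, Nat.add_sub_cancel, Nat.add_sub_cancel]

/-- A generator of the group of elements of norm one. -/
theorem exists_norm_gen (hK : Fintype.card K = q ^ 2) :
    ∃ ζ : K, ζ ^ (q + 1) = 1 ∧ (∀ k : ℕ, ζ ^ k = 1 → q + 1 ∣ k) ∧
      ∀ w : K, w ^ (q + 1) = 1 → ∃ k : ℕ, w = ζ ^ k := by
  classical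
  have hq2 := two_le_q hK
  have hfac := q_sq_eq (q := q) (by omega)
  obtain ⟨g, hg⟩ := IsCyclic.exists_monoid_generator (α := Kˣ)
  have hord : orderOf g = q ^ 2 - 1 := by
    rw [orderOf_eq_card_of_forall_mem_zpowers, Nat.card_eq_fintype_card, Fintype.card_units, hK]
    intro x
    obtain ⟨k, hk⟩ := (Submonoid.mem_powers_iff _ _).1 (hg x)
    exact Subgroup.mem_zpowers_iff.2 ⟨(k : ℤ), by rw [zpow_natCast]; exact hk⟩
  have hg1 : ∀ k : ℕ, g ^ k = 1 → (q - 1) * (q + 1) ∣ k := by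
    intro k hk
    rw [← hfac, ← hord]
    exact orderOf_dvd_of_pow_eq_one hk
  refine ⟨((g ^ (q - 1) : Kˣ) : K), ?_, ?_, ?_⟩
  · rw [← Units.val_pow_eq_pow_val, ← pow_mul, ← hfac, ← hord, pow_orderOf_eq_one, Units.val_one]
  · intro k hk
    rw [← Units.val_pow_eq_pow_val, ← pow_mul, Units.val_eq_one] at hk
    exact Nat.dvd_of_mul_dvd_mul_left (by omega : 0 < q - 1) (hg1 _ hk)
  · intro w hw
    have hw0 : w ≠ 0 := by
      rintro rfl
      rw [zero_pow (by omega)] at hw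
      exact zero_ne_one hw
    obtain ⟨j, hj⟩ := (Submonoid.mem_powers_iff _ _).1 (hg (Units.mk0 w hw0))
    have h1 : g ^ (j * (q + 1)) = 1 := by
      rw [pow_mul, hj]
      apply Units.ext
      rw [Units.val_pow_eq_pow_val, Units.val_mk0, hw, Units.val_one]
    obtain ⟨j', hj'⟩ := Nat.dvd_of_mul_dvd_mul_right (by omega : 0 < q + 1) (hg1 _ h1)
    refine ⟨j', ?_⟩
    rw [← Units.val_pow_eq_pow_val, ← pow_mul, ← hj', hj, Units.val_mk0]

/-- An `r`-th root of an element of norm one has norm one when `r` divides `q + 1`. -/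
theorem norm_of_root (hK : Fintype.card K = q ^ 2) (r : ℕ) (hr : r.Prime) (hr2 : r ≠ 2)
    (hrq : r ∣ q + 1) (z u : K) (hz : z ^ (q + 1) = 1) (hu : u ^ r = z) : u ^ (q + 1) = 1 := by
  have hq2 := two_le_q hK
  have hz0 : z ≠ 0 := by
    rintro rfl
    rw [zero_pow (by omega)] at hz
    exact zero_ne_one hz
  have hu0 : u ≠ 0 := by
    rintro rfl
    rw [zero_pow hr.pos.ne'] at hu
    exact hz0 hu.symm
  have h1 : (u ^ (q + 1)) ^ r = 1 := by rw [← pow_mul, mul_comm, pow_mul, hu, hz]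
  have hfac := q_sq_eq (q := q) (by omega)
  have h2 : (u ^ (q + 1)) ^ (q - 1) = 1 := by
    rw [← pow_mul, mul_comm, ← hfac, ← hK]
    exact FiniteField.pow_card_sub_one_eq_one u hu0
  have hcop : Nat.gcd r (q - 1) = 1 := by
    apply (Nat.Prime.coprime_iff_not_dvd hr).2
    intro h3
    obtain ⟨x, hx⟩ := hrq
    obtain ⟨y, hy⟩ := h3
    have h4 : r ∣ 2 := ⟨x - y, by rw [Nat.mul_sub]; omega⟩
    exact hr2 ((Nat.prime_dvd_prime_iff_eq hr Nat.prime_two).1 h4)
  have h3 := pow_gcd_eq_one.2 ⟨h1, h2⟩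
  rwa [hcop, pow_one] at h3

theorem exists_root_of_val (r : ℕ) [Fact r.Prime] (ζ : K) (hζ1 : ζ ^ (q + 1) = 1)
    (hζ : ∀ k : ℕ, ζ ^ k = 1 → q + 1 ∣ k)
    (hζ2 : ∀ w : K, w ^ (q + 1) = 1 → ∃ k : ℕ, w = ζ ^ k)
    (z : K) (hz : z ^ (q + 1) = 1) (t : ℕ) (ht0 : t ≠ 0) (hzt : z ^ t = 1)
    (hv : padicValNat r t < padicValNat r (q + 1)) :
    ∃ w : K, w ^ (q + 1) = 1 ∧ w ^ r = z := by
  have hr : r.Prime := Fact.out
  obtain ⟨k, hk⟩ := hζ2 z hz
  have h1 : q + 1 ∣ k * t := by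
    apply hζ
    rw [pow_mul, ← hk, hzt]
  have h2 : r ∣ k := by
    by_contra hnd
    have hcop : Nat.Coprime (r ^ padicValNat r (q + 1)) k :=
      Nat.Coprime.pow_left _ ((Nat.Prime.coprime_iff_not_dvd hr).2 hnd)
    have h3 : r ^ padicValNat r (q + 1) ∣ k * t := (pow_padicValNat_dvd).trans h1
    have h4 : r ^ padicValNat r (q + 1) ∣ t := hcop.dvd_of_dvd_mul_left h3
    have h5 := (padicValNat_dvd_iff_le ht0).1 h4
    omega
  obtain ⟨k', hk'⟩ := h2
  refine ⟨ζ ^ k', ?_, ?_⟩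
  · rw [← pow_mul, mul_comm, pow_mul, hζ1, one_pow]
  · rw [← pow_mul, mul_comm, ← hk', hk]

theorem exists_nonroot (hK : Fintype.card K = q ^ 2) (r : ℕ) [Fact r.Prime] (hr2 : r ≠ 2)
    (hrq : r ∣ q + 1) (t : ℕ) (ht : r ^ padicValNat r (q + 1) ∣ t) :
    ∃ z : K, z ^ (q + 1) = 1 ∧ z ^ t = 1 ∧ ∀ u : K, u ^ r ≠ z := by
  have hr : r.Prime := Fact.out
  obtain ⟨ζ, hζ1, hζ, hζ2⟩ := exists_norm_gen hK
  obtain ⟨a, ha⟩ : ∃ a, a = padicValNat r (q + 1) := ⟨_, rfl⟩
  rw [← ha] at ht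
  obtain ⟨s, hs⟩ : r ^ a ∣ q + 1 := by
    rw [ha]
    exact pow_padicValNat_dvd
  have hrs : ¬ r ∣ s := by
    rintro ⟨s', hs'⟩
    have h3 : r ^ (a + 1) ∣ q + 1 := ⟨s', by rw [hs, hs', pow_succ]; ring⟩
    have h4 := (padicValNat_dvd_iff_le (by omega : q + 1 ≠ 0)).1 h3
    omega
  obtain ⟨t', ht'⟩ := ht
  have hzn : (ζ ^ s) ^ (q + 1) = 1 := by rw [← pow_mul, mul_comm, pow_mul, hζ1, one_pow]
  refine ⟨ζ ^ s, hzn, ?_, ?_⟩
  · have h1 : s * t = (q + 1) * t' := by
      rw [ht', hs]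
      ring
    rw [← pow_mul, h1, pow_mul, hζ1, one_pow]
  · intro u hu
    have hun := norm_of_root hK r hr hr2 hrq (ζ ^ s) u hzn hu
    obtain ⟨Q, hQ⟩ := hrq
    have h1 : (ζ ^ s) ^ Q = 1 := by rw [← hu, ← pow_mul, ← hQ, hun]
    have h2 : q + 1 ∣ s * Q := hζ _ (by rw [pow_mul]; exact h1)
    rw [hQ] at h2
    have hQ0 : 0 < Q := by
      rcases Nat.eq_zero_or_pos Q with h | h
      · rw [h] at hQ
        omega
      · exact h
    exact hrs (Nat.dvd_of_mul_dvd_mul_right hQ0 h2)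

omit [Fintype K] in
/-- The characteristic polynomial of a matrix whose `r`-th power is a scalar that is not an
`r`-th power. -/
theorem charpoly_of_irred {n : ℕ} (M : Matrix (Fin n) (Fin n) K) (r : ℕ) (hr : r.Prime) (z : K)
    (hM : M ^ r = z • (1 : Matrix (Fin n) (Fin n) K)) (hz : ∀ u : K, u ^ r ≠ z) :
    ∃ t, n = r * t ∧ M.charpoly = (X ^ r - C z) ^ t := by
  classical
  have hirr : Irreducible (X ^ r - C z : K[X]) := X_pow_sub_C_irreducible_of_prime hr hz
  have hmon : (X ^ r - C z : K[X]).Monic := monic_X_pow_sub_C z hr.pos.ne'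
  have hann : aeval M (X ^ r - C z : K[X]) = 0 := by
    rw [map_sub, map_pow, aeval_X, aeval_C, hM, Algebra.algebraMap_eq_smul_one, sub_self]
  have hmem : ∀ m ∈ UniqueFactorizationMonoid.normalizedFactors M.charpoly,
      m = X ^ r - C z := by
    intro m hm
    have hd := dvd_of_mem_nf M _ hann m hm
    exact eq_of_monic_of_associated (monic_of_mem_nf _ m hm) hmon
      ((UniqueFactorizationMonoid.irreducible_of_normalized_factor m hm).associated_of_dvd
        hirr hd)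
  obtain ⟨t, ht⟩ : ∃ t, t = Multiset.card
      (UniqueFactorizationMonoid.normalizedFactors M.charpoly) := ⟨_, rfl⟩
  have hN : UniqueFactorizationMonoid.normalizedFactors M.charpoly =
      Multiset.replicate t (X ^ r - C z) := Multiset.eq_replicate.2 ⟨ht.symm, hmem⟩
  have h1 := UniqueFactorizationMonoid.prod_normalizedFactors (Matrix.charpoly_monic M).ne_zero
  rw [hN, Multiset.prod_replicate] at h1
  have hχ : M.charpoly = (X ^ r - C z) ^ t :=
    (eq_of_monic_of_associated (hmon.pow _) (Matrix.charpoly_monic M) h1).symm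
  refine ⟨t, ?_, hχ⟩
  have hdeg := congrArg natDegree hχ
  rw [Matrix.charpoly_natDegree_eq_dim, Fintype.card_fin, hmon.natDegree_pow,
    natDegree_X_pow_sub_C] at hdeg
  exact hdeg.trans (mul_comm _ _)

omit [Fintype K] in
theorem det_of_irred {n : ℕ} (M : Matrix (Fin n) (Fin n) K) (r : ℕ) (hr : r.Prime)
    (hr2 : r ≠ 2) (z : K) (t : ℕ) (hn : n = r * t) (hχ : M.charpoly = (X ^ r - C z) ^ t) :
    M.det = z ^ t := by
  rw [Matrix.det_eq_sign_charpoly_coeff, hχ, Fintype.card_fin, coeff_zero_eq_eval_zero, eval_pow,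
    eval_sub, eval_pow, eval_X, eval_C, zero_pow hr.pos.ne', zero_sub, hn, pow_mul,
    Odd.neg_one_pow (hr.odd_of_ne_two hr2), ← mul_pow]
  congr 1
  ring

theorem dual_X_pow_sub_C (hK : Fintype.card K = q ^ 2) (r : ℕ) (hr : 0 < r) (z : K)
    (hz : z ^ (q + 1) = 1) : dual (sigmaQ hK) (X ^ r - C z : K[X]) = X ^ r - C z := by
  have hq2 := two_le_q hK
  have hz0 : z ≠ 0 := by
    rintro rfl
    rw [zero_pow (by omega)] at hz
    exact zero_ne_one hz
  have hzq : z ^ q = z⁻¹ :=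
    eq_inv_of_mul_eq_one_left (by rw [← pow_succ]; exact hz)
  have hdeg : (X ^ r - C z : K[X]).natDegree = r := natDegree_X_pow_sub_C
  have hc : ∀ j, (X ^ r - C z : K[X]).coeff j =
      (if j = r then 1 else 0) - (if j = 0 then z else 0) := by
    intro j
    rw [coeff_sub, coeff_X_pow, coeff_C]
  rw [dual_eq_self_iff]
  intro j hj
  rw [hdeg] at hj ⊢
  rw [hc, hc, hc]
  have e0 : (if (0 : ℕ) = r then (1 : K) else 0) = 0 := if_neg hr.ne
  rw [e0, if_pos rfl, zero_sub, map_neg, sigmaQ_apply, hzq, inv_neg, inv_inv]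
  rcases Nat.eq_zero_or_pos j with rfl | hjpos
  · rw [e0, if_pos rfl, Nat.sub_zero, if_pos rfl, if_neg hr.ne']
    simp
  · rcases Nat.lt_or_ge j r with hlt | hge
    · rw [if_neg hlt.ne, if_neg hjpos.ne', if_neg (by omega), if_neg (by omega)]
      simp
    · have hjr : j = r := by omega
      rw [hjr, if_pos rfl, if_neg hr.ne', Nat.sub_self, e0, if_pos rfl, zero_sub, map_neg,
        sigmaQ_apply, hzq, sub_zero, neg_mul_neg, mul_inv_cancel₀ hz0]

/-- Unitary matrices whose `r`-th power is a given scalar of norm one. -/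
theorem exists_gu_root (hK : Fintype.card K = q ^ 2) (p : ℕ) [Fact p.Prime] [CharP K p] (r : ℕ)
    (hr : r.Prime) (z : K) (hz : z ^ (q + 1) = 1) (t : ℕ) :
    ∃ A : Matrix (Fin (r * t)) (Fin (r * t)) K, IsHermIso (r * t) K q A ∧
      A ^ r = z • (1 : Matrix (Fin (r * t)) (Fin (r * t)) K) := by
  classical
  have hq2 := two_le_q hK
  have hz0 : z ≠ 0 := by
    rintro rfl
    rw [zero_pow (by omega)] at hz
    exact zero_ne_one hz
  have hmon1 : (X ^ r - C z : K[X]).Monic := monic_X_pow_sub_C z hr.pos.ne'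
  have hmon := hmon1.pow t
  have hdeg : ((X ^ r - C z : K[X]) ^ t).natDegree = r * t := by
    rw [hmon1.natDegree_pow, natDegree_X_pow_sub_C, mul_comm]
  have h0 : ((X ^ r - C z : K[X]) ^ t).coeff 0 ≠ 0 := by
    rw [coeff_zero_eq_eval_zero, eval_pow, eval_sub, eval_pow, eval_X, eval_C,
      zero_pow hr.pos.ne', zero_sub]
    exact pow_ne_zero _ (neg_ne_zero.2 hz0)
  have hdual : dual (sigmaQ hK) ((X ^ r - C z : K[X]) ^ t) = (X ^ r - C z) ^ t := by
    rw [dual_pow, dual_X_pow_sub_C hK r hr.pos z hz]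
  obtain ⟨B, hBc, N, hN, hco, hBN⟩ := exists_gu_charpoly hK p (r * t) _ hmon hdeg h0 hdual
  have hMN : ((B : GL (Fin (r * t)) K) : Matrix (Fin (r * t)) (Fin (r * t)) K) ^ N = 1 := by
    have h2 := congrArg (fun x : ↥(Cfsg.GU (r * t) K q) =>
      ((x : GL (Fin (r * t)) K) : Matrix (Fin (r * t)) (Fin (r * t)) K)) hBN
    simpa using h2
  have hss := isSemisimple_of_pow_eq_one _ N (natCast_ne_zero_of_coprime p N hco) hMN
  refine ⟨_, B.2, ?_⟩
  have hsq := hss.minpoly_squarefree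
  have hmin : minpoly K (Matrix.toLin'
      ((B : GL (Fin (r * t)) K) : Matrix (Fin (r * t)) (Fin (r * t)) K)) ∣
      (X ^ r - C z : K[X]) ^ (t + 1) := by
    refine (LinearMap.minpoly_dvd_charpoly _).trans ?_
    rw [Matrix.charpoly_toLin', hBc]
    exact pow_dvd_pow _ (Nat.le_succ _)
  have hmin' := (hsq.dvd_pow_iff_dvd (Nat.succ_ne_zero _)).1 hmin
  have h1 : aeval (Matrix.toLin'
      ((B : GL (Fin (r * t)) K) : Matrix (Fin (r * t)) (Fin (r * t)) K))
      (X ^ r - C z : K[X]) = 0 := by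
    obtain ⟨c, hc⟩ := hmin'
    rw [hc, map_mul, minpoly.aeval, zero_mul]
  rw [Diag.aeval_toLin'] at h1
  have h2 : aeval ((B : GL (Fin (r * t)) K) : Matrix (Fin (r * t)) (Fin (r * t)) K)
      (X ^ r - C z : K[X]) = 0 := by
    apply Matrix.toLin'.injective
    rw [h1, map_zero]
  rw [map_sub, map_pow, aeval_X, aeval_C, Algebra.algebraMap_eq_smul_one] at h2
  exact sub_eq_zero.1 h2

/-- Semisimple unitary matrices with the characteristic polynomial of a block diagonal unitary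
matrix fix a nondegenerate subspace. -/
theorem fixNd_of_charpoly (hK : Fintype.card K = q ^ 2) {n : ℕ} {M : Matrix (Fin n) (Fin n) K}
    (hM : IsHermIso n K q M) {k l : ℕ} (e : Fin k ⊕ Fin l ≃ Fin n)
    (A : Matrix (Fin k) (Fin k) K) (B : Matrix (Fin l) (Fin l) K) (hA : IsHermIso k K q A)
    (hB : IsHermIso l K q B) (hss1 : Module.End.IsSemisimple (Matrix.toLin' M))
    (hss2 : Module.End.IsSemisimple (Matrix.toLin' (blk e A B)))
    (hχ : (blk e A B).charpoly = M.charpoly) : FixNd q M k := by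
  have hYiso : IsHermIso n K q (blk e A B) := (isHermIso_blk_iff hK e A B).2 ⟨hA, hB⟩
  obtain ⟨yu, hyu⟩ := isHermIso_isUnit hK hM
  obtain ⟨Yu, hYu⟩ := isHermIso_isUnit hK hYiso
  have hconj : IsConj yu Yu :=
    isConj_GL_of_semisimple yu Yu (by rw [hyu]; exact hss1) (by rw [hYu]; exact hss2)
      (by rw [hyu, hYu, hχ])
  obtain ⟨P, hP⟩ := isConj_iff.1 hconj
  apply fixNd_of_similar hK hM e A B hA hB P
  have h7 : P * yu = Yu * P := by
    rw [← hP]
    group
  have h8 := congrArg (fun g : GL (Fin n) K => (g : Matrix (Fin n) (Fin n) K)) h7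
  simp only [Units.val_mul] at h8
  rw [hyu, hYu] at h8
  exact h8

end semi3

section semi4

open Cfsg.Agent.Lib.Helper40.PrimeOrderGL Cfsg.Agent.Lib.Helper40.DualPoly
  Cfsg.Agent.Lib.Helper40.UnitaryWall Cfsg.Agent.Lib.Helper40.GUPrimeOrder

variable {K : Type u} [Field K] [Fintype K] {q : ℕ}

/-- Odd primes `r ≠ p` dividing `q + 1`. -/
theorem semi2_iff (hK : Fintype.card K = q ^ 2) {p : ℕ} [Fact p.Prime] [CharP K p] (n m : ℕ)
    (hm : 1 ≤ m) (hmn : m ≤ n) (r : ℕ) [Fact r.Prime] (hr2 : r ≠ 2) (hrp : r ≠ p)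
    (i : ℕ) (hi : i = orderOf (q : ZMod r)) (hi2 : i = 2) :
    (∀ M : Matrix (Fin n) (Fin n) K, IsHermIso n K q M → M.det = 1 →
      (∃ z : K, M ^ r = z • (1 : Matrix (Fin n) (Fin n) K)) →
      (∀ z : K, M ≠ z • (1 : Matrix (Fin n) (Fin n) K)) → FixNd q M m) ↔
    (r ∣ m ∨ padicValNat r n ≤ padicValNat r (q + 1)) := by
  classical
  have hr : r.Prime := Fact.out
  have hp : p.Prime := Fact.out
  have hq2 := two_le_q hK
  have hq0 : q ≠ 0 := by omega
  have hn1 : 1 ≤ n := by omega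
  have hrK : (r : K) ≠ 0 := Elusive.natCast_ne_zero_of_ne r hrp
  have hrq : r ∣ q + 1 := by
    have h1 : (q : ZMod r) ^ 2 = 1 := by
      rw [← hi2, hi]
      exact pow_orderOf_eq_one _
    have h2 : (q : ZMod r) ≠ 1 := by
      intro h
      have h3 : orderOf (q : ZMod r) = 1 := orderOf_eq_one_iff.2 h
      omega
    have h3 : ((q : ZMod r) - 1) * ((q : ZMod r) + 1) = 0 := by linear_combination h1
    rcases mul_eq_zero.1 h3 with h | h
    · exact absurd (sub_eq_zero.1 h) h2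
    · rw [← ZMod.natCast_eq_zero_iff]
      push_cast
      exact h
  have hNK : ((r * (q + 1) : ℕ) : K) ≠ 0 := by
    obtain ⟨e, he⟩ := exists_q_pow hK p
    rw [Nat.cast_mul]
    apply mul_ne_zero hrK
    intro h
    rw [CharP.cast_eq_zero_iff K p] at h
    have he0 : e ≠ 0 := by
      rintro rfl
      rw [pow_zero] at he
      omega
    have hpq : p ∣ q := by
      rw [he]
      exact dvd_pow_self p he0
    have h1 : p ∣ 1 := (Nat.dvd_add_right hpq).1 h
    exact hp.one_lt.ne' (Nat.dvd_one.1 h1)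
  have hss : ∀ (k : ℕ) (M : Matrix (Fin k) (Fin k) K) (z : K), z ^ (q + 1) = 1 →
      M ^ r = z • (1 : Matrix (Fin k) (Fin k) K) →
      Module.End.IsSemisimple (Matrix.toLin' M) := by
    intro k M z hz hM
    apply isSemisimple_of_pow_eq_one M (r * (q + 1)) hNK
    rw [pow_mul, hM, _root_.smul_pow, one_pow, hz, one_smul]
  constructor
  · intro hL
    by_contra hcon
    push Not at hcon
    obtain ⟨hrm, hv⟩ := hcon
    have hn0 : n ≠ 0 := by omega
    have h1 : r ^ (padicValNat r (q + 1) + 1) ∣ n := (padicValNat_dvd_iff_le hn0).2 (by omega)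
    obtain ⟨t', ht'⟩ := h1
    obtain ⟨t, ht⟩ : ∃ t, t = r ^ padicValNat r (q + 1) * t' := ⟨_, rfl⟩
    have hnt : n = r * t := by
      rw [ht', ht, pow_succ]
      ring
    obtain ⟨z, hz1, hzt, hzr⟩ := exists_nonroot hK r hr2 hrq t ⟨t', ht⟩
    obtain ⟨x, hx, hxr⟩ : ∃ x : Matrix (Fin n) (Fin n) K, IsHermIso n K q x ∧
        x ^ r = z • (1 : Matrix (Fin n) (Fin n) K) := by
      rw [hnt]
      exact exists_gu_root hK p r hr z hz1 t
    obtain ⟨t₀, hn', hχ⟩ := charpoly_of_irred x r hr z hxr hzr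
    have htt : t₀ = t := Nat.eq_of_mul_eq_mul_left hr.pos (by rw [← hn', ← hnt])
    have hdet : x.det = 1 := by rw [det_of_irred x r hr hr2 z t₀ hn' hχ, htt, hzt]
    have hns : ∀ c : K, x ≠ c • (1 : Matrix (Fin n) (Fin n) K) := by
      intro c hc
      apply hzr c
      have h2 : (c ^ r - z) • (1 : Matrix (Fin n) (Fin n) K) = 0 := by
        rw [sub_smul, ← hxr, hc, _root_.smul_pow, one_pow, sub_self]
      exact sub_eq_zero.1 (smul_one_ne_zero_entry hn1 _ h2)
    have hfix := hL x hx hdet ⟨z, hxr⟩ hns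
    obtain ⟨e, A, B, T, Ti, hT, hTTi, hA, hB, hTM⟩ := blk_of_fix hK hx hfix
    have hpow : blk e A B ^ r = z • (1 : Matrix (Fin n) (Fin n) K) := by
      rw [pow_conj hTTi hTM r, hxr, Matrix.mul_smul, Matrix.smul_mul, mul_one, hTTi]
    rw [blk_pow, ← blk_one e, blk_smul] at hpow
    obtain ⟨hAr, hBr⟩ := blk_inj e hpow
    obtain ⟨t₁, hm', -⟩ := charpoly_of_irred A r hr z hAr hzr
    exact hrm ⟨t₁, hm'⟩
  · intro hR M hM hdet ⟨z, hz⟩ hns
    have hzn : z ^ (q + 1) = 1 := scalar_norm hq0 hn1 z (hz ▸ iso_pow hM r)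
    have hz0 : z ≠ 0 := by
      rintro rfl
      rw [zero_pow (by omega)] at hzn
      exact zero_ne_one hzn
    by_cases hroot : ∃ w : K, w ^ (q + 1) = 1 ∧ w ^ r = z
    · obtain ⟨w, hwn, hwr⟩ := hroot
      have hw0 : w ≠ 0 := by
        rintro rfl
        rw [zero_pow (by omega)] at hwn
        exact zero_ne_one hwn
      obtain ⟨y, hy⟩ : ∃ y : Matrix (Fin n) (Fin n) K, y = w⁻¹ • M := ⟨_, rfl⟩
      have hyr : y ^ r = 1 := by
        rw [hy, _root_.smul_pow, hz, smul_smul, inv_pow, hwr, inv_mul_cancel₀ hz0, one_smul]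
      have hyiso : IsHermIso n K q y := by
        rw [hy]
        exact iso_smul hM w⁻¹ (by rw [inv_pow, hwn, inv_one])
      obtain ⟨S, dg, hS, hne, hdg, hdd, hd2, hdn2, hb0⟩ := gu_data hK r hr2 hrp i 1 hi
        (by rw [hi2, if_pos (by decide)])
      have hpar : ((∀ π, dg π = π) ∧ 1 = 1) ∨ ((∀ π, dg π ≠ π) ∧ 1 = 2 * 1) :=
        Or.inl ⟨hd2 (by rw [hi2]), rfl⟩
      have hfix := fix_of_chi hK p hS hr hrK dg hdg hdd hb0 hpar n m hmn
        (by rw [Nat.mod_one, Nat.mod_one]) y hyiso hyr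
      have hMy : M = w • y := by rw [hy, smul_smul, mul_inv_cancel₀ hw0, one_smul]
      rw [hMy]
      exact fixNd_smul w hw0 hfix
    · have hzr : ∀ u : K, u ^ r ≠ z := by
        intro u hu
        exact hroot ⟨u, norm_of_root hK r hr hr2 hrq z u hzn hu, hu⟩
      obtain ⟨t, hnt, hχ⟩ := charpoly_of_irred M r hr z hz hzr
      have hdet' := det_of_irred M r hr hr2 z t hnt hχ
      rw [hdet] at hdet'
      have ht0 : t ≠ 0 := by
        rintro rfl
        omega
      have hvt : padicValNat r (q + 1) ≤ padicValNat r t := by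
        by_contra hlt
        obtain ⟨ζ, hζ1, hζ, hζ2⟩ := exists_norm_gen hK
        exact hroot (exists_root_of_val r ζ hζ1 hζ hζ2 z hzn t ht0 hdet'.symm (by omega))
      have hvn : padicValNat r n = padicValNat r t + 1 := by
        rw [hnt, padicValNat.mul hr.ne_zero ht0, padicValNat_self]
        omega
      rcases hR with hrm | hv
      · obtain ⟨t₁, ht₁⟩ := hrm
        have hrnm : r ∣ n - m := ⟨t - t₁, by rw [Nat.mul_sub]; omega⟩
        obtain ⟨t₂, ht₂⟩ := hrnm
        obtain ⟨A, hA, hAr⟩ : ∃ A : Matrix (Fin m) (Fin m) K, IsHermIso m K q A ∧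
            A ^ r = z • (1 : Matrix (Fin m) (Fin m) K) := by
          rw [ht₁]
          exact exists_gu_root hK p r hr z hzn t₁
        obtain ⟨B, hB, hBr⟩ : ∃ B : Matrix (Fin (n - m)) (Fin (n - m)) K,
            IsHermIso (n - m) K q B ∧ B ^ r = z • (1 : Matrix (Fin (n - m)) (Fin (n - m)) K) := by
          rw [ht₂]
          exact exists_gu_root hK p r hr z hzn t₂
        obtain ⟨e⟩ : Nonempty (Fin m ⊕ Fin (n - m) ≃ Fin n) :=
          ⟨(finSumFinEquiv).trans (finCongr (by omega))⟩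
        have hYr : blk e A B ^ r = z • (1 : Matrix (Fin n) (Fin n) K) := by
          rw [blk_pow, hAr, hBr, ← blk_smul, blk_one]
        obtain ⟨t', hnt', hχ'⟩ := charpoly_of_irred (blk e A B) r hr z hYr hzr
        have htt : t' = t := Nat.eq_of_mul_eq_mul_left hr.pos (by rw [← hnt', ← hnt])
        exact fixNd_of_charpoly hK hM e A B hA hB (hss n M z hzn hz)
          (hss n (blk e A B) z hzn hYr) (by rw [hχ', hχ, htt])
      · omega

end semi4

section final

variable {K : Type u} [Field K] [Fintype K] {q : ℕ}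

theorem lhs_iff (n m r : ℕ) :
    (∀ x : Matrix.SpecialLinearGroup (Fin n) K, x ∈ Cfsg.SU n K q →
      (∃ z : K, ((x ^ r : Matrix.SpecialLinearGroup (Fin n) K) : Matrix (Fin n) (Fin n) K) =
        z • (1 : Matrix (Fin n) (Fin n) K)) →
      (∀ z : K, (x : Matrix (Fin n) (Fin n) K) ≠ z • (1 : Matrix (Fin n) (Fin n) K)) →
      ∃ W : Submodule K (Fin n → K), finrank K W = m ∧
        (∀ u ∈ W, u ≠ 0 → ∃ v ∈ W, Cfsg.hermForm n K q u v ≠ 0) ∧
        W.map (Matrix.toLin' (x : Matrix (Fin n) (Fin n) K)) ≤ W) ↔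
    (∀ M : Matrix (Fin n) (Fin n) K, IsHermIso n K q M → M.det = 1 →
      (∃ z : K, M ^ r = z • (1 : Matrix (Fin n) (Fin n) K)) →
      (∀ z : K, M ≠ z • (1 : Matrix (Fin n) (Fin n) K)) → FixNd q M m) := by
  constructor
  · intro h M hM hdet hz hns
    obtain ⟨x, hx⟩ : ∃ x : Matrix.SpecialLinearGroup (Fin n) K,
        (x : Matrix (Fin n) (Fin n) K) = M := ⟨⟨M, hdet⟩, rfl⟩
    subst hx
    refine h x hM ?_ hns
    obtain ⟨z, hz⟩ := hz
    exact ⟨z, by rw [Matrix.SpecialLinearGroup.coe_pow]; exact hz⟩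
  · intro h x hx hz hns
    refine h x.1 hx x.2 ?_ hns
    obtain ⟨z, hz⟩ := hz
    refine ⟨z, ?_⟩
    rw [← Matrix.SpecialLinearGroup.coe_pow]
    exact hz

theorem part2_iff (n m : ℕ) (hmn : m ≤ n) :
    (∀ μ : Multiset ℕ, (∀ a ∈ μ, 0 < a ∧ a ≤ 2) → μ.sum = n →
      ∃ ν : Multiset ℕ, ν ≤ μ ∧ ν.sum = m) ↔ (Odd n ∨ Even m) := by
  constructor
  · intro h
    by_contra hcon
    push Not at hcon
    obtain ⟨hn, hm⟩ := hcon
    rw [Nat.not_odd_iff_even] at hn
    obtain ⟨k, hk⟩ := hn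
    obtain ⟨ν, hν, hνs⟩ := h (Multiset.replicate k 2) (by
      intro a ha
      rw [Multiset.eq_of_mem_replicate ha]
      omega) (by rw [Multiset.sum_replicate, smul_eq_mul]; omega)
    apply hm
    have h1 : ∀ a ∈ ν, a = 2 := fun a ha =>
      Multiset.eq_of_mem_replicate (Multiset.mem_of_le hν ha)
    obtain ⟨k', hk'⟩ : ∃ k', ν = Multiset.replicate k' 2 :=
      ⟨_, Multiset.eq_replicate.2 ⟨rfl, h1⟩⟩
    rw [← hνs, hk', Multiset.sum_replicate, smul_eq_mul]
    exact ⟨k', by ring⟩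
  · intro h μ hμ hsum
    classical
    obtain ⟨c₁, hc₁⟩ : ∃ c₁, c₁ = Multiset.count 1 μ := ⟨_, rfl⟩
    obtain ⟨c₂, hc₂⟩ : ∃ c₂, c₂ = Multiset.count 2 μ := ⟨_, rfl⟩
    have hμeq : μ = Multiset.replicate c₁ 1 + Multiset.replicate c₂ 2 := by
      ext a
      rw [Multiset.count_add, Multiset.count_replicate, Multiset.count_replicate]
      by_cases h1 : a = 1
      · subst h1
        simp [hc₁]
      · by_cases h2 : a = 2
        · subst h2
          simp [hc₂]
        · rw [if_neg (Ne.symm h1), if_neg (Ne.symm h2), Multiset.count_eq_zero]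
          intro ha
          have := hμ a ha
          omega
    have hn : n = c₁ + 2 * c₂ := by
      rw [← hsum, hμeq, Multiset.sum_add, Multiset.sum_replicate, Multiset.sum_replicate,
        smul_eq_mul, smul_eq_mul]
      ring
    obtain ⟨j, hj⟩ : ∃ j, j = min c₂ (m / 2) := ⟨_, rfl⟩
    have hj1 : j ≤ c₂ := by
      rw [hj]
      exact min_le_left _ _
    have hj2 : 2 * j ≤ m := by
      have := min_le_right c₂ (m / 2)
      omega
    have hle : m - 2 * j ≤ c₁ := by
      rcases le_total c₂ (m / 2) with h3 | h3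
      · rw [min_eq_left h3] at hj
        omega
      · rw [min_eq_right h3] at hj
        rcases h with ho | he
        · obtain ⟨t, ht⟩ := ho
          omega
        · obtain ⟨t, ht⟩ := he
          omega
    refine ⟨Multiset.replicate (m - 2 * j) 1 + Multiset.replicate j 2, ?_, ?_⟩
    · rw [hμeq]
      exact add_le_add ((Multiset.replicate_le_replicate _).2 hle)
        ((Multiset.replicate_le_replicate _).2 hj1)
    · rw [Multiset.sum_add, Multiset.sum_replicate, Multiset.sum_replicate, smul_eq_mul,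
        smul_eq_mul]
      omega

/-- Prime order elements of `PSU_n(q)` and nondegenerate `m`-spaces. -/
theorem main (hK : Fintype.card K = q ^ 2) {p : ℕ} [Fact p.Prime] [CharP K p]
    (n m : ℕ) (hm : 1 ≤ m) (hmn : 2 * m < n) (r : ℕ) [Fact r.Prime]
    (hrΩ : r ∣ Nat.card {W : Submodule K (Fin n → K) // finrank K W = m ∧ Nd q W})
    (i b c : ℕ) (hi : i = orderOf (q : ZMod r)) (hb : b = if Even i then i / 2 else i)
    (hc : c = if i % 4 = 0 then i else if i % 4 = 2 then i / 2 else 2 * i) :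
    (∀ x : Matrix.SpecialLinearGroup (Fin n) K, x ∈ Cfsg.SU n K q →
      (∃ z : K, ((x ^ r : Matrix.SpecialLinearGroup (Fin n) K) : Matrix (Fin n) (Fin n) K) =
        z • (1 : Matrix (Fin n) (Fin n) K)) →
      (∀ z : K, (x : Matrix (Fin n) (Fin n) K) ≠ z • (1 : Matrix (Fin n) (Fin n) K)) →
      ∃ W : Submodule K (Fin n → K), finrank K W = m ∧
        (∀ u ∈ W, u ≠ 0 → ∃ v ∈ W, Cfsg.hermForm n K q u v ≠ 0) ∧
        W.map (Matrix.toLin' (x : Matrix (Fin n) (Fin n) K)) ≤ W) ↔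
    ((r = p ∧ 2 < p ∧ (∀ μ : Multiset ℕ, (∀ a ∈ μ, 0 < a ∧ a ≤ p) → μ.sum = n →
        ∃ ν : Multiset ℕ, ν ≤ μ ∧ ν.sum = m)) ∨
     (r = p ∧ p = 2 ∧ (Odd n ∨ Even m)) ∨
     (r = 2 ∧ p ≠ 2 ∧ (Odd n ∨ Even m ∨
        (padicValNat 2 n ≤ padicValNat 2 (q + 1) ∧ q % 4 = 3))) ∨
     (r ≠ p ∧ 2 < r ∧ ((i ≠ 2 ∧ c ≤ m ∧ m % c ≤ n % c) ∨
        (i = 2 ∧ (r ∣ m ∨ padicValNat r n ≤ padicValNat r (q + 1)))))) := by
  have hpr : p.Prime := Fact.out
  have hr : r.Prime := Fact.out
  rw [lhs_iff n m r]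
  by_cases hrp : r = p
  · subst hrp
    rw [unip_iff hK n m (by omega) (by omega)]
    by_cases hp2 : r = 2
    · subst hp2
      rw [part2_iff n m (by omega)]
      constructor
      · intro h
        exact Or.inr (Or.inl ⟨rfl, rfl, h⟩)
      · rintro (⟨-, h, -⟩ | ⟨-, -, h⟩ | ⟨-, h, -⟩ | ⟨h, -⟩)
        · omega
        · exact h
        · exact absurd rfl h
        · exact absurd rfl h
    · have hp2' : 2 < r := lt_of_le_of_ne hpr.two_le (Ne.symm hp2)
      constructor
      · intro h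
        exact Or.inl ⟨rfl, hp2', h⟩
      · rintro (⟨-, -, h⟩ | ⟨-, h, -⟩ | ⟨h, -⟩ | ⟨h, -⟩)
        · exact h
        · exact absurd h hp2
        · exact absurd h hp2
        · exact absurd rfl h
  · by_cases hr2 : r = 2
    · subst hr2
      have h2 : (2 : K) ≠ 0 := by
        have h3 := Elusive.natCast_ne_zero_of_ne (F := K) 2 hrp
        exact_mod_cast h3
      have hqodd : Odd q := by
        obtain ⟨e, he⟩ := exists_q_pow hK p
        rw [he]
        exact (hpr.odd_of_ne_two (fun h => hrp h.symm)).pow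
      rw [inv2_iff hK h2 hqodd n m (by omega) (by omega)]
      constructor
      · intro h
        exact Or.inr (Or.inr (Or.inl ⟨rfl, fun h => hrp h.symm, h⟩))
      · rintro (⟨h, -⟩ | ⟨h, -⟩ | ⟨-, -, h⟩ | ⟨-, h, -⟩)
        · exact absurd h hrp
        · exact absurd h hrp
        · exact h
        · omega
    · have hr2' : 2 < r := lt_of_le_of_ne hr.two_le (Ne.symm hr2)
      by_cases hi2 : i = 2
      · rw [semi2_iff hK n m hm (by omega) r hr2 hrp i hi hi2]
        constructor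
        · intro h
          exact Or.inr (Or.inr (Or.inr ⟨hrp, hr2', Or.inr ⟨hi2, h⟩⟩))
        · rintro (⟨h, -⟩ | ⟨h, -⟩ | ⟨h, -⟩ | ⟨-, -, ⟨h, -⟩ | ⟨-, h⟩⟩)
          · exact absurd h hrp
          · exact absurd h hrp
          · exact absurd h hr2
          · exact absurd hi2 h
          · exact h
      · rw [semi_iff hK n m hm (by omega) r hr2 hrp hrΩ i b c hi hb hc hi2]
        constructor
        · intro h
          exact Or.inr (Or.inr (Or.inr ⟨hrp, hr2', Or.inl ⟨hi2, h⟩⟩))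
        · rintro (⟨h, -⟩ | ⟨h, -⟩ | ⟨h, -⟩ | ⟨-, -, ⟨-, h⟩ | ⟨h, -⟩⟩)
          · exact absurd h hrp
          · exact absurd h hrp
          · exact absurd h hr2
          · exact h
          · exact absurd h hi2

end final

end Cfsg.Agent.Lib.Helper40.SUNd
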