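-- Elements of prime order of unitary groups and totally isotropic subspaces (helper40).
import Mathlib
import Cfsg.Agent.Lib.Helper40.SUNd
import Cfsg.Agent.Lib.Helper40.SpIso
import Cfsg.Agent.Lib.Helper13.SUParab

set_option autoImplicit false
set_option linter.unusedSectionVars false

namespace Cfsg.Agent.Lib.Helper40.SUIso

open Cfsg Polynomial Module Matrix Cfsg.Agent.Lib.Helper45 Cfsg.Agent.Lib.Helper40.SUNd

universe u

section basics

variable {K : Type u} [Field K] [Fintype K] {q n : ℕ}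

/-- Totally isotropic subspaces of the standard Hermitian space. -/
def Ti (q : ℕ) {n : ℕ} (W : Submodule K (Fin n → K)) : Prop :=
  ∀ u ∈ W, ∀ v ∈ W, Cfsg.hermForm n K q u v = 0

/-- The matrix `M` fixes a totally isotropic subspace of dimension `m`. -/
def FixTi (q : ℕ) {n : ℕ} (M : Matrix (Fin n) (Fin n) K) (m : ℕ) : Prop :=
  ∃ W : Submodule K (Fin n → K), finrank K W = m ∧ Ti q W ∧ W.map (Matrix.toLin' M) ≤ W

theorem fixTi_conj {M T T' : Matrix (Fin n) (Fin n) K} (hT : IsHermIso n K q T)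
    (hTT : T * T' = 1) {m : ℕ} (h : FixTi q (T * M * T') m) : FixTi q M m := by
  have hTiT : T' * T = 1 := mul_eq_one_comm.1 hTT
  have hTi : IsHermIso n K q T' := iso_inv hT hTT
  obtain ⟨W, hfr, hW, hWi⟩ := h
  have hinj : Function.Injective (Matrix.toLin' T') := by
    intro u v huv
    have h1 := congrArg (fun x => T *ᵥ x) huv
    simp only [Matrix.toLin'_apply, Matrix.mulVec_mulVec, hTT, Matrix.one_mulVec] at h1
    exact h1
  refine ⟨W.map (Matrix.toLin' T'), ?_, ?_, ?_⟩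
  · rw [← hfr]
    exact (Submodule.equivMapOfInjective _ hinj W).finrank_eq.symm
  · rintro _ ⟨u, hu, rfl⟩ _ ⟨v, hv, rfl⟩
    rw [Matrix.toLin'_apply, Matrix.toLin'_apply, hTi u v]
    exact hW u hu v hv
  · rintro _ ⟨_, ⟨u, hu, rfl⟩, rfl⟩
    refine ⟨Matrix.toLin' (T * M * T') u, hWi (Submodule.mem_map_of_mem hu), ?_⟩
    simp only [Matrix.toLin'_apply, Matrix.mulVec_mulVec]
    rw [← Matrix.mul_assoc, ← Matrix.mul_assoc, hTiT, Matrix.one_mul]

theorem fixTi_smul {M : Matrix (Fin n) (Fin n) K} (c : K) (hc : c ≠ 0) {m : ℕ}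
    (h : FixTi q M m) : FixTi q (c • M) m := by
  obtain ⟨W, hfr, hW, hWi⟩ := h
  refine ⟨W, hfr, hW, ?_⟩
  rw [map_smul, Submodule.map_smul _ _ c hc]
  exact hWi

end basics

section count

variable {K : Type u} [Field K] [Fintype K] {q n : ℕ}

/-- Counting totally isotropic subspaces through their ordered bases. -/
theorem card_ti_mul (hK : Fintype.card K = q ^ 2) (m : ℕ) (hm : 2 * m ≤ n) :
    Nat.card {W : Submodule K (Fin n → K) // finrank K W = m ∧ Ti q W} *
      ∏ j : Fin m, (Fintype.card K ^ m - Fintype.card K ^ j.val) =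
    ∏ i ∈ Finset.range m,
      (q ^ (2 * i) * (Helper13.gU q (n - 2 * i - 1) * Helper13.gU q (n - 2 * i - 2))) := by
  classical
  rw [← Helper13.card_hIsoTuples (n := n) hK m hm]
  let φ : ↥(Helper13.hIsoTuples n K q m) →
      {W : Submodule K (Fin n → K) // finrank K W = m ∧ Ti q W} :=
    fun s => ⟨Submodule.span K (Set.range s.1), by
      rw [finrank_span_eq_card s.2.1, Fintype.card_fin],
      fun u hu v hv => Helper13.herm_span_zero hK s.1 s.2.2 u v hu hv⟩
  rw [← Nat.card_congr (Equiv.sigmaFiberEquiv φ), Nat.card_sigma]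
  have h3 : ∀ W : {W : Submodule K (Fin n → K) // finrank K W = m ∧ Ti q W},
      Nat.card {s : ↥(Helper13.hIsoTuples n K q m) // φ s = W} =
        ∏ j : Fin m, (Fintype.card K ^ m - Fintype.card K ^ j.val) := by
    intro W
    rw [← Elusive.card_fib m W.1 W.2.1]
    apply Nat.card_congr
    exact
      { toFun := fun s => ⟨⟨s.1.1, s.1.2.1⟩, congrArg Subtype.val s.2⟩
        invFun := fun s => ⟨⟨s.1.1, s.1.2, fun i j => W.2.2 _
            (s.2.le (Submodule.subset_span ⟨i, rfl⟩)) _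
            (s.2.le (Submodule.subset_span ⟨j, rfl⟩))⟩,
          Subtype.ext s.2⟩
        left_inv := fun s => rfl
        right_inv := fun s => rfl }
  rw [Finset.sum_congr rfl (fun W _ => h3 W), Finset.sum_const, Finset.card_univ,
    smul_eq_mul, Nat.card_eq_fintype_card]

theorem ti_dvd (hK : Fintype.card K = q ^ 2) (m : ℕ) (hm : 2 * m ≤ n) :
    ∃ X : ℕ, Nat.card {W : Submodule K (Fin n → K) // finrank K W = m ∧ Ti q W} * X =
      ∏ i ∈ Finset.range m,
        (Helper13.gU q (n - 2 * i - 1) * Helper13.gU q (n - 2 * i - 2)) := by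
  have hq := two_le_q hK
  have h1 := card_ti_mul (n := n) hK m hm
  rw [Elusive.prod_li _ _ _ le_rfl, Finset.prod_mul_distrib, hK] at h1
  have h2 : ∏ j ∈ Finset.range m, (q ^ 2) ^ j = ∏ i ∈ Finset.range m, q ^ (2 * i) :=
    Finset.prod_congr rfl (fun j _ => (pow_mul q 2 j).symm)
  rw [h2, ← mul_assoc, mul_comm (Nat.card _), mul_assoc] at h1
  have h4 : 0 < ∏ i ∈ Finset.range m, q ^ (2 * i) :=
    Finset.prod_pos (fun j _ => Nat.pow_pos (by omega))
  exact ⟨_, Nat.eq_of_mul_eq_mul_left h4 h1⟩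

/-- The characteristic does not divide the number of totally isotropic `m`-spaces. -/
theorem not_char_dvd_ti (hK : Fintype.card K = q ^ 2) (p : ℕ) [Fact p.Prime] [CharP K p]
    (m : ℕ) (hm : 2 * m ≤ n) :
    ¬ p ∣ Nat.card {W : Submodule K (Fin n → K) // finrank K W = m ∧ Ti q W} := by
  intro h
  have hp : p.Prime := Fact.out
  have hq := two_le_q hK
  obtain ⟨X, hX⟩ := ti_dvd (n := n) hK m hm
  have h1 : p ∣ ∏ i ∈ Finset.range m,
      (Helper13.gU q (n - 2 * i - 1) * Helper13.gU q (n - 2 * i - 2)) := by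
    rw [← hX]
    exact Dvd.dvd.mul_right h _
  obtain ⟨i, -, hi⟩ := (Prime.dvd_finsetProd_iff hp.prime _).1 h1
  obtain ⟨e, he⟩ := exists_q_pow hK p
  have he0 : e ≠ 0 := by
    rintro rfl
    rw [pow_zero] at he
    omega
  have hpq : p ∣ q := by
    rw [he]
    exact dvd_pow_self p he0
  have key : ∀ j, ¬ p ∣ Helper13.gU q j := by
    intro j hj
    unfold Helper13.gU at hj
    have h2 : p ∣ q ^ (j + 1) := dvd_pow hpq (by omega)
    have h3 : 1 ≤ q ^ (j + 1) := Nat.one_le_pow _ _ (by omega)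
    split_ifs at hj
    · exact hp.one_lt.ne' (Nat.dvd_one.1 ((Nat.dvd_add_right h2).1 hj))
    · have h4 : p ∣ 1 := by
        have := Nat.dvd_sub h2 hj
        rwa [Nat.sub_sub_self h3] at this
      exact hp.one_lt.ne' (Nat.dvd_one.1 h4)
  rcases (Nat.Prime.dvd_mul hp).1 hi with h5 | h5
  · exact key _ h5
  · exact key _ h5

/-- A prime dividing the number of totally isotropic `m`-spaces. -/
theorem exists_of_dvd_ti (hK : Fintype.card K = q ^ 2) (r : ℕ) (hr : r.Prime) (m : ℕ)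
    (hm : 2 * m ≤ n)
    (h : r ∣ Nat.card {W : Submodule K (Fin n → K) // finrank K W = m ∧ Ti q W}) :
    ∃ j, n - 2 * m ≤ j ∧ j < n ∧ r ∣ uf q j := by
  obtain ⟨X, hX⟩ := ti_dvd (n := n) hK m hm
  have h1 : r ∣ ∏ i ∈ Finset.range m,
      (Helper13.gU q (n - 2 * i - 1) * Helper13.gU q (n - 2 * i - 2)) := by
    rw [← hX]
    exact Dvd.dvd.mul_right h _
  obtain ⟨i, hi, hi2⟩ := (Prime.dvd_finsetProd_iff hr.prime _).1 h1
  have hi' := Finset.mem_range.1 hi
  rcases (Nat.Prime.dvd_mul hr).1 hi2 with h5 | h5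
  · exact ⟨n - 2 * i - 1, by omega, by omega, h5⟩
  · exact ⟨n - 2 * i - 2, by omega, by omega, h5⟩

end count

section perp

variable {K : Type u} [Field K] [Fintype K] {q n : ℕ}

/-- The orthogonal complement for the Hermitian form. -/
def perp (q : ℕ) {n : ℕ} (W : Submodule K (Fin n → K)) : Submodule K (Fin n → K) where
  carrier := {v | ∀ u ∈ W, Cfsg.hermForm n K q v u = 0}
  add_mem' := by
    intro a b ha hb u hu
    rw [herm_add_left, ha u hu, hb u hu, add_zero]
  zero_mem' := fun u _ => herm_zero_left' n u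
  smul_mem' := by
    intro c a ha u hu
    rw [herm_smul_left, ha u hu, mul_zero]

theorem mem_perp (W : Submodule K (Fin n → K)) (v : Fin n → K) :
    v ∈ perp q W ↔ ∀ u ∈ W, Cfsg.hermForm n K q v u = 0 := Iff.rfl

theorem finrank_perp (hK : Fintype.card K = q ^ 2) (W : Submodule K (Fin n → K)) :
    finrank K (perp q W) + finrank K W = n := by
  classical
  have hq := two_le_q hK
  have hq0 : q ≠ 0 := by omega
  obtain ⟨k, hk⟩ : ∃ k, finrank K W = k := ⟨_, rfl⟩
  obtain ⟨b, -⟩ : ∃ b : Module.Basis (Fin k) K W, True :=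
    ⟨Module.finBasisOfFinrankEq K W hk, trivial⟩
  obtain ⟨x, hx⟩ : ∃ x : Fin k → Fin n → K, x = fun i => (b i : Fin n → K) := ⟨_, rfl⟩
  have hli : LinearIndependent K x := by
    rw [hx]
    exact b.linearIndependent.map' W.subtype (Submodule.ker_subtype W)
  obtain ⟨hkn, hcard⟩ := Helper13.card_herm_perp hK x hli
  have hmem : ∀ v : Fin n → K, v ∈ perp q W ↔ ∀ i, Cfsg.hermForm n K q v (x i) = 0 := by
    intro v
    constructor
    · intro h i
      rw [hx]
      exact h _ (b i).2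
    · intro h u hu
      have h4 : (⟨u, hu⟩ : W) ∈ Submodule.span K (Set.range b) := by
        rw [b.span_eq]
        exact Submodule.mem_top
      have h5 : ∀ y : W, y ∈ Submodule.span K (Set.range b) →
          Cfsg.hermForm n K q v (y : Fin n → K) = 0 := by
        intro y hy
        induction hy using Submodule.span_induction with
        | mem y hy =>
          obtain ⟨j, rfl⟩ := hy
          have h6 := h j
          rw [hx] at h6
          exact h6
        | zero => exact herm_zero_right' hq0 n v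
        | add y z _ _ hy hz => rw [Submodule.coe_add, herm_add_right hK, hy, hz, add_zero]
        | smul c y _ hy => rw [Submodule.coe_smul, herm_smul_right, hy, mul_zero]
      exact h5 _ h4
  have hc : Nat.card (perp q W) = (q ^ 2) ^ (n - k) := by
    rw [← hcard, ← Nat.card_eq_finsetCard]
    apply Nat.card_congr
    exact Equiv.subtypeEquivRight (fun v => by
      rw [Finset.mem_filter]
      simp only [Finset.mem_univ, true_and]
      exact hmem v)
  have h1 : Nat.card (perp q W) = Fintype.card K ^ finrank K (perp q W) := by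
    rw [Module.natCard_eq_pow_finrank (K := K) (V := perp q W), Nat.card_eq_fintype_card]
  rw [hK, hc] at h1
  have h2 := Nat.pow_right_injective (by nlinarith : 2 ≤ q ^ 2) h1
  omega

theorem iso_toLin_injective (hK : Fintype.card K = q ^ 2) {M : Matrix (Fin n) (Fin n) K}
    (hM : IsHermIso n K q M) : Function.Injective (Matrix.toLin' M) := by
  intro u v huv
  rw [Matrix.toLin'_apply, Matrix.toLin'_apply] at huv
  exact isHermIso_injective hK hM huv

theorem perp_invariant (hK : Fintype.card K = q ^ 2) {M : Matrix (Fin n) (Fin n) K}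
    (hM : IsHermIso n K q M) (U : Submodule K (Fin n → K))
    (hU : U.map (Matrix.toLin' M) ≤ U) : (perp q U).map (Matrix.toLin' M) ≤ perp q U := by
  have hU' := SpIso.map_eq_of_le (Matrix.toLin' M) (iso_toLin_injective hK hM) U hU
  rintro _ ⟨v, hv, rfl⟩
  rw [mem_perp]
  intro u hu
  rw [← hU'] at hu
  obtain ⟨u', hu', rfl⟩ := hu
  rw [Matrix.toLin'_apply, Matrix.toLin'_apply, hM v u']
  exact (mem_perp U v).1 hv u' hu'

end perp

section flag

open Cfsg.Agent.Lib.Helper40.PrimeOrderGL Cfsg.Agent.Lib.Helper40.DualPoly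
  Cfsg.Agent.Lib.Helper40.UnitaryWall Cfsg.Agent.Lib.Helper40.GUPrimeOrder

variable {K : Type u} [Field K] [Fintype K] {q n : ℕ}

/-- The Hermitian form as a linear map in its first argument. -/
def hermL (q : ℕ) {n : ℕ} (u : Fin n → K) : (Fin n → K) →ₗ[K] K where
  toFun := fun v => Cfsg.hermForm n K q v u
  map_add' := fun v v' => herm_add_left n v v' u
  map_smul' := fun c v => by
    rw [herm_smul_left]
    rfl

theorem hermL_apply (u v : Fin n → K) : hermL q u v = Cfsg.hermForm n K q v u := rfl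

theorem herm_sum_left {ι : Type*} (s : Finset ι) (f : ι → Fin n → K) (v : Fin n → K) :
    Cfsg.hermForm n K q (∑ i ∈ s, f i) v = ∑ i ∈ s, Cfsg.hermForm n K q (f i) v := by
  rw [← hermL_apply, map_sum]
  rfl

theorem herm_sum_right (hK : Fintype.card K = q ^ 2) {ι : Type*} (s : Finset ι)
    (f : ι → Fin n → K) (u : Fin n → K) :
    Cfsg.hermForm n K q u (∑ i ∈ s, f i) = ∑ i ∈ s, Cfsg.hermForm n K q u (f i) := by
  classical
  have hq := two_le_q hK
  induction s using Finset.induction_on with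
  | empty =>
    rw [Finset.sum_empty, Finset.sum_empty]
    exact herm_zero_right' (by omega) n u
  | insert a s ha ih => rw [Finset.sum_insert ha, Finset.sum_insert ha, herm_add_right hK, ih]

/-- The necessary condition for an invariant totally isotropic subspace. -/
theorem flag (hK : Fintype.card K = q ^ 2) {S : Finset K[X]} {r b : ℕ} (hS : Factors S r b)
    (hrK : (r : K) ≠ 0) (dg : S → S)
    (hdg : ∀ π : S, (dg π : K[X]) = dual (sigmaQ hK) π.1) (hdd : ∀ π, dg (dg π) = π)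
    (x : Matrix (Fin n) (Fin n) K) (hx : IsHermIso n K q x) (hxr : x ^ r = 1)
    (a : S → ℕ) (k₀ : ℕ) (hχ : x.charpoly = chi S a k₀)
    (W : Submodule K (Fin n → K)) (m : ℕ) (hWm : finrank K W = m)
    (hWti : Ti q W) (hWinv : W.map (Matrix.toLin' x) ≤ W) :
    ∃ a₁ : S → ℕ, b * ∑ π, a₁ π ≤ m ∧ (∀ π, a₁ π + a₁ (dg π) ≤ a π) ∧
      2 * (m - b * ∑ π, a₁ π) ≤ k₀ := by
  classical
  have hq := two_le_q hK
  have hq0 : q ≠ 0 := by omega
  obtain ⟨f, hf⟩ : ∃ f : Module.End K (Fin n → K), f = Matrix.toLin' x := ⟨_, rfl⟩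
  have hss : f.IsSemisimple := by
    rw [hf]
    exact isSemisimple_of_pow_eq_one x r hrK hxr
  have hfr : f ^ r = 1 := by
    rw [hf, SpImprim.toLin_pow, hxr, Matrix.toLin'_one]
    rfl
  have hWi : W ∈ f.invtSubmodule := by
    rw [Module.End.mem_invtSubmodule_iff_map_le, hf]
    exact hWinv
  have hWP : W ≤ perp q W := fun w hw => (mem_perp W w).2 (fun u hu => hWti w hw u hu)
  have hPi : perp q W ∈ f.invtSubmodule := by
    rw [Module.End.mem_invtSubmodule_iff_map_le, hf]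
    exact perp_invariant hK hx W hWinv
  obtain ⟨D, hDi, hWD⟩ := (Module.End.isSemisimple_iff.1 hss) W hWi
  obtain ⟨W₂, hW₂i, hPW₂⟩ := (Module.End.isSemisimple_iff.1 hss) (perp q W) hPi
  have hCi : perp q W ⊓ D ∈ f.invtSubmodule := Module.End.invtSubmodule.inf_mem hPi hDi
  have hdisj : Disjoint W (perp q W ⊓ D) := hWD.disjoint.mono_right inf_le_right
  have hsup : W ⊔ (perp q W ⊓ D) = perp q W := by
    rw [inf_comm, ← sup_inf_assoc_of_le D hWP, hWD.sup_eq_top, top_inf_eq]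
  have h1 := charpoly_eq_mul_of_isCompl f (perp q W) W₂ hPi hW₂i hPW₂
  have h2 := SpIso.charpoly_restrict_mul f (perp q W) W (perp q W ⊓ D) hPi hWi hCi hdisj hsup
  have hW₂dim : finrank K W₂ = m := by
    have h3 := Submodule.finrank_add_eq_of_isCompl hPW₂
    have h4 := finrank_perp hK W
    rw [Module.finrank_fin_fun] at h3
    omega
  obtain ⟨bs, -⟩ : ∃ bs : Module.Basis (Fin m) K W, True :=
    ⟨Module.finBasisOfFinrankEq K W hWm, trivial⟩
  obtain ⟨Φ, hΦ⟩ : ∃ Φ : W₂ →ₗ[K] (Fin m → K), ∀ (w : W₂) (j : Fin m),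
      Φ w j = Cfsg.hermForm n K q (w : Fin n → K) (bs j : Fin n → K) := by
    refine ⟨LinearMap.pi (fun j => (hermL q (bs j : Fin n → K)).comp W₂.subtype),
      fun w j => ?_⟩
    rw [LinearMap.pi_apply, LinearMap.comp_apply, Submodule.subtype_apply, hermL_apply]
  have hΦinj : Function.Injective Φ := by
    rw [← LinearMap.ker_eq_bot, LinearMap.ker_eq_bot']
    intro w hw
    have h3 : (w : Fin n → K) ∈ perp q W := by
      rw [mem_perp]
      intro u hu
      have h4 : (⟨u, hu⟩ : W) ∈ Submodule.span K (Set.range bs) := by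
        rw [bs.span_eq]
        exact Submodule.mem_top
      have h5 : ∀ y : W, y ∈ Submodule.span K (Set.range bs) →
          Cfsg.hermForm n K q (w : Fin n → K) (y : Fin n → K) = 0 := by
        intro y hy
        induction hy using Submodule.span_induction with
        | mem y hy =>
          obtain ⟨j, rfl⟩ := hy
          rw [← hΦ, hw]
          rfl
        | zero => exact herm_zero_right' hq0 n _
        | add y z _ _ hy hz =>
          rw [Submodule.coe_add, herm_add_right hK, hy, hz, add_zero]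
        | smul c y _ hy =>
          rw [Submodule.coe_smul, herm_smul_right, hy, mul_zero]
      exact h5 _ h4
    have h5 : (w : Fin n → K) ∈ perp q W ⊓ W₂ := ⟨h3, w.2⟩
    rw [hPW₂.inf_eq_bot] at h5
    exact Subtype.ext ((Submodule.mem_bot K).1 h5)
  obtain ⟨Φe, hΦe⟩ : ∃ Φe : W₂ ≃ₗ[K] (Fin m → K), ∀ w, Φe w = Φ w :=
    ⟨LinearMap.linearEquivOfInjective Φ hΦinj (by rw [hW₂dim, Module.finrank_fin_fun]),
      fun w => rfl⟩
  obtain ⟨b₂, hb₂⟩ : ∃ b₂ : Module.Basis (Fin m) K W₂, b₂ = Module.Basis.ofEquivFun Φe :=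
    ⟨_, rfl⟩
  have hdual : ∀ j l, Cfsg.hermForm n K q (b₂ l : Fin n → K) (bs j : Fin n → K) =
      if j = l then 1 else 0 := by
    intro j l
    rw [← hΦ, ← hΦe, hb₂, Module.Basis.coe_ofEquivFun, LinearEquiv.apply_symm_apply,
      Pi.single_apply]
  obtain ⟨g, hg⟩ : ∃ g : Module.End K W, g = f.restrict (p := W) (q := W) hWi := ⟨_, rfl⟩
  obtain ⟨g₂, hg₂⟩ : ∃ g₂ : Module.End K W₂, g₂ = f.restrict (p := W₂) (q := W₂) hW₂i :=
    ⟨_, rfl⟩
  obtain ⟨M, hM⟩ : ∃ M : Matrix (Fin m) (Fin m) K, M = LinearMap.toMatrix bs bs g := ⟨_, rfl⟩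
  obtain ⟨M₂, hM₂⟩ : ∃ M₂ : Matrix (Fin m) (Fin m) K, M₂ = LinearMap.toMatrix b₂ b₂ g₂ :=
    ⟨_, rfl⟩
  have hgb : ∀ j, ((g (bs j) : W) : Fin n → K) =
      ∑ a', M a' j • (bs a' : Fin n → K) := by
    intro j
    have h3 : g (bs j) = ∑ a', M a' j • bs a' := by
      conv_lhs => rw [← Matrix.toLin_toMatrix bs bs g]
      rw [hM]
      exact Matrix.toLin_self bs bs _ j
    rw [h3, Submodule.coe_sum]
    rfl
  have hgb₂ : ∀ l, ((g₂ (b₂ l) : W₂) : Fin n → K) =
      ∑ c', M₂ c' l • (b₂ c' : Fin n → K) := by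
    intro l
    have h3 : g₂ (b₂ l) = ∑ c', M₂ c' l • b₂ c' := by
      conv_lhs => rw [← Matrix.toLin_toMatrix b₂ b₂ g₂]
      rw [hM₂]
      exact Matrix.toLin_self b₂ b₂ _ l
    rw [h3, Submodule.coe_sum]
    rfl
  have hMM : cstar (sigmaQ hK) M * M₂ = 1 := by
    ext j l
    have h3 : Cfsg.hermForm n K q ((g₂ (b₂ l) : W₂) : Fin n → K)
        ((g (bs j) : W) : Fin n → K) =
        Cfsg.hermForm n K q (b₂ l : Fin n → K) (bs j : Fin n → K) := by
      rw [hg, hg₂]
      show Cfsg.hermForm n K q (f (b₂ l : Fin n → K)) (f (bs j : Fin n → K)) = _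
      rw [hf, Matrix.toLin'_apply, Matrix.toLin'_apply]
      exact hx _ _
    rw [hgb, hgb₂, hdual, herm_sum_left] at h3
    rw [Matrix.mul_apply, Matrix.one_apply, ← h3]
    apply Finset.sum_congr rfl
    intro c' _
    rw [herm_smul_left, herm_sum_right hK, Finset.sum_eq_single c']
    · rw [herm_smul_right, hdual, if_pos rfl, mul_one, cstar_apply, sigmaQ_apply, mul_comm]
    · intro a' _ ha'
      rw [herm_smul_right, hdual, if_neg ha', mul_zero]
    · intro h
      exact absurd (Finset.mem_univ _) h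
  have hMr : M ^ r = 1 := by
    rw [hM, LinearMap.toMatrix_pow]
    have h3 : g ^ r = 1 := by
      apply LinearMap.ext
      intro w
      apply Subtype.ext
      rw [hg, Elusive.pow_restrict_apply, hfr]
      rfl
    rw [h3, LinearMap.toMatrix_one]
  obtain ⟨a₁, ha₁, hχ₁⟩ := charpoly_eq_chi hS M hMr
  have hχM : M.charpoly = (f.restrict (p := W) (q := W) hWi).charpoly := by
    rw [hM, LinearMap.charpoly_toMatrix, hg]
  have hχM₂ : M₂.charpoly = (f.restrict (p := W₂) (q := W₂) hW₂i).charpoly := by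
    rw [hM₂, LinearMap.charpoly_toMatrix, hg₂]
  have hχ₂ : M₂.charpoly = chi S (fun π => a₁ (dg π)) (m - b * ∑ π, a₁ π) := by
    have h3 : M * cstar (sigmaQ hK) M₂ = 1 := by
      have h4 := congrArg (cstar (sigmaQ hK)) hMM
      rw [cstar_mul, cstar_cstar (sigmaQ hK) (conj_conj hK), cstar_one] at h4
      exact mul_eq_one_comm.1 h4
    have h5 := charpoly_cstar_inv (sigmaQ hK) M (cstar (sigmaQ hK) M₂) h3
    rw [cstar_cstar (sigmaQ hK) (conj_conj hK), hχ₁, dual_chi (sigmaQ hK) dg hdd hdg] at h5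
    exact h5
  have hdvd : chi S a₁ (m - b * ∑ π, a₁ π) * chi S (fun π => a₁ (dg π)) (m - b * ∑ π, a₁ π) ∣
      chi S a k₀ := by
    have h4 : chi S a k₀ = chi S a₁ (m - b * ∑ π, a₁ π) *
        (f.restrict (p := perp q W ⊓ D) (q := perp q W ⊓ D) hCi).charpoly *
        chi S (fun π => a₁ (dg π)) (m - b * ∑ π, a₁ π) := by
      rw [← hχ, ← Matrix.charpoly_toLin', ← hf, h1, h2, ← hχM, ← hχM₂, hχ₁, hχ₂]
    rw [h4]
    exact ⟨(f.restrict (p := perp q W ⊓ D) (q := perp q W ⊓ D) hCi).charpoly, by ring⟩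
  have hle : ms S a₁ (m - b * ∑ π, a₁ π) + ms S (fun π => a₁ (dg π)) (m - b * ∑ π, a₁ π) ≤
      ms S a k₀ := by
    rw [← nf_chi hS, ← nf_chi hS, ← nf_chi hS,
      ← UniqueFactorizationMonoid.normalizedFactors_mul (monic_chi hS _ _).ne_zero
        (monic_chi hS _ _).ne_zero]
    exact (UniqueFactorizationMonoid.dvd_iff_normalizedFactors_le_normalizedFactors
      (mul_ne_zero (monic_chi hS _ _).ne_zero (monic_chi hS _ _).ne_zero)
      (monic_chi hS _ _).ne_zero).1 hdvd
  refine ⟨a₁, ha₁, fun π => ?_, ?_⟩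
  · have h3 := Multiset.count_le_of_le π.1 hle
    rw [Multiset.count_add, count_ms hS, count_ms hS, count_ms hS] at h3
    exact h3
  · have h3 := Multiset.count_le_of_le (X - C 1 : K[X]) hle
    rw [Multiset.count_add, SpIso.count_ms_one hS, SpIso.count_ms_one hS,
      SpIso.count_ms_one hS] at h3
    omega

end flag

section hyp

open Cfsg.Agent.Lib.Helper40.PrimeOrderGL Cfsg.Agent.Lib.Helper40.DualPoly
  Cfsg.Agent.Lib.Helper40.UnitaryWall Cfsg.Agent.Lib.Helper40.GUPrimeOrder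

variable {K : Type u} [Field K] [Fintype K] {q : ℕ}

theorem cstar_pow_aux (σ : K →+* K) {m : ℕ} (A : Matrix (Fin m) (Fin m) K) (j : ℕ) :
    cstar σ (A ^ j) = cstar σ A ^ j := by
  induction j with
  | zero => rw [pow_zero, pow_zero, cstar_one]
  | succ j ih => rw [pow_succ, cstar_mul, ih, pow_succ']

theorem herm_mulVec_right_aux (hK : Fintype.card K = q ^ 2) {m : ℕ}
    (B : Matrix (Fin m) (Fin m) K) (v ξ : Fin m → K) :
    Cfsg.hermForm m K q v (B *ᵥ ξ) = Cfsg.hermForm m K q (cstar (sigmaQ hK) B *ᵥ v) ξ := by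
  simp only [herm_def, Matrix.mulVec, dotProduct, cstar_apply, sigmaQ_apply, conj_sum hK, mul_pow,
    Finset.mul_sum, Finset.sum_mul]
  rw [Finset.sum_comm]
  exact Finset.sum_congr rfl fun j _ => Finset.sum_congr rfl fun i _ => by ring

theorem herm_adj (hK : Fintype.card K = q ^ 2) {m : ℕ} (A A' : Matrix (Fin m) (Fin m) K)
    (h : A * A' = 1) (u v : Fin m → K) :
    Cfsg.hermForm m K q (A *ᵥ u) (cstar (sigmaQ hK) A' *ᵥ v) = Cfsg.hermForm m K q u v := by
  rw [herm_mulVec_right_aux hK, Matrix.mulVec_mulVec, cstar_cstar (sigmaQ hK) (conj_conj hK),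
    mul_eq_one_comm.1 h, Matrix.one_mulVec]

/-- The hyperbolic model: a unitary matrix on `K ^ (m + m)` inducing `A` on a totally
isotropic subspace. -/
theorem exists_hyp (hK : Fintype.card K = q ^ 2) {m : ℕ} (A A' : Matrix (Fin m) (Fin m) K)
    (h : A * A' = 1) :
    ∃ (G : Matrix (Fin (m + m)) (Fin (m + m)) K) (φ : (Fin m → K) →ₗ[K] (Fin (m + m) → K)),
      IsHermIso (m + m) K q G ∧
      G.charpoly = A.charpoly * dual (sigmaQ hK) A.charpoly ∧
      (∀ j, A ^ j = 1 → G ^ j = 1) ∧ Function.Injective φ ∧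
      (∀ u v, Cfsg.hermForm (m + m) K q (φ u) (φ v) = 0) ∧ ∀ u, G *ᵥ φ u = φ (A *ᵥ u) := by
  classical
  have hq := two_le_q hK
  have hq0 : q ≠ 0 := by omega
  have h' : A' * A = 1 := mul_eq_one_comm.1 h
  obtain ⟨μ, hμ⟩ := Cfsg.Agent.Lib.Helper44.exists_norm_eq hK (-1 : K)
    (neg_ne_zero.mpr one_ne_zero) (by rw [conj_neg hK, one_pow])
  obtain ⟨c, hc, hc1⟩ := exists_norm_one_ne_one hK
  have hμ0 : μ ≠ 0 := by
    rintro rfl
    rw [zero_pow (by omega)] at hμ
    exact one_ne_zero (neg_eq_zero.1 hμ.symm)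
  obtain ⟨μ', hμ'⟩ : ∃ μ' : K, μ' = μ * c := ⟨_, rfl⟩
  have hμ'1 : μ' ^ (q + 1) = -1 := by rw [hμ', mul_pow, hμ, hc, mul_one]
  have hne : μ - μ' ≠ 0 := by
    rw [hμ']
    intro h0
    apply hc1
    have h1 : μ * (1 - c) = 0 := by linear_combination h0
    rcases mul_eq_zero.1 h1 with h2 | h2
    · exact absurd h2 hμ0
    · exact (sub_eq_zero.1 h2).symm
  obtain ⟨D, hD⟩ : ∃ D : Matrix (Fin m) (Fin m) K, D = cstar (sigmaQ hK) A' := ⟨_, rfl⟩
  obtain ⟨e⟩ : Nonempty (Fin m ⊕ Fin m ≃ Fin (m + m)) := ⟨finSumFinEquiv⟩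
  obtain ⟨L, hL⟩ : ∃ L : ((Fin m → K) × (Fin m → K)) →ₗ[K] (Fin (m + m) → K),
      ∀ p, L p = emb e (p.1 + p.2, μ • p.1 + μ' • p.2) := by
    refine ⟨(emb e).comp (LinearMap.prod (LinearMap.fst K _ _ + LinearMap.snd K _ _)
      (μ • LinearMap.fst K _ _ + μ' • LinearMap.snd K _ _)), fun p => rfl⟩
  have hLform : ∀ p p', Cfsg.hermForm (m + m) K q (L p) (L p') =
      (1 + μ * μ' ^ q) * Cfsg.hermForm m K q p.1 p'.2 +
      (1 + μ' * μ ^ q) * Cfsg.hermForm m K q p.2 p'.1 := by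
    intro p p'
    rw [hL, hL, herm_emb]
    simp only [herm_add_left, herm_add_right hK, herm_smul_left, herm_smul_right]
    have e1 : μ * μ ^ q = -1 := by
      rw [← pow_succ']
      exact hμ
    have e2 : μ' * μ' ^ q = -1 := by
      rw [← pow_succ']
      exact hμ'1
    linear_combination (Cfsg.hermForm m K q p.1 p'.1) * e1 +
      (Cfsg.hermForm m K q p.2 p'.2) * e2
  have hLinj : Function.Injective L := by
    rw [← LinearMap.ker_eq_bot, LinearMap.ker_eq_bot']
    intro p hp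
    rw [hL] at hp
    have h1 : (p.1 + p.2, μ • p.1 + μ' • p.2) = (0 : (Fin m → K) × (Fin m → K)) :=
      emb_injective e (by rw [hp, map_zero])
    have h2 : p.1 + p.2 = 0 := congrArg Prod.fst h1
    have h3 : μ • p.1 + μ' • p.2 = 0 := congrArg Prod.snd h1
    have h4 : (μ - μ') • p.1 = 0 := by
      have h5 : p.2 = -p.1 := eq_neg_of_add_eq_zero_right h2
      rw [h5] at h3
      rw [sub_smul, ← h3, smul_neg]
      abel
    have h5 : p.1 = 0 := (smul_eq_zero.1 h4).resolve_left hne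
    have h6 : p.2 = 0 := by
      rw [h5, zero_add] at h2
      exact h2
    exact Prod.ext h5 h6
  obtain ⟨Le, hLe⟩ : ∃ Le : ((Fin m → K) × (Fin m → K)) ≃ₗ[K] (Fin (m + m) → K),
      ∀ p, Le p = L p :=
    ⟨LinearMap.linearEquivOfInjective L hLinj (by
      rw [Module.finrank_prod, Module.finrank_fin_fun, Module.finrank_fin_fun]), fun p => rfl⟩
  obtain ⟨F, hF⟩ : ∃ F : Module.End K ((Fin m → K) × (Fin m → K)),
      F = (Matrix.toLin' A).prodMap (Matrix.toLin' D) := ⟨_, rfl⟩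
  obtain ⟨G, hG⟩ : ∃ G : Matrix (Fin (m + m)) (Fin (m + m)) K,
      G = LinearMap.toMatrix' (Le.conj F) := ⟨_, rfl⟩
  have hGL : ∀ p, G *ᵥ L p = L (A *ᵥ p.1, D *ᵥ p.2) := by
    intro p
    rw [hG, ← Matrix.toLin'_apply, Matrix.toLin'_toMatrix', ← hLe,
      LinearEquiv.conj_apply_apply, LinearEquiv.symm_apply_apply, hF, hLe]
    rfl
  have hadj1 : ∀ u v, Cfsg.hermForm m K q (A *ᵥ u) (D *ᵥ v) = Cfsg.hermForm m K q u v := by
    intro u v
    rw [hD]
    exact herm_adj hK A A' h u v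
  have hadj2 : ∀ u v, Cfsg.hermForm m K q (D *ᵥ v) (A *ᵥ u) = Cfsg.hermForm m K q v u := by
    intro u v
    rw [← herm_conj hK, hadj1, herm_conj hK]
  have hGpow : ∀ (j : ℕ) p, G ^ j *ᵥ L p = L (A ^ j *ᵥ p.1, D ^ j *ᵥ p.2) := by
    intro j
    induction j with
    | zero =>
      intro p
      simp
    | succ j ih =>
      intro p
      rw [pow_succ, ← Matrix.mulVec_mulVec, hGL, ih, Matrix.mulVec_mulVec, Matrix.mulVec_mulVec,
        ← pow_succ, ← pow_succ]
  refine ⟨G, L.comp (LinearMap.inl K _ _), ?_, ?_, ?_, ?_, ?_, ?_⟩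
  · intro x y
    obtain ⟨p, rfl⟩ := Le.surjective x
    obtain ⟨p', rfl⟩ := Le.surjective y
    rw [hLe, hLe, hGL, hGL, hLform, hLform]
    show _ * Cfsg.hermForm m K q (A *ᵥ p.1) (D *ᵥ p'.2) +
      _ * Cfsg.hermForm m K q (D *ᵥ p.2) (A *ᵥ p'.1) = _
    rw [hadj1, hadj2]
  · rw [← Matrix.charpoly_toLin', hG, Matrix.toLin'_toMatrix', LinearEquiv.charpoly_conj, hF,
      LinearMap.charpoly_prodMap, Matrix.charpoly_toLin', Matrix.charpoly_toLin', hD,
      charpoly_cstar_inv (sigmaQ hK) A A' h]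
  · intro j hj
    have hA'j : A' ^ j = 1 := by
      have h1 : Commute A' A := by
        show A' * A = A * A'
        rw [h, h']
      have h2 := h1.mul_pow j
      rw [h', one_pow, hj, mul_one] at h2
      exact h2.symm
    have hDj : D ^ j = 1 := by rw [hD, ← cstar_pow_aux, hA'j, cstar_one]
    apply Matrix.toLin'.injective
    apply LinearMap.ext
    intro x
    obtain ⟨p, rfl⟩ := Le.surjective x
    rw [Matrix.toLin'_apply, hLe, hGpow, hj, hDj, Matrix.one_mulVec, Matrix.one_mulVec,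
      Matrix.toLin'_one]
    rfl
  · intro u v huv
    have h1 := hLinj huv
    exact congrArg Prod.fst h1
  · intro u v
    show Cfsg.hermForm (m + m) K q (L (u, 0)) (L (v, 0)) = 0
    rw [hLform]
    show _ * Cfsg.hermForm m K q u 0 + _ * Cfsg.hermForm m K q 0 v = 0
    rw [herm_zero_right' hq0, herm_zero_left', mul_zero, mul_zero, add_zero]
  · intro u
    show G *ᵥ L (u, 0) = L (A *ᵥ u, 0)
    rw [hGL]
    show L (A *ᵥ u, D *ᵥ 0) = _
    rw [Matrix.mulVec_zero]

end hyp

section model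

open Cfsg.Agent.Lib.Helper40.PrimeOrderGL Cfsg.Agent.Lib.Helper40.DualPoly
  Cfsg.Agent.Lib.Helper40.UnitaryWall Cfsg.Agent.Lib.Helper40.GUPrimeOrder

variable {K : Type u} [Field K] [Fintype K] {q : ℕ}

/-- A block matrix whose first block induces `A` on a totally isotropic subspace. -/
theorem fixTi_blk_hyp {n m l : ℕ} (e : Fin (m + m) ⊕ Fin l ≃ Fin n)
    (G : Matrix (Fin (m + m)) (Fin (m + m)) K) (B : Matrix (Fin l) (Fin l) K)
    (A : Matrix (Fin m) (Fin m) K)
    (φ : (Fin m → K) →ₗ[K] (Fin (m + m) → K)) (hφ : Function.Injective φ)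
    (hti : ∀ u v, Cfsg.hermForm (m + m) K q (φ u) (φ v) = 0)
    (hG : ∀ u, G *ᵥ φ u = φ (A *ᵥ u)) : FixTi q (blk e G B) m := by
  obtain ⟨ψ, hψ⟩ : ∃ ψ : (Fin m → K) →ₗ[K] (Fin n → K), ∀ u, ψ u = emb e (φ u, 0) :=
    ⟨(emb e).comp (LinearMap.prod φ 0), fun u => rfl⟩
  have hψinj : Function.Injective ψ := by
    intro u v huv
    rw [hψ, hψ] at huv
    exact hφ (congrArg Prod.fst (emb_injective e huv))
  refine ⟨LinearMap.range ψ, ?_, ?_, ?_⟩
  · rw [LinearMap.finrank_range_of_inj hψinj, Module.finrank_fin_fun]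
  · rintro _ ⟨u, rfl⟩ _ ⟨v, rfl⟩
    rw [hψ, hψ, herm_emb, hti]
    show 0 + Cfsg.hermForm l K q 0 0 = 0
    rw [herm_zero_left', add_zero]
  · rintro _ ⟨_, ⟨u, rfl⟩, rfl⟩
    refine ⟨A *ᵥ u, ?_⟩
    rw [Matrix.toLin'_apply, hψ, hψ, blk_mulVec_emb]
    show emb e (φ (A *ᵥ u), 0) = emb e (G *ᵥ φ u, B *ᵥ 0)
    rw [hG, Matrix.mulVec_zero]

/-- The sufficient condition for an invariant totally isotropic subspace. -/
theorem exists_ti_of_split (hK : Fintype.card K = q ^ 2) (p : ℕ) [Fact p.Prime] [CharP K p]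
    {S : Finset K[X]} {r b : ℕ} (hS : Factors S r b) (hr : r.Prime) (hrK : (r : K) ≠ 0)
    (dg : S → S) (hdg : ∀ π : S, (dg π : K[X]) = dual (sigmaQ hK) π.1)
    (hdd : ∀ π, dg (dg π) = π) (n m : ℕ)
    (y : Matrix (Fin n) (Fin n) K) (hy : IsHermIso n K q y) (hyr : y ^ r = 1)
    (a : S → ℕ) (hale : b * ∑ π, a π ≤ n) (hχ : y.charpoly = chi S a (n - b * ∑ π, a π))
    (hasym : ∀ π, a (dg π) = a π)
    (a₁ : S → ℕ) (h1 : b * ∑ π, a₁ π ≤ m) (h2 : ∀ π, a₁ π + a₁ (dg π) ≤ a π)
    (h3 : 2 * (m - b * ∑ π, a₁ π) + b * ∑ π, a π ≤ n) : FixTi q y m := by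
  classical
  have hq := two_le_q hK
  obtain ⟨a₂, ha₂⟩ : ∃ a₂ : S → ℕ, a₂ = fun π => a π - a₁ π - a₁ (dg π) := ⟨_, rfl⟩
  have ha₂pt : ∀ π, a₁ π + a₁ (dg π) + a₂ π = a π := by
    intro π
    have := h2 π
    rw [ha₂]
    show a₁ π + a₁ (dg π) + (a π - a₁ π - a₁ (dg π)) = a π
    omega
  have ha₂sym : ∀ π, a₂ (dg π) = a₂ π := by
    intro π
    rw [ha₂]
    show a (dg π) - a₁ (dg π) - a₁ (dg (dg π)) = a π - a₁ π - a₁ (dg π)
    rw [hasym, hdd]
    omega
  have hsumdg : ∑ π, a₁ (dg π) = ∑ π, a₁ π := by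
    let e' : S ≃ S := ⟨dg, dg, hdd, hdd⟩
    exact Equiv.sum_comp e' a₁
  have hsum : ∑ π, a π = ∑ π, a₁ π + ∑ π, a₁ π + ∑ π, a₂ π := by
    have h4 : ∑ π, a π = ∑ π, a₁ π + ∑ π, a₁ (dg π) + ∑ π, a₂ π := by
      rw [← Finset.sum_add_distrib, ← Finset.sum_add_distrib]
      exact Finset.sum_congr rfl (fun π _ => (ha₂pt π).symm)
    rw [h4, hsumdg]
  have hmn : 2 * m ≤ n := by
    rw [hsum, mul_add, mul_add] at h3
    omega
  have hle₂ : b * ∑ π, a₂ π ≤ n - 2 * m := by
    rw [hsum, mul_add, mul_add] at h3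
    omega
  obtain ⟨g, hgr, hgχ⟩ := exists_GL_chi (n := m) p hS hr.pos a₁ h1
  obtain ⟨A, hA⟩ : ∃ A : Matrix (Fin m) (Fin m) K, A = g.1 := ⟨_, rfl⟩
  obtain ⟨A', hA'⟩ : ∃ A' : Matrix (Fin m) (Fin m) K, A' = (g⁻¹).1 := ⟨_, rfl⟩
  have hAA' : A * A' = 1 := by
    rw [hA, hA', ← Units.val_mul, mul_inv_cancel]
    rfl
  have hAr : A ^ r = 1 := by
    rw [hA, ← Units.val_pow_eq_pow_val, hgr]
    rfl
  obtain ⟨G, φ, hGiso, hGχ, hGpow, hφinj, hφti, hGφ⟩ := exists_hyp hK A A' hAA'
  obtain ⟨B, hB, hBr, hBχ⟩ := exists_gu_chi hK p hS hr dg hdg hdd (n - 2 * m) a₂ ha₂sym hle₂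
  obtain ⟨e⟩ : Nonempty (Fin (m + m) ⊕ Fin (n - 2 * m) ≃ Fin n) :=
    ⟨(finSumFinEquiv).trans (finCongr (by omega))⟩
  have hYr : blk e G B ^ r = 1 := by rw [blk_pow, hGpow r hAr, hBr, blk_one]
  have hYiso : IsHermIso n K q (blk e G B) := (isHermIso_blk_iff hK e G B).2 ⟨hGiso, hB⟩
  have hχeq : (blk e G B).charpoly = y.charpoly := by
    rw [charpoly_blk, hGχ, hA, hgχ, dual_chi (sigmaQ hK) dg hdd hdg, hBχ, hχ, chi_mul, chi_mul]
    have hk' : n - b * ∑ π, a π = (m - b * ∑ π, a₁ π) + (m - b * ∑ π, a₁ π) +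
        ((n - 2 * m) - b * ∑ π, a₂ π) := by
      rw [hsum, mul_add, mul_add]
      omega
    rw [hk']
    congr 1
    funext π
    exact ha₂pt π
  obtain ⟨yu, hyu⟩ := isHermIso_isUnit hK hy
  obtain ⟨Yu, hYu⟩ := isHermIso_isUnit hK hYiso
  have hss1 := isSemisimple_of_pow_eq_one y r hrK hyr
  have hss2 := isSemisimple_of_pow_eq_one (blk e G B) r hrK hYr
  have hconj : IsConj yu Yu :=
    isConj_GL_of_semisimple yu Yu (by rw [hyu]; exact hss1) (by rw [hYu]; exact hss2)
      (by rw [hyu, hYu, hχeq])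
  obtain ⟨P, hP⟩ := isConj_iff.1 hconj
  have h7 : P * yu = Yu * P := by
    rw [← hP]
    group
  have h8 := congrArg (fun g : GL (Fin n) K => (g : Matrix (Fin n) (Fin n) K)) h7
  simp only [Units.val_mul] at h8
  rw [hyu, hYu] at h8
  obtain ⟨T, T', hT, hTT, hTy⟩ := iso_conj_of_similar hK hy hYiso P h8
  apply fixTi_conj hT hTT
  rw [hTy]
  exact fixTi_blk_hyp e G B A φ hφinj hφti hGφ

end model

section odd1

open Cfsg.Agent.Lib.Helper40.PrimeOrderGL Cfsg.Agent.Lib.Helper40.DualPoly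
  Cfsg.Agent.Lib.Helper40.UnitaryWall Cfsg.Agent.Lib.Helper40.GUPrimeOrder

variable {K : Type u} [Field K] [Fintype K] {q : ℕ}

/-- The irreducible factors of `X ^ r - 1` with the unitary duality, for any prime `r ≠ p`. -/
theorem gu_data0 (hK : Fintype.card K = q ^ 2) {p : ℕ} [Fact p.Prime] [CharP K p] (r : ℕ)
    [Fact r.Prime] (hrp : r ≠ p) :
    ∃ (S : Finset K[X]) (dg : S → S), Factors S r (orderOf ((q ^ 2 : ℕ) : ZMod r)) ∧
      S.Nonempty ∧ (∀ π : S, (dg π : K[X]) = dual (sigmaQ hK) π.1) ∧ (∀ π, dg (dg π) = π) := by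
  classical
  have hr : r.Prime := Fact.out
  obtain ⟨S, hS, hSne⟩ := Elusive.exists_factors hK r hrp
  have hσ2 := conj_conj hK
  have hmemS : ∀ π : S, dual (sigmaQ hK) π.1 ∈ S := by
    intro π
    have h0 := Factors.coeff_zero_ne hS hr.pos π π.2
    have hmon := monic_dual (sigmaQ hK) π.1 h0
    have hirr := irreducible_dual (sigmaQ hK) hσ2 π.1 (hS.monic π π.2) h0 (hS.irred π π.2)
    have hdvd : dual (sigmaQ hK) π.1 ∣ X ^ r - 1 := by
      obtain ⟨c, hc⟩ := hS.dvd π π.2
      have h1 := congrArg (dual (sigmaQ hK)) hc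
      rw [dual_X_pow_sub_one (sigmaQ hK) r hr.pos, dual_mul] at h1
      exact ⟨_, h1⟩
    rcases hS.cover _ hmon hirr hdvd with h | h
    · exfalso
      have h2 := dual_dual (sigmaQ hK) hσ2 π.1 (hS.monic π π.2) h0
      rw [h, dual_X_sub_one] at h2
      exact hS.notMem (h2 ▸ π.2)
    · exact h
  obtain ⟨dg, hdg⟩ : ∃ dg : S → S, ∀ π : S, (dg π : K[X]) = dual (sigmaQ hK) π.1 :=
    ⟨fun π => ⟨dual (sigmaQ hK) π.1, hmemS π⟩, fun π => rfl⟩
  have hdd : ∀ π, dg (dg π) = π := by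
    intro π
    apply Subtype.ext
    rw [hdg, hdg, dual_dual (sigmaQ hK) hσ2 π.1 (hS.monic π π.2)
      (Factors.coeff_zero_ne hS hr.pos π π.2)]
  exact ⟨S, dg, hS, hSne, hdg, hdd⟩

omit [Fintype K] in
/-- Invariant subspaces of a matrix whose `r`-th power is a scalar that is not an `r`-th
power have dimension divisible by `r`. -/
theorem dvd_of_invariant {n : ℕ} (x : Matrix (Fin n) (Fin n) K) (r : ℕ) (hr : r.Prime) (z : K)
    (hx : x ^ r = z • (1 : Matrix (Fin n) (Fin n) K)) (hz : ∀ u : K, u ^ r ≠ z)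
    (W : Submodule K (Fin n → K)) (m : ℕ) (hWm : finrank K W = m)
    (hW : W.map (Matrix.toLin' x) ≤ W) : r ∣ m := by
  classical
  obtain ⟨f, hf⟩ : ∃ f : Module.End K (Fin n → K), f = Matrix.toLin' x := ⟨_, rfl⟩
  have hfr : f ^ r = z • (1 : Module.End K (Fin n → K)) := by
    rw [hf, SpImprim.toLin_pow, hx, map_smul, Matrix.toLin'_one]
    rfl
  have hWi : W ∈ f.invtSubmodule := by
    rw [Module.End.mem_invtSubmodule_iff_map_le, hf]
    exact hW
  obtain ⟨bs, -⟩ : ∃ bs : Module.Basis (Fin m) K W, True :=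
    ⟨Module.finBasisOfFinrankEq K W hWm, trivial⟩
  obtain ⟨g, hg⟩ : ∃ g : Module.End K W, g = f.restrict (p := W) (q := W) hWi := ⟨_, rfl⟩
  obtain ⟨M, hM⟩ : ∃ M : Matrix (Fin m) (Fin m) K, M = LinearMap.toMatrix bs bs g := ⟨_, rfl⟩
  have hMr : M ^ r = z • (1 : Matrix (Fin m) (Fin m) K) := by
    rw [hM, LinearMap.toMatrix_pow]
    have h3 : g ^ r = z • (1 : Module.End K W) := by
      apply LinearMap.ext
      intro w
      apply Subtype.ext
      rw [hg, Elusive.pow_restrict_apply, hfr]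
      rfl
    rw [h3, map_smul, LinearMap.toMatrix_one]
  obtain ⟨t, ht, -⟩ := charpoly_of_irred M r hr z hMr hz
  exact ⟨t, ht⟩

/-- Semisimple unitary matrices with the characteristic polynomial of a model fix a totally
isotropic subspace. -/
theorem fixTi_of_charpoly (hK : Fintype.card K = q ^ 2) {n m l : ℕ}
    {M : Matrix (Fin n) (Fin n) K} (hM : IsHermIso n K q M)
    (e : Fin (m + m) ⊕ Fin l ≃ Fin n)
    (G : Matrix (Fin (m + m)) (Fin (m + m)) K) (B : Matrix (Fin l) (Fin l) K)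
    (hG : IsHermIso (m + m) K q G) (hB : IsHermIso l K q B)
    (A : Matrix (Fin m) (Fin m) K)
    (φ : (Fin m → K) →ₗ[K] (Fin (m + m) → K)) (hφ : Function.Injective φ)
    (hti : ∀ u v, Cfsg.hermForm (m + m) K q (φ u) (φ v) = 0)
    (hGφ : ∀ u, G *ᵥ φ u = φ (A *ᵥ u))
    (hss1 : Module.End.IsSemisimple (Matrix.toLin' M))
    (hss2 : Module.End.IsSemisimple (Matrix.toLin' (blk e G B)))
    (hχ : (blk e G B).charpoly = M.charpoly) : FixTi q M m := by
  have hYiso : IsHermIso n K q (blk e G B) := (isHermIso_blk_iff hK e G B).2 ⟨hG, hB⟩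
  obtain ⟨yu, hyu⟩ := isHermIso_isUnit hK hM
  obtain ⟨Yu, hYu⟩ := isHermIso_isUnit hK hYiso
  have hconj : IsConj yu Yu :=
    isConj_GL_of_semisimple yu Yu (by rw [hyu]; exact hss1) (by rw [hYu]; exact hss2)
      (by rw [hyu, hYu, hχ])
  obtain ⟨P, hP⟩ := isConj_iff.1 hconj
  have h7 : P * yu = Yu * P := by
    rw [← hP]
    group
  have h8 := congrArg (fun g : GL (Fin n) K => (g : Matrix (Fin n) (Fin n) K)) h7
  simp only [Units.val_mul] at h8
  rw [hyu, hYu] at h8
  obtain ⟨T, T', hT, hTT, hTy⟩ := iso_conj_of_similar hK hM hYiso P h8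
  apply fixTi_conj hT hTT
  rw [hTy]
  exact fixTi_blk_hyp e G B A φ hφ hti hGφ

/-- The combinatorial splitting of the multiplicities. -/
theorem ti_split {T : Type*} [Fintype T] [DecidableEq T] (dg : T → T)
    (hdd : ∀ x, dg (dg x) = x) (b c n m : ℕ) (hb0 : 0 < b)
    (hpar : ((∀ π, dg π = π) ∧ c = b ∧ b * Fintype.card T + 2 * m ≤ n) ∨
      ((∀ π, dg π ≠ π) ∧ c = 2 * b))
    (a : T → ℕ) (hasym : ∀ π, a (dg π) = a π) (hale : b * ∑ π, a π ≤ n) (hmn : 2 * m ≤ n)
    (hk : 2 * (m % b) ≤ n % c) :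
    ∃ a₁ : T → ℕ, b * ∑ π, a₁ π ≤ m ∧ (∀ π, a₁ π + a₁ (dg π) ≤ a π) ∧
      2 * (m - b * ∑ π, a₁ π) + b * ∑ π, a π ≤ n := by
  classical
  have hc0 : 0 < c := by
    rcases hpar with ⟨-, h, -⟩ | ⟨-, h⟩ <;> omega
  obtain ⟨h, hh1, hP1, hcd⟩ : ∃ h : T → ℕ, (∀ x, h x + h (dg x) ≤ a x) ∧
      (2 * m + b * ∑ π, a π ≤ n + 2 * (b * ∑ x, h x)) ∧ c ∣ b * ∑ π, a π := by
    rcases hpar with ⟨hid, hci, hs⟩ | ⟨hfpf, hci⟩
    · obtain ⟨h, hh1, hh2⟩ := (SpIso.exists_half dg hdd a hasym).1 hid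
      refine ⟨h, hh1, ?_, by rw [hci]; exact dvd_mul_right _ _⟩
      have h3 : ∑ π, a π ≤ 2 * ∑ x, h x + Fintype.card T := by
        rw [Finset.mul_sum, Fintype.card_eq_sum_ones, ← Finset.sum_add_distrib]
        apply Finset.sum_le_sum
        intro π _
        rw [hh2]
        omega
      have h4 := Nat.mul_le_mul_left b h3
      rw [mul_add] at h4
      have h5 : b * (2 * ∑ x, h x) = 2 * (b * ∑ x, h x) := by ring
      omega
    · obtain ⟨h, hh1, hh2⟩ := (SpIso.exists_half dg hdd a hasym).2 hfpf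
      refine ⟨h, hh1, ?_, ?_⟩
      · rw [← hh2]
        have h5 : b * (2 * ∑ x, h x) = 2 * (b * ∑ x, h x) := by ring
        omega
      · rw [hci, ← hh2]
        exact ⟨∑ x, h x, by ring⟩
  obtain ⟨a₁, ha₁le, ha₁sum⟩ := Decomp.exists_sub h (min (∑ x, h x) (m / b)) (min_le_left _ _)
  have hbj : b * ∑ π, a₁ π ≤ m := by
    rw [ha₁sum]
    exact (Nat.mul_le_mul_left b (min_le_right _ _)).trans (Nat.mul_div_le m b)
  refine ⟨a₁, hbj, fun π => ?_, ?_⟩
  · have h1 := ha₁le π
    have h2 := ha₁le (dg π)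
    have h3 := hh1 π
    omega
  · rw [ha₁sum]
    rcases le_total (∑ x, h x) (m / b) with hle | hle
    · rw [min_eq_left hle]
      have h1 : b * ∑ x, h x ≤ m := (Nat.mul_le_mul_left b hle).trans (Nat.mul_div_le m b)
      omega
    · rw [min_eq_right hle]
      obtain ⟨u, hu⟩ := hcd
      have h5 : u ≤ n / c := by
        rw [Nat.le_div_iff_mul_le hc0, mul_comm, ← hu]
        exact hale
      have h6 := Nat.mul_le_mul_left c h5
      have h7 := Nat.div_add_mod n c
      have h8 := Nat.div_add_mod m b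
      omega

theorem cond_iff (b m n R : ℕ) (hb0 : 0 < b) (hbR : b ∣ R) (hk : 2 * (m % b) ≤ n % b) :
    R / b + 2 * (m / b) ≤ n / b ↔ R + 2 * m ≤ n := by
  obtain ⟨s, rfl⟩ := hbR
  rw [Nat.mul_div_cancel_left s hb0]
  have h1 := Nat.div_add_mod m b
  have h2 := Nat.div_add_mod n b
  have h3 := Nat.mod_lt n hb0
  constructor
  · intro h
    have h4 := Nat.mul_le_mul_left b h
    rw [mul_add] at h4
    have h5 : b * (2 * (m / b)) = 2 * (b * (m / b)) := by ring
    omega
  · intro h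
    by_contra hlt
    push Not at hlt
    have h4 : b * (n / b + 1) ≤ b * (s + 2 * (m / b)) :=
      Nat.mul_le_mul_left b (Nat.succ_le_of_lt hlt)
    rw [mul_add, mul_add, mul_one] at h4
    have h5 : b * (2 * (m / b)) = 2 * (b * (m / b)) := by ring
    omega

end odd1

section odd2

open Cfsg.Agent.Lib.Helper40.PrimeOrderGL Cfsg.Agent.Lib.Helper40.DualPoly
  Cfsg.Agent.Lib.Helper40.UnitaryWall Cfsg.Agent.Lib.Helper40.GUPrimeOrder

variable {K : Type u} [Field K] [Fintype K] {q : ℕ}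

/-- Nonscalar criterion: two distinct factors with positive multiplicity. -/
theorem nonscalar_of_two {n : ℕ} {S : Finset K[X]} {r b : ℕ} (hS : Factors S r b)
    (x : Matrix (Fin n) (Fin n) K) (a : S → ℕ) (k : ℕ) (hχ : x.charpoly = chi S a k)
    (P₁ P₂ : S) (h1 : 0 < a P₁) (h2 : 0 < a P₂) (hne : P₁ ≠ P₂) :
    ∀ z : K, x ≠ z • (1 : Matrix (Fin n) (Fin n) K) := by
  classical
  intro z hz
  have hann : aeval x (X - C z : K[X]) = 0 := by
    rw [map_sub, aeval_X, aeval_C, hz, Algebra.algebraMap_eq_smul_one, sub_self]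
  have hfac : ∀ π : S, 0 < a π → π.1 = X - C z := by
    intro π hπ
    have hmem : π.1 ∈ UniqueFactorizationMonoid.normalizedFactors x.charpoly := by
      rw [hχ, nf_chi hS, ← Multiset.count_pos, count_ms hS]
      exact hπ
    have hd := dvd_of_mem_nf x (X - C z) hann π.1 hmem
    exact eq_of_monic_of_associated (hS.monic π π.2) (monic_X_sub_C z)
      ((hS.irred π π.2).associated_of_dvd (irreducible_X_sub_C z) hd)
  exact hne (Subtype.ext (by rw [hfac P₁ h1, hfac P₂ h2]))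

/-- Nonscalar criterion: the eigenvalue one and another factor. -/
theorem nonscalar_of_one {n : ℕ} {S : Finset K[X]} {r b : ℕ} (hS : Factors S r b)
    (x : Matrix (Fin n) (Fin n) K) (a : S → ℕ) (k : ℕ) (hχ : x.charpoly = chi S a k)
    (P₁ : S) (h1 : 0 < a P₁) (hk : 0 < k) :
    ∀ z : K, x ≠ z • (1 : Matrix (Fin n) (Fin n) K) := by
  classical
  intro z hz
  have hann : aeval x (X - C z : K[X]) = 0 := by
    rw [map_sub, aeval_X, aeval_C, hz, Algebra.algebraMap_eq_smul_one, sub_self]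
  have hmem1 : P₁.1 ∈ UniqueFactorizationMonoid.normalizedFactors x.charpoly := by
    rw [hχ, nf_chi hS, ← Multiset.count_pos, count_ms hS]
    exact h1
  have hd1 := dvd_of_mem_nf x (X - C z) hann P₁.1 hmem1
  have e1 : P₁.1 = X - C z := eq_of_monic_of_associated (hS.monic P₁ P₁.2) (monic_X_sub_C z)
    ((hS.irred P₁ P₁.2).associated_of_dvd (irreducible_X_sub_C z) hd1)
  have hmem2 : (X - C 1 : K[X]) ∈ UniqueFactorizationMonoid.normalizedFactors x.charpoly := by
    rw [hχ, nf_chi hS, ← Multiset.count_pos, SpIso.count_ms_one hS]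
    exact hk
  have hd2 := dvd_of_mem_nf x (X - C z) hann _ hmem2
  have e2 : (X - C 1 : K[X]) = X - C z :=
    eq_of_monic_of_associated (monic_X_sub_C 1) (monic_X_sub_C z)
      ((irreducible_X_sub_C 1).associated_of_dvd (irreducible_X_sub_C z) hd2)
  exact hS.notMem (by rw [e2, ← e1]; exact P₁.2)

/-- Test elements with all multiplicities at most one and determinant one. -/
theorem exists_test_id (hK : Fintype.card K = q ^ 2) (p : ℕ) [Fact p.Prime] [CharP K p] (r : ℕ)
    [Fact r.Prime] (hr2 : r ≠ 2) (hrp : r ≠ p) {S : Finset K[X]} {b : ℕ} (hS : Factors S r b)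
    (hb : b = orderOf ((q ^ 2 : ℕ) : ZMod r)) (hbodd : Odd b)
    (dg : S → S) (hdg : ∀ π : S, (dg π : K[X]) = dual (sigmaQ hK) π.1)
    (hdd : ∀ π, dg (dg π) = π) (hid : ∀ π, dg π = π)
    (n j : ℕ) (hj0 : 0 < j) (hj : 2 * j * b ≤ r - 1) (hjn : 2 * j * b ≤ n) :
    ∃ (x : Matrix (Fin n) (Fin n) K) (a : S → ℕ), IsHermIso n K q x ∧ x ^ r = 1 ∧ x.det = 1 ∧
      (∀ π, a π ≤ 1) ∧ x.charpoly = chi S a (n - 2 * j * b) ∧
      ∀ z : K, x ≠ z • (1 : Matrix (Fin n) (Fin n) K) := by
  classical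
  have hr : r.Prime := Fact.out
  have hb0 : 0 < b := hbodd.pos
  obtain ⟨S', ι, hS', -, hι, hιι, -, hιodd⟩ := SpImprim.exists_data (F := K) hK r hr2 hrp b hb
  have hSS : S' = S := SpIso.factors_unique hS' hS
  subst hSS
  have hfpf := hιodd hbodd
  have hcard := SpIso.card_factors (F := K) hK hrp hb hS
  obtain ⟨h, hh1, hh2⟩ := (SpIso.exists_half ι hιι (fun _ => 1) (fun _ => rfl)).2 hfpf
  have hsumh : 2 * (∑ π, h π) * b = r - 1 := by
    rw [hh2, ← hcard]
    simp
  have hjle : j ≤ ∑ π, h π := by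
    by_contra hlt
    push Not at hlt
    have h5 : 2 * (∑ π, h π) * b < 2 * j * b := by
      apply Nat.mul_lt_mul_of_pos_right _ hb0
      omega
    omega
  obtain ⟨h₁, hh₁le, hh₁sum⟩ := Decomp.exists_sub h j hjle
  obtain ⟨a, ha⟩ : ∃ a : S' → ℕ, a = fun π => h₁ π + h₁ (ι π) := ⟨_, rfl⟩
  have hale1 : ∀ π, a π ≤ 1 := by
    intro π
    rw [ha]
    have h5 := hh₁le π
    have h6 := hh₁le (ι π)
    have h7 := hh1 π
    show h₁ π + h₁ (ι π) ≤ 1
    omega
  have hasum : ∑ π, a π = 2 * j := by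
    rw [ha, Finset.sum_add_distrib]
    have h5 : ∑ π, h₁ (ι π) = ∑ π, h₁ π := by
      let e' : S' ≃ S' := ⟨ι, ι, hιι, hιι⟩
      exact Equiv.sum_comp e' h₁
    rw [h5, hh₁sum]
    ring
  have haι : ∀ π, a (ι π) = a π := by
    intro π
    rw [ha]
    show h₁ (ι π) + h₁ (ι (ι π)) = h₁ π + h₁ (ι π)
    rw [hιι, add_comm]
  have hbsum : b * ∑ π, a π = 2 * j * b := by
    rw [hasum]
    ring
  obtain ⟨x, hx, hxr, hχ⟩ := exists_gu_chi hK p hS hr dg hdg hdd n a (fun π => by rw [hid π])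
    (by rw [hbsum]; exact hjn)
  rw [hbsum] at hχ
  refine ⟨x, a, hx, hxr, ?_, hale1, hχ, ?_⟩
  · have hdual : dual (RingHom.id K) x.charpoly = x.charpoly := by
      rw [hχ, dual_chi (RingHom.id K) ι hιι hι]
      congr 1
      funext π
      exact haι π
    have hmon := Matrix.charpoly_monic x
    have h1 := (dual_eq_self_iff (RingHom.id K) x.charpoly).1 hdual 0 (Nat.zero_le _)
    rw [Nat.sub_zero, RingHom.id_apply, RingHom.id_apply, ← Polynomial.leadingCoeff,
      hmon.leadingCoeff, mul_one] at h1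
    have hdr : x.det ^ r = 1 := by rw [← Matrix.det_pow, hxr, Matrix.det_one]
    have hd0 : x.det ≠ 0 := by
      intro h0
      rw [h0, zero_pow hr.pos.ne'] at hdr
      exact zero_ne_one hdr
    have hdet := Matrix.det_eq_sign_charpoly_coeff x
    have hc0 : x.charpoly.coeff 0 ≠ 0 := by
      intro h0
      rw [h0, mul_zero] at hdet
      exact hd0 hdet
    have hc2 : x.charpoly.coeff 0 ^ 2 = 1 := by
      rw [pow_two]
      nth_rewrite 2 [h1]
      exact mul_inv_cancel₀ hc0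
    have hd2 : x.det ^ 2 = 1 := by
      rw [hdet, mul_pow, hc2, mul_one, ← pow_mul, mul_comm, pow_mul]
      norm_num
    have h3 := pow_gcd_eq_one.2 ⟨hdr, hd2⟩
    have h4 : Nat.gcd r 2 = 1 := by
      have h7 : Nat.Coprime r 2 := (Nat.Prime.coprime_iff_not_dvd hr).2 (fun h8 =>
        hr2 ((Nat.prime_dvd_prime_iff_eq hr Nat.prime_two).1 h8))
      exact h7
    rwa [h4, pow_one] at h3
  · obtain ⟨P₁, hP₁⟩ : ∃ P₁ : S', 0 < h₁ P₁ := by
      by_contra hcon
      push Not at hcon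
      have h5 : ∑ π, h₁ π = 0 := Finset.sum_eq_zero (fun π _ => by have := hcon π; omega)
      omega
    apply nonscalar_of_two hS x a _ hχ P₁ (ι P₁)
    · rw [ha]
      show 0 < h₁ P₁ + h₁ (ι P₁)
      omega
    · rw [ha]
      show 0 < h₁ (ι P₁) + h₁ (ι (ι P₁))
      rw [hιι]
      omega
    · exact fun h => hfpf P₁ h.symm

end odd2

section odd3

open Cfsg.Agent.Lib.Helper40.PrimeOrderGL Cfsg.Agent.Lib.Helper40.DualPoly
  Cfsg.Agent.Lib.Helper40.UnitaryWall Cfsg.Agent.Lib.Helper40.GUPrimeOrder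

variable {K : Type u} [Field K] [Fintype K] {q : ℕ}

/-- Odd primes different from the characteristic. -/
theorem ti_semi_iff (hK : Fintype.card K = q ^ 2) {p : ℕ} [Fact p.Prime] [CharP K p] (n m : ℕ)
    (hm : 1 ≤ m) (hmn : 2 * m ≤ n) (r : ℕ) [Fact r.Prime] (hr2 : r ≠ 2) (hrp : r ≠ p)
    (hrΩ : r ∣ Nat.card {W : Submodule K (Fin n → K) // finrank K W = m ∧ Ti q W})
    (i b c : ℕ) (hi : i = orderOf (q : ZMod r)) (hb : b = if Even i then i / 2 else i)
    (hc : c = if i % 4 = 0 then i else if i % 4 = 2 then i / 2 else 2 * i) :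
    (∀ M : Matrix (Fin n) (Fin n) K, IsHermIso n K q M → M.det = 1 →
      (∃ z : K, M ^ r = z • (1 : Matrix (Fin n) (Fin n) K)) →
      (∀ z : K, M ≠ z • (1 : Matrix (Fin n) (Fin n) K)) → FixTi q M m) ↔
    (b ≤ m ∧ 2 * (m % b) ≤ n % c ∧
       (i % 4 ≠ 2 ∨ (i % 4 = 2 ∧ (r - 1) / b + 2 * (m / b) ≤ n / b ∧
         (2 < i ∨ (i = 2 ∧ (r ∣ m ∨ padicValNat r n ≤ padicValNat r (q + 1))))))) := by
  classical
  have hr : r.Prime := Fact.out
  have hp : p.Prime := Fact.out
  have hq2 := two_le_q hK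
  have hq0 : q ≠ 0 := by omega
  have hn1 : 1 ≤ n := by omega
  obtain ⟨S, dg, hS, hne, hdg, hdd, hd2, hdn2, hb0⟩ := gu_data hK r hr2 hrp i b hi hb
  have hrK : (r : K) ≠ 0 := Elusive.natCast_ne_zero_of_ne r hrp
  have hrq : ¬ r ∣ q := not_dvd_q hK r hr hrp
  have hb' : b = orderOf ((q ^ 2 : ℕ) : ZMod r) := by
    push_cast
    rw [orderOf_pow' _ two_ne_zero, ← hi, hb]
    split_ifs with hev
    · rw [Nat.gcd_eq_right hev.two_dvd]
    · rw [Nat.Coprime.gcd_eq_one (Nat.not_even_iff_odd.1 hev).coprime_two_right, Nat.div_one]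
  have hcard := SpIso.card_factors (F := K) hK hrp hb' hS
  have hbR : b ∣ r - 1 := ⟨S.card, by rw [← hcard, mul_comm]⟩
  have hi0 : 0 < i := by
    rcases Nat.eq_zero_or_pos i with h | h
    · rw [h] at hb
      simp at hb
      omega
    · exact h
  have hpar : ((∀ π, dg π = π) ∧ c = b) ∨ ((∀ π, dg π ≠ π) ∧ c = 2 * b) := by
    by_cases h4 : i % 4 = 2
    · left
      refine ⟨hd2 h4, ?_⟩
      have hev : Even i := by
        rw [Nat.even_iff]
        omega
      rw [hc, hb, if_neg (by omega), if_pos h4, if_pos hev]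
    · right
      refine ⟨hdn2 h4, ?_⟩
      by_cases h0 : i % 4 = 0
      · have hev : Even i := by
          rw [Nat.even_iff]
          omega
        rw [hc, hb, if_pos h0, if_pos hev]
        omega
      · have hodd : ¬ Even i := by
          rw [Nat.even_iff]
          omega
        rw [hc, hb, if_neg h0, if_neg h4, if_neg hodd]
  have hc0 : 0 < c := by
    rcases hpar with ⟨-, h⟩ | ⟨-, h⟩ <;> omega
  have hrq_i2 : r ∣ q + 1 → i = 2 := by
    intro h
    have h1 : (q : ZMod r) = -1 := by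
      have h2 : ((q + 1 : ℕ) : ZMod r) = 0 := (ZMod.natCast_eq_zero_iff _ _).2 h
      push_cast at h2
      exact eq_neg_of_add_eq_zero_left h2
    have h3 : i ∣ 2 := by
      rw [hi, orderOf_dvd_iff_pow_eq_one, h1]
      norm_num
    have h4 : i ≠ 1 := by
      intro h5
      rw [hi, orderOf_eq_one_iff, h1] at h5
      have h6 : ((2 : ℕ) : ZMod r) = 0 := by
        push_cast
        linear_combination -h5
      rw [ZMod.natCast_eq_zero_iff] at h6
      exact hr2 ((Nat.prime_dvd_prime_iff_eq hr Nat.prime_two).1 h6)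
    rcases (Nat.dvd_prime Nat.prime_two).1 h3 with h | h
    · exact absurd h h4
    · exact h
  have hi2_rq : i = 2 → r ∣ q + 1 := by
    intro hi2
    have h1 : (q : ZMod r) ^ 2 = 1 := by
      rw [← hi2, hi]
      exact pow_orderOf_eq_one _
    have h2 : (q : ZMod r) ≠ 1 := by
      intro h
      have h3 : orderOf (q : ZMod r) = 1 := orderOf_eq_one_iff.2 h
      omega
    have h3 : ((q : ZMod r) - 1) * ((q : ZMod r) + 1) = 0 := by linear_combination h1
    rcases mul_eq_zero.1 h3 with h | h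
    · exact absurd (sub_eq_zero.1 h) h2
    · rw [← ZMod.natCast_eq_zero_iff]
      push_cast
      exact h
  have hNK : ((r * (q + 1) : ℕ) : K) ≠ 0 := by
    obtain ⟨e, he⟩ := exists_q_pow hK p
    rw [Nat.cast_mul]
    apply mul_ne_zero hrK
    intro h
    rw [CharP.cast_eq_zero_iff K p] at h
    have he0 : e ≠ 0 := by
      rintro rfl
      rw [pow_zero] at he
      omega
    have hpq : p ∣ q := by
      rw [he]
      exact dvd_pow_self p he0
    have h1 : p ∣ 1 := (Nat.dvd_add_right hpq).1 h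
    exact hp.one_lt.ne' (Nat.dvd_one.1 h1)
  have hss : ∀ (k : ℕ) (M : Matrix (Fin k) (Fin k) K) (z : K), z ^ (q + 1) = 1 →
      M ^ r = z • (1 : Matrix (Fin k) (Fin k) K) →
      Module.End.IsSemisimple (Matrix.toLin' M) := by
    intro k M z hz hM
    apply isSemisimple_of_pow_eq_one M (r * (q + 1)) hNK
    rw [pow_mul, hM, _root_.smul_pow, one_pow, hz, one_smul]
  obtain ⟨j, hj1, hj2, hj3⟩ := exists_of_dvd_ti hK r hr m hmn hrΩ
  have hcj : c ∣ j + 1 := c_dvd_of_uf r hr2 (by omega) i c hi hc j hj3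
  have hcn : c ≤ n := by
    have := Nat.le_of_dvd (by omega) hcj
    omega
  have hnm : n % c < 2 * m := by
    obtain ⟨u, hu⟩ := hcj
    have h1 : n = (n - (j + 1)) + c * u := by omega
    have h2 : n % c = (n - (j + 1)) % c := by
      conv_lhs => rw [h1]
      rw [Nat.add_mul_mod_self_left]
    have h3 := Nat.mod_le (n - (j + 1)) c
    omega
  constructor
  · intro hL
    have hfirst : b ≤ m ∧ 2 * (m % b) ≤ n % c := by
      by_cases hc2 : 2 ≤ c
      · have hi2 : i ≠ 2 := by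
          intro h
          rw [hc] at hc2
          split_ifs at hc2 <;> omega
        have hrq1 : ¬ r ∣ q + 1 := fun h => hi2 (hrq_i2 h)
        have hcop : Nat.Coprime r (q + 1) := (Nat.Prime.coprime_iff_not_dvd hr).2 hrq1
        have hN0 : 0 < n / c := Nat.div_pos hcn hc0
        obtain ⟨x, a, hx, hxr, hasum, hχ, hns⟩ := exists_test_gu hK p hS hr dg hdg hdd hpar hne
          hc2 n (n / c) (Nat.mul_div_le _ _) hN0
        have hdet : x.det = 1 := by
          have h1 : x.det ^ r = 1 := by rw [← Matrix.det_pow, hxr, Matrix.det_one]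
          have h2 : x.det ^ (q + 1) = 1 := isHermIso_det hK hx
          have h3 := pow_gcd_eq_one.2 ⟨h1, h2⟩
          have h4 : Nat.gcd r (q + 1) = 1 := hcop
          rwa [h4, pow_one] at h3
        obtain ⟨W, hWm, hWti, hWinv⟩ := hL x hx hdet ⟨1, by rw [hxr, one_smul]⟩ hns
        obtain ⟨a₁, g1, -, g3⟩ := flag hK hS hrK dg hdg hdd x hx hxr a _ hχ W m hWm hWti hWinv
        have hk₀ : n - c * (n / c) = n % c := by
          have := Nat.div_add_mod n c
          omega
        rw [hk₀] at g3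
        have hmod : m % b ≤ m - b * ∑ π, a₁ π := by
          have h4 : m = (m - b * ∑ π, a₁ π) + b * ∑ π, a₁ π := by omega
          have h5 : m % b = (m - b * ∑ π, a₁ π) % b := by
            conv_lhs => rw [h4]
            rw [Nat.add_mul_mod_self_left]
          rw [h5]
          exact Nat.mod_le _ _
        have hk : 2 * (m % b) ≤ n % c := by omega
        refine ⟨?_, hk⟩
        by_contra hlt
        have h4 : m % b = m := Nat.mod_eq_of_lt (by omega)
        omega
      · have hc1 : c = 1 := by omega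
        have hb1 : b = 1 := by
          rcases hpar with ⟨-, h⟩ | ⟨-, h⟩ <;> omega
        rw [hb1, hc1, Nat.mod_one, Nat.mod_one]
        exact ⟨hm, le_refl _⟩
    obtain ⟨hbm, hk⟩ := hfirst
    refine ⟨hbm, hk, ?_⟩
    by_cases h4 : i % 4 = 2
    · right
      have hid := hd2 h4
      have hcb : c = b := by
        rcases hpar with ⟨-, h⟩ | ⟨hf, -⟩
        · exact h
        · exfalso
          obtain ⟨π₀, hπ₀⟩ := hne
          exact hf ⟨π₀, hπ₀⟩ (hid _)
      have hbodd : Odd b := by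
        have hev : Even i := by
          rw [Nat.even_iff]
          omega
        rw [hb, if_pos hev, Nat.odd_iff]
        omega
      refine ⟨h4, ?_, ?_⟩
      · rw [cond_iff b m n (r - 1) hb0 hbR (by rw [hcb] at hk; exact hk)]
        by_contra hcon
        push Not at hcon
        have hev2 : 2 ∣ S.card := by
          have h5 : 2 ∣ S.card * b := by
            rw [hcard]
            obtain ⟨t, ht⟩ := hr.odd_of_ne_two hr2
            exact ⟨t, by omega⟩
          exact Nat.Coprime.dvd_of_dvd_mul_right (Nat.coprime_two_left.2 hbodd) h5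
        obtain ⟨s', hs'⟩ := hev2
        have hR : r - 1 = 2 * (s' * b) := by
          rw [← hcard, hs']
          ring
        obtain ⟨D, hD⟩ : ∃ D, D = (n - 2 * m) / (2 * b) := ⟨_, rfl⟩
        obtain ⟨E, hE⟩ : ∃ E, E = (n - 2 * m) % (2 * b) := ⟨_, rfl⟩
        have h2b : 0 < 2 * b := by omega
        have hdm : 2 * (b * D) + E = n - 2 * m := by
          rw [hD, hE, ← mul_assoc]
          exact Nat.div_add_mod (n - 2 * m) (2 * b)
        have hml : E < 2 * b := by
          rw [hE]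
          exact Nat.mod_lt _ h2b
        obtain ⟨j₀, hj₀⟩ : ∃ j₀, j₀ = D + 1 := ⟨_, rfl⟩
        have hjs : j₀ ≤ s' := by
          rw [hj₀]
          have h5 : D < s' := by
            rw [hD, Nat.div_lt_iff_lt_mul h2b]
            have h6 : s' * (2 * b) = 2 * (s' * b) := by ring
            omega
          omega
        have e1 : 2 * j₀ * b = 2 * (j₀ * b) := by ring
        have hjb : j₀ * b = b * D + b := by
          rw [hj₀]
          ring
        have hjR : 2 * j₀ * b ≤ r - 1 := by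
          have h5 := Nat.mul_le_mul_right b hjs
          omega
        have hjn : 2 * j₀ * b ≤ n := by omega
        obtain ⟨x, a, hx, hxr, hdet, ha1, hχ, hns⟩ := exists_test_id hK p r hr2 hrp hS hb' hbodd
          dg hdg hdd hid n j₀ (by omega) hjR hjn
        obtain ⟨W, hWm, hWti, hWinv⟩ := hL x hx hdet ⟨1, by rw [hxr, one_smul]⟩ hns
        obtain ⟨a₁, g1, g2, g3⟩ := flag hK hS hrK dg hdg hdd x hx hxr a _ hχ W m hWm hWti hWinv
        have ha₁0 : ∑ π, a₁ π = 0 := by
          apply Finset.sum_eq_zero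
          intro π _
          have h5 := g2 π
          rw [hid π] at h5
          have h6 := ha1 π
          omega
        rw [ha₁0, mul_zero, Nat.sub_zero] at g3
        omega
      · by_cases hi2 : i = 2
        · right
          refine ⟨hi2, ?_⟩
          by_contra hcon
          push Not at hcon
          obtain ⟨hrm, hv⟩ := hcon
          have hrq1 := hi2_rq hi2
          have hn0 : n ≠ 0 := by omega
          have h1 : r ^ (padicValNat r (q + 1) + 1) ∣ n :=
            (padicValNat_dvd_iff_le hn0).2 (by omega)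
          obtain ⟨t', ht'⟩ := h1
          obtain ⟨t, ht⟩ : ∃ t, t = r ^ padicValNat r (q + 1) * t' := ⟨_, rfl⟩
          have hnt : n = r * t := by
            rw [ht', ht, pow_succ]
            ring
          obtain ⟨z, hz1, hzt, hzr⟩ := exists_nonroot hK r hr2 hrq1 t ⟨t', ht⟩
          obtain ⟨x, hx, hxr⟩ : ∃ x : Matrix (Fin n) (Fin n) K, IsHermIso n K q x ∧
              x ^ r = z • (1 : Matrix (Fin n) (Fin n) K) := by
            rw [hnt]
            exact exists_gu_root hK p r hr z hz1 t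
          obtain ⟨t₀, hn', hχ⟩ := charpoly_of_irred x r hr z hxr hzr
          have htt : t₀ = t := Nat.eq_of_mul_eq_mul_left hr.pos (by rw [← hn', ← hnt])
          have hdet : x.det = 1 := by rw [det_of_irred x r hr hr2 z t₀ hn' hχ, htt, hzt]
          have hns : ∀ c : K, x ≠ c • (1 : Matrix (Fin n) (Fin n) K) := by
            intro c hc
            apply hzr c
            have h2 : (c ^ r - z) • (1 : Matrix (Fin n) (Fin n) K) = 0 := by
              rw [sub_smul, ← hxr, hc, _root_.smul_pow, one_pow, sub_self]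
            exact sub_eq_zero.1 (smul_one_ne_zero_entry hn1 _ h2)
          obtain ⟨W, hWm, -, hWinv⟩ := hL x hx hdet ⟨z, hxr⟩ hns
          exact hrm (dvd_of_invariant x r hr z hxr hzr W m hWm hWinv)
        · left
          omega
    · left
      exact h4
  · rintro ⟨hbm, hk, hcond⟩ M hM hdet ⟨z, hz⟩ hns
    have hzn : z ^ (q + 1) = 1 := scalar_norm hq0 hn1 z (hz ▸ iso_pow hM r)
    have hz0 : z ≠ 0 := by
      rintro rfl
      rw [zero_pow (by omega)] at hzn
      exact zero_ne_one hzn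
    have hroot_or : (∃ w : K, w ^ (q + 1) = 1 ∧ w ^ r = z) ∨ (i = 2 ∧ ∀ u : K, u ^ r ≠ z) := by
      by_cases hrq1 : r ∣ q + 1
      · by_cases hroot : ∃ w : K, w ^ (q + 1) = 1 ∧ w ^ r = z
        · exact Or.inl hroot
        · right
          refine ⟨hrq_i2 hrq1, ?_⟩
          intro u hu
          exact hroot ⟨u, norm_of_root hK r hr hr2 hrq1 z u hzn hu, hu⟩
      · left
        have hcop : Nat.Coprime r (q + 1) := (Nat.Prime.coprime_iff_not_dvd hr).2 hrq1
        obtain ⟨t, -, ht⟩ := Nat.exists_mul_mod_eq_one_of_coprime hcop (by omega : 1 < q + 1)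
        refine ⟨z ^ t, ?_, ?_⟩
        · rw [← pow_mul, mul_comm, pow_mul, hzn, one_pow]
        · rw [← pow_mul, mul_comm, ← Nat.div_add_mod (r * t) (q + 1), ht, pow_add, pow_mul, hzn,
            one_pow, one_mul, pow_one]
    rcases hroot_or with ⟨w, hwn, hwr⟩ | ⟨hi2, hzr⟩
    · have hw0 : w ≠ 0 := by
        rintro rfl
        rw [zero_pow (by omega)] at hwn
        exact zero_ne_one hwn
      obtain ⟨y, hy⟩ : ∃ y : Matrix (Fin n) (Fin n) K, y = w⁻¹ • M := ⟨_, rfl⟩
      have hyr : y ^ r = 1 := by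
        rw [hy, _root_.smul_pow, hz, smul_smul, inv_pow, hwr, inv_mul_cancel₀ hz0, one_smul]
      have hyiso : IsHermIso n K q y := by
        rw [hy]
        exact iso_smul hM w⁻¹ (by rw [inv_pow, hwn, inv_one])
      obtain ⟨a, hale, hχ, hasym⟩ := symm_of_gu hK hS dg hdg hdd n y hyiso hyr
      have hpar' : ((∀ π, dg π = π) ∧ c = b ∧ b * Fintype.card S + 2 * m ≤ n) ∨
          ((∀ π, dg π ≠ π) ∧ c = 2 * b) := by
        rcases hpar with ⟨hid, hci⟩ | ⟨hfpf, hci⟩
        · left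
          refine ⟨hid, hci, ?_⟩
          have h4 : i % 4 = 2 := by
            by_contra h4
            obtain ⟨π₀, hπ₀⟩ := hne
            exact hdn2 h4 ⟨π₀, hπ₀⟩ (hid _)
          rcases hcond with h | ⟨-, h, -⟩
          · exact absurd h4 h
          · rw [cond_iff b m n (r - 1) hb0 hbR (by rw [hci] at hk; exact hk)] at h
            rw [Fintype.card_coe, mul_comm, hcard]
            exact h
        · right
          exact ⟨hfpf, hci⟩
      obtain ⟨a₁, g1, g2, g3⟩ := ti_split dg hdd b c n m hb0 hpar' a hasym hale hmn hk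
      have hfix := exists_ti_of_split hK p hS hr hrK dg hdg hdd n m y hyiso hyr a hale hχ hasym
        a₁ g1 g2 g3
      have hMy : M = w • y := by rw [hy, smul_smul, mul_inv_cancel₀ hw0, one_smul]
      rw [hMy]
      exact fixTi_smul w hw0 hfix
    · have hrq1 := hi2_rq hi2
      obtain ⟨t, hnt, hχ⟩ := charpoly_of_irred M r hr z hz hzr
      have hdet' := det_of_irred M r hr hr2 z t hnt hχ
      rw [hdet] at hdet'
      have ht0 : t ≠ 0 := by
        rintro rfl
        omega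
      have hvt : padicValNat r (q + 1) ≤ padicValNat r t := by
        by_contra hlt
        obtain ⟨ζ, hζ1, hζ, hζ2⟩ := exists_norm_gen hK
        obtain ⟨w, -, hw2⟩ := exists_root_of_val r ζ hζ1 hζ hζ2 z hzn t ht0 hdet'.symm (by omega)
        exact hzr w hw2
      have hvn : padicValNat r n = padicValNat r t + 1 := by
        rw [hnt, padicValNat.mul hr.ne_zero ht0, padicValNat_self]
        omega
      have hrm : r ∣ m := by
        rcases hcond with h | ⟨-, -, h⟩
        · omega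
        · rcases h with h | ⟨-, h | h⟩
          · omega
          · exact h
          · omega
      obtain ⟨t₁, ht₁⟩ := hrm
      have hrnm : r ∣ n - 2 * m := by
        have e3 : r * (2 * t₁) = 2 * (r * t₁) := by ring
        exact ⟨t - 2 * t₁, by rw [Nat.mul_sub]; omega⟩
      obtain ⟨t₂, ht₂⟩ := hrnm
      obtain ⟨A, hA, hAr⟩ : ∃ A : Matrix (Fin m) (Fin m) K, IsHermIso m K q A ∧
          A ^ r = z • (1 : Matrix (Fin m) (Fin m) K) := by
        rw [ht₁]
        exact exists_gu_root hK p r hr z hzn t₁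
      obtain ⟨B, hB, hBr⟩ : ∃ B : Matrix (Fin (n - 2 * m)) (Fin (n - 2 * m)) K,
          IsHermIso (n - 2 * m) K q B ∧
          B ^ r = z • (1 : Matrix (Fin (n - 2 * m)) (Fin (n - 2 * m)) K) := by
        rw [ht₂]
        exact exists_gu_root hK p r hr z hzn t₂
      obtain ⟨e'⟩ : Nonempty (Fin m ⊕ Fin m ≃ Fin (m + m)) := ⟨finSumFinEquiv⟩
      obtain ⟨e⟩ : Nonempty (Fin (m + m) ⊕ Fin (n - 2 * m) ≃ Fin n) :=
        ⟨(finSumFinEquiv).trans (finCongr (by omega))⟩
      obtain ⟨μ, hμ⟩ := Cfsg.Agent.Lib.Helper44.exists_norm_eq hK (-1 : K)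
        (neg_ne_zero.mpr one_ne_zero) (by rw [conj_neg hK, one_pow])
      have hG : IsHermIso (m + m) K q (blk e' A A) := (isHermIso_blk_iff hK e' A A).2 ⟨hA, hA⟩
      have hGr : blk e' A A ^ r = z • (1 : Matrix (Fin (m + m)) (Fin (m + m)) K) := by
        rw [blk_pow, hAr, ← blk_smul, blk_one]
      have hYr : blk e (blk e' A A) B ^ r = z • (1 : Matrix (Fin n) (Fin n) K) := by
        rw [blk_pow, hGr, hBr, ← blk_smul, blk_one]
      obtain ⟨t', hnt', hχ'⟩ := charpoly_of_irred (blk e (blk e' A A) B) r hr z hYr hzr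
      have htt : t' = t := Nat.eq_of_mul_eq_mul_left hr.pos (by rw [← hnt', ← hnt])
      obtain ⟨φ, hφ⟩ : ∃ φ : (Fin m → K) →ₗ[K] (Fin (m + m) → K),
          ∀ u, φ u = emb e' (u, μ • u) :=
        ⟨(emb e').comp (LinearMap.prod LinearMap.id (μ • LinearMap.id)), fun u => rfl⟩
      apply fixTi_of_charpoly hK hM e (blk e' A A) B hG hB A φ
      · intro u v huv
        rw [hφ, hφ] at huv
        exact congrArg Prod.fst (emb_injective e' huv)
      · intro u v
        rw [hφ, hφ, herm_emb]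
        show Cfsg.hermForm m K q u v + Cfsg.hermForm m K q (μ • u) (μ • v) = 0
        rw [herm_smul_left, herm_smul_right, ← mul_assoc, ← pow_succ', hμ]
        ring
      · intro u
        rw [hφ, hφ, blk_mulVec_emb]
        show emb e' (A *ᵥ u, A *ᵥ (μ • u)) = _
        rw [Matrix.mulVec_smul]
      · exact hss n M z hzn hz
      · exact hss n _ z hzn hYr
      · rw [hχ', hχ, htt]

end odd3

section inv2

open Cfsg.Agent.Lib.Helper40.PrimeOrderGL Cfsg.Agent.Lib.Helper40.DualPoly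
  Cfsg.Agent.Lib.Helper40.UnitaryWall Cfsg.Agent.Lib.Helper40.GUPrimeOrder

variable {K : Type u} [Field K] [Fintype K] {q : ℕ}

/-- Anti-isometric involutions: all eigenspaces are totally isotropic. -/
theorem anti_ti (hK : Fintype.card K = q ^ 2) (h2 : (2 : K) ≠ 0) (hqodd : Odd q) {n : ℕ}
    (M : Matrix (Fin n) (Fin n) K) (hM : IsHermIso n K q M) (l : K) (hl : l ^ (q + 1) = -1)
    (hMM : M * M = (l * l) • (1 : Matrix (Fin n) (Fin n) K)) :
    ∀ j, 2 * j ≤ n → FixTi q M j := by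
  have hq := two_le_q hK
  have hq0 : q ≠ 0 := by omega
  have hl0 : l ≠ 0 := by
    rintro rfl
    rw [zero_pow (by omega)] at hl
    exact one_ne_zero (neg_eq_zero.1 hl.symm)
  intro j
  induction j with
  | zero =>
    intro _
    refine ⟨⊥, finrank_bot K _, ?_, ?_⟩
    · intro u hu v hv
      rw [(Submodule.mem_bot K).1 hu]
      exact herm_zero_left' n v
    · rw [Submodule.map_bot]
  | succ j ih =>
    intro hj
    obtain ⟨U, hUj, hUti, hUinv⟩ := ih (by omega)
    have hperp := finrank_perp hK U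
    obtain ⟨v, hv, hvU⟩ : ∃ v ∈ perp q U, v ∉ U := by
      by_contra hcon
      push Not at hcon
      have h1 := Submodule.finrank_mono (show perp q U ≤ U from hcon)
      omega
    have hxv : Matrix.toLin' M v ∈ perp q U :=
      perp_invariant hK hM U hUinv (Submodule.mem_map_of_mem hv)
    have hxxv : Matrix.toLin' M (Matrix.toLin' M v) = (l * l) • v := by
      rw [← Matrix.toLin'_mul_apply, hMM, Matrix.toLin'_apply, Matrix.smul_mulVec,
        Matrix.one_mulVec]
    obtain ⟨w, c, hwperp, hwU, hxw, hc⟩ : ∃ (w : Fin n → K) (c : K),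
        w ∈ perp q U ∧ w ∉ U ∧ Matrix.toLin' M w = c • w ∧ c ^ (q + 1) = -1 := by
      by_cases hp : Matrix.toLin' M v + l • v ∈ U
      · refine ⟨Matrix.toLin' M v - l • v, -l,
          Submodule.sub_mem _ hxv (Submodule.smul_mem _ _ hv), ?_, ?_, ?_⟩
        · intro hm
          apply hvU
          have h3 : (2 * l) • v ∈ U := by
            have h4 : (2 * l) • v =
                (Matrix.toLin' M v + l • v) - (Matrix.toLin' M v - l • v) := by
              rw [mul_smul, two_smul]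
              abel
            rw [h4]
            exact Submodule.sub_mem _ hp hm
          have h5 := Submodule.smul_mem U (2 * l)⁻¹ h3
          rwa [smul_smul, inv_mul_cancel₀ (mul_ne_zero h2 hl0), one_smul] at h5
        · rw [map_sub, map_smul, hxxv]
          module
        · rw [neg_pow, hl, Even.neg_one_pow hqodd.add_one, one_mul]
      · refine ⟨Matrix.toLin' M v + l • v, l,
          Submodule.add_mem _ hxv (Submodule.smul_mem _ _ hv), hp, ?_, hl⟩
        rw [map_add, map_smul, hxxv, smul_add, smul_smul, add_comm]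
    have hww : Cfsg.hermForm n K q w w = 0 := by
      have h1 := hM w w
      rw [← Matrix.toLin'_apply, hxw, herm_smul_left, herm_smul_right, ← mul_assoc,
        ← pow_succ', hc] at h1
      have h3 : (2 : K) * Cfsg.hermForm n K q w w = 0 := by linear_combination -h1
      exact (mul_eq_zero.1 h3).resolve_left h2
    refine ⟨U ⊔ Submodule.span K {w}, by rw [SpIso.finrank_sup_singleton U w hwU, hUj], ?_, ?_⟩
    · intro a ha b hb
      obtain ⟨u, hu, s, hs, rfl⟩ := Submodule.mem_sup.1 ha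
      obtain ⟨u', hu', s', hs', rfl⟩ := Submodule.mem_sup.1 hb
      obtain ⟨c₁, rfl⟩ := Submodule.mem_span_singleton.1 hs
      obtain ⟨c₂, rfl⟩ := Submodule.mem_span_singleton.1 hs'
      have h1 := (mem_perp U w).1 hwperp u' hu'
      have h2' := (mem_perp U w).1 hwperp u hu
      have h3 : Cfsg.hermForm n K q u w = 0 := by
        rw [← herm_conj hK, h2', conj_zero hK]
      rw [herm_add_left, herm_add_right hK, herm_add_right hK, herm_smul_left, herm_smul_left,
        herm_smul_right, herm_smul_right, hUti u hu u' hu', h3, h1, hww]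
      ring
    · rw [Submodule.map_sup]
      refine sup_le (hUinv.trans le_sup_left) (SpIso.map_span_singleton_le _ _ _ ?_)
      rw [hxw]
      exact Submodule.smul_mem _ _ (Submodule.mem_sup_right (Submodule.mem_span_singleton_self w))

omit [Fintype K] in
theorem no_w (h2 : (2 : K) ≠ 0) (n : ℕ) (hn0 : n ≠ 0)
    (hv : padicValNat 2 (q + 1) ≤ padicValNat 2 n) (w : K) (hw : w ^ (q + 1) = 1)
    (hwn : w ^ n = -1) : False := by
  obtain ⟨v, hvdef⟩ : ∃ v, v = padicValNat 2 (q + 1) := ⟨_, rfl⟩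
  obtain ⟨q', hq'⟩ : 2 ^ v ∣ q + 1 := by
    rw [hvdef]
    exact pow_padicValNat_dvd
  have hq'odd : Odd q' := by
    by_contra hne
    rw [Nat.not_odd_iff_even] at hne
    obtain ⟨s, hs⟩ := hne
    have h3 : 2 ^ (v + 1) ∣ q + 1 := ⟨s, by rw [hq', hs, pow_succ]; ring⟩
    have h4 := (padicValNat_dvd_iff_le (by omega : q + 1 ≠ 0)).1 h3
    omega
  obtain ⟨n₁, hn₁⟩ : 2 ^ v ∣ n := (padicValNat_dvd_iff_le hn0).2 (by rw [hvdef]; exact hv)
  have h1 : (w ^ n) ^ q' = 1 := by
    rw [← pow_mul, hn₁, show 2 ^ v * n₁ * q' = (2 ^ v * q') * n₁ by ring, ← hq', pow_mul, hw,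
      one_pow]
  rw [hwn, Odd.neg_one_pow hq'odd] at h1
  apply h2
  linear_combination -h1

theorem exists_w_neg (hK : Fintype.card K = q ^ 2) (n : ℕ) (hn0 : n ≠ 0)
    (hv : padicValNat 2 n < padicValNat 2 (q + 1)) : ∃ w : K, w ^ (q + 1) = 1 ∧ w ^ n = -1 := by
  obtain ⟨ζ, hζ1, hζ, -⟩ := exists_norm_gen hK
  obtain ⟨a, hadef⟩ : ∃ a, a = padicValNat 2 n := ⟨_, rfl⟩
  obtain ⟨n', hn'⟩ : 2 ^ a ∣ n := by
    rw [hadef]
    exact pow_padicValNat_dvd
  have hn'odd : Odd n' := by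
    by_contra hne
    rw [Nat.not_odd_iff_even] at hne
    obtain ⟨s, hs⟩ := hne
    have h3 : 2 ^ (a + 1) ∣ n := ⟨s, by rw [hn', hs, pow_succ]; ring⟩
    have h4 := (padicValNat_dvd_iff_le hn0).1 h3
    omega
  have h3 : 2 ^ (a + 1) ∣ q + 1 := (padicValNat_dvd_iff_le (by omega : q + 1 ≠ 0)).2 (by omega)
  obtain ⟨Q, hQ⟩ := h3
  have hQ0 : 0 < Q := by
    rcases Nat.eq_zero_or_pos Q with h | h
    · rw [h, mul_zero] at hQ
      omega
    · exact h
  have hη2 : ζ ^ (2 ^ a * Q) * ζ ^ (2 ^ a * Q) = 1 := by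
    rw [← pow_add, show 2 ^ a * Q + 2 ^ a * Q = 2 ^ (a + 1) * Q by ring, ← hQ, hζ1]
  have hη1 : ζ ^ (2 ^ a * Q) ≠ 1 := by
    intro h
    have h4 := hζ _ h
    rw [hQ] at h4
    have h5 : 0 < 2 ^ a * Q := Nat.mul_pos (by positivity) hQ0
    have h6 := Nat.le_of_dvd h5 h4
    have h7 : 2 ^ (a + 1) * Q = 2 * (2 ^ a * Q) := by ring
    omega
  have hη : ζ ^ (2 ^ a * Q) = -1 := by
    rcases mul_self_eq_one_iff.1 hη2 with h | h
    · exact absurd h hη1
    · exact h
  refine ⟨ζ ^ Q, ?_, ?_⟩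
  · rw [← pow_mul, mul_comm, pow_mul, hζ1, one_pow]
  · rw [← pow_mul, hn', show Q * (2 ^ a * n') = (2 ^ a * Q) * n' by ring, pow_mul, hη,
      Odd.neg_one_pow hn'odd]

omit [Fintype K] in
theorem S2_eq {S : Finset K[X]} (hS : Factors S 2 1) (π : K[X]) (hπ : π ∈ S) : π = X + C 1 := by
  have hmon := hS.monic π hπ
  have hdeg := hS.deg π hπ
  have h1 := Polynomial.eq_X_add_C_of_natDegree_le_one (p := π) (by omega)
  have h0 : π.coeff 1 = 1 := by
    have h := hmon.coeff_natDegree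
    rwa [hdeg] at h
  rw [h0, C_1, one_mul] at h1
  obtain ⟨c, hc⟩ : ∃ c, c = π.coeff 0 := ⟨_, rfl⟩
  rw [← hc] at h1
  have h3 : (X ^ 2 - 1 : K[X]).eval (-c) = 0 := by
    obtain ⟨g, hg⟩ := hS.dvd π hπ
    rw [hg, eval_mul, h1]
    simp
  have h4 : c * c = 1 := by
    simp at h3
    linear_combination h3
  rcases mul_self_eq_one_iff.1 h4 with h5 | h5
  · rw [h1, h5]
  · exfalso
    apply hS.notMem
    have h6 : π = X - C 1 := by
      rw [h1, h5, C_neg, sub_eq_add_neg]
    rw [← h6]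
    exact hπ

omit [Fintype K] in
theorem det_of_chi2 {n : ℕ} {S : Finset K[X]} (hS : Factors S 2 1)
    (y : Matrix (Fin n) (Fin n) K) (a : S → ℕ) (hale : 1 * ∑ π, a π ≤ n)
    (hχ : y.charpoly = chi S a (n - 1 * ∑ π, a π)) : y.det = (-1) ^ (∑ π, a π) := by
  rw [Matrix.det_eq_sign_charpoly_coeff, hχ, Fintype.card_fin, coeff_zero_eq_eval_zero]
  unfold chi
  rw [eval_mul, eval_pow, eval_sub, eval_X, eval_C, eval_prod]
  have h1 : ∀ π : S, eval 0 (π.1 ^ a π) = 1 := by
    intro π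
    rw [S2_eq hS π.1 π.2, eval_pow, eval_add, eval_X, eval_C, zero_add, one_pow]
  rw [Finset.prod_congr rfl (fun π _ => h1 π), Finset.prod_const_one, mul_one, zero_sub,
    ← pow_add]
  have h2 : n + (n - 1 * ∑ π, a π) = ∑ π, a π + 2 * (n - 1 * ∑ π, a π) := by omega
  rw [h2, pow_add, pow_mul]
  norm_num

end inv2

section final

open Cfsg.Agent.Lib.Helper40.PrimeOrderGL Cfsg.Agent.Lib.Helper40.DualPoly
  Cfsg.Agent.Lib.Helper40.UnitaryWall Cfsg.Agent.Lib.Helper40.GUPrimeOrder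

variable {K : Type u} [Field K] [Fintype K] {q : ℕ}

/-- Involutions, odd characteristic. -/
theorem ti_inv2_iff (hK : Fintype.card K = q ^ 2) {p : ℕ} [Fact p.Prime] [CharP K p]
    (hp2 : (2 : ℕ) ≠ p) (n m : ℕ) (hm : 1 ≤ m) (hmn : 2 * m ≤ n) :
    (∀ M : Matrix (Fin n) (Fin n) K, IsHermIso n K q M → M.det = 1 →
      (∃ z : K, M ^ 2 = z • (1 : Matrix (Fin n) (Fin n) K)) →
      (∀ z : K, M ≠ z • (1 : Matrix (Fin n) (Fin n) K)) → FixTi q M m) ↔
    (2 * m < n ∨ padicValNat 2 (q + 1) ≤ padicValNat 2 n) := by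
  classical
  have hpr : p.Prime := Fact.out
  have hq2 := two_le_q hK
  have hq0 : q ≠ 0 := by omega
  have hn1 : 1 ≤ n := by omega
  have hn0 : n ≠ 0 := by omega
  have hrK : ((2 : ℕ) : K) ≠ 0 := Elusive.natCast_ne_zero_of_ne (F := K) 2 hp2
  have h2 : (2 : K) ≠ 0 := by exact_mod_cast hrK
  have hqodd : Odd q := by
    obtain ⟨e, he⟩ := exists_q_pow hK p
    rw [he]
    exact (hpr.odd_of_ne_two (fun h => hp2 h.symm)).pow
  obtain ⟨S, dg, hS, hne, hdg, hdd⟩ := gu_data0 hK 2 hp2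
  have hb1 : orderOf ((q ^ 2 : ℕ) : ZMod 2) = 1 := by
    rw [orderOf_eq_one_iff, ZMod.natCast_eq_one_iff_odd]
    exact hqodd.pow
  rw [hb1] at hS
  have hid : ∀ π, dg π = π := fun π =>
    Subtype.ext (by rw [S2_eq hS _ (dg π).2, S2_eq hS _ π.2])
  have hsub : ∀ π π' : S, π = π' := fun π π' =>
    Subtype.ext (by rw [S2_eq hS _ π.2, S2_eq hS _ π'.2])
  obtain ⟨π₀, hπ₀⟩ := hne
  obtain ⟨P₀, -⟩ : ∃ P₀ : S, P₀ = ⟨π₀, hπ₀⟩ := ⟨_, rfl⟩
  constructor
  · intro hL
    by_contra hcon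
    push Not at hcon
    obtain ⟨h1, h3⟩ := hcon
    have hmn2 : 2 * m = n := by omega
    obtain ⟨w, hw1, hwn⟩ := exists_w_neg hK n hn0 h3
    have hw0 : w ≠ 0 := by
      rintro rfl
      rw [zero_pow (by omega)] at hw1
      exact zero_ne_one hw1
    obtain ⟨a, ha⟩ : ∃ a : S → ℕ, a = fun _ => 1 := ⟨_, rfl⟩
    have hasum : ∑ π, a π = 1 := by
      rw [ha, Finset.sum_const, Finset.card_univ, smul_eq_mul, mul_one]
      exact Fintype.card_eq_one_iff.2 ⟨P₀, fun π => hsub π P₀⟩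
    obtain ⟨y, hy, hyr, hχ⟩ := exists_gu_chi hK p hS Nat.prime_two dg hdg hdd n a
      (fun π => by rw [hid π]) (by rw [hasum]; omega)
    have hdety := det_of_chi2 hS y a (by rw [hasum]; omega) hχ
    rw [hasum, pow_one] at hdety
    rw [hasum] at hχ
    obtain ⟨x, hx⟩ : ∃ x : Matrix (Fin n) (Fin n) K, x = w • y := ⟨_, rfl⟩
    have hxiso : IsHermIso n K q x := by
      rw [hx]
      exact iso_smul hy w hw1
    have hxdet : x.det = 1 := by
      rw [hx, Matrix.det_smul, Fintype.card_fin, hwn, hdety]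
      ring
    have hxr : x ^ 2 = (w * w) • (1 : Matrix (Fin n) (Fin n) K) := by
      rw [hx, _root_.smul_pow, hyr, pow_two]
    have hyns := nonscalar_of_one hS y a _ hχ P₀ (by rw [ha]; exact Nat.one_pos)
      (by omega : 0 < n - 1 * 1)
    have hxns : ∀ z : K, x ≠ z • (1 : Matrix (Fin n) (Fin n) K) := by
      intro z hz
      apply hyns (w⁻¹ * z)
      have h5 : y = w⁻¹ • x := by rw [hx, smul_smul, inv_mul_cancel₀ hw0, one_smul]
      rw [h5, hz, smul_smul]
    have hfix := hL x hxiso hxdet ⟨_, hxr⟩ hxns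
    have hfixy : FixTi q y m := by
      have h5 := fixTi_smul w⁻¹ (inv_ne_zero hw0) hfix
      rwa [hx, smul_smul, inv_mul_cancel₀ hw0, one_smul] at h5
    obtain ⟨W, hWm, hWti, hWinv⟩ := hfixy
    obtain ⟨a₁, g1, g2, g3⟩ := flag hK hS hrK dg hdg hdd y hy hyr a _ hχ W m hWm hWti hWinv
    have ha₁0 : ∑ π, a₁ π = 0 := by
      apply Finset.sum_eq_zero
      intro π _
      have h5 := g2 π
      rw [hid π, ha] at h5
      have h6 : a₁ π + a₁ π ≤ 1 := h5
      omega
    rw [ha₁0, mul_zero, Nat.sub_zero] at g3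
    omega
  · intro hcond M hM hdet ⟨z, hz⟩ hns
    have hzn : z ^ (q + 1) = 1 := scalar_norm hq0 hn1 z (hz ▸ iso_pow hM 2)
    have hz0 : z ≠ 0 := by
      rintro rfl
      rw [zero_pow (by omega)] at hzn
      exact zero_ne_one hzn
    have hsq : IsSquare z := by
      obtain ⟨s, hs⟩ := hqodd
      rw [FiniteField.isSquare_iff (ringChar_ne_two h2) hz0, card_half hK hs, mul_comm, pow_mul,
        hzn, one_pow]
    obtain ⟨l, hl⟩ := hsq
    have hl2 : l ^ (q + 1) * l ^ (q + 1) = 1 := by rw [← mul_pow, ← hl, hzn]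
    rcases mul_self_eq_one_iff.1 hl2 with hl1 | hl1
    · have hl0 : l ≠ 0 := by
        rintro rfl
        rw [zero_pow (by omega)] at hl1
        exact zero_ne_one hl1
      obtain ⟨y, hy⟩ : ∃ y : Matrix (Fin n) (Fin n) K, y = l⁻¹ • M := ⟨_, rfl⟩
      have hyr : y ^ 2 = 1 := by
        rw [hy, _root_.smul_pow, hz, smul_smul, inv_pow, hl, pow_two,
          inv_mul_cancel₀ (mul_ne_zero hl0 hl0), one_smul]
      have hyiso : IsHermIso n K q y := by
        rw [hy]
        exact iso_smul hM l⁻¹ (by rw [inv_pow, hl1, inv_one])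
      have hMy : M = l • y := by rw [hy, smul_smul, mul_inv_cancel₀ hl0, one_smul]
      obtain ⟨a, hale, hχ, hasym⟩ := symm_of_gu hK hS dg hdg hdd n y hyiso hyr
      obtain ⟨H, hH⟩ : ∃ H, H = ∑ π : S, a π / 2 := ⟨_, rfl⟩
      have hcardS : Fintype.card S ≤ 1 := Fintype.card_le_one_iff.2 hsub
      have h3 : ∑ π, a π ≤ 2 * H + Fintype.card S := by
        rw [hH, Finset.mul_sum, Fintype.card_eq_sum_ones, ← Finset.sum_add_distrib]
        apply Finset.sum_le_sum
        intro π _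
        omega
      have hgood : 2 * m + ∑ π, a π ≤ n + 2 * H := by
        by_cases hlt : 2 * m < n
        · omega
        · have hv : padicValNat 2 (q + 1) ≤ padicValNat 2 n := by
            rcases hcond with h | h
            · exact absurd h hlt
            · exact h
          by_contra hbad
          push Not at hbad
          have hodd : ∑ π, a π = 2 * H + 1 := by omega
          have hdety := det_of_chi2 hS y a hale hχ
          rw [hodd, pow_succ, pow_mul] at hdety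
          have hdety' : y.det = -1 := by
            rw [hdety]
            norm_num
          rw [hMy, Matrix.det_smul, Fintype.card_fin, hdety'] at hdet
          exact no_w h2 n hn0 hv l hl1 (by linear_combination -hdet)
      obtain ⟨a₁, ha₁le, ha₁sum⟩ := Decomp.exists_sub (fun π : S => a π / 2) (min H m)
        (by rw [hH]; exact min_le_left _ _)
      have hfix := exists_ti_of_split hK p hS Nat.prime_two hrK dg hdg hdd n m y hyiso hyr a hale
        hχ hasym a₁
        (by rw [ha₁sum, one_mul]; exact min_le_right _ _)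
        (fun π => by
          rw [hid π]
          have h5 : a₁ π ≤ a π / 2 := ha₁le π
          omega)
        (by
          rw [ha₁sum, one_mul, one_mul]
          rcases le_total H m with h | h
          · rw [min_eq_left h]
            omega
          · rw [min_eq_right h]
            omega)
      rw [hMy]
      exact fixTi_smul l hl0 hfix
    · exact anti_ti hK h2 hqodd M hM l hl1 (by rw [← pow_two, hz, hl]) m hmn

theorem lhs_iff' (n m r : ℕ) :
    (∀ x : Matrix.SpecialLinearGroup (Fin n) K, x ∈ Cfsg.SU n K q →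
      (∃ z : K, ((x ^ r : Matrix.SpecialLinearGroup (Fin n) K) : Matrix (Fin n) (Fin n) K) =
        z • (1 : Matrix (Fin n) (Fin n) K)) →
      (∀ z : K, (x : Matrix (Fin n) (Fin n) K) ≠ z • (1 : Matrix (Fin n) (Fin n) K)) →
      ∃ W : Submodule K (Fin n → K), finrank K W = m ∧
        (∀ u ∈ W, ∀ v ∈ W, Cfsg.hermForm n K q u v = 0) ∧
        W.map (Matrix.toLin' (x : Matrix (Fin n) (Fin n) K)) ≤ W) ↔
    (∀ M : Matrix (Fin n) (Fin n) K, IsHermIso n K q M → M.det = 1 →
      (∃ z : K, M ^ r = z • (1 : Matrix (Fin n) (Fin n) K)) →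
      (∀ z : K, M ≠ z • (1 : Matrix (Fin n) (Fin n) K)) → FixTi q M m) := by
  constructor
  · intro h M hM hdet hz hns
    obtain ⟨x, hx⟩ : ∃ x : Matrix.SpecialLinearGroup (Fin n) K,
        (x : Matrix (Fin n) (Fin n) K) = M := ⟨⟨M, hdet⟩, rfl⟩
    subst hx
    refine h x hM ?_ hns
    obtain ⟨z, hz⟩ := hz
    exact ⟨z, by rw [Matrix.SpecialLinearGroup.coe_pow]; exact hz⟩
  · intro h x hx hz hns
    refine h x.1 hx x.2 ?_ hns
    obtain ⟨z, hz⟩ := hz
    refine ⟨z, ?_⟩
    rw [← Matrix.SpecialLinearGroup.coe_pow]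
    exact hz

/-- Elements of prime order of `PSU_n(q)` fixing a totally isotropic `m`-space. -/
theorem main (hK : Fintype.card K = q ^ 2) {p : ℕ} [Fact p.Prime] [CharP K p]
    (n m : ℕ) (hm : 1 ≤ m) (hmn : 2 * m ≤ n) (r : ℕ) [Fact r.Prime]
    (hrΩ : r ∣ Nat.card {W : Submodule K (Fin n → K) // finrank K W = m ∧
      (∀ u ∈ W, ∀ v ∈ W, Cfsg.hermForm n K q u v = 0)})
    (i b c : ℕ) (hi : i = orderOf (q : ZMod r)) (hb : b = if Even i then i / 2 else i)
    (hc : c = if i % 4 = 0 then i else if i % 4 = 2 then i / 2 else 2 * i) :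
    (∀ x : Matrix.SpecialLinearGroup (Fin n) K, x ∈ Cfsg.SU n K q →
      (∃ z : K, ((x ^ r : Matrix.SpecialLinearGroup (Fin n) K) : Matrix (Fin n) (Fin n) K) =
        z • (1 : Matrix (Fin n) (Fin n) K)) →
      (∀ z : K, (x : Matrix (Fin n) (Fin n) K) ≠ z • (1 : Matrix (Fin n) (Fin n) K)) →
      ∃ W : Submodule K (Fin n → K), finrank K W = m ∧
        (∀ u ∈ W, ∀ v ∈ W, Cfsg.hermForm n K q u v = 0) ∧
        W.map (Matrix.toLin' (x : Matrix (Fin n) (Fin n) K)) ≤ W) ↔
    ((r = 2 ∧ p ≠ 2 ∧ (2 * m < n ∨ padicValNat 2 (q + 1) ≤ padicValNat 2 n)) ∨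
     (r ≠ p ∧ 2 < r ∧ b ≤ m ∧ 2 * (m % b) ≤ n % c ∧
       (i % 4 ≠ 2 ∨ (i % 4 = 2 ∧ (r - 1) / b + 2 * (m / b) ≤ n / b ∧
         (2 < i ∨ (i = 2 ∧ (r ∣ m ∨ padicValNat r n ≤ padicValNat r (q + 1)))))))) := by
  have hpr : p.Prime := Fact.out
  have hr : r.Prime := Fact.out
  rw [lhs_iff' n m r]
  by_cases hrp : r = p
  · subst hrp
    exact absurd hrΩ (not_char_dvd_ti hK r m hmn)
  · by_cases hr2 : r = 2
    · subst hr2
      rw [ti_inv2_iff hK hrp n m hm hmn]
      constructor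
      · intro h
        exact Or.inl ⟨rfl, fun h' => hrp h'.symm, h⟩
      · rintro (⟨-, -, h⟩ | ⟨-, h, -⟩)
        · exact h
        · omega
    · have hr2' : 2 < r := lt_of_le_of_ne hr.two_le (Ne.symm hr2)
      rw [ti_semi_iff hK n m hm hmn r hr2 hrp hrΩ i b c hi hb hc]
      constructor
      · intro h
        exact Or.inr ⟨hrp, hr2', h⟩
      · rintro (⟨h, -⟩ | ⟨-, -, h⟩)
        · exact absurd h hr2
        · exact h

end final

end Cfsg.Agent.Lib.Helper40.SUIso
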