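-- Minimal degree of faithful representations of Sp_2n(q) in the natural characteristic,
-- conditional on Zsigmondy's theorem (helper40).
import Mathlib
import Cfsg.Agent.Lib.Helper40.SympOrder

set_option autoImplicit false

namespace Cfsg.Agent.Lib.Helper40

open Matrix

universe u

/-- The statement of Zsigmondy's theorem (S2904). -/
def ZsigmondyStatement : Prop :=
  ∀ (a n : ℕ), 1 < a → 1 < n → ¬ (a = 2 ∧ n = 6) → ¬ (n = 2 ∧ ∃ m : ℕ, a + 1 = 2 ^ m) →
    ∃ r : ℕ, r.Prime ∧ r ∣ a ^ n - 1 ∧ ∀ k : ℕ, 0 < k → k < n → ¬ r ∣ a ^ k - 1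

section

variable {F : Type u} [Field F]

/-- `Sp_2(F)` is not commutative. -/
theorem exists_not_commute_symplectic_one :
    ∃ A B : symplecticGroup (Fin 1) F, A * B ≠ B * A := by
  have hA : fromBlocks (1 : Matrix (Fin 1) (Fin 1) F) 1 0 1 ∈ symplecticGroup (Fin 1) F := by
    rw [SymplecticGroup.fromBlocks_mem_iff]
    simp
  have hB : fromBlocks (1 : Matrix (Fin 1) (Fin 1) F) 0 1 1 ∈ symplecticGroup (Fin 1) F := by
    rw [SymplecticGroup.fromBlocks_mem_iff]
    simp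
  refine ⟨⟨_, hA⟩, ⟨_, hB⟩, ?_⟩
  intro h
  have h1 := congrArg (fun M : symplecticGroup (Fin 1) F =>
    (M : Matrix (Fin 1 ⊕ Fin 1) (Fin 1 ⊕ Fin 1) F) (Sum.inl 0) (Sum.inl 0)) h
  simp [fromBlocks_multiply] at h1

theorem commute_GL_of_le_one {d : ℕ} (hd : d ≤ 1) (X Y : GL (Fin d) F) : X * Y = Y * X := by
  apply Units.ext
  rw [Units.val_mul, Units.val_mul]
  ext i j
  interval_cases d
  · exact i.elim0
  · have hi : i = 0 := Subsingleton.elim _ _
    have hj : j = 0 := Subsingleton.elim _ _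
    subst hi hj
    simp [Matrix.mul_apply, mul_comm]

variable [Fintype F]

theorem sp_min_degree_of (hZ : ZsigmondyStatement) (n : ℕ) {d : ℕ}
    (ρ : ↥(symplecticGroup (Fin n) F) →* GL (Fin d) F) (hρ : Function.Injective ρ) :
    2 * n ≤ d := by
  classical
  by_contra hlt
  have hlt : d < 2 * n := not_le.1 hlt
  have hn1 : 1 ≤ n := by omega
  have hq2 : 2 ≤ Fintype.card F := Fintype.one_lt_card
  set q := Fintype.card F with hq
  rcases Nat.lt_or_ge n 2 with hn2 | hn2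
  · -- n = 1
    have hn : n = 1 := by omega
    subst hn
    obtain ⟨A, B, hAB⟩ := exists_not_commute_symplectic_one (F := F)
    apply hAB
    apply hρ
    rw [map_mul, map_mul]
    exact commute_GL_of_le_one (by omega) _ _
  have hdvd : Nat.card (symplecticGroup (Fin n) F) ∣ Nat.card (GL (Fin d) F) :=
    Subgroup.card_dvd_of_injective ρ hρ
  rw [card_symplecticGroup, Matrix.card_GL_field, ← hq] at hdvd
  by_cases hex : q = 2 ∧ n = 3
  · obtain ⟨hq2', hn3⟩ := hex
    rw [hq2', hn3] at hdvd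
    have hd5 : d ≤ 5 := by omega
    have hsp : (2 : ℕ) ^ (3 ^ 2) * ∏ i ∈ Finset.range 3, (2 ^ (2 * (i + 1)) - 1) = 1451520 := by
      simp [Finset.prod_range_succ]
    rw [hsp] at hdvd
    interval_cases d <;> simp [Fin.prod_univ_succ] at hdvd
  · have h6 : ¬ (q = 2 ∧ 2 * n = 6) := by
      rintro ⟨h1, h2⟩
      exact hex ⟨h1, by omega⟩
    have h2 : ¬ (2 * n = 2 ∧ ∃ m : ℕ, q + 1 = 2 ^ m) := by
      rintro ⟨h1, -⟩
      omega
    obtain ⟨r, hr, hrdvd, hprim⟩ := hZ q (2 * n) (by omega) (by omega) h6 h2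
    have h1 : r ∣ ∏ i ∈ Finset.range n, (q ^ (2 * (i + 1)) - 1) := by
      have hmem : n - 1 ∈ Finset.range n := Finset.mem_range.2 (by omega)
      apply dvd_trans _ (Finset.dvd_prod_of_mem _ hmem)
      have e : 2 * (n - 1 + 1) = 2 * n := by omega
      rw [e]
      exact hrdvd
    have h3 : r ∣ ∏ i : Fin d, (q ^ d - q ^ (i : ℕ)) := dvd_trans (dvd_mul_of_dvd_right h1 _) hdvd
    obtain ⟨i, -, hi⟩ := (Prime.dvd_finsetProd_iff hr.prime _).1 h3
    have hfac : q ^ d - q ^ (i : ℕ) = q ^ (i : ℕ) * (q ^ (d - (i : ℕ)) - 1) := by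
      rw [Nat.mul_sub, mul_one, ← pow_add]
      congr 2
      have := i.isLt
      omega
    rw [hfac] at hi
    rcases (Nat.Prime.dvd_mul hr).1 hi with h4 | h4
    · have h5 : r ∣ q := hr.dvd_of_dvd_pow h4
      have h6' : r ∣ q ^ (2 * n) := dvd_pow h5 (by omega)
      have h7 : 1 ≤ q ^ (2 * n) := Nat.one_le_pow _ _ (by omega)
      have h8 : r ∣ 1 := by
        have h9 : q ^ (2 * n) - (q ^ (2 * n) - 1) = 1 := by omega
        rw [← h9]
        exact Nat.dvd_sub h6' hrdvd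
      exact hr.one_lt.ne' (Nat.dvd_one.1 h8)
    · have := i.isLt
      exact hprim (d - (i : ℕ)) (by omega) (by omega) h4

end

end Cfsg.Agent.Lib.Helper40
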