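-- helper40: elements of order 3 (mod scalars) in characteristic 3 and the subfield subgroup.
import Mathlib
import Cfsg.Prelude.Def_GeometricClasses
import Cfsg.Agent.Lib.Helper40.Subf3

set_option autoImplicit false

namespace Cfsg.Agent.Lib.Helper40.Subf

open Matrix Polynomial

section Three

variable {F : Type*} [Field F] [Fintype F] [CharP F 3] {n : ℕ}

theorem conj3 {q : ℕ} (hq : Fintype.card F = q) (hn : 1 ≤ n) (F₀ : Subfield F) (k q₀ : ℕ)
    (hF₀ : Nat.card ↥F₀ = q₀) (hqk : q = q₀ ^ k) (hyp : Odd n ∨ Odd k)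
    (x : Matrix.SpecialLinearGroup (Fin n) F) (z : F)
    (hx : (x : Matrix (Fin n) (Fin n) F) ^ 3 = z • (1 : Matrix (Fin n) (Fin n) F)) :
    ∃ P : Matrix.SpecialLinearGroup (Fin n) F, P⁻¹ * x * P ∈
      (Cfsg.Geo.subfieldSubgroup F₀ 1).comap (Matrix.SpecialLinearGroup.toGL :
        Matrix.SpecialLinearGroup (Fin n) F →* GL (Fin n) F) := by
  classical
  have hp : Fact (Nat.Prime 3) := ⟨Nat.prime_three⟩
  have hF2 : ringChar F ≠ 2 := by
    rw [ringChar.eq F 3]
    norm_num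
  obtain ⟨b, hb⟩ : ∃ b : F, b ^ 3 = z :=
    Finite.surjective_of_injective (frobenius_inj F 3) z
  have hne : Nonempty (Fin n) := ⟨⟨0, by omega⟩⟩
  have hz0 : z ≠ 0 := by
    rintro rfl
    have h1 := congrArg Matrix.det hx
    rw [Matrix.det_pow, x.det_coe, one_pow, zero_smul, Matrix.det_zero] at h1
    exact one_ne_zero h1
  have hb0 : b ≠ 0 := by
    rintro rfl
    rw [zero_pow (by norm_num)] at hb
    exact hz0 hb.symm
  have hyp3 : (b⁻¹ • (x : Matrix (Fin n) (Fin n) F)) ^ 3 = 1 := by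
    rw [_root_.smul_pow, hx, smul_smul, inv_pow, hb, inv_mul_cancel₀ hz0, one_smul]
  obtain ⟨N, hN⟩ : ∃ N : Matrix (Fin n) (Fin n) F,
      N = b⁻¹ • (x : Matrix (Fin n) (Fin n) F) - 1 := ⟨_, rfl⟩
  have hN3 : N ^ 3 = 0 := by
    have h1 := Jordan.sub_one_pow_char_pow 3 (b⁻¹ • (x : Matrix (Fin n) (Fin n) F)) 1
    rw [pow_one, hyp3, sub_self, ← hN] at h1
    exact h1
  have hxN : (x : Matrix (Fin n) (Fin n) F) = b • (N + 1) := by
    rw [hN, sub_add_cancel, smul_smul, mul_inv_cancel₀ hb0, one_smul]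
  obtain ⟨μ, hμ⟩ := Jordan.exists_partition N ⟨3, hN3⟩
  have hparts : ∀ a ∈ μ.parts, a ≤ 3 := (Jordan.mat_pow_eq_zero_iff hμ 3).1 hN3
  obtain ⟨M₀, hM₀⟩ := Jordan.exists_matrix (F := ↥F₀) μ
  have hM₀' : ∀ j, ((M₀.map F₀.subtype) ^ j).rank = Jordan.rk μ.parts j := by
    intro j
    rw [map_pow', rank_map, hM₀]
  obtain ⟨g, hg⟩ := Jordan.similar_of_rank_pow_eq N (M₀.map F₀.subtype) ⟨3, hN3⟩
    (fun j => by rw [hμ, hM₀'])
  have hδ0 : (g : Matrix (Fin n) (Fin n) F).det ≠ 0 :=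
    ((Matrix.isUnit_iff_isUnit_det _).mp g.isUnit).ne_zero
  have hnilM : IsNilpotent (M₀.map F₀.subtype) := Jordan.isNilpotent_of_rank hM₀'
  have key : ∃ (C : Matrix (Fin n) (Fin n) F) (f : ↥F₀), f ≠ 0 ∧
      C * M₀.map F₀.subtype = M₀.map F₀.subtype * C ∧
      C.det * (f : F) = (g : Matrix (Fin n) (Fin n) F).det := by
    by_cases h1 : 1 ∈ μ.parts
    · obtain ⟨C, hC, hdet⟩ := cent_det _ μ.parts {1} (Multiset.singleton_le.2 h1) hM₀' hnilM
        (g : Matrix (Fin n) (Fin n) F).det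
      exact ⟨C, 1, one_ne_zero, hC, by rw [hdet]; simp⟩
    by_cases h3 : 3 ∈ μ.parts
    · obtain ⟨s, hs⟩ : ∃ s : F, s ^ 3 = (g : Matrix (Fin n) (Fin n) F).det :=
        Finite.surjective_of_injective (frobenius_inj F 3) _
      obtain ⟨C, hC, hdet⟩ := cent_det _ μ.parts {3} (Multiset.singleton_le.2 h3) hM₀' hnilM s
      exact ⟨C, 1, one_ne_zero, hC, by rw [hdet]; simp [hs]⟩
    have hall : ∀ a ∈ μ.parts, a = 2 := by
      intro a ha
      have h4 := hparts a ha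
      have h5 := μ.parts_pos ha
      have h6 : a ≠ 1 := fun h => h1 (h ▸ ha)
      have h7 : a ≠ 3 := fun h => h3 (h ▸ ha)
      omega
    have hμ2 : μ.parts = Multiset.replicate (Multiset.card μ.parts) 2 :=
      Multiset.eq_replicate_card.2 hall
    have hn2 : n = 2 * Multiset.card μ.parts := by
      have h4 := μ.parts_sum
      rw [hμ2, Multiset.sum_replicate] at h4
      simp only [smul_eq_mul] at h4
      omega
    have hkodd : Odd k := by
      rcases hyp with h | h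
      · exfalso
        rw [hn2] at h
        exact (Nat.not_even_iff_odd.2 h) (even_two_mul _)
      · exact h
    have h2mem : 2 ∈ μ.parts := by
      have hc : 0 < Multiset.card μ.parts := by omega
      obtain ⟨a, ha⟩ := Multiset.card_pos_iff_exists_mem.1 hc
      rw [← hall a ha]
      exact ha
    by_cases hsq : IsSquare (g : Matrix (Fin n) (Fin n) F).det
    · obtain ⟨s, hs⟩ := hsq
      obtain ⟨C, hC, hdet⟩ := cent_det _ μ.parts {2} (Multiset.singleton_le.2 h2mem) hM₀' hnilM s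
      exact ⟨C, 1, one_ne_zero, hC, by rw [hdet, hs]; simp [pow_two]⟩
    · obtain ⟨f, hf0, hf⟩ := exists_nonsq_sub hF2 hq F₀ k q₀ hF₀ hqk hkodd
      have hf0' : (f : F) ≠ 0 := fun h => hf0 (Subtype.ext h)
      obtain ⟨s, hs⟩ := sq_of_nonsq hF2 _ _ hδ0 hf0' hsq hf
      obtain ⟨C, hC, hdet⟩ := cent_det _ μ.parts {2} (Multiset.singleton_le.2 h2mem) hM₀' hnilM s
      refine ⟨C, f, hf0, hC, ?_⟩
      rw [hdet, Multiset.sum_singleton, pow_two, ← hs]
      field_simp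
  obtain ⟨C, f, hf0, hC, hCdet⟩ := key
  obtain ⟨D, hD⟩ : ∃ D : Matrix (Fin n) (Fin n) ↥F₀, D = Matrix.diagonal
      (fun i : Fin n => if i = ⟨0, by omega⟩ then f else 1) := ⟨_, rfl⟩
  obtain ⟨Di, hDi⟩ : ∃ Di : Matrix (Fin n) (Fin n) ↥F₀, Di = Matrix.diagonal
      (fun i : Fin n => if i = ⟨0, by omega⟩ then f⁻¹ else 1) := ⟨_, rfl⟩
  have hDDi : D * Di = 1 := by
    rw [hD, hDi, Matrix.diagonal_mul_diagonal, ← Matrix.diagonal_one]
    congr 1
    funext i
    by_cases h : i = ⟨0, by omega⟩ <;> simp [h, hf0]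
  have hDdet : D.det = f := by
    rw [hD, Matrix.det_diagonal, Finset.prod_ite_eq' Finset.univ (⟨0, by omega⟩ : Fin n)]
    simp
  have hD'det : (D.map F₀.subtype).det = (f : F) := by
    have h1 := RingHom.map_det F₀.subtype D
    rw [hDdet, RingHom.mapMatrix_apply] at h1
    exact h1.symm
  have hDDi' : D.map F₀.subtype * Di.map F₀.subtype = 1 := by
    rw [← Matrix.map_mul, hDDi, Matrix.map_one _ (map_zero _) (map_one _)]
  apply conj_mem0 F₀ x b hb0 (Di * (M₀ + 1) * D)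
    (((g⁻¹ : GL (Fin n) F) : Matrix (Fin n) (Fin n) F) * C * D.map F₀.subtype)
  · rw [Matrix.det_mul, Matrix.det_mul, hD'det, mul_assoc, hCdet, ← Matrix.det_mul,
      ← Units.val_mul, inv_mul_cancel, Units.val_one, Matrix.det_one]
  · have hB : (Di * (M₀ + 1) * D).map F₀.subtype =
        Di.map F₀.subtype * (M₀.map F₀.subtype + 1) * D.map F₀.subtype := by
      rw [Matrix.map_mul, Matrix.map_mul, Matrix.map_add _ (fun a b => map_add _ a b),
        Matrix.map_one _ (map_zero _) (map_one _)]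
    have hgx : (g : Matrix (Fin n) (Fin n) F) * (x : Matrix (Fin n) (Fin n) F) =
        (b • (M₀.map F₀.subtype + 1)) * (g : Matrix (Fin n) (Fin n) F) := by
      rw [hxN, Matrix.mul_smul, Matrix.mul_add, hg, Matrix.mul_one, Matrix.smul_mul,
        Matrix.add_mul, Matrix.one_mul]
    have hxg : (x : Matrix (Fin n) (Fin n) F) * ((g⁻¹ : GL (Fin n) F) : Matrix (Fin n) (Fin n) F) =
        ((g⁻¹ : GL (Fin n) F) : Matrix (Fin n) (Fin n) F) * (b • (M₀.map F₀.subtype + 1)) := by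
      have h3 : ((g⁻¹ : GL (Fin n) F) : Matrix (Fin n) (Fin n) F) *
          ((g : Matrix (Fin n) (Fin n) F) * (x : Matrix (Fin n) (Fin n) F)) *
          ((g⁻¹ : GL (Fin n) F) : Matrix (Fin n) (Fin n) F) =
          ((g⁻¹ : GL (Fin n) F) : Matrix (Fin n) (Fin n) F) *
          ((b • (M₀.map F₀.subtype + 1)) * (g : Matrix (Fin n) (Fin n) F)) *
          ((g⁻¹ : GL (Fin n) F) : Matrix (Fin n) (Fin n) F) := by rw [hgx]
      rw [← Matrix.mul_assoc, ← Units.val_mul, inv_mul_cancel, Units.val_one, Matrix.one_mul,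
        Matrix.mul_assoc, Matrix.mul_assoc, ← Units.val_mul, mul_inv_cancel, Units.val_one,
        Matrix.mul_one] at h3
      exact h3
    have hCB : (M₀.map F₀.subtype + 1) * C = C * (M₀.map F₀.subtype + 1) := by
      rw [Matrix.add_mul, Matrix.mul_add, hC, Matrix.one_mul, Matrix.mul_one]
    rw [hB]
    calc (x : Matrix (Fin n) (Fin n) F) *
          (((g⁻¹ : GL (Fin n) F) : Matrix (Fin n) (Fin n) F) * C * D.map F₀.subtype)
        = ((x : Matrix (Fin n) (Fin n) F) *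
            ((g⁻¹ : GL (Fin n) F) : Matrix (Fin n) (Fin n) F)) * C * D.map F₀.subtype := by
          simp only [Matrix.mul_assoc]
      _ = b • (((g⁻¹ : GL (Fin n) F) : Matrix (Fin n) (Fin n) F) *
            ((M₀.map F₀.subtype + 1) * C) * D.map F₀.subtype) := by
          rw [hxg]
          simp only [Matrix.mul_smul, Matrix.smul_mul, Matrix.mul_assoc]
      _ = b • (((g⁻¹ : GL (Fin n) F) : Matrix (Fin n) (Fin n) F) * C *
            (D.map F₀.subtype * Di.map F₀.subtype) * (M₀.map F₀.subtype + 1) *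
              D.map F₀.subtype) := by
          rw [hCB, hDDi', Matrix.mul_one]
          simp only [Matrix.mul_assoc]
      _ = ((g⁻¹ : GL (Fin n) F) : Matrix (Fin n) (Fin n) F) * C * D.map F₀.subtype *
            (b • (Di.map F₀.subtype * (M₀.map F₀.subtype + 1) * D.map F₀.subtype)) := by
          simp only [Matrix.mul_smul, Matrix.mul_assoc]

theorem derange3 (a : ℕ) (hn : n = 2 * a) (ha : 1 ≤ a) (F₀ : Subfield F) (q₀ : ℕ)
    (hF₀ : Nat.card ↥F₀ = q₀) (hq : Fintype.card F = q₀ ^ 2) :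
    ∃ x : Matrix.SpecialLinearGroup (Fin n) F,
      (x : Matrix (Fin n) (Fin n) F) ^ 3 = 1 ∧
      (∀ z : F, (x : Matrix (Fin n) (Fin n) F) ≠ z • (1 : Matrix (Fin n) (Fin n) F)) ∧
      ∀ P : Matrix.SpecialLinearGroup (Fin n) F, P⁻¹ * x * P ∉
        (Cfsg.Geo.subfieldSubgroup F₀ 1).comap (Matrix.SpecialLinearGroup.toGL :
          Matrix.SpecialLinearGroup (Fin n) F →* GL (Fin n) F) := by
  classical
  have hp : Fact (Nat.Prime 3) := ⟨Nat.prime_three⟩
  have hF2 : ringChar F ≠ 2 := by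
    rw [ringChar.eq F 3]
    norm_num
  have h3F : (3 : F) = 0 := by
    have := CharP.cast_eq_zero F 3
    exact_mod_cast this
  have hq₀odd : Odd q₀ := by
    have h1 := FiniteField.odd_card_of_char_ne_two hF2
    rw [hq] at h1
    have h2 : Odd (q₀ ^ 2) := Nat.odd_iff.2 h1
    exact (Nat.odd_pow_iff (by norm_num)).1 h2
  obtain ⟨γ, hγ⟩ := FiniteField.exists_nonsquare hF2
  have hγ0 : γ ≠ 0 := by
    rintro rfl
    exact hγ IsSquare.zero
  have h0n : 0 < n := by omega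
  obtain ⟨G, hG⟩ : ∃ G : Matrix (Fin n) (Fin n) F, G = Matrix.diagonal
      (fun i : Fin n => if i = ⟨0, h0n⟩ then γ else 1) := ⟨_, rfl⟩
  obtain ⟨Gi, hGi⟩ : ∃ Gi : Matrix (Fin n) (Fin n) F, Gi = Matrix.diagonal
      (fun i : Fin n => if i = ⟨0, h0n⟩ then γ⁻¹ else 1) := ⟨_, rfl⟩
  have hGGi : G * Gi = 1 := by
    rw [hG, hGi, Matrix.diagonal_mul_diagonal, ← Matrix.diagonal_one]
    congr 1
    funext i
    by_cases h : i = ⟨0, h0n⟩ <;> simp [h, hγ0]
  have hGiG : Gi * G = 1 := by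
    rw [hG, hGi, Matrix.diagonal_mul_diagonal, ← Matrix.diagonal_one]
    congr 1
    funext i
    by_cases h : i = ⟨0, h0n⟩ <;> simp [h, hγ0]
  have hGdet : G.det = γ := by
    rw [hG, Matrix.det_diagonal, Finset.prod_ite_eq' Finset.univ (⟨0, h0n⟩ : Fin n)]
    simp
  obtain ⟨il, hil⟩ : ∃ il : Fin n, (il : ℕ) = n - 1 := ⟨⟨n - 1, by omega⟩, rfl⟩
  obtain ⟨J, hJ⟩ : ∃ J : Matrix (Fin n) (Fin n) F, J = Jm F n a := ⟨_, rfl⟩
  have hJe : J ⟨0, h0n⟩ il = 1 := by
    rw [hJ]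
    simp only [Jm, Matrix.of_apply]
    rw [if_pos ⟨by omega, by rw [hil]; omega⟩]
  have hJJ : J * J = 0 := by
    rw [hJ]
    exact Jm_mul_self n a (by omega)
  have hJrank : J.rank = a := by
    rw [hJ]
    exact Jm_rank n a (by omega)
  obtain ⟨X, hX⟩ : ∃ X : Matrix (Fin n) (Fin n) F, X = G * (1 + J) * Gi := ⟨_, rfl⟩
  have hJ3 : (1 + J) * (1 + J) * (1 + J) = 1 := by
    have h1 : (1 + J) * (1 + J) * (1 + J) = 1 + (3 : F) • J + (3 : F) • (J * J) + J * J * J := by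
      have h2 : ((3 : F) • J : Matrix (Fin n) (Fin n) F) = J + J + J := by
        rw [show (3 : F) = 1 + 1 + 1 by norm_num, add_smul, add_smul, one_smul]
      have h3 : ((3 : F) • (J * J) : Matrix (Fin n) (Fin n) F) = J * J + J * J + J * J := by
        rw [show (3 : F) = 1 + 1 + 1 by norm_num, add_smul, add_smul, one_smul]
      rw [h2, h3]
      noncomm_ring
    rw [h1, h3F, zero_smul, zero_smul, hJJ, Matrix.zero_mul, add_zero, add_zero, add_zero]
  have hX3 : X ^ 3 = 1 := by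
    have h1 : X ^ 3 = G * ((1 + J) * (Gi * G) * (1 + J) * (Gi * G) * (1 + J)) * Gi := by
      rw [hX, pow_succ, pow_two]
      simp only [Matrix.mul_assoc]
    rw [h1, hGiG, Matrix.mul_one, Matrix.mul_one, hJ3, Matrix.mul_one, hGGi]
  have hXdet : X.det = 1 := by
    have h1 := congrArg Matrix.det hX3
    rw [Matrix.det_pow, Matrix.det_one] at h1
    apply frobenius_inj F 3
    simp only [frobenius_def]
    rw [h1, one_pow]
  obtain ⟨x, hx⟩ : ∃ x : Matrix.SpecialLinearGroup (Fin n) F,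
      (x : Matrix (Fin n) (Fin n) F) = X := ⟨⟨X, hXdet⟩, rfl⟩
  have hJX : 1 + J = Gi * X * G := by
    rw [hX]
    have h1 : Gi * (G * (1 + J) * Gi) * G = (Gi * G) * (1 + J) * (Gi * G) := by
      simp only [Matrix.mul_assoc]
    rw [h1, hGiG, Matrix.one_mul, Matrix.mul_one]
  refine ⟨x, by rw [hx, hX3], ?_, ?_⟩
  · intro z hz
    rw [hx] at hz
    rw [hz, Matrix.mul_smul, Matrix.mul_one, Matrix.smul_mul, hGiG] at hJX
    have h1 := congrFun (congrFun hJX ⟨0, h0n⟩) il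
    have h2 : (⟨0, h0n⟩ : Fin n) ≠ il := by
      rw [Ne, Fin.ext_iff, hil]
      simp only
      omega
    rw [Matrix.add_apply, Matrix.one_apply_ne h2, Matrix.smul_apply, Matrix.one_apply_ne h2,
      hJe] at h1
    simp at h1
  · intro P hP
    rw [Subgroup.mem_comap] at hP
    obtain ⟨l, B₀, hl, hE⟩ := exists_of_mem_sub F₀ _ hP
    rw [Matrix.SpecialLinearGroup.coe_GL_coe_matrix] at hE
    obtain ⟨Pm, hPm⟩ : ∃ Pm : Matrix (Fin n) (Fin n) F, Pm = (P : Matrix (Fin n) (Fin n) F) :=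
      ⟨_, rfl⟩
    obtain ⟨Pi, hPi⟩ : ∃ Pi : Matrix (Fin n) (Fin n) F,
        Pi = ((P⁻¹ : Matrix.SpecialLinearGroup (Fin n) F) : Matrix (Fin n) (Fin n) F) := ⟨_, rfl⟩
    have hPiPm : Pi * Pm = 1 := by
      rw [hPi, hPm, ← Matrix.SpecialLinearGroup.coe_mul, inv_mul_cancel,
        Matrix.SpecialLinearGroup.coe_one]
    have hPmPi : Pm * Pi = 1 := by
      rw [hPi, hPm, ← Matrix.SpecialLinearGroup.coe_mul, mul_inv_cancel,
        Matrix.SpecialLinearGroup.coe_one]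
    have hPidet : Pi.det = 1 := by
      rw [hPi]
      exact (P⁻¹).det_coe
    obtain ⟨Y, hY⟩ : ∃ Y : Matrix (Fin n) (Fin n) F, Y = l • B₀.map F₀.subtype := ⟨_, rfl⟩
    have hYX : Y = Pi * X * Pm := by
      rw [hY, ← hE, Matrix.SpecialLinearGroup.coe_mul, Matrix.SpecialLinearGroup.coe_mul, hx,
        hPi, hPm]
    have hY3 : Y ^ 3 = 1 := by
      have h1 : Y ^ 3 = Pi * (X * (Pm * Pi) * X * (Pm * Pi) * X) * Pm := by
        rw [hYX, pow_succ, pow_two]
        simp only [Matrix.mul_assoc]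
      rw [h1, hPmPi, Matrix.mul_one, Matrix.mul_one]
      have h2 : X * X * X = 1 := by
        rw [← hX3, pow_succ, pow_two]
      rw [h2, Matrix.mul_one, hPiPm]
    obtain ⟨Q, hQ⟩ : ∃ Q : Matrix (Fin n) (Fin n) F, Q = Gi * Pm := ⟨_, rfl⟩
    obtain ⟨Qi, hQi⟩ : ∃ Qi : Matrix (Fin n) (Fin n) F, Qi = Pi * G := ⟨_, rfl⟩
    have hQQi : Q * Qi = 1 := by
      rw [hQ, hQi]
      have h1 : Gi * Pm * (Pi * G) = Gi * (Pm * Pi) * G := by simp only [Matrix.mul_assoc]
      rw [h1, hPmPi, Matrix.mul_one, hGiG]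
    have hQiQ : Qi * Q = 1 := by
      rw [hQ, hQi]
      have h1 : Pi * G * (Gi * Pm) = Pi * (G * Gi) * Pm := by simp only [Matrix.mul_assoc]
      rw [h1, hGGi, Matrix.mul_one, hPiPm]
    have hQidet : Qi.det = γ := by
      rw [hQi, Matrix.det_mul, hPidet, hGdet, one_mul]
    have hQdet : IsUnit Q.det := by
      have h1 := congrArg Matrix.det hQQi
      rw [Matrix.det_mul, Matrix.det_one] at h1
      exact IsUnit.of_mul_eq_one _ h1
    have hQidet' : IsUnit Qi.det := by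
      rw [hQidet]
      exact isUnit_iff_ne_zero.2 hγ0
    have hQY : Q * Y = (1 + J) * Q := by
      rw [hYX, hQ, hJX]
      have h1 : Gi * Pm * (Pi * X * Pm) = Gi * (Pm * Pi) * X * Pm := by
        simp only [Matrix.mul_assoc]
      have h2 : Gi * X * G * (Gi * Pm) = Gi * X * (G * Gi) * Pm := by
        simp only [Matrix.mul_assoc]
      rw [h1, h2, hPmPi, hGGi, Matrix.mul_one, Matrix.mul_one]
    -- the scalar l lies in F₀
    have hc3 : CharP ↥F₀ 3 := (RingHom.charP_iff F₀.subtype F₀.subtype.injective 3).2 inferInstance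
    have : Finite ↥F₀ := Finite.of_injective _ F₀.subtype.injective
    obtain ⟨β₁, hβ₁⟩ : ∃ β₁ : ↥F₀, β₁ ^ 3 = (B₀ ^ 3) ⟨0, h0n⟩ ⟨0, h0n⟩ :=
      Finite.surjective_of_injective (frobenius_inj ↥F₀ 3) _
    have hlβ : l * (β₁ : F) = 1 := by
      have h1 : Y ^ 3 = (l ^ 3) • (B₀ ^ 3).map F₀.subtype := by
        rw [hY, _root_.smul_pow, map_pow']
      rw [h1] at hY3
      have h2 := congrFun (congrFun hY3 ⟨0, h0n⟩) ⟨0, h0n⟩
      rw [Matrix.smul_apply, Matrix.map_apply, ← hβ₁, Matrix.one_apply_eq] at h2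
      apply frobenius_inj F 3
      simp only [frobenius_def]
      rw [mul_pow, one_pow, ← h2]
      simp
    have hβ₁0 : β₁ ≠ 0 := by
      rintro rfl
      simp at hlβ
    have hl' : l = ((β₁⁻¹ : ↥F₀) : F) := by
      have h1 : ((β₁⁻¹ : ↥F₀) : F) = (β₁ : F)⁻¹ := by simp
      rw [h1]
      exact eq_inv_of_mul_eq_one_left hlβ
    obtain ⟨N₁, hN₁⟩ : ∃ N₁ : Matrix (Fin n) (Fin n) ↥F₀, N₁ = β₁⁻¹ • B₀ - 1 := ⟨_, rfl⟩
    have hN₁' : N₁.map F₀.subtype = Y - 1 := by
      rw [hN₁, Matrix.map_sub _ (fun a b => map_sub _ a b),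
        Matrix.map_one _ (map_zero _) (map_one _),
        Matrix.map_smul' _ _ _ (fun a b => map_mul _ a b), hY, hl']
      rfl
    have hQN : Q * N₁.map F₀.subtype = J * Q := by
      rw [hN₁', Matrix.mul_sub, hQY, Matrix.add_mul, Matrix.one_mul, Matrix.mul_one,
        add_sub_cancel_left]
    have hNQ : N₁.map F₀.subtype = Qi * J * Q := by
      have h1 : Qi * (Q * N₁.map F₀.subtype) = Qi * (J * Q) := by rw [hQN]
      rw [← Matrix.mul_assoc, hQiQ, Matrix.one_mul, ← Matrix.mul_assoc] at h1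
      exact h1
    have hN₁'2 : N₁.map F₀.subtype * N₁.map F₀.subtype = 0 := by
      have h1 : Qi * J * Q * (Qi * J * Q) = Qi * (J * (Q * Qi) * J) * Q := by
        simp only [Matrix.mul_assoc]
      rw [hNQ, h1, hQQi, Matrix.mul_one, hJJ, Matrix.mul_zero, Matrix.zero_mul]
    have hN₁2 : N₁ * N₁ = 0 := by
      apply Matrix.map_injective F₀.subtype.injective
      show (N₁ * N₁).map F₀.subtype = (0 : Matrix (Fin n) (Fin n) ↥F₀).map F₀.subtype
      rw [Matrix.map_mul, hN₁'2, Matrix.map_zero _ (map_zero _)]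
    have hrk' : (N₁.map F₀.subtype).rank = a := by
      rw [hNQ, Matrix.rank_mul_eq_left_of_isUnit_det _ _ hQdet,
        Matrix.rank_mul_eq_right_of_isUnit_det _ _ hQidet', hJrank]
    have hrk : N₁.rank = a := by
      rw [← rank_map F₀.subtype N₁, hrk']
    have hranks : ∀ j, (N₁ ^ j).rank = (Jm ↥F₀ n a ^ j).rank := by
      intro j
      rcases j with _ | _ | j
      · simp
      · rw [zero_add, pow_one, pow_one, Jm_rank n a (by omega), hrk]
      · rw [pow_succ, pow_succ, Matrix.mul_assoc, hN₁2, Matrix.mul_zero, pow_succ, pow_succ,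
          Matrix.mul_assoc, Jm_mul_self n a (by omega), Matrix.mul_zero]
    obtain ⟨A, hA⟩ := Jordan.similar_of_rank_pow_eq N₁ (Jm ↥F₀ n a) ⟨2, by rw [pow_two, hN₁2]⟩
      hranks
    have hA' : (A : Matrix (Fin n) (Fin n) ↥F₀).map F₀.subtype * N₁.map F₀.subtype =
        J * (A : Matrix (Fin n) (Fin n) ↥F₀).map F₀.subtype := by
      rw [← Matrix.map_mul, hA, Matrix.map_mul, Jm_map, hJ]
    have hNQi : N₁.map F₀.subtype * Qi = Qi * J := by
      rw [hNQ, Matrix.mul_assoc, hQQi, Matrix.mul_one]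
    have hCJ : ((A : Matrix (Fin n) (Fin n) ↥F₀).map F₀.subtype * Qi) * Jm F n a =
        Jm F n a * ((A : Matrix (Fin n) (Fin n) ↥F₀).map F₀.subtype * Qi) := by
      rw [← hJ, Matrix.mul_assoc, ← hNQi, ← Matrix.mul_assoc, hA', Matrix.mul_assoc]
    obtain ⟨d, hd⟩ := sqdet a hn _ hCJ
    have hAdet : ((A : Matrix (Fin n) (Fin n) ↥F₀).map F₀.subtype).det =
        (((A : Matrix (Fin n) (Fin n) ↥F₀).det : ↥F₀) : F) := by
      have h1 := RingHom.map_det F₀.subtype (A : Matrix (Fin n) (Fin n) ↥F₀)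
      rw [RingHom.mapMatrix_apply] at h1
      exact h1.symm
    have hAdet0 : (A : Matrix (Fin n) (Fin n) ↥F₀).det ≠ 0 :=
      ((Matrix.isUnit_iff_isUnit_det _).mp A.isUnit).ne_zero
    obtain ⟨m, hm⟩ := isSquare_of_mem F₀ q₀ hF₀ hq hq₀odd _
      ((A : Matrix (Fin n) (Fin n) ↥F₀).det).2
    have hm0 : m ≠ 0 := by
      rintro rfl
      rw [mul_zero] at hm
      exact hAdet0 (Subtype.ext hm)
    rw [Matrix.det_mul, hAdet, hQidet, hm] at hd
    apply hγ
    refine ⟨d / m, ?_⟩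
    field_simp
    linear_combination hd

end Three

end Cfsg.Agent.Lib.Helper40.Subf
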