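-- Order of the centraliser of a transvection in GL_n(q) (helper40).
import Mathlib
import Cfsg.Prelude.Def_ClassicalGeometry
import Cfsg.Agent.Lib.Helper40.Parabolic
import Cfsg.Agent.Lib.Helper43.Transvec

set_option autoImplicit false

namespace Cfsg.Agent.Lib.Helper40

open Matrix Module

universe u

section transitive

variable {F : Type u} [Field F]

/-- Transitivity of the invertible maps on pairs (vector, covector) with zero pairing. -/
theorem exists_injective_map_pair {V : Type*} [AddCommGroup V] [Module F V] [FiniteDimensional F V]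
    (a b : V) (ha : a ≠ 0) (hb : b ≠ 0) (φ ψ : Module.Dual F V)
    (hφ : φ ≠ 0) (hψ : ψ ≠ 0) (hφa : φ a = 0) (hψb : ψ b = 0) :
    ∃ θ : V →ₗ[F] V, Function.Injective θ ∧ θ a = b ∧ ∀ x, ψ (θ x) = φ x := by
  classical
  obtain ⟨c, hc⟩ : ∃ c, φ c = 1 := by
    obtain ⟨c₀, hc₀⟩ : ∃ c₀, φ c₀ ≠ 0 := by
      by_contra hcon
      push Not at hcon
      exact hφ (LinearMap.ext hcon)
    exact ⟨(φ c₀)⁻¹ • c₀, by rw [map_smul, smul_eq_mul, inv_mul_cancel₀ hc₀]⟩
  obtain ⟨c', hc'⟩ : ∃ c', ψ c' = 1 := by
    obtain ⟨c₀, hc₀⟩ : ∃ c₀, ψ c₀ ≠ 0 := by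
      by_contra hcon
      push Not at hcon
      exact hψ (LinearMap.ext hcon)
    exact ⟨(ψ c₀)⁻¹ • c₀, by rw [map_smul, smul_eq_mul, inv_mul_cancel₀ hc₀]⟩
  have hK := Module.Dual.finrank_ker_add_one_of_ne_zero hφ
  have hK' := Module.Dual.finrank_ker_add_one_of_ne_zero hψ
  have hKK' : finrank F (LinearMap.ker φ) = finrank F (LinearMap.ker ψ) := by omega
  obtain ⟨θK, hθK⟩ := Cfsg.Agent.Lib.Helper43.exists_equiv_apply_eq hKK'
    (⟨a, hφa⟩ : LinearMap.ker φ) (⟨b, hψb⟩ : LinearMap.ker ψ)
    (fun h => ha (congrArg Subtype.val h)) (fun h => hb (congrArg Subtype.val h))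
  let π : V →ₗ[F] LinearMap.ker φ := (LinearMap.id - φ.smulRight c).codRestrict (LinearMap.ker φ) (by
    intro x
    rw [LinearMap.mem_ker]
    simp [hc])
  have hπ : ∀ x, (π x : V) = x - φ x • c := fun x => rfl
  let θ₀ : V →ₗ[F] V := (LinearMap.ker ψ).subtype ∘ₗ θK.toLinearMap ∘ₗ π + φ.smulRight c'
  have hθ₀ : ∀ x, θ₀ x = (θK (π x) : V) + φ x • c' := fun x => rfl
  have hψθ₀ : ∀ x, ψ (θ₀ x) = φ x := by
    intro x
    rw [hθ₀, map_add, map_smul, hc', smul_eq_mul, mul_one]
    have : ψ (θK (π x) : V) = 0 := (θK (π x)).2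
    rw [this, zero_add]
  have hθ₀a : θ₀ a = b := by
    rw [hθ₀, hφa, zero_smul, add_zero]
    have : π a = ⟨a, hφa⟩ := by
      apply Subtype.ext
      rw [hπ, hφa, zero_smul, sub_zero]
    rw [this, hθK]
  have hinj : Function.Injective θ₀ := by
    rw [← LinearMap.ker_eq_bot, LinearMap.ker_eq_bot']
    intro x hx
    have h1 : φ x = 0 := by rw [← hψθ₀, hx, map_zero]
    rw [hθ₀, h1, zero_smul, add_zero] at hx
    have h2 : θK (π x) = 0 := Subtype.ext hx
    have h3 : π x = 0 := θK.injective (h2.trans (map_zero θK).symm)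
    have h4 := congrArg Subtype.val h3
    rw [hπ, h1, zero_smul, sub_zero] at h4
    exact h4
  exact ⟨θ₀, hinj, hθ₀a, hψθ₀⟩

/-- `GL_n` is transitive on pairs (vector, covector) with zero pairing. -/
theorem exists_gl_map {n : ℕ} (a b φ ψ : Fin n → F) (ha : a ≠ 0) (hb : b ≠ 0)
    (hφ : φ ≠ 0) (hψ : ψ ≠ 0) (hφa : φ ⬝ᵥ a = 0) (hψb : ψ ⬝ᵥ b = 0) :
    ∃ g : GL (Fin n) F,
      (g : Matrix (Fin n) (Fin n) F) *ᵥ a = b ∧ ψ ᵥ* (g : Matrix (Fin n) (Fin n) F) = φ := by
  classical
  obtain ⟨θ, hinj, hθa, hθ⟩ := exists_injective_map_pair (F := F) (V := Fin n → F)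
    a b ha hb (Cfsg.Agent.Lib.Helper43.dotFun φ) (Cfsg.Agent.Lib.Helper43.dotFun ψ)
    (Cfsg.Agent.Lib.Helper43.dotFun_ne_zero hφ) (Cfsg.Agent.Lib.Helper43.dotFun_ne_zero hψ) hφa hψb
  have hd0 : LinearMap.det θ ≠ 0 := by
    have h1 := (LinearEquiv.ofInjectiveEndo θ hinj).isUnit_det'
    have h2 : ((LinearEquiv.ofInjectiveEndo θ hinj : (Fin n → F) ≃ₗ[F] (Fin n → F)) :
        (Fin n → F) →ₗ[F] (Fin n → F)) = θ :=
      LinearMap.ext fun x => rfl
    rw [h2] at h1
    exact h1.ne_zero
  let g : GL (Fin n) F := Matrix.GeneralLinearGroup.mkOfDetNeZero (LinearMap.toMatrix' θ) (by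
    rw [LinearMap.det_toMatrix']
    exact hd0)
  refine ⟨g, ?_, ?_⟩
  · show (LinearMap.toMatrix' θ) *ᵥ a = b
    rw [LinearMap.toMatrix'_mulVec]
    exact hθa
  · funext j
    have h1 : (ψ ᵥ* (LinearMap.toMatrix' θ)) ⬝ᵥ Pi.single j 1 = φ ⬝ᵥ Pi.single j 1 := by
      rw [← Matrix.dotProduct_mulVec, LinearMap.toMatrix'_mulVec]
      exact hθ _
    rw [dotProduct_single_one, dotProduct_single_one] at h1
    exact h1

end transitive

section normalform

variable {F : Type u} [Field F] {n : ℕ}

/-- The block label: the index `z` first, the index `l` last, the others in the middle. -/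
def tvLabel (z l : Fin n) (i : Fin n) : Fin 3 := if i = z then 0 else if i = l then 2 else 1

/-- The elementary nilpotent matrix with a single one at position `(z, l)`. -/
def tvN (F : Type u) [Field F] (z l : Fin n) : Matrix (Fin n) (Fin n) F :=
  vecMulVec (Pi.single z 1) (Pi.single l 1)

theorem mul_tvN (z l : Fin n) (M : Matrix (Fin n) (Fin n) F) (i j : Fin n) :
    (M * tvN F z l) i j = M i z * ((Pi.single l (1 : F) : Fin n → F) j) := by
  unfold tvN
  rw [Matrix.mul_vecMulVec, Matrix.mulVec_single_one, Matrix.vecMulVec_apply]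
  rfl

theorem tvN_mul (z l : Fin n) (M : Matrix (Fin n) (Fin n) F) (i j : Fin n) :
    (tvN F z l * M) i j = ((Pi.single z (1 : F) : Fin n → F) i) * M l j := by
  unfold tvN
  rw [Matrix.vecMulVec_mul, Matrix.single_one_vecMul, Matrix.vecMulVec_apply]
  rfl

/-- The matrices commuting with the elementary nilpotent matrix. -/
theorem commute_tvN_iff (z l : Fin n) (hzl : z ≠ l) (M : Matrix (Fin n) (Fin n) F) :
    M * tvN F z l = tvN F z l * M ↔ M.BlockTriangular (tvLabel z l) ∧ M z z = M l l := by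
  constructor
  · intro h
    have key : ∀ i j, M i z * ((Pi.single l (1 : F) : Fin n → F) j) = ((Pi.single z (1 : F) : Fin n → F) i) * M l j := by
      intro i j
      rw [← mul_tvN, ← tvN_mul, h]
    constructor
    · intro i j hij
      unfold tvLabel at hij
      by_cases hjz : j = z
      · subst hjz
        have hiz : i ≠ j := by
          rintro rfl
          exact lt_irrefl _ hij
        have h1 := key i l
        rw [Pi.single_eq_same, Pi.single_eq_of_ne hiz, mul_one, zero_mul] at h1
        exact h1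
      · rw [if_neg hjz] at hij
        have hil : i = l := by
          by_contra hil
          by_cases hiz : i = z
          · rw [if_pos hiz] at hij
            split_ifs at hij <;> exact absurd hij (by decide)
          · rw [if_neg hiz, if_neg hil] at hij
            split_ifs at hij <;> exact absurd hij (by decide)
        subst hil
        have hjl : j ≠ i := by
          rintro rfl
          rw [if_pos rfl, if_neg hjz] at hij
          exact lt_irrefl _ hij
        have h1 := key z j
        rw [Pi.single_eq_same, Pi.single_eq_of_ne hjl, mul_zero, one_mul] at h1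
        exact h1.symm
    · have h1 := key z l
      rw [Pi.single_eq_same, Pi.single_eq_same, mul_one, one_mul] at h1
      exact h1
  · rintro ⟨hBT, hzz⟩
    ext i j
    rw [mul_tvN, tvN_mul]
    by_cases hj : j = l
    · subst hj
      rw [Pi.single_eq_same, mul_one]
      by_cases hi : i = z
      · subst hi
        rw [Pi.single_eq_same, one_mul, hzz]
      · rw [Pi.single_eq_of_ne hi, zero_mul]
        apply hBT
        unfold tvLabel
        rw [if_pos rfl, if_neg hi]
        split_ifs <;> decide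
    · rw [Pi.single_eq_of_ne hj, mul_zero]
      by_cases hi : i = z
      · subst hi
        rw [Pi.single_eq_same, one_mul]
        symm
        apply hBT
        unfold tvLabel
        rw [if_neg (Ne.symm hzl), if_pos rfl, if_neg hj]
        split_ifs <;> decide
      · rw [Pi.single_eq_of_ne hi, zero_mul]

theorem bt_diag_ne_zero (z l : Fin n) (hzl : z ≠ l) (M : Matrix (Fin n) (Fin n) F)
    (hBT : M.BlockTriangular (tvLabel z l)) (hdet : M.det ≠ 0) : M z z ≠ 0 ∧ M l l ≠ 0 := by
  constructor
  · intro h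
    apply hdet
    apply Matrix.det_eq_zero_of_column_eq_zero z
    intro i
    by_cases hi : i = z
    · rw [hi, h]
    · apply hBT
      unfold tvLabel
      rw [if_pos rfl, if_neg hi]
      split_ifs <;> decide
  · intro h
    apply hdet
    apply Matrix.det_eq_zero_of_row_eq_zero l
    intro j
    by_cases hj : j = l
    · rw [hj, h]
    · apply hBT
      unfold tvLabel
      rw [if_neg (Ne.symm hzl), if_pos rfl]
      split_ifs <;> decide

/-- Multiply column `l` by `c`. -/
def scaleCol (l : Fin n) (c : F) (M : Matrix (Fin n) (Fin n) F) : Matrix (Fin n) (Fin n) F :=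
  Matrix.of fun i j => M i j * (if j = l then c else 1)

theorem scaleCol_apply (l : Fin n) (c : F) (M : Matrix (Fin n) (Fin n) F) (i j : Fin n) :
    scaleCol l c M i j = M i j * (if j = l then c else 1) := rfl

theorem scaleCol_det (l : Fin n) (c : F) (M : Matrix (Fin n) (Fin n) F) :
    (scaleCol l c M).det = M.det * c := by
  have h : scaleCol l c M = M * Matrix.diagonal (fun j => if j = l then c else 1) := by
    ext i j
    rw [Matrix.mul_diagonal]
    rfl
  rw [h, Matrix.det_mul, Matrix.det_diagonal, Finset.prod_ite_eq' Finset.univ l (fun _ => c)]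
  simp

theorem scaleCol_scaleCol (l : Fin n) (c d : F) (hcd : c * d = 1)
    (M : Matrix (Fin n) (Fin n) F) : scaleCol l c (scaleCol l d M) = M := by
  ext i j
  rw [scaleCol_apply, scaleCol_apply]
  by_cases hj : j = l
  · rw [if_pos hj, if_pos hj, mul_assoc, mul_comm d c, hcd, mul_one]
  · rw [if_neg hj, if_neg hj, mul_one, mul_one]

theorem scaleCol_bt (z l : Fin n) (c : F) (M : Matrix (Fin n) (Fin n) F)
    (hBT : M.BlockTriangular (tvLabel z l)) : (scaleCol l c M).BlockTriangular (tvLabel z l) := by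
  intro i j hij
  rw [scaleCol_apply, hBT hij, zero_mul]

/-- Block triangular invertible matrices are the column scalings of those with equal corner
entries. -/
noncomputable def btScaleEquiv (z l : Fin n) (hzl : z ≠ l) :
    {M : Matrix (Fin n) (Fin n) F // M.BlockTriangular (tvLabel z l) ∧ M.det ≠ 0} ≃
      {x : F // x ≠ 0} ×
        {M : Matrix (Fin n) (Fin n) F // M.det ≠ 0 ∧ M.BlockTriangular (tvLabel z l) ∧ M z z = M l l} where
  toFun M := (⟨M.1 l l / M.1 z z, by
      have h := bt_diag_ne_zero z l hzl M.1 M.2.1 M.2.2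
      exact div_ne_zero h.2 h.1⟩, ⟨scaleCol l (M.1 z z / M.1 l l) M.1, by
      have h := bt_diag_ne_zero z l hzl M.1 M.2.1 M.2.2
      refine ⟨?_, scaleCol_bt z l _ M.1 M.2.1, ?_⟩
      · rw [scaleCol_det]
        exact mul_ne_zero M.2.2 (div_ne_zero h.1 h.2)
      · rw [scaleCol_apply, scaleCol_apply, if_neg hzl, if_pos rfl, mul_one,
          mul_div_cancel₀ _ h.2]⟩)
  invFun p := ⟨scaleCol l p.1.1 p.2.1, scaleCol_bt z l _ _ p.2.2.2.1, by
      rw [scaleCol_det]
      exact mul_ne_zero p.2.2.1 p.1.2⟩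
  left_inv M := by
    obtain ⟨hz, hl⟩ := bt_diag_ne_zero z l hzl M.1 M.2.1 M.2.2
    apply Subtype.ext
    change scaleCol l (M.1 l l / M.1 z z) (scaleCol l (M.1 z z / M.1 l l) M.1) = M.1
    apply scaleCol_scaleCol
    field_simp
  right_inv p := by
    obtain ⟨⟨x, hx⟩, ⟨N, hdet, hBT, hzz⟩⟩ := p
    obtain ⟨hz, hl⟩ := bt_diag_ne_zero z l hzl N hBT hdet
    have h1 : scaleCol l x N l l / scaleCol l x N z z = x := by
      rw [scaleCol_apply, scaleCol_apply, if_neg hzl, if_pos rfl, mul_one, hzz]
      field_simp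
    have h2 : scaleCol l x N z z / scaleCol l x N l l = x⁻¹ := by
      rw [← inv_div, h1]
    apply Prod.ext
    · apply Subtype.ext
      exact h1
    · apply Subtype.ext
      change scaleCol l (scaleCol l x N z z / scaleCol l x N l l) (scaleCol l x N) = N
      rw [h2]
      exact scaleCol_scaleCol l _ _ (inv_mul_cancel₀ hx) N

end normalform

section count

variable {F : Type u} [Field F] [Fintype F] {n : ℕ}

theorem card_tvLabel_fibres (hn : 2 ≤ n) (z l : Fin n) (hzl : z ≠ l) :
    Nat.card {i : Fin n // tvLabel z l i = 0} = 1 ∧ Nat.card {i : Fin n // tvLabel z l i = 1} = n - 2 ∧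
      Nat.card {i : Fin n // tvLabel z l i = 2} = 1 := by
  classical
  have h0 : Nat.card {i : Fin n // tvLabel z l i = 0} = 1 := by
    have e : {i : Fin n // tvLabel z l i = 0} ≃ {i : Fin n // i = z} :=
      Equiv.subtypeEquivRight (fun i => by
        unfold tvLabel
        constructor
        · intro h
          by_contra hi
          rw [if_neg hi] at h
          split_ifs at h <;> exact absurd h (by decide)
        · intro h
          rw [if_pos h])
    rw [Nat.card_congr e, Nat.card_eq_fintype_card, Fintype.card_subtype_eq]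
  have h2 : Nat.card {i : Fin n // tvLabel z l i = 2} = 1 := by
    have e : {i : Fin n // tvLabel z l i = 2} ≃ {i : Fin n // i = l} :=
      Equiv.subtypeEquivRight (fun i => by
        unfold tvLabel
        constructor
        · intro h
          by_contra hi
          rw [if_neg hi] at h
          split_ifs at h <;> exact absurd h (by decide)
        · intro h
          rw [if_neg (by rw [h]; exact Ne.symm hzl), if_pos h])
    rw [Nat.card_congr e, Nat.card_eq_fintype_card, Fintype.card_subtype_eq]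
  have hs := sum_card_fibres (tvLabel z l)
  rw [Fin.sum_univ_three, h0, h2, Fintype.card_fin] at hs
  exact ⟨h0, by omega, h2⟩

theorem choose_two_sub (n : ℕ) (hn : 2 ≤ n) : n.choose 2 = (n - 2).choose 2 + (2 * n - 3) := by
  obtain ⟨m, rfl⟩ : ∃ m, n = m + 2 := ⟨n - 2, by omega⟩
  have h1 : (m + 2).choose 2 = (m + 1) + (m + m.choose 2) := by
    rw [Nat.choose_succ_succ' (m + 1) 1, Nat.choose_one_right, Nat.choose_succ_succ' m 1,
      Nat.choose_one_right]
  rw [h1, Nat.add_sub_cancel]
  omega

/-- The number of invertible matrices commuting with the elementary nilpotent matrix. -/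
theorem card_commute_tvN (hn : 2 ≤ n) (z l : Fin n) (hzl : z ≠ l) :
    Nat.card {M : Matrix (Fin n) (Fin n) F // M.det ≠ 0 ∧ M * tvN F z l = tvN F z l * M} =
      Fintype.card F ^ (2 * n - 3) * (Fintype.card F - 1) *
        ∏ i : Fin (n - 2), (Fintype.card F ^ (n - 2) - Fintype.card F ^ (i : ℕ)) := by
  classical
  set q := Fintype.card F with hq
  have hq2 : 2 ≤ q := Fintype.one_lt_card
  have e1 : {M : Matrix (Fin n) (Fin n) F // M.det ≠ 0 ∧ M * tvN F z l = tvN F z l * M} ≃
      {M : Matrix (Fin n) (Fin n) F // M.det ≠ 0 ∧ M.BlockTriangular (tvLabel z l) ∧ M z z = M l l} :=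
    Equiv.subtypeEquivRight (fun M => by rw [commute_tvN_iff z l hzl])
  have hB := card_bt (F := F) (tvLabel z l)
  rw [Nat.card_congr (btScaleEquiv z l hzl), Nat.card_prod, Fin.prod_univ_three] at hB
  obtain ⟨h0, h1, h2⟩ := card_tvLabel_fibres hn z l hzl
  rw [h0, h1, h2, Fintype.card_fin, ← hq] at hB
  have hq1 : qFact q 1 = 1 := by simp [qFact]
  rw [hq1, one_mul, mul_one] at hB
  have hx : Nat.card {x : F // x ≠ 0} = q - 1 := by
    rw [Nat.card_eq_fintype_card, Fintype.card_subtype_compl, Fintype.card_subtype_eq]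
  rw [hx] at hB
  rw [Nat.card_congr e1, prod_pow_sub_pow q (n - 2) (by omega)]
  obtain ⟨k, hk⟩ : ∃ k, n - 2 = k := ⟨_, rfl⟩
  have hn' : n = k + 2 := by omega
  have hch := choose_two_sub n hn
  rw [hk] at hch hB ⊢
  have e2 : q ^ (n.choose 2) = q ^ (k.choose 2) * q ^ (2 * n - 3) := by
    rw [← pow_add, hch]
  have e3 : (q - 1) ^ n = (q - 1) ^ k * (q - 1) * (q - 1) := by
    rw [hn', pow_succ, pow_succ]
  rw [e2, e3] at hB
  have hpos : 0 < q - 1 := by omega
  apply Nat.eq_of_mul_eq_mul_left hpos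
  rw [hB]
  ring

omit [Fintype F] in
/-- Centralisers of conjugate elements are in bijection. -/
noncomputable def centralizerConjEquiv {G : Type*} [Group G] (P t : G) :
    ↥(Subgroup.centralizer ({t} : Set G)) ≃ ↥(Subgroup.centralizer ({P * t * P⁻¹} : Set G)) where
  toFun g := ⟨P * g.1 * P⁻¹, by
    have h := g.2
    rw [Subgroup.mem_centralizer_singleton_iff] at h ⊢
    exact ((Commute.conj_iff P).2 (show Commute g.1 t from h)).eq⟩
  invFun g := ⟨P⁻¹ * g.1 * P, by
    have h := g.2
    rw [Subgroup.mem_centralizer_singleton_iff] at h ⊢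
    have h2 : Commute (P * (P⁻¹ * g.1 * P) * P⁻¹) (P * t * P⁻¹) := by
      have e : P * (P⁻¹ * g.1 * P) * P⁻¹ = g.1 := by group
      rw [e]
      exact h
    exact ((Commute.conj_iff P).1 h2).eq⟩
  left_inv g := by
    apply Subtype.ext
    change P⁻¹ * (P * g.1 * P⁻¹) * P = g.1
    group
  right_inv g := by
    apply Subtype.ext
    change P * (P⁻¹ * g.1 * P) * P⁻¹ = g.1
    group

theorem card_centralizer_transvection {q : ℕ} (hF : Fintype.card F = q) (hn : 2 ≤ n)
    (t : GL (Fin n) F) (ht : Cfsg.IsTransvection (t : Matrix (Fin n) (Fin n) F)) :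
    Nat.card ↥(Subgroup.centralizer ({t} : Set (GL (Fin n) F))) =
      q ^ (2 * n - 3) * (q - 1) * ∏ i : Fin (n - 2), (q ^ (n - 2) - q ^ (i : ℕ)) := by
  classical
  subst hF
  let z : Fin n := ⟨0, by omega⟩
  let l : Fin n := ⟨n - 1, by omega⟩
  have hzl : z ≠ l := by
    intro h
    have h2 := congrArg Fin.val h
    simp only [z, l] at h2
    omega
  obtain ⟨a, φ, hN, ha, hφ, hφa⟩ :=
    Cfsg.Agent.Lib.Helper43.exists_vecMulVec_of_rank_one _ ht.1 ht.2
  have hb : (Pi.single z 1 : Fin n → F) ≠ 0 := by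
    intro h
    have h2 := congrFun h z
    rw [Pi.single_eq_same] at h2
    exact one_ne_zero h2
  have hψ : (Pi.single l 1 : Fin n → F) ≠ 0 := by
    intro h
    have h2 := congrFun h l
    rw [Pi.single_eq_same] at h2
    exact one_ne_zero h2
  have hψb : (Pi.single l 1 : Fin n → F) ⬝ᵥ (Pi.single z 1) = 0 := by
    rw [single_one_dotProduct]
    exact Pi.single_eq_of_ne (Ne.symm hzl) _
  obtain ⟨P, hPa, hPφ⟩ := exists_gl_map a (Pi.single z 1) φ (Pi.single l 1) ha hb hφ hψ hφa hψb
  have hPN : (P : Matrix (Fin n) (Fin n) F) * ((t : Matrix (Fin n) (Fin n) F) - 1) =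
      tvN F z l * (P : Matrix (Fin n) (Fin n) F) := by
    rw [hN, Matrix.mul_vecMulVec, hPa]
    unfold tvN
    rw [Matrix.vecMulVec_mul, hPφ]
  have hPP : (P : Matrix (Fin n) (Fin n) F) * ((P⁻¹ : GL (Fin n) F) : Matrix (Fin n) (Fin n) F) = 1 := by
    rw [← Units.val_mul, mul_inv_cancel, Units.val_one]
  have ht0 : ((P * t * P⁻¹ : GL (Fin n) F) : Matrix (Fin n) (Fin n) F) = 1 + tvN F z l := by
    rw [Units.val_mul, Units.val_mul]
    have h1 : (t : Matrix (Fin n) (Fin n) F) = 1 + ((t : Matrix (Fin n) (Fin n) F) - 1) := by abel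
    rw [h1, mul_add, mul_one, hPN, add_mul, hPP, mul_assoc, hPP, mul_one]
  rw [Nat.card_congr (centralizerConjEquiv P t)]
  obtain ⟨t₀, ht₀⟩ : ∃ t₀ : GL (Fin n) F, t₀ = P * t * P⁻¹ := ⟨_, rfl⟩
  rw [← ht₀] at ht0 ⊢
  let e2 : ↥(Subgroup.centralizer ({t₀} : Set (GL (Fin n) F))) ≃
      {M : Matrix (Fin n) (Fin n) F // M.det ≠ 0 ∧ M * tvN F z l = tvN F z l * M} :=
    { toFun := fun g => ⟨(g.1 : Matrix (Fin n) (Fin n) F),
        Matrix.GeneralLinearGroup.det_ne_zero g.1, by
          have h := g.2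
          rw [Subgroup.mem_centralizer_singleton_iff] at h
          have h2 := congrArg Units.val h
          rw [Units.val_mul, Units.val_mul, ht0, add_mul, mul_add, one_mul, mul_one] at h2
          exact add_left_cancel h2⟩
      invFun := fun M => ⟨Matrix.GeneralLinearGroup.mkOfDetNeZero M.1 M.2.1, by
          rw [Subgroup.mem_centralizer_singleton_iff]
          apply Units.ext
          rw [Units.val_mul, Units.val_mul, ht0]
          change M.1 * (1 + tvN F z l) = (1 + tvN F z l) * M.1
          rw [add_mul, mul_add, one_mul, mul_one, M.2.2]⟩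
      left_inv := fun g => Subtype.ext (Units.ext rfl)
      right_inv := fun M => rfl }
  rw [Nat.card_congr e2, card_commute_tvN hn z l hzl]

end count

end Cfsg.Agent.Lib.Helper40
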