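import Mathlib

/-!
# A Baer–Suzuki type theorem for unipotent subgroups of the unit group of a finite-dimensional
algebra (nil-algebra version of the Alperin–Lyons argument)
-/

set_option autoImplicit false

namespace Cfsg.Agent.Lib.Helper40.UBS

variable {k : Type*} [Field k] {R : Type*} [Ring R] [Algebra k R]

/-- The span of the elements `g - 1`, `g ∈ X`. -/
def aug (X : Subgroup Rˣ) : Submodule k R :=
  Submodule.span k ((fun g : Rˣ => (g : R) - 1) '' (X : Set Rˣ))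

theorem sub_one_mem_aug {X : Subgroup Rˣ} {g : Rˣ} (hg : g ∈ X) :
    (g : R) - 1 ∈ aug (k := k) X :=
  Submodule.subset_span ⟨g, hg, rfl⟩

theorem aug_le_iff {X : Subgroup Rˣ} {𝔟 : Submodule k R} :
    aug X ≤ 𝔟 ↔ ∀ g ∈ X, (g : R) - 1 ∈ 𝔟 := by
  rw [aug, Submodule.span_le]
  constructor
  · intro h g hg; exact h ⟨g, hg, rfl⟩
  · rintro h _ ⟨g, hg, rfl⟩; exact h g hg

theorem aug_mono {X Y : Subgroup Rˣ} (h : X ≤ Y) : aug (k := k) X ≤ aug Y :=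
  aug_le_iff.mpr fun _ hg => sub_one_mem_aug (h hg)

/-- If `𝔟` is multiplicatively closed, `{g | g - 1 ∈ 𝔟}` is closed under products. -/
theorem mul_sub_one_mem {𝔟 : Submodule k R} (hmul : 𝔟 * 𝔟 ≤ 𝔟) {g h : Rˣ}
    (hg : (g : R) - 1 ∈ 𝔟) (hh : (h : R) - 1 ∈ 𝔟) : ((g * h : Rˣ) : R) - 1 ∈ 𝔟 := by
  have e : ((g * h : Rˣ) : R) - 1 = ((g : R) - 1) * ((h : R) - 1) + ((g : R) - 1) + ((h : R) - 1) := by
    rw [Units.val_mul]; noncomm_ring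
  rw [e]
  exact add_mem (add_mem (hmul (Submodule.mul_mem_mul hg hh)) hg) hh

theorem aug_mul_le (X : Subgroup Rˣ) : aug (k := k) X * aug X ≤ aug X := by
  rw [Submodule.mul_le]
  intro m hm n hn
  induction hm using Submodule.span_induction with
  | mem x hx =>
    obtain ⟨g, hg, rfl⟩ := hx
    induction hn using Submodule.span_induction with
    | mem y hy =>
      obtain ⟨h, hh, rfl⟩ := hy
      have e : ((g : R) - 1) * ((h : R) - 1) =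
          (((g * h : Rˣ) : R) - 1) - ((g : R) - 1) - ((h : R) - 1) := by
        rw [Units.val_mul]; noncomm_ring
      rw [e]
      exact sub_mem (sub_mem (sub_one_mem_aug (X.mul_mem hg hh)) (sub_one_mem_aug hg))
        (sub_one_mem_aug hh)
    | zero => simp
    | add y z _ _ hy hz => rw [mul_add]; exact add_mem hy hz
    | smul c y _ hy => rw [mul_smul_comm]; exact Submodule.smul_mem _ c hy
  | zero => simp
  | add x y _ _ hx hy => rw [add_mul]; exact add_mem hx hy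
  | smul c x _ hx => rw [smul_mul_assoc]; exact Submodule.smul_mem _ c hx

/-- The augmentation span of a join of subgroups lies in any multiplicatively closed subspace
containing the augmentation spans of the members. -/
theorem aug_sSup_le {Δ : Set (Subgroup Rˣ)} {𝔟 : Submodule k R} (hmul : 𝔟 * 𝔟 ≤ 𝔟)
    (h : ∀ B ∈ Δ, aug B ≤ 𝔟) : aug (sSup Δ) ≤ 𝔟 := by
  rw [aug_le_iff]
  intro g hg
  rw [sSup_eq_iSup'] at hg
  refine Subgroup.iSup_induction (fun B : Δ => (B : Subgroup Rˣ))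
    (C := fun g => (g : R) - 1 ∈ 𝔟) hg ?_ ?_ ?_
  · intro B x hx
    exact aug_le_iff.mp (h B.1 B.2) x hx
  · simp
  · intro x y hx hy
    exact mul_sub_one_mem hmul hx hy

/-- Nilpotency of a subspace of an algebra. -/
def IsNil (𝔟 : Submodule k R) : Prop := ∃ n : ℕ, 𝔟 ^ n = ⊥

theorem IsNil.mono {𝔟 𝔠 : Submodule k R} (h : 𝔟 ≤ 𝔠) (hc : IsNil 𝔠) : IsNil 𝔟 := by
  obtain ⟨n, hn⟩ := hc
  exact ⟨n, le_bot_iff.mp (hn ▸ pow_le_pow_left₀ bot_le h n)⟩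

theorem pow_eq_bot_of_le {𝔟 : Submodule k R} {n m : ℕ} (hn : 𝔟 ^ n = ⊥) (h : n ≤ m) :
    𝔟 ^ m = ⊥ := by
  obtain ⟨d, rfl⟩ := Nat.exists_eq_add_of_le h
  rw [pow_add, hn, Submodule.bot_mul]

/-- Products of lists of elements `g - 1`. -/
theorem list_prod_mem_pow (X : Subgroup Rˣ) :
    ∀ l : List Rˣ, (∀ g ∈ l, g ∈ X) →
      (l.map fun g : Rˣ => (g : R) - 1).prod ∈ aug (k := k) X ^ l.length := by
  intro l
  induction l with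
  | nil =>
    intro _
    simp only [List.map_nil, List.prod_nil, List.length_nil, pow_zero]
    exact Submodule.one_le.mp le_rfl
  | cons g l ih =>
    intro h
    simp only [List.map_cons, List.prod_cons, List.length_cons]
    rw [pow_succ']
    exact Submodule.mul_mem_mul (sub_one_mem_aug (h g (by simp)))
      (ih fun x hx => h x (by simp [hx]))

/-- Unipotency (in the list form of the statement) is nilpotency of the augmentation span. -/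
theorem unipotent_iff (X : Subgroup Rˣ) :
    (∃ n : ℕ, ∀ l : List Rˣ, (∀ g ∈ l, g ∈ X) → l.length = n →
      (l.map fun g : Rˣ => (g : R) - 1).prod = 0) ↔ IsNil (aug (k := k) X) := by
  constructor
  · rintro ⟨n, hn⟩
    refine ⟨n, ?_⟩
    rw [aug, Submodule.span_pow, Submodule.span_eq_bot]
    intro x hx
    rw [Set.mem_pow] at hx
    obtain ⟨f, rfl⟩ := hx
    have hf : ∀ i : Fin n, ∃ g : Rˣ, g ∈ X ∧ (g : R) - 1 = (f i : R) := fun i => by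
      obtain ⟨g, hg, hgf⟩ := (f i).2
      exact ⟨g, hg, hgf⟩
    choose g hgX hg using hf
    have := hn (List.ofFn g) (by
      intro x hx
      rw [List.mem_ofFn] at hx
      obtain ⟨i, rfl⟩ := hx
      exact hgX i) (by simp)
    rw [List.map_ofFn] at this
    rw [← this]
    congr 1
    congr 1
    funext i
    exact (hg i).symm
  · rintro ⟨n, hn⟩
    refine ⟨n, fun l hl hlen => ?_⟩
    have := list_prod_mem_pow (k := k) X l hl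
    rw [hlen, hn] at this
    exact (Submodule.mem_bot k).mp this

/-! ### Multiplicatively closed subspaces -/

theorem pow_succ_mul_le {𝔭 : Submodule k R} (hp : 𝔭 * 𝔭 ≤ 𝔭) (a : ℕ) :
    𝔭 ^ (a + 1) * 𝔭 ≤ 𝔭 ^ (a + 1) := by
  rw [pow_succ, mul_assoc]
  exact mul_le_mul' le_rfl hp

theorem pow_succ_mul_pow_le {𝔭 : Submodule k R} (hp : 𝔭 * 𝔭 ≤ 𝔭) (a b : ℕ) :
    𝔭 ^ (a + 1) * 𝔭 ^ b ≤ 𝔭 ^ (a + 1) := by
  induction b with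
  | zero => simp
  | succ b ih =>
    rw [pow_succ 𝔭 b, ← mul_assoc]
    exact (mul_le_mul' ih le_rfl).trans (pow_succ_mul_le hp a)

theorem pow_succ_le_self {𝔭 : Submodule k R} (hp : 𝔭 * 𝔭 ≤ 𝔭) (a : ℕ) : 𝔭 ^ (a + 1) ≤ 𝔭 := by
  induction a with
  | zero => simp
  | succ a ih =>
    rw [pow_succ]
    exact (mul_le_mul' ih le_rfl).trans hp

/-- Extending a nil-algebra `𝔢` by a nil-algebra `ℭ` that normalises it. -/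
theorem nil_extend {𝔢 ℭ : Submodule k R} (he : 𝔢 * 𝔢 ≤ 𝔢) (hc : ℭ * ℭ ≤ ℭ)
    (hce : ℭ * 𝔢 ≤ 𝔢 * ℭ ⊔ 𝔢) (hen : IsNil 𝔢) (hcn : IsNil ℭ) :
    ∃ 𝔡 : Submodule k R, 𝔡 * 𝔡 ≤ 𝔡 ∧ IsNil 𝔡 ∧ 𝔢 ≤ 𝔡 ∧ ℭ ≤ 𝔡 := by
  obtain ⟨n, hn⟩ := hen
  obtain ⟨m, hm⟩ := hcn
  obtain ⟨𝔧, h𝔧⟩ : ∃ 𝔧, 𝔧 = 𝔢 ⊔ 𝔢 * ℭ := ⟨_, rfl⟩
  have hej : 𝔢 ≤ 𝔧 := h𝔧 ▸ le_sup_left
  have hecj : 𝔢 * ℭ ≤ 𝔧 := h𝔧 ▸ le_sup_right
  have hjc : 𝔧 * ℭ ≤ 𝔧 := by
    rw [h𝔧, Submodule.sup_mul, mul_assoc]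
    exact sup_le le_sup_right ((mul_le_mul' le_rfl hc).trans le_sup_right)
  have hcj : ℭ * 𝔧 ≤ 𝔧 := by
    have h1 : ℭ * 𝔢 ≤ 𝔧 := hce.trans (sup_le hecj hej)
    have h2 : ℭ * (𝔢 * ℭ) ≤ 𝔧 := by
      rw [← mul_assoc]
      exact (mul_le_mul' h1 le_rfl).trans hjc
    rw [h𝔧, Submodule.mul_sup]
    exact sup_le (h𝔧 ▸ h1) (h𝔧 ▸ h2)
  have hje : 𝔧 * 𝔢 ≤ 𝔧 := by
    have h1 : 𝔢 * 𝔢 ≤ 𝔧 := he.trans hej
    have h2 : 𝔢 * ℭ * 𝔢 ≤ 𝔧 := by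
      rw [mul_assoc]
      refine (mul_le_mul' le_rfl hce).trans ?_
      rw [Submodule.mul_sup, ← mul_assoc]
      exact sup_le ((mul_le_mul' he le_rfl).trans hecj) h1
    rw [h𝔧, Submodule.sup_mul]
    exact sup_le (h𝔧 ▸ h1) (h𝔧 ▸ h2)
  have hjj : 𝔧 * 𝔧 ≤ 𝔧 := by
    have h1 : 𝔧 * (𝔢 * ℭ) ≤ 𝔧 := by
      rw [← mul_assoc]
      exact (mul_le_mul' hje le_rfl).trans hjc
    calc 𝔧 * 𝔧 = 𝔧 * (𝔢 ⊔ 𝔢 * ℭ) := by rw [← h𝔧]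
      _ = 𝔧 * 𝔢 ⊔ 𝔧 * (𝔢 * ℭ) := Submodule.mul_sup _ _ _
      _ ≤ 𝔧 := sup_le hje h1
  refine ⟨𝔧 ⊔ ℭ, ?_, ?_, hej.trans le_sup_left, le_sup_right⟩
  · rw [Submodule.mul_sup, Submodule.sup_mul, Submodule.sup_mul]
    refine sup_le (sup_le (hjj.trans le_sup_left) (hcj.trans le_sup_left))
      (sup_le (hjc.trans le_sup_left) (hc.trans le_sup_right))
  · have ha : ∀ j : ℕ, ℭ ^ j * 𝔧 ≤ 𝔧 := by
      intro j
      induction j with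
      | zero => simp
      | succ j ih =>
        rw [pow_succ, mul_assoc]
        exact (mul_le_mul' le_rfl hcj).trans ih
    have hb : ∀ j : ℕ, (𝔧 ⊔ ℭ) ^ j ≤ 𝔧 ⊔ ℭ ^ j := by
      intro j
      induction j with
      | zero => simp
      | succ j ih =>
        rw [pow_succ]
        refine (mul_le_mul' ih le_rfl).trans ?_
        rw [Submodule.mul_sup, Submodule.sup_mul, Submodule.sup_mul, ← pow_succ]
        exact sup_le (sup_le (hjj.trans le_sup_left) ((ha j).trans le_sup_left))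
          (sup_le (hjc.trans le_sup_left) le_sup_right)
    have hbm : (𝔧 ⊔ ℭ) ^ m ≤ 𝔧 := by
      refine (hb m).trans ?_
      rw [hm]; simp
    have hcc : ∀ j : ℕ, 𝔧 ^ j ≤ 𝔢 ^ j ⊔ 𝔢 ^ j * ℭ := by
      intro j
      induction j with
      | zero => simp
      | succ j ih =>
        rw [pow_succ]
        refine (mul_le_mul' ih le_rfl).trans ?_
        rw [h𝔧, Submodule.mul_sup, Submodule.sup_mul, Submodule.sup_mul]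
        have t1 : 𝔢 ^ j * 𝔢 ≤ 𝔢 ^ (j + 1) ⊔ 𝔢 ^ (j + 1) * ℭ := by
          rw [← pow_succ]; exact le_sup_left
        have t2 : 𝔢 ^ j * ℭ * 𝔢 ≤ 𝔢 ^ (j + 1) ⊔ 𝔢 ^ (j + 1) * ℭ := by
          rw [mul_assoc]
          refine (mul_le_mul' le_rfl hce).trans ?_
          rw [Submodule.mul_sup, ← mul_assoc, ← pow_succ]
          exact sup_le le_sup_right le_sup_left
        have t3 : 𝔢 ^ j * (𝔢 * ℭ) ≤ 𝔢 ^ (j + 1) ⊔ 𝔢 ^ (j + 1) * ℭ := by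
          rw [← mul_assoc, ← pow_succ]; exact le_sup_right
        have t4 : 𝔢 ^ j * ℭ * (𝔢 * ℭ) ≤ 𝔢 ^ (j + 1) ⊔ 𝔢 ^ (j + 1) * ℭ := by
          rw [← mul_assoc]
          refine (mul_le_mul' t2 le_rfl).trans ?_
          rw [Submodule.sup_mul, mul_assoc]
          exact sup_le le_sup_right ((mul_le_mul' le_rfl hc).trans le_sup_right)
        exact sup_le (sup_le t1 t2) (sup_le t3 t4)
    refine ⟨m * n, ?_⟩
    rw [pow_mul]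
    refine le_bot_iff.mp ((pow_le_pow_left₀ bot_le hbm n).trans ?_)
    refine (hcc n).trans ?_
    rw [hn]; simp

/-- Conjugation formula. -/
theorem conj_sub_one (g h : Rˣ) :
    ((g * h * g⁻¹ : Rˣ) : R) - 1 = ((h : R) - 1) + ((g : R) - 1) * ((h : R) - 1) +
      ((h : R) - 1) * (((g⁻¹ : Rˣ) : R) - 1) +
      ((g : R) - 1) * ((h : R) - 1) * (((g⁻¹ : Rˣ) : R) - 1) := by
  have hgg : (g : R) * ((g⁻¹ : Rˣ) : R) = 1 := Units.mul_inv g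
  simp only [Units.val_mul]
  generalize (g : R) = a at hgg ⊢
  generalize ((g⁻¹ : Rˣ) : R) = b at hgg ⊢
  generalize (h : R) = c
  have e : (c - 1) + (a - 1) * (c - 1) + (c - 1) * (b - 1) + (a - 1) * (c - 1) * (b - 1) =
      a * c * b - a * b := by noncomm_ring
  rw [e, hgg]

theorem conj_sub_one' (g h : Rˣ) :
    ((g * h * g⁻¹ : Rˣ) : R) - 1 = (g : R) * ((h : R) - 1) * ((g⁻¹ : Rˣ) : R) := by
  have hgg : (g : R) * ((g⁻¹ : Rˣ) : R) = 1 := Units.mul_inv g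
  simp only [Units.val_mul]
  rw [mul_sub, sub_mul, mul_one, hgg]

/-- In a nil-algebra `𝔭` generated by members of `W` and a proper `W`-generated subalgebra `𝔢`,
some member of `W` inside `𝔭` but not inside `𝔢` normalises `𝔢`. -/
theorem exists_normalizing {W : Set (Subgroup Rˣ)}
    (hconj : ∀ A ∈ W, ∀ B ∈ W, ∀ g ∈ B, A.map (MulAut.conj g).toMonoidHom ∈ W)
    {𝔭 𝔢 : Submodule k R} (hp : 𝔭 * 𝔭 ≤ 𝔭) (hpn : IsNil 𝔭) (he : 𝔢 * 𝔢 ≤ 𝔢) (hep : 𝔢 ≤ 𝔭)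
    (h𝔢 : aug (sSup {B ∈ W | aug B ≤ 𝔢}) = 𝔢)
    (hne : ∃ X ∈ W, aug X ≤ 𝔭 ∧ ¬ aug X ≤ 𝔢) :
    ∃ X ∈ W, aug X ≤ 𝔭 ∧ ¬ aug X ≤ 𝔢 ∧
      ∀ g ∈ X, ∀ e ∈ 𝔢, (g : R) * e * ((g⁻¹ : Rˣ) : R) ∈ 𝔢 := by
  classical
  obtain ⟨n, hn⟩ := hpn
  let P : ℕ → Prop := fun i => 1 ≤ i ∧ ∃ X ∈ W, aug X ≤ 𝔭 ∧ ¬ aug X ≤ 𝔢 ∧ aug X ≤ 𝔢 ⊔ 𝔭 ^ i
  have hP1 : P 1 := by
    obtain ⟨X, hXW, hXp, hXe⟩ := hne
    exact ⟨le_rfl, X, hXW, hXp, hXe, by rw [pow_one]; exact hXp.trans le_sup_right⟩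
  have hPlt : ∀ i, P i → i < n := by
    rintro i ⟨-, X, -, -, hXe, hXi⟩
    by_contra hni
    push Not at hni
    rw [pow_eq_bot_of_le hn hni, sup_bot_eq] at hXi
    exact hXe hXi
  have h1n : 1 ≤ n := (hPlt 1 hP1).le
  have hspec : P (Nat.findGreatest P n) := Nat.findGreatest_spec h1n hP1
  have hgreat : ¬ P (Nat.findGreatest P n + 1) := by
    intro hcon
    have h1 := hPlt _ hcon
    exact Nat.findGreatest_is_greatest (Nat.lt_succ_self _) h1.le hcon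
  obtain ⟨i₀, hi₀⟩ : ∃ i₀, i₀ = Nat.findGreatest P n := ⟨_, rfl⟩
  rw [← hi₀] at hspec hgreat
  obtain ⟨hi1, X, hXW, hXp, hXe, hXi⟩ := hspec
  obtain ⟨j, rfl⟩ : ∃ j, i₀ = j + 1 := ⟨i₀ - 1, by omega⟩
  -- the key stability statement
  have hstab : ∀ g ∈ X, ∀ B ∈ W, aug B ≤ 𝔢 → aug (B.map (MulAut.conj g).toMonoidHom) ≤ 𝔢 := by
    intro g hg B hBW hBe
    have hB'W := hconj B hBW X hXW g hg
    have hgX : ((g : R) - 1) ∈ 𝔢 ⊔ 𝔭 ^ (j + 1) := hXi (sub_one_mem_aug hg)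
    have hgX' : (((g⁻¹ : Rˣ) : R) - 1) ∈ 𝔢 ⊔ 𝔭 ^ (j + 1) := hXi (sub_one_mem_aug (X.inv_mem hg))
    have f1 : (𝔢 ⊔ 𝔭 ^ (j + 1)) * 𝔢 ≤ 𝔢 ⊔ 𝔭 ^ (j + 1 + 1) := by
      rw [Submodule.sup_mul]
      refine sup_le (he.trans le_sup_left) ?_
      rw [pow_succ 𝔭 (j + 1)]
      exact (mul_le_mul' le_rfl hep).trans le_sup_right
    have f2 : 𝔢 * (𝔢 ⊔ 𝔭 ^ (j + 1)) ≤ 𝔢 ⊔ 𝔭 ^ (j + 1 + 1) := by
      rw [Submodule.mul_sup]
      refine sup_le (he.trans le_sup_left) ?_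
      rw [pow_succ' 𝔭 (j + 1)]
      exact (mul_le_mul' hep le_rfl).trans le_sup_right
    have f3 : (𝔢 ⊔ 𝔭 ^ (j + 1 + 1)) * (𝔢 ⊔ 𝔭 ^ (j + 1)) ≤ 𝔢 ⊔ 𝔭 ^ (j + 1 + 1) := by
      rw [Submodule.sup_mul]
      refine sup_le f2 ?_
      rw [Submodule.mul_sup]
      refine sup_le ?_ ((pow_succ_mul_pow_le hp (j + 1) (j + 1)).trans le_sup_right)
      exact ((mul_le_mul' le_rfl hep).trans (pow_succ_mul_le hp (j + 1))).trans le_sup_right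
    have key : aug (B.map (MulAut.conj g).toMonoidHom) ≤ 𝔢 ⊔ 𝔭 ^ (j + 1 + 1) := by
      rw [aug_le_iff]
      intro h' hh'
      obtain ⟨h, hh, rfl⟩ := Subgroup.mem_map.mp hh'
      have hf : (h : R) - 1 ∈ 𝔢 := hBe (sub_one_mem_aug hh)
      have : (MulAut.conj g).toMonoidHom h = g * h * g⁻¹ := by simp
      rw [this, conj_sub_one]
      refine add_mem (add_mem (add_mem (le_sup_left (a := 𝔢) hf) ?_) ?_) ?_
      · exact f1 (Submodule.mul_mem_mul hgX hf)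
      · exact f2 (Submodule.mul_mem_mul hf hgX')
      · exact f3 (Submodule.mul_mem_mul (f1 (Submodule.mul_mem_mul hgX hf)) hgX')
    by_contra hcon
    refine hgreat ⟨by omega, _, hB'W, key.trans ?_, hcon, key⟩
    exact sup_le hep (pow_succ_le_self hp (j + 1))
  refine ⟨X, hXW, hXp, hXe, ?_⟩
  intro g hg e hee
  rw [← h𝔢] at hee
  have hmem : ∀ h ∈ sSup {B ∈ W | aug B ≤ 𝔢}, ((g * h * g⁻¹ : Rˣ) : R) - 1 ∈ 𝔢 := by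
    intro h hh
    rw [sSup_eq_iSup'] at hh
    refine Subgroup.iSup_induction (fun B : {B ∈ W | aug B ≤ 𝔢} => (B : Subgroup Rˣ))
      (C := fun h => ((g * h * g⁻¹ : Rˣ) : R) - 1 ∈ 𝔢) hh ?_ ?_ ?_
    · intro B x hx
      have h1 := hstab g hg B.1 B.2.1 B.2.2
      rw [aug_le_iff] at h1
      have h2 := h1 (g * x * g⁻¹) (Subgroup.mem_map.mpr ⟨x, hx, by simp⟩)
      exact h2
    · simp
    · intro x y hx hy
      have : g * (x * y) * g⁻¹ = (g * x * g⁻¹) * (g * y * g⁻¹) := by group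
      rw [this]
      exact mul_sub_one_mem he hx hy
  induction hee using Submodule.span_induction with
  | mem x hx =>
    obtain ⟨h, hh, rfl⟩ := hx
    have := hmem h hh
    rwa [conj_sub_one'] at this
  | zero => simp
  | add x y _ _ hx hy => rw [mul_add, add_mul]; exact add_mem hx hy
  | smul c x _ hx => rw [mul_smul_comm, smul_mul_assoc]; exact Submodule.smul_mem _ c hx

/-- **Baer–Suzuki for unipotent subgroups** (algebra form): if `W` is a set of subgroups of the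
unit group of a finite-dimensional algebra, stable under conjugation by elements of its members,
and any two members generate a subgroup with nilpotent augmentation span, then so does the join of
all members. -/
theorem nil_sSup [Module.Finite k R] (W : Set (Subgroup Rˣ))
    (hWW : ∀ A ∈ W, ∀ B ∈ W, IsNil (aug (k := k) (A ⊔ B)))
    (hconj : ∀ A ∈ W, ∀ B ∈ W, ∀ g ∈ B, A.map (MulAut.conj g).toMonoidHom ∈ W) :
    IsNil (aug (k := k) (sSup W)) := by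
  classical
  let 𝒩 : Set (Submodule k R) :=
    {𝔟 | IsNil 𝔟 ∧ ∃ Δ : Set (Subgroup Rˣ), Δ ⊆ W ∧ 𝔟 = aug (sSup Δ)}
  have N1 : ∀ 𝔟 ∈ 𝒩, 𝔟 * 𝔟 ≤ 𝔟 := by
    rintro 𝔟 ⟨-, Δ, -, rfl⟩; exact aug_mul_le _
  have N2 : ∀ 𝔟 ∈ 𝒩, aug (sSup {B ∈ W | aug B ≤ 𝔟}) = 𝔟 := by
    intro 𝔟 h𝔟
    refine le_antisymm (aug_sSup_le (N1 𝔟 h𝔟) fun B hB => hB.2) ?_
    obtain ⟨-, Δ, hΔ, rfl⟩ := h𝔟
    exact aug_mono (sSup_le_sSup fun B hB => ⟨hΔ hB, aug_mono (le_sSup hB)⟩)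
  have N3 : ∀ 𝔟 ∈ 𝒩, ∃ 𝔭 ∈ 𝒩, 𝔟 ≤ 𝔭 ∧ ∀ 𝔠 ∈ 𝒩, 𝔭 ≤ 𝔠 → 𝔠 = 𝔭 := by
    intro 𝔟 h𝔟
    obtain ⟨𝔭, ⟨h𝔭N, h𝔟𝔭⟩, hmax⟩ := (wellFounded_gt (α := Submodule k R)).has_min
      {𝔠 | 𝔠 ∈ 𝒩 ∧ 𝔟 ≤ 𝔠} ⟨𝔟, h𝔟, le_rfl⟩
    refine ⟨𝔭, h𝔭N, h𝔟𝔭, fun 𝔠 h𝔠 h𝔭𝔠 => ?_⟩
    by_contra hne
    exact hmax 𝔠 ⟨h𝔠, h𝔟𝔭.trans h𝔭𝔠⟩ (lt_of_le_of_ne h𝔭𝔠 (Ne.symm hne))
  have N4 : ∀ (Δ : Set (Subgroup Rˣ)) (𝔡 : Submodule k R), Δ ⊆ W → 𝔡 * 𝔡 ≤ 𝔡 → IsNil 𝔡 →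
      (∀ B ∈ Δ, aug B ≤ 𝔡) → aug (sSup Δ) ∈ 𝒩 := by
    intro Δ 𝔡 hΔ hd hdn hB
    exact ⟨IsNil.mono (aug_sSup_le hd hB) hdn, Δ, hΔ, rfl⟩
  -- uniqueness of the maximal element
  have U : ∀ 𝔭 𝔮, 𝔭 ∈ 𝒩 → (∀ 𝔠 ∈ 𝒩, 𝔭 ≤ 𝔠 → 𝔠 = 𝔭) → 𝔮 ∈ 𝒩 → (∀ 𝔠 ∈ 𝒩, 𝔮 ≤ 𝔠 → 𝔠 = 𝔮) →
      𝔭 = 𝔮 := by
    by_contra hU
    push Not at hU
    let 𝒯 : Set (Submodule k R) := {𝔢 | ∃ 𝔭 𝔮, 𝔭 ∈ 𝒩 ∧ (∀ 𝔠 ∈ 𝒩, 𝔭 ≤ 𝔠 → 𝔠 = 𝔭) ∧ 𝔮 ∈ 𝒩 ∧
      (∀ 𝔠 ∈ 𝒩, 𝔮 ≤ 𝔠 → 𝔠 = 𝔮) ∧ 𝔭 ≠ 𝔮 ∧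
      𝔢 = aug (sSup ({B ∈ W | aug B ≤ 𝔭} ∩ {B ∈ W | aug B ≤ 𝔮}))}
    have hT : 𝒯.Nonempty := by
      obtain ⟨𝔭, 𝔮, h1, h2, h3, h4, h5⟩ := hU
      exact ⟨_, 𝔭, 𝔮, h1, h2, h3, h4, h5, rfl⟩
    obtain ⟨𝔢, ⟨𝔭, 𝔮, hpN, hpmax, hqN, hqmax, hpq, h𝔢def⟩, h𝔢max⟩ :=
      (wellFounded_gt (α := Submodule k R)).has_min 𝒯 hT
    have hep : 𝔢 ≤ 𝔭 := h𝔢def ▸ aug_sSup_le (N1 𝔭 hpN) (fun B hB => hB.1.2)
    have heq : 𝔢 ≤ 𝔮 := h𝔢def ▸ aug_sSup_le (N1 𝔮 hqN) (fun B hB => hB.2.2)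
    have heN : 𝔢 ∈ 𝒩 := ⟨IsNil.mono hep hpN.1, _, (fun B hB => hB.1.1), h𝔢def⟩
    have hnep : ∃ X ∈ W, aug X ≤ 𝔭 ∧ ¬ aug X ≤ 𝔢 := by
      by_contra hcon
      push Not at hcon
      have h1 : 𝔭 ≤ 𝔢 := by
        calc 𝔭 = aug (sSup {B ∈ W | aug B ≤ 𝔭}) := (N2 𝔭 hpN).symm
          _ ≤ 𝔢 := aug_sSup_le (N1 𝔢 heN) (fun B hB => hcon B hB.1 hB.2)
      exact hpq (hpmax 𝔮 hqN (h1.trans heq)).symm
    have hneq : ∃ Y ∈ W, aug Y ≤ 𝔮 ∧ ¬ aug Y ≤ 𝔢 := by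
      by_contra hcon
      push Not at hcon
      have h1 : 𝔮 ≤ 𝔢 := by
        calc 𝔮 = aug (sSup {B ∈ W | aug B ≤ 𝔮}) := (N2 𝔮 hqN).symm
          _ ≤ 𝔢 := aug_sSup_le (N1 𝔢 heN) (fun B hB => hcon B hB.1 hB.2)
      exact hpq (hqmax 𝔭 hpN (h1.trans hep))
    obtain ⟨X, hXW, hXp, hXe, hXn⟩ :=
      exists_normalizing hconj (N1 𝔭 hpN) hpN.1 (N1 𝔢 heN) hep (N2 𝔢 heN) hnep
    obtain ⟨Y, hYW, hYq, hYe, hYn⟩ :=
      exists_normalizing hconj (N1 𝔮 hqN) hqN.1 (N1 𝔢 heN) heq (N2 𝔢 heN) hneq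
    have hZn : ∀ g ∈ X ⊔ Y, ∀ e ∈ 𝔢, (g : R) * e * ((g⁻¹ : Rˣ) : R) ∈ 𝔢 := by
      intro g hg
      rw [sup_eq_iSup] at hg
      refine Subgroup.iSup_induction (fun b : Bool => bif b then X else Y)
        (C := fun g => ∀ e ∈ 𝔢, (g : R) * e * ((g⁻¹ : Rˣ) : R) ∈ 𝔢) hg ?_ ?_ ?_
      · rintro (_ | _) x hx
        · exact hYn x hx
        · exact hXn x hx
      · intro e he; simpa using he
      · intro x y hx hy e he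
        have := hx _ (hy e he)
        simpa [mul_assoc] using this
    have hce : aug (X ⊔ Y) * 𝔢 ≤ 𝔢 * aug (X ⊔ Y) ⊔ 𝔢 := by
      rw [Submodule.mul_le]
      intro c hc e he
      induction hc using Submodule.span_induction with
      | mem x hx =>
        obtain ⟨g, hg, rfl⟩ := hx
        have he' := hZn g hg e he
        have hgg : ((g⁻¹ : Rˣ) : R) * (g : R) = 1 := Units.inv_mul g
        have e1 : ((g : R) - 1) * e = ((g : R) * e * ((g⁻¹ : Rˣ) : R)) * ((g : R) - 1) +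
            ((g : R) * e * ((g⁻¹ : Rˣ) : R) - e) := by
          rw [mul_sub, mul_assoc _ _ (g : R), hgg]; noncomm_ring
        rw [e1]
        exact add_mem (Submodule.mem_sup_left
          (Submodule.mul_mem_mul he' (sub_one_mem_aug hg)))
          (Submodule.mem_sup_right (sub_mem he' he))
      | zero => simp
      | add x y _ _ hx hy => rw [add_mul]; exact add_mem hx hy
      | smul c x _ hx => rw [smul_mul_assoc]; exact Submodule.smul_mem _ c hx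
    obtain ⟨𝔡, hdd, hdn, hed, hcd⟩ :=
      nil_extend (N1 𝔢 heN) (aug_mul_le (X ⊔ Y)) hce heN.1 (hWW X hXW Y hYW)
    obtain ⟨Δ', hΔ'⟩ : ∃ Δ' : Set (Subgroup Rˣ), Δ' = {B ∈ W | aug B ≤ 𝔢} ∪ {X, Y} := ⟨_, rfl⟩
    have hΔ'W : Δ' ⊆ W := by
      rw [hΔ']
      rintro B (hB | hB | hB)
      · exact hB.1
      · exact hB ▸ hXW
      · rw [Set.mem_singleton_iff] at hB; exact hB ▸ hYW
    have hΔ'd : ∀ B ∈ Δ', aug B ≤ 𝔡 := by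
      rw [hΔ']
      rintro B (hB | hB | hB)
      · exact hB.2.trans hed
      · rw [hB]; exact (aug_mono le_sup_left).trans hcd
      · rw [Set.mem_singleton_iff] at hB
        rw [hB]; exact (aug_mono le_sup_right).trans hcd
    have hb'N := N4 Δ' 𝔡 hΔ'W hdd hdn hΔ'd
    obtain ⟨𝔯, hrN, hbr, hrmax⟩ := N3 _ hb'N
    have hXr : aug X ≤ 𝔯 :=
      (aug_mono (le_sSup (hΔ' ▸ Or.inr (Or.inl rfl)))).trans hbr
    have hYr : aug Y ≤ 𝔯 :=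
      (aug_mono (le_sSup (hΔ' ▸ Or.inr (Or.inr rfl)))).trans hbr
    have her : ∀ B ∈ W, aug B ≤ 𝔢 → aug B ≤ 𝔯 := fun B hBW hBe =>
      (aug_mono (le_sSup (hΔ' ▸ Or.inl ⟨hBW, hBe⟩))).trans hbr
    have hrp : 𝔯 = 𝔭 := by
      by_contra hne
      have hT' : aug (sSup ({B ∈ W | aug B ≤ 𝔯} ∩ {B ∈ W | aug B ≤ 𝔭})) ∈ 𝒯 :=
        ⟨𝔯, 𝔭, hrN, hrmax, hpN, hpmax, hne, rfl⟩
      apply h𝔢max _ hT'
      refine lt_of_le_of_ne ?_ ?_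
      · calc 𝔢 = aug (sSup {B ∈ W | aug B ≤ 𝔢}) := (N2 𝔢 heN).symm
          _ ≤ aug (sSup ({B ∈ W | aug B ≤ 𝔯} ∩ {B ∈ W | aug B ≤ 𝔭})) :=
            aug_mono (sSup_le_sSup fun B hB =>
              ⟨⟨hB.1, her B hB.1 hB.2⟩, ⟨hB.1, hB.2.trans hep⟩⟩)
      · intro heq'
        apply hXe
        rw [heq']
        exact aug_mono (le_sSup ⟨⟨hXW, hXr⟩, ⟨hXW, hXp⟩⟩)
    have hrq : 𝔯 = 𝔮 := by
      by_contra hne
      have hT' : aug (sSup ({B ∈ W | aug B ≤ 𝔯} ∩ {B ∈ W | aug B ≤ 𝔮})) ∈ 𝒯 :=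
        ⟨𝔯, 𝔮, hrN, hrmax, hqN, hqmax, hne, rfl⟩
      apply h𝔢max _ hT'
      refine lt_of_le_of_ne ?_ ?_
      · calc 𝔢 = aug (sSup {B ∈ W | aug B ≤ 𝔢}) := (N2 𝔢 heN).symm
          _ ≤ aug (sSup ({B ∈ W | aug B ≤ 𝔯} ∩ {B ∈ W | aug B ≤ 𝔮})) :=
            aug_mono (sSup_le_sSup fun B hB =>
              ⟨⟨hB.1, her B hB.1 hB.2⟩, ⟨hB.1, hB.2.trans heq⟩⟩)
      · intro heq'
        apply hYe
        rw [heq']
        exact aug_mono (le_sSup ⟨⟨hYW, hYr⟩, ⟨hYW, hYq⟩⟩)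
    exact hpq (hrp.symm.trans hrq)
  -- conclusion
  have hbot : (⊥ : Submodule k R) ∈ 𝒩 :=
    ⟨⟨1, by simp⟩, ∅, Set.empty_subset _, by simp [aug]⟩
  obtain ⟨𝔭, hpN, -, hpmax⟩ := N3 ⊥ hbot
  refine IsNil.mono (aug_sSup_le (N1 𝔭 hpN) ?_) hpN.1
  intro B hB
  have hBN : aug B ∈ 𝒩 :=
    ⟨by simpa using hWW B hB B hB, {B}, by simpa using hB, by simp⟩
  obtain ⟨𝔯, hrN, hBr, hrmax⟩ := N3 _ hBN
  rw [← U 𝔯 𝔭 hrN hrmax hpN hpmax]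
  exact hBr

end Cfsg.Agent.Lib.Helper40.UBS
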